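import Mathlib
import Cfsg.Agent.Helper90.HTDefs
import Cfsg.Agent.Helper5.UnitSU

set_option autoImplicit false

/-!
# helper5: core of piece HGUORD of CALL S5953 (helper90)

An isometry of prime order `r ∤ q` of a Hermitian space isometric to the standard one of dimension `n`
gives an element of order `r` of `GU_n(q)`, so `r` divides one of the factors `q^j - (-1)^j`, `1 ≤ j ≤ n`.
-/

namespace Cfsg.Agent.Helper5.HT5953

open Module Polynomial Cfsg.Agent.Helper90.HT

theorem guord_toMatrix_mulVec {F : Type*} [Field F] {n : ℕ} (f : (Fin n → F) →ₗ[F] (Fin n → F))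
    (v : Fin n → F) : (LinearMap.toMatrix' f).mulVec v = f v := by
  rw [← Matrix.toLin'_apply, Matrix.toLin'_toMatrix']

theorem guord_mat_ext {F : Type*} [Field F] {n : ℕ} {M N : Matrix (Fin n) (Fin n) F}
    (H : ∀ v : Fin n → F, M.mulVec v = N.mulVec v) : M = N := by
  apply Matrix.toLin'.injective
  apply LinearMap.ext
  intro v
  rw [Matrix.toLin'_apply, Matrix.toLin'_apply]
  exact H v

theorem ht_guord_core {F : Type*} [Field F] {V : Type*} [AddCommGroup V] [Module F V]
    (h : V → V → F) [Fintype F] (q : ℕ) (hq : Fintype.card F = q ^ 2) (n : ℕ)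
    (Φ : V ≃ₗ[F] (Fin n → F)) (hΦ : ∀ u v, Cfsg.hermForm n F q (Φ u) (Φ v) = h u v)
    (T : Module.End F V) (hT : HPres h T) (r : ℕ) [Fact r.Prime] (hrq : ¬ r ∣ q)
    (hTr : T ^ r = 1) (hT1 : T ≠ 1) :
    ∃ j, 1 ≤ j ∧ j ≤ n ∧ r ∣ (if Even j then q ^ j - 1 else q ^ j + 1) := by
  classical
  have hrp : r.Prime := Fact.out
  have hr1 : r - 1 + 1 = r := Nat.sub_add_cancel hrp.one_le
  let M : Matrix (Fin n) (Fin n) F :=
    LinearMap.toMatrix' ((Φ : V →ₗ[F] (Fin n → F)) ∘ₗ T ∘ₗ (Φ.symm : (Fin n → F) →ₗ[F] V))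
  have hM : ∀ a, M.mulVec a = Φ (T (Φ.symm a)) := fun a => by
    show (LinearMap.toMatrix' _).mulVec a = _
    rw [guord_toMatrix_mulVec]
    rfl
  have hMk : ∀ (k : ℕ) a, (M ^ k).mulVec a = Φ ((T ^ k) (Φ.symm a)) := by
    intro k
    induction k with
    | zero =>
      intro a
      simp
    | succ k ih =>
      intro a
      rw [pow_succ, ← Matrix.mulVec_mulVec, hM, ih, LinearEquiv.symm_apply_apply, pow_succ]
      rfl
  have hMr : M ^ r = 1 := by
    apply guord_mat_ext
    intro a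
    rw [hMk, hTr, Matrix.one_mulVec]
    simp
  let gM : Matrix.GeneralLinearGroup (Fin n) F :=
    ⟨M, M ^ (r - 1), by rw [← pow_succ', hr1, hMr], by rw [← pow_succ, hr1, hMr]⟩
  have hgM : gM ∈ Cfsg.GU n F q := by
    rw [Cfsg.Agent.Helper5.mem_GU_iff]
    intro a b
    show Cfsg.hermForm n F q (M.mulVec a) (M.mulVec b) = _
    rw [hM, hM, hΦ, hT, ← hΦ, LinearEquiv.apply_symm_apply, LinearEquiv.apply_symm_apply]
  let g' : Cfsg.GU n F q := ⟨gM, hgM⟩
  have hg'r : g' ^ r = 1 := by
    apply Subtype.ext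
    apply Units.ext
    show M ^ r = 1
    exact hMr
  have hg'1 : g' ≠ 1 := by
    intro h1
    apply hT1
    have h2 : M = 1 := congrArg (fun g : Cfsg.GU n F q =>
      ((g : Matrix.GeneralLinearGroup (Fin n) F) : Matrix (Fin n) (Fin n) F)) h1
    apply LinearMap.ext
    intro x
    have h3 := hM (Φ x)
    rw [h2, Matrix.one_mulVec, LinearEquiv.symm_apply_apply] at h3
    have h4 := Φ.injective h3
    rw [← h4]
    rfl
  have hord : orderOf g' = r := orderOf_eq_prime hg'r hg'1
  have hdvd : r ∣ Nat.card (Cfsg.GU n F q) := by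
    rw [← hord]
    exact orderOf_dvd_natCard g'
  rw [Cfsg.Agent.Helper5.card_GU hq n] at hdvd
  rcases (Nat.Prime.dvd_mul hrp).mp hdvd with h1 | h1
  · exact absurd (hrp.dvd_of_dvd_pow h1) hrq
  · obtain ⟨i, hi, hri⟩ := (Prime.dvd_finsetProd_iff hrp.prime _).mp h1
    rw [Finset.mem_range] at hi
    refine ⟨i + 1, by omega, by omega, ?_⟩
    by_cases hie : Even i
    · rw [if_pos hie] at hri
      have h2 : ¬ Even (i + 1) := by rw [Nat.even_add_one]; exact not_not.mpr hie
      rw [if_neg h2]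
      exact hri
    · rw [if_neg hie] at hri
      have h2 : Even (i + 1) := by rw [Nat.even_add_one]; exact hie
      rw [if_pos h2]
      exact hri

end Cfsg.Agent.Helper5.HT5953
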