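import Mathlib
import Cfsg.Agent.Helper90.HTDefs
import Cfsg.Agent.Helper67.HermGS

set_option autoImplicit false

/-!
# helper5: piece HONB of CALL S5953 (helper90): a nondegenerate Hermitian space over a finite field is
isometric to the standard one
-/

namespace Cfsg.Agent.Helper5.HT5953

open Module Polynomial Cfsg.Agent.Helper90.HT

section geom

variable {F : Type*} [Field F] {V : Type*} [AddCommGroup V] [Module F V] [FiniteDimensional F V]
  (σ : F →+* F) (h : V → V → F)

/-- HONB: a nondegenerate Hermitian space over a finite field is isometric to the standard one. -/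
theorem ht_onb [Fintype F] (q : ℕ) (hq : Fintype.card F = q ^ 2) (hσ : ∀ a, σ a = a ^ q)
    (hh : IsHerm σ h) (hnd : ∀ v, (∀ w, h v w = 0) → v = 0) (n : ℕ) (hn : finrank F V = n) :
    ∃ Φ : V ≃ₗ[F] (Fin n → F), ∀ u v, Cfsg.hermForm n F q (Φ u) (Φ v) = h u v := by
  classical
  let b : Basis (Fin n) F V := Module.finBasisOfFinrankEq F V hn
  let A : Matrix (Fin n) (Fin n) F := Matrix.of fun i j => h (b i) (b j)
  have hA : A.transpose = A.map σ := by
    ext i j
    simp only [A, Matrix.transpose_apply, Matrix.map_apply, Matrix.of_apply]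
    exact hh.symm (b i) (b j)
  have hexp : ∀ (c d : Fin n → F), h (∑ i, c i • b i) (∑ j, d j • b j) =
      ∑ i, ∑ j, c i * A i j * σ (d j) := by
    intro c d
    rw [hh.sum_left]
    refine Finset.sum_congr rfl fun i _ => ?_
    rw [hh.smul_left, hh.sum_right, Finset.mul_sum]
    refine Finset.sum_congr rfl fun j _ => ?_
    rw [hh.smul_right]
    simp only [A, Matrix.of_apply]
    ring
  have hdet : A.det ≠ 0 := by
    intro h0
    obtain ⟨c, hc0, hc⟩ := Matrix.exists_vecMul_eq_zero_iff.mpr h0
    have hv : (∑ i, c i • b i) = 0 := by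
      apply hnd
      intro w
      have hw : w = ∑ j, (b.repr w j) • b j := (b.sum_repr w).symm
      rw [hw, hexp, Finset.sum_comm]
      refine Finset.sum_eq_zero fun j _ => ?_
      rw [← Finset.sum_mul]
      have h3 := congrFun hc j
      simp only [Matrix.vecMul, dotProduct, Pi.zero_apply] at h3
      rw [h3, zero_mul]
    apply hc0
    have h4 := Fintype.linearIndependent_iff.mp b.linearIndependent c hv
    funext i
    exact h4 i
  let σ' : F ≃+* F := RingEquiv.ofBijective σ (Function.Involutive.bijective hh.invol)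
  have hσ' : ∀ x, σ' x = x ^ q := fun x => hσ x
  have hA' : A.transpose = A.map σ' := hA
  obtain ⟨U, -, hU⟩ := Cfsg.Agent.Helper67.herm_gram_schmidt q hq σ' hσ' n A hA' hdet
  have hUe : ∀ i j, ∑ l, ∑ m, U l i * A l m * σ (U m j) = if i = j then 1 else 0 := by
    intro i j
    have h3 := congrFun (congrFun hU i) j
    simp only [Matrix.mul_apply, Matrix.transpose_apply, Matrix.map_apply, Matrix.one_apply,
      Finset.sum_mul] at h3
    rw [Finset.sum_comm]
    exact h3
  let e : Fin n → V := fun j => ∑ l, U l j • b l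
  have he : ∀ i j, h (e i) (e j) = if i = j then 1 else 0 := by
    intro i j
    show h (∑ l, U l i • b l) (∑ l, U l j • b l) = _
    rw [hexp (fun l => U l i) (fun m => U m j)]
    exact hUe i j
  let Ψ : (Fin n → F) →ₗ[F] V :=
    { toFun := fun c => ∑ j, c j • e j
      map_add' := by
        intro c d
        simp [add_smul, Finset.sum_add_distrib]
      map_smul' := by
        intro t c
        simp [Finset.smul_sum, smul_smul] }
  have hΨ : ∀ c d, h (Ψ c) (Ψ d) = Cfsg.hermForm n F q c d := by
    intro c d
    show h (∑ i, c i • e i) (∑ j, d j • e j) = _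
    rw [hh.sum_left]
    unfold Cfsg.hermForm
    refine Finset.sum_congr rfl fun i _ => ?_
    rw [hh.smul_left, hh.sum_right, Finset.sum_eq_single i]
    · rw [hh.smul_right, he, if_pos rfl, mul_one, hσ]
    · intro j _ hji
      rw [hh.smul_right, he, if_neg (Ne.symm hji), mul_zero]
    · intro hi
      exact absurd (Finset.mem_univ i) hi
  have hinj : Function.Injective Ψ := by
    rw [injective_iff_map_eq_zero]
    intro c hc
    apply Cfsg.Agent.Helper90.HT.hermForm_nondeg hq n c
    intro w
    rw [← hΨ, hc, hh.zero_left]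
  have hdim : finrank F (Fin n → F) = finrank F V := by rw [Module.finrank_fin_fun, hn]
  let Ψe : (Fin n → F) ≃ₗ[F] V := LinearMap.linearEquivOfInjective Ψ hinj hdim
  have h1 : ∀ x, Ψ (Ψe.symm x) = x := fun x => Ψe.apply_symm_apply x
  refine ⟨Ψe.symm, fun u v => ?_⟩
  rw [← hΨ, h1, h1]

end geom

end Cfsg.Agent.Helper5.HT5953
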