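import Mathlib
import Cfsg.Agent.Helper90.HTDefs
import Cfsg.Agent.Helper5.HTGUORDCore
import Cfsg.Agent.Helper5.HTHONB

set_option autoImplicit false

/-!
# helper5: piece HGUORD of CALL S5953 (helper90): the order of an isometry
-/

namespace Cfsg.Agent.Helper5.HT5953

open Module Polynomial Cfsg.Agent.Helper90.HT

section geom2

variable {F : Type*} [Field F] {V : Type*} [AddCommGroup V] [Module F V] [FiniteDimensional F V]
  (σ : F →+* F) (h : V → V → F)

variable [Fintype F] (q : ℕ) (hq : Fintype.card F = q ^ 2) (hσ : ∀ a, σ a = a ^ q)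

include hq hσ

/-- HGUORD (uses HONB, Helper5.card_GU): the order of an isometry. -/
theorem ht_guord (hh : IsHerm σ h) (hnd : ∀ v, (∀ w, h v w = 0) → v = 0)
    (T : Module.End F V) (hT : HPres h T) (r : ℕ) [Fact r.Prime] (hrq : ¬ r ∣ q)
    (hTr : T ^ r = 1) (hT1 : T ≠ 1) :
    ∃ j, 1 ≤ j ∧ j ≤ finrank F V ∧ r ∣ (if Even j then q ^ j - 1 else q ^ j + 1) := by
  obtain ⟨Φ, hΦ⟩ := ht_onb σ h q hq hσ hh hnd (finrank F V) rfl
  exact ht_guord_core h q hq (finrank F V) Φ hΦ T hT r hrq hTr hT1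

end geom2

end Cfsg.Agent.Helper5.HT5953
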