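import Mathlib
import Cfsg.Agent.Helper5.OrthMinus

set_option autoImplicit false
set_option linter.unusedSimpArgs false
set_option linter.unusedSectionVars false

namespace Cfsg.Agent.Helper5

open Matrix

section minusSing
variable {F : Type*} [Field F] [Fintype F] {m : ℕ} (a b : F)
variable (hab : ∀ z₁ z₂ : F, z₁ ^ 2 + a * z₁ * z₂ + b * z₂ ^ 2 = 0 → z₁ = 0 ∧ z₂ = 0)

theorem minus_card_W :
    Nat.card ((minusSys a b m hab).W Finset.univ) = Fintype.card F ^ 2 := by
  rw [Nat.card_congr (minusWEquiv a b hab), Nat.card_prod, Nat.card_eq_fintype_card, pow_two]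

theorem minus_aniso (v : (Fin m ⊕ Fin m) ⊕ Fin 2 → F)
    (hv : v ∈ (minusSys a b m hab).W Finset.univ) (hQ : Cfsg.quadFormMinus m F a b v = 0) :
    v = 0 := by
  rw [minus_mem_W_univ] at hv
  rw [minus_Q_ker a b v hv] at hQ
  obtain ⟨h0, h1⟩ := hab _ _ hQ
  exact minus_ker_ext v 0 hv (fun _ => ⟨rfl, rfl⟩) h0 h1

include hab in
/-- The number of non-zero singular vectors of the minus type form. -/
theorem minus_card_singular (k : ℕ) :
    Nat.card {v : (Fin (k + 1) ⊕ Fin (k + 1)) ⊕ Fin 2 → F //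
      v ≠ 0 ∧ Cfsg.quadFormMinus (k + 1) F a b v = 0} =
      (Fintype.card F ^ (k + 1) - 1) * (Fintype.card F ^ (k + 2) + 1) := by
  have h1 := (minusSys a b (k + 1) hab).card_singSet ∅
  rw [(minusSys a b (k + 1) hab).card_Z 2 (minus_card_W a b hab) (minus_aniso a b hab) (k + 1) ∅
    (by simp), sF_succ _ _ _ Fintype.card_pos] at h1
  have h2 : (minusSys a b (k + 1) hab).singSet ∅ =
      {v | v ≠ 0 ∧ Cfsg.quadFormMinus (k + 1) F a b v = 0} := by
    ext v
    constructor
    · rintro ⟨-, h⟩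
      exact h
    · intro h
      exact ⟨fun i hi => absurd hi (Finset.notMem_empty i), h⟩
  rw [h2] at h1
  exact Nat.add_right_cancel h1

end minusSing

end Cfsg.Agent.Helper5
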