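import Mathlib
import Cfsg.Prelude.Def_GeometricClasses
import Cfsg.Prelude.Def_Classical
import Cfsg.Agent.Helper58.TSDefs
import Cfsg.Agent.Helper43.PrimeOrdO3
import Cfsg.Agent.Helper33.OType

/-!
Sub-CALL TB (helper43) of CALL TS, piece BLK (helper5): a block with prescribed multiplicities.
-/

set_option autoImplicit false

namespace Cfsg.Agent.Helper5.TB

open Module Polynomial Cfsg Cfsg.Geo Cfsg.Agent.Helper58.TS
open Cfsg.Agent.Helper43 Cfsg.Agent.Helper43.OrthEven Cfsg.Agent.Helper43.CycFactors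
  Cfsg.Agent.Helper43.PrimeOrdMat
open scoped MatrixGroups

universe u

variable {F : Type u} [Field F] [Fintype F]

/-- BLK [M]: a block with prescribed multiplicities. -/
theorem tb_blk (p : ℕ) [Fact p.Prime] [CharP F p] (r : ℕ) [Fact r.Prime] (hr2 : 2 < r)
    (hrp : r ≠ p) (c : F[X] → ℕ) (hsym : ∀ P ∈ cycJ F r, c (SpReal.star P) = c P) :
    ∃ (V : Type u) (_ : AddCommGroup V) (_ : Module F V) (_ : FiniteDimensional F V)
      (Q : QuadraticForm F V) (T : Module.End F V) (l : ℕ),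
      PolarNondeg Q ∧ (∀ v, Q (T v) = Q v) ∧ aeval T (cyclotomic r F) = 0 ∧
      T.charpoly = ∏ P ∈ cycJ F r, P ^ c P ∧
      finrank F V = orderOf ((Fintype.card F : ℕ) : ZMod r) * ∑ P ∈ cycJ F r, c P ∧
      finrank F V = 2 * l ∧
      (Odd (orderOf ((Fintype.card F : ℕ) : ZMod r)) → HasTS Q l) := by
  have hr : r.Prime := Fact.out
  obtain ⟨V, iA, iM, iF, Q, T, l, hnd, hiso, ⟨k, hkp, hTk⟩, hch, hdim, hodd⟩ :=
    Cfsg.Agent.Helper43.PrimeOrdO.exists_space_psi0 (p := p) (F := F) rfl hr (by omega) hrp c hsym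
  refine ⟨V, iA, iM, iF, Q, T, l, hnd, hiso, ?_, ?_, ?_, hdim, hodd⟩
  · -- the minimal polynomial is squarefree and divides the cyclotomic polynomial
    have hkF : (k : F) ≠ 0 := by
      intro h0
      have hpk : p ∣ k := (CharP.cast_eq_zero_iff F p k).mp h0
      have h1 : p ∣ Nat.gcd k p := Nat.dvd_gcd hpk dvd_rfl
      rw [hkp] at h1
      exact (Fact.out : p.Prime).one_lt.ne' (Nat.dvd_one.mp h1)
    have hsep : (X ^ k - 1 : F[X]).Separable := (X_pow_sub_one_separable_iff).mpr hkF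
    have hmin : minpoly F T ∣ (X ^ k - 1 : F[X]) := by
      apply minpoly.dvd
      simp only [map_sub, map_pow, aeval_X, map_one]
      rw [hTk, sub_self]
    have hsq : Squarefree (minpoly F T) := hsep.squarefree.squarefree_of_dvd hmin
    have hdvd : minpoly F T ∣ T.charpoly := LinearMap.minpoly_dvd_charpoly T
    have h1 : minpoly F T ∣ cyclotomic r F := by
      apply dvd_of_squarefree hsq (cyclotomic_ne_zero r F)
      intro Q' hQm hQi hQ
      have h2 : Q' ∣ psi r 0 c := hch ▸ hQ.trans hdvd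
      rw [psi, pow_zero, one_mul] at h2
      obtain ⟨P, hP, hQP⟩ := Prime.exists_mem_finset_dvd hQi.prime h2
      exact (hQi.prime.dvd_of_dvd_pow hQP).trans (mem_cycJ.mp hP).2.2
    obtain ⟨g, hg⟩ := h1
    rw [hg, map_mul, minpoly.aeval, zero_mul]
  · rw [hch, psi, pow_zero, one_mul]
  · have h1 := LinearMap.charpoly_natDegree T
    rw [hch, psi_natDegree (p := p) (F := F) rfl hr hrp 0 c, zero_add] at h1
    exact h1.symm

end Cfsg.Agent.Helper5.TB
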