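import Mathlib
import Cfsg.Agent.Helper90.HTDefs

set_option autoImplicit false

/-!
# helper5: piece BLK of CALL S5953 (helper90): block-diagonal embedding with its coordinates
-/

namespace Cfsg.Agent.Helper5.HT5953

open Module Polynomial Cfsg.Agent.Helper90.HT

section blocks

variable {F : Type*} [Field F] [Fintype F]

/-- BLK: block-diagonal embedding `diag(g 0, …, g (u-1), 1_e)` with its coordinates. -/
theorem ht_block (q c u e n : ℕ) (hdim : n = c * u + e) (g : Fin u → Matrix (Fin c) (Fin c) F) :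
    ∃ (M : Matrix (Fin n) (Fin n) F)
      (Φ : (Fin n → F) ≃ₗ[F] ((Fin u → (Fin c → F)) × (Fin e → F))),
      (∀ a b, Cfsg.hermForm n F q a b =
        ∑ j, Cfsg.hermForm c F q ((Φ a).1 j) ((Φ b).1 j) + Cfsg.hermForm e F q (Φ a).2 (Φ b).2) ∧
      (∀ a, Φ (M.mulVec a) = (fun j => (g j).mulVec ((Φ a).1 j), (Φ a).2)) ∧
      M.det = ∏ j, (g j).det := by
  classical
  subst hdim
  let ε : (Fin c × Fin u) ⊕ Fin e ≃ Fin (c * u + e) :=
    (Equiv.sumCongr finProdFinEquiv (Equiv.refl _)).trans finSumFinEquiv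
  let N : Matrix ((Fin c × Fin u) ⊕ Fin e) ((Fin c × Fin u) ⊕ Fin e) F :=
    Matrix.fromBlocks (Matrix.blockDiagonal g) 0 0 1
  let M : Matrix (Fin (c * u + e)) (Fin (c * u + e)) F := Matrix.reindex ε ε N
  let Φ : (Fin (c * u + e) → F) ≃ₗ[F] ((Fin u → (Fin c → F)) × (Fin e → F)) :=
    { toFun := fun a => (fun j k => a (ε (Sum.inl (k, j))), fun k => a (ε (Sum.inr k)))
      map_add' := fun a b => rfl
      map_smul' := fun t a => rfl
      invFun := fun p i => Sum.elim (fun x : Fin c × Fin u => p.1 x.2 x.1) p.2 (ε.symm i)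
      left_inv := by
        intro a
        funext i
        rcases h : ε.symm i with x | k
        · have hi : i = ε (Sum.inl x) := by rw [← h, Equiv.apply_symm_apply]
          simp [hi]
        · have hi : i = ε (Sum.inr k) := by rw [← h, Equiv.apply_symm_apply]
          simp [hi]
      right_inv := by
        intro p
        refine Prod.ext ?_ ?_
        · funext j k
          simp
        · funext k
          simp }
  have hΦ1 : ∀ a j k, (Φ a).1 j k = a (ε (Sum.inl (k, j))) := fun a j k => rfl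
  have hΦ2 : ∀ a k, (Φ a).2 k = a (ε (Sum.inr k)) := fun a k => rfl
  have hMv : ∀ a x, (M.mulVec a) (ε x) = (N.mulVec (a ∘ ε)) x := by
    intro a x
    show ((N.submatrix ε.symm ε.symm).mulVec a) (ε x) = _
    rw [Matrix.submatrix_mulVec_equiv]
    simp
  refine ⟨M, Φ, ?_, ?_, ?_⟩
  · intro a b
    unfold Cfsg.hermForm
    rw [← Equiv.sum_comp ε, Fintype.sum_sum_type, Fintype.sum_prod_type, Finset.sum_comm]
    simp only [hΦ1, hΦ2]
  · intro a
    refine Prod.ext ?_ ?_
    · funext j k
      show (M.mulVec a) (ε (Sum.inl (k, j))) = ((g j).mulVec ((Φ a).1 j)) k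
      rw [hMv]
      simp only [N, Matrix.fromBlocks_mulVec, Sum.elim_inl, Pi.add_apply, Matrix.zero_mulVec,
        Pi.zero_apply, add_zero]
      simp only [Matrix.mulVec, dotProduct, Fintype.sum_prod_type, Matrix.blockDiagonal_apply,
        Function.comp_apply, hΦ1]
      refine Finset.sum_congr rfl (fun k' _ => ?_)
      simp [ite_mul]
    · funext k
      show (M.mulVec a) (ε (Sum.inr k)) = (Φ a).2 k
      rw [hMv]
      simp only [N, Matrix.fromBlocks_mulVec, Sum.elim_inr, Pi.add_apply, Matrix.zero_mulVec,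
        Pi.zero_apply, zero_add, Matrix.one_mulVec, Function.comp_apply, hΦ2]
  · show (Matrix.reindex ε ε N).det = _
    rw [Matrix.det_reindex_self]
    show (Matrix.fromBlocks (Matrix.blockDiagonal g) 0 0 1).det = _
    rw [Matrix.det_fromBlocks_zero₂₁, Matrix.det_blockDiagonal, Matrix.det_one, mul_one]

end blocks

end Cfsg.Agent.Helper5.HT5953
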