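import Mathlib
import Cfsg.Agent.Helper90.HTDefs
import Cfsg.Agent.Helper5.UnitSU

set_option autoImplicit false

/-!
# helper5: piece CAUCHY of CALL S5953 (helper90): an element of order `r` in `SU_c(q)`
-/

namespace Cfsg.Agent.Helper5.HT5953

open Module Polynomial Cfsg.Agent.Helper90.HT

section blocks

variable {F : Type*} [Field F] [Fintype F]

/-- CAUCHY: an element of order `r` in `SU_c(q)`. -/
theorem ht_cauchy (q : ℕ) (hq : Fintype.card F = q ^ 2) (c : ℕ) (hc2 : 2 ≤ c) (r : ℕ)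
    [Fact r.Prime] (hr2 : 2 < r) (hrq : ¬ r ∣ q)
    (hcr : r ∣ (if Even c then q ^ c - 1 else q ^ c + 1)) (h1 : ¬ r ∣ q + 1) :
    ∃ g : Matrix.SpecialLinearGroup (Fin c) F, g ∈ Cfsg.SU c F q ∧ g ^ r = 1 ∧ g ≠ 1 := by
  classical
  have hrp : r.Prime := Fact.out
  obtain ⟨k, rfl⟩ : ∃ k, c = k + 1 := ⟨c - 1, by omega⟩
  have hdvd : r ∣ Nat.card (Cfsg.GU (k + 1) F q) := by
    rw [Cfsg.Agent.Helper5.card_GU hq (k + 1)]
    apply Dvd.dvd.mul_left
    have hmem : k ∈ Finset.range (k + 1) := Finset.mem_range.mpr (Nat.lt_succ_self k)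
    refine dvd_trans ?_ (Finset.dvd_prod_of_mem
      (fun i => if Even i then q ^ (i + 1) + 1 else q ^ (i + 1) - 1) hmem)
    by_cases hk : Even k
    · have hk1 : ¬ Even (k + 1) := by rw [Nat.even_add_one]; exact not_not.mpr hk
      rw [if_neg hk1] at hcr
      show r ∣ (if Even k then q ^ (k + 1) + 1 else q ^ (k + 1) - 1)
      rw [if_pos hk]
      exact hcr
    · have hk1 : Even (k + 1) := by rw [Nat.even_add_one]; exact hk
      rw [if_pos hk1] at hcr
      show r ∣ (if Even k then q ^ (k + 1) + 1 else q ^ (k + 1) - 1)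
      rw [if_neg hk]
      exact hcr
  obtain ⟨g', hg'⟩ := exists_prime_orderOf_dvd_card' r hdvd
  have hdet1 : Cfsg.Agent.Helper5.detGU F q (k + 1) g' ^ (q + 1) = 1 := by
    apply Units.ext
    rw [Units.val_pow_eq_pow_val, Cfsg.Agent.Helper5.detGU_coe,
      Cfsg.Agent.Helper5.det_pow_of_mem_GU hq g'.1 g'.2, Units.val_one]
  have hdet2 : Cfsg.Agent.Helper5.detGU F q (k + 1) g' ^ r = 1 := by
    rw [← map_pow, ← hg', pow_orderOf_eq_one, map_one]
  have hcop : Nat.gcd (q + 1) r = 1 := by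
    rw [Nat.gcd_comm]
    exact (Nat.Prime.coprime_iff_not_dvd hrp).mpr h1
  have hdet : Cfsg.Agent.Helper5.detGU F q (k + 1) g' = 1 := by
    have h3 := pow_gcd_eq_one.mpr ⟨hdet1, hdet2⟩
    rw [hcop, pow_one] at h3
    exact h3
  have hmem : g' ∈ (Cfsg.Agent.Helper5.suToGU F q (k + 1)).range := by
    rw [Cfsg.Agent.Helper5.range_suToGU]
    exact hdet
  obtain ⟨s, hs⟩ := hmem
  refine ⟨s.1, s.2, ?_, ?_⟩
  · have h3 : s ^ r = 1 := by
      apply Cfsg.Agent.Helper5.suToGU_injective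
      rw [map_pow, hs, map_one, ← hg', pow_orderOf_eq_one]
    exact congrArg Subtype.val h3
  · intro h3
    have h4 : s = 1 := Subtype.ext h3
    rw [h4, map_one] at hs
    rw [← hs, orderOf_one] at hg'
    have := hrp.two_le
    omega

end blocks

end Cfsg.Agent.Helper5.HT5953
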