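import Mathlib
import Cfsg.Agent.Helper5.OPlus4
import Cfsg.Agent.Helper5.OmegaIso2
import Cfsg.Agent.Helper5.SLCard
import Cfsg.Agent.Helper5.Klein
import Cfsg.Agent.Helper5.SLGen

set_option autoImplicit false
set_option linter.unusedSimpArgs false
set_option linter.unusedSectionVars false

namespace Cfsg.Agent.Helper5

open Matrix
open scoped commutatorElement

section oplus4b
variable {F : Type*} [Field F]

/-- Conjugation-type maps `X ↦ d X d'`. -/
def m2Cj (d d' : Matrix (Fin 2) (Fin 2) F) : Module.End F (Fin 2 ⊕ Fin 2 → F) where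
  toFun v := m2K F (d * m2C F v * d')
  map_add' u v := by rw [map_add, mul_add, add_mul, map_add]
  map_smul' c v := by
    rw [map_smul, Matrix.mul_smul, Matrix.smul_mul, map_smul]
    rfl

theorem m2Cj_apply (d d' : Matrix (Fin 2) (Fin 2) F) (v : Fin 2 ⊕ Fin 2 → F) :
    m2Cj d d' v = m2K F (d * m2C F v * d') := rfl

theorem m2Cj_mul (d d' : Matrix (Fin 2) (Fin 2) F) (h : d * d' = 1) :
    m2Cj d d' * m2Cj d' d = 1 := by
  have h' : d' * d = 1 := mul_eq_one_comm.1 h
  apply LinearMap.ext
  intro v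
  rw [Module.End.mul_apply, m2Cj_apply, m2Cj_apply, m2C_K]
  have : d * (d' * m2C F v * d) * d' = m2C F v := by
    calc d * (d' * m2C F v * d) * d' = (d * d') * m2C F v * (d * d') := by
          simp only [mul_assoc]
      _ = m2C F v := by rw [h, one_mul, mul_one]
  rw [this, m2K_C]
  rfl

/-- The isometry `X ↦ d X d⁻¹`. -/
noncomputable def o4C (d d' : Matrix (Fin 2) (Fin 2) F) (h : d * d' = 1) :
    isoU F (Cfsg.quadFormPlus 2 F) :=
  ⟨⟨m2Cj d d', m2Cj d' d, m2Cj_mul d d' h, m2Cj_mul d' d (mul_eq_one_comm.1 h)⟩, fun v => by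
    change Cfsg.quadFormPlus 2 F (m2K F (d * m2C F v * d')) = _
    rw [m2_quad, Matrix.det_mul, Matrix.det_mul, mul_right_comm, ← Matrix.det_mul, h, Matrix.det_one,
      one_mul, ← m2_quad, m2K_C]⟩

theorem o4C_conj (d d' : Matrix (Fin 2) (Fin 2) F) (h : d * d' = 1)
    (t t' : Matrix.SpecialLinearGroup (Fin 2) F)
    (ht : d * (t : Matrix (Fin 2) (Fin 2) F) = (t' : Matrix (Fin 2) (Fin 2) F) * d) :
    o4C d d' h * o4L F t = o4L F t' * o4C d d' h := by
  apply isoU_ext
  change m2Cj d d' * m2L (t : Matrix (Fin 2) (Fin 2) F) =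
    m2L (t' : Matrix (Fin 2) (Fin 2) F) * m2Cj d d'
  apply LinearMap.ext
  intro v
  rw [Module.End.mul_apply, Module.End.mul_apply, m2L_apply, m2L_apply, m2Cj_apply, m2Cj_apply,
    m2C_K, m2C_K, ← mul_assoc, ht]
  simp only [mul_assoc]

theorem o4L_mem_of_conj (d d' : Matrix (Fin 2) (Fin 2) F) (h : d * d' = 1)
    (t t' : Matrix.SpecialLinearGroup (Fin 2) F)
    (ht : d * (t : Matrix (Fin 2) (Fin 2) F) = (t' : Matrix (Fin 2) (Fin 2) F) * d) :
    o4L F (t' * t⁻¹) ∈ commutator (isoU F (Cfsg.quadFormPlus 2 F)) := by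
  have hconj := o4C_conj d d' h t t' ht
  have e : o4L F (t' * t⁻¹) = ⁅o4C d d' h, o4L F t⁆ := by
    rw [commutatorElement_def, hconj, map_mul, map_inv]
    group
  rw [e, commutator_def]
  exact Subgroup.commutator_mem_commutator (Subgroup.mem_top _) (Subgroup.mem_top _)

/-- Over a field with at least three elements, the left copy of `SL₂` lies in the commutator
subgroup. -/
theorem o4L_mem_commutator (hF : ∃ c : F, c ≠ 0 ∧ c ≠ 1)
    (a : Matrix.SpecialLinearGroup (Fin 2) F) :
    o4L F a ∈ commutator (isoU F (Cfsg.quadFormPlus 2 F)) := by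
  obtain ⟨c, hc0, hc1⟩ := hF
  have hc1' : c - 1 ≠ 0 := sub_ne_zero.2 hc1
  refine SL_transvection_induction
    (fun a => o4L F a ∈ commutator (isoU F (Cfsg.quadFormPlus 2 F))) ?_ ?_ a
  · intro i j hij b
    have key : ∀ (d d' : Matrix (Fin 2) (Fin 2) F), d * d' = 1 →
        d * (Matrix.SpecialLinearGroup.transvection hij (b / (c - 1)) :
            Matrix (Fin 2) (Fin 2) F) =
          (Matrix.SpecialLinearGroup.transvection hij (c * (b / (c - 1))) :
            Matrix (Fin 2) (Fin 2) F) * d →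
        o4L F (Matrix.SpecialLinearGroup.transvection hij b) ∈
          commutator (isoU F (Cfsg.quadFormPlus 2 F)) := by
      intro d d' h ht
      have := o4L_mem_of_conj d d' h _ _ ht
      rw [Matrix.SpecialLinearGroup.transvection_inv,
        ← Matrix.SpecialLinearGroup.transvection_add] at this
      have e : c * (b / (c - 1)) + -(b / (c - 1)) = b := by
        field_simp
        ring
      rw [e] at this
      exact this
    fin_cases i <;> fin_cases j
    · exact absurd rfl hij
    · apply key !![c, 0; 0, 1] !![c⁻¹, 0; 0, 1]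
      · ext k l
        fin_cases k <;> fin_cases l <;> simp [Matrix.mul_apply, Fin.sum_univ_two, hc0]
      · rw [Matrix.SpecialLinearGroup.transvection_coe, Matrix.SpecialLinearGroup.transvection_coe]
        ext k l
        fin_cases k <;> fin_cases l <;>
          simp [Matrix.mul_apply, Fin.sum_univ_two, Matrix.single_apply, Matrix.one_apply]
    · apply key !![1, 0; 0, c] !![1, 0; 0, c⁻¹]
      · ext k l
        fin_cases k <;> fin_cases l <;> simp [Matrix.mul_apply, Fin.sum_univ_two, hc0]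
      · rw [Matrix.SpecialLinearGroup.transvection_coe, Matrix.SpecialLinearGroup.transvection_coe]
        ext k l
        fin_cases k <;> fin_cases l <;>
          simp [Matrix.mul_apply, Fin.sum_univ_two, Matrix.single_apply, Matrix.one_apply]
    · exact absurd rfl hij
  · intro A B hA hB
    rw [map_mul]
    exact Subgroup.mul_mem _ hA hB

theorem o4T_mul_self : o4T F * o4T F = 1 := by
  apply isoU_ext
  exact m2T_sq

theorem o4T_inv : (o4T F)⁻¹ = o4T F := inv_eq_of_mul_eq_one_left o4T_mul_self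

theorem o4R_eq_conj (a : Matrix.SpecialLinearGroup (Fin 2) F) :
    o4R F a = o4T F * o4L F a * (o4T F)⁻¹ := by
  rw [o4_conj]
  group

theorem o4L_eq_conj (a : Matrix.SpecialLinearGroup (Fin 2) F) :
    o4L F a = o4T F * o4R F a * (o4T F)⁻¹ := by
  rw [o4R_eq_conj, o4T_inv]
  calc o4L F a = (o4T F * o4T F) * o4L F a * (o4T F * o4T F) := by
        rw [o4T_mul_self, one_mul, mul_one]
    _ = _ := by simp only [mul_assoc]

theorem o4R_mem_commutator (hF : ∃ c : F, c ≠ 0 ∧ c ≠ 1)
    (a : Matrix.SpecialLinearGroup (Fin 2) F) :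
    o4R F a ∈ commutator (isoU F (Cfsg.quadFormPlus 2 F)) := by
  rw [o4R_eq_conj]
  exact Subgroup.Normal.conj_mem inferInstance _ (o4L_mem_commutator hF a) _

/-- An explicit enumeration of the index type. -/
noncomputable def fin4Sum : Fin 4 ≃ Fin 2 ⊕ Fin 2 :=
  Equiv.ofBijective ![Sum.inl 0, Sum.inl 1, Sum.inr 0, Sum.inr 1] (by decide)

/-- The transposition has determinant `-1`. -/
theorem det_m2T : LinearMap.det (m2T F) = -1 := by
  rw [← LinearMap.det_toMatrix', ← Matrix.det_submatrix_equiv_self fin4Sum]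
  have : (LinearMap.toMatrix' (m2T F)).submatrix fin4Sum fin4Sum =
      !![1, 0, 0, 0; 0, 0, 0, -1; 0, 0, 1, 0; 0, -1, 0, 0] := by
    ext i j
    fin_cases i <;> fin_cases j <;>
      simp [LinearMap.toMatrix'_apply, m2T_apply, m2K, m2C, fin4Sum, Pi.single_apply]
  rw [this, det_fin_four']
  simp

end oplus4b

end Cfsg.Agent.Helper5
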