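import Mathlib
import Cfsg.Agent.Helper43.C3ODefs

/-!
# helper5: common lemmas for the pieces FRB, CONJFIN, RINV of CALL C3O (helper43)
-/

set_option autoImplicit false

namespace Cfsg.Agent.Helper5.C3OCore

open Matrix Module
open Cfsg.Agent.Helper43.C3O

universe u

variable {F : Type u} [Field F] {ι : Type} [Fintype ι] [DecidableEq ι]

theorem mat_ext {M N : Matrix ι ι F} (H : ∀ v : ι → F, M.mulVec v = N.mulVec v) : M = N := by
  apply Matrix.toLin'.injective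
  apply LinearMap.ext
  intro v
  rw [Matrix.toLin'_apply, Matrix.toLin'_apply]
  exact H v

theorem iso_ext {Q : (ι → F) → F} (g₁ g₂ : ↥(Cfsg.isometryGroup F Q))
    (H : ∀ v : ι → F, (gm g₁).mulVec v = (gm g₂).mulVec v) : g₁ = g₂ :=
  Subtype.ext (Units.ext (mat_ext H))

theorem iso_quad {Q : (ι → F) → F} (g : ↥(Cfsg.isometryGroup F Q)) (v : ι → F) :
    Q ((gm g).mulVec v) = Q v := g.2 v v

theorem toMatrix_mulVec (f : (ι → F) →ₗ[F] (ι → F)) (v : ι → F) :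
    (LinearMap.toMatrix' f).mulVec v = f v := by
  rw [← Matrix.toLin'_apply, Matrix.toLin'_toMatrix']

theorem iso_of_equiv (Q : (ι → F) → F) (h : (ι → F) ≃ₗ[F] (ι → F)) (hh : ∀ v, Q (h v) = Q v) :
    ∃ g : ↥(Cfsg.isometryGroup F Q), ∀ v, (gm g).mulVec v = h v := by
  have e1 : LinearMap.toMatrix' (h : (ι → F) →ₗ[F] (ι → F)) *
      LinearMap.toMatrix' (h.symm : (ι → F) →ₗ[F] (ι → F)) = 1 := by
    apply mat_ext
    intro v
    rw [← Matrix.mulVec_mulVec, toMatrix_mulVec, toMatrix_mulVec, Matrix.one_mulVec]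
    simp
  have e2 : LinearMap.toMatrix' (h.symm : (ι → F) →ₗ[F] (ι → F)) *
      LinearMap.toMatrix' (h : (ι → F) →ₗ[F] (ι → F)) = 1 := by
    apply mat_ext
    intro v
    rw [← Matrix.mulVec_mulVec, toMatrix_mulVec, toMatrix_mulVec, Matrix.one_mulVec]
    simp
  refine ⟨⟨⟨LinearMap.toMatrix' (h : (ι → F) →ₗ[F] (ι → F)),
    LinearMap.toMatrix' (h.symm : (ι → F) →ₗ[F] (ι → F)), e1, e2⟩, fun u _ => ?_⟩, fun v => ?_⟩
  · show Q ((LinearMap.toMatrix' (h : (ι → F) →ₗ[F] (ι → F))).mulVec u) = Q u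
    rw [toMatrix_mulVec]
    exact hh u
  · show (LinearMap.toMatrix' (h : (ι → F) →ₗ[F] (ι → F))).mulVec v = h v
    rw [toMatrix_mulVec]
    rfl

/-- In odd characteristic a linear map preserving the polar form preserves the quadratic form. -/
theorem quad_of_polar (h2 : (2 : F) ≠ 0) (Q : QuadraticForm F (ι → F)) (f : (ι → F) → (ι → F))
    (hf : ∀ x y, QuadraticMap.polar ⇑Q (f x) (f y) = QuadraticMap.polar ⇑Q x y) (x : ι → F) :
    Q (f x) = Q x := by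
  have h := hf x x
  rw [QuadraticMap.polar_self, QuadraticMap.polar_self] at h
  simp only [nsmul_eq_mul, Nat.cast_ofNat] at h
  exact mul_left_cancel₀ h2 h

theorem JJ (n : F) (J : Matrix ι ι F) (hJ : J * J = n • (1 : Matrix ι ι F)) (x : ι → F) :
    J.mulVec (J.mulVec x) = n • x := by
  rw [Matrix.mulVec_mulVec, hJ, Matrix.smul_mulVec, Matrix.one_mulVec]

theorem polar_JJ (Q : QuadraticForm F (ι → F)) (n : F) (J : Matrix ι ι F) (hJ : IsJ Q n J)
    (x y : ι → F) :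
    QuadraticMap.polar ⇑Q (J.mulVec x) (J.mulVec y) = n * QuadraticMap.polar ⇑Q x y := by
  rw [hJ.2, JJ n J hJ.1, QuadraticMap.polar_smul_right, smul_eq_mul]

/-- The Gram values of a `J`-frame. -/
theorem frame_vals (Q : QuadraticForm F (ι → F)) (n : F) (J : Matrix ι ι F) (hJ : IsJ Q n J)
    (d : ℕ) (e : Fin (d + 1) → ι → F) (α β : F) (he : IsFrame Q J e α β) :
    (∀ i j, i ≠ j → QuadraticMap.polar ⇑Q (e i) (e j) = 0 ∧
      QuadraticMap.polar ⇑Q (J.mulVec (e i)) (e j) = 0 ∧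
      QuadraticMap.polar ⇑Q (e i) (J.mulVec (e j)) = 0 ∧
      QuadraticMap.polar ⇑Q (J.mulVec (e i)) (J.mulVec (e j)) = 0) ∧
    (∀ i, i ≠ Fin.last d → QuadraticMap.polar ⇑Q (e i) (e i) = 0 ∧
      QuadraticMap.polar ⇑Q (J.mulVec (e i)) (e i) = 1 ∧
      QuadraticMap.polar ⇑Q (e i) (J.mulVec (e i)) = 1 ∧
      QuadraticMap.polar ⇑Q (J.mulVec (e i)) (J.mulVec (e i)) = 0) ∧
    (QuadraticMap.polar ⇑Q (e (Fin.last d)) (e (Fin.last d)) = 2 * α ∧
      QuadraticMap.polar ⇑Q (J.mulVec (e (Fin.last d))) (e (Fin.last d)) = β ∧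
      QuadraticMap.polar ⇑Q (e (Fin.last d)) (J.mulVec (e (Fin.last d))) = β ∧
      QuadraticMap.polar ⇑Q (J.mulVec (e (Fin.last d))) (J.mulVec (e (Fin.last d))) =
        n * (2 * α)) := by
  obtain ⟨h1, h2, h3, h4⟩ := he
  have hself : ∀ x : ι → F, QuadraticMap.polar ⇑Q x x = 2 * Q x := by
    intro x
    rw [QuadraticMap.polar_self]
    simp only [nsmul_eq_mul, Nat.cast_ofNat]
  refine ⟨fun i j hij => ⟨(h1 i j hij).1, (h1 i j hij).2, ?_, ?_⟩,
    fun i hi => ⟨?_, (h2 i hi).2, ?_, ?_⟩, ?_, h4, ?_, ?_⟩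
  · rw [← hJ.2]; exact (h1 i j hij).2
  · rw [polar_JJ Q n J hJ, (h1 i j hij).1, mul_zero]
  · rw [hself, (h2 i hi).1, mul_zero]
  · rw [← hJ.2]; exact (h2 i hi).2
  · rw [polar_JJ Q n J hJ, hself, (h2 i hi).1, mul_zero, mul_zero]
  · rw [hself, h3]
  · rw [← hJ.2]; exact h4
  · rw [polar_JJ Q n J hJ, hself, h3]

end Cfsg.Agent.Helper5.C3OCore
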