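import Mathlib
import Cfsg.Agent.Helper43.C3ODefs
import Cfsg.Agent.Helper5.C3OCore

/-!
# helper5: piece FRB of CALL C3O (helper43): a `J`-frame gives a basis
-/

set_option autoImplicit false

namespace Cfsg.Agent.Helper5

open Matrix Module Polynomial
open Cfsg.Agent.Helper43.C3O

universe u

variable {F : Type u} [Field F] [Fintype F] {ι : Type} [Fintype ι] [DecidableEq ι]

/-- PIECE FRB -/
theorem c3o_frb (h2 : (2 : F) ≠ 0) (Q : QuadraticForm F (ι → F)) (n : F) (hn : ¬ IsSquare n)
    (J : Matrix ι ι F) (hJ : IsJ Q n J) (d : ℕ) (hcard : Fintype.card ι = 2 * (d + 1))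
    (e : Fin (d + 1) → ι → F) (α β : F) (he : IsFrame Q J e α β) (hαβ : ¬ (α = 0 ∧ β = 0)) :
    ∃ b : Module.Basis (Fin (d + 1) × Fin 2) F (ι → F),
      ∀ i, b (i, 0) = e i ∧ b (i, 1) = J.mulVec (e i) := by
  obtain ⟨hv1, hv2, hv3⟩ := C3OCore.frame_vals Q n J hJ d e α β he
  have hPa : ∀ x y, QuadraticMap.polarBilin Q x y = QuadraticMap.polar ⇑Q x y := fun x y => rfl
  let v : Fin (d + 1) × Fin 2 → (ι → F) := fun p => if p.2 = 0 then e p.1 else J.mulVec (e p.1)
  have hdet : β ^ 2 - 4 * n * α ^ 2 ≠ 0 := by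
    intro h0
    by_cases hα : α = 0
    · apply hαβ
      refine ⟨hα, ?_⟩
      have h3 : β ^ 2 = 0 := by rw [hα] at h0; linear_combination h0
      exact pow_eq_zero_iff (two_ne_zero) |>.mp h3
    · apply hn
      have h2α : 2 * α ≠ 0 := mul_ne_zero h2 hα
      refine ⟨β / (2 * α), ?_⟩
      rw [div_mul_div_comm, eq_div_iff (mul_ne_zero h2α h2α)]
      linear_combination -h0
  have hv0 : ∀ i, v (i, 0) = e i := fun i => rfl
  have hv1' : ∀ i, v (i, 1) = J.mulVec (e i) := fun i => by simp [v]
  have hli : LinearIndependent F v := by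
    rw [Fintype.linearIndependent_iff]
    intro g hg
    rw [Fintype.sum_prod_type] at hg
    simp only [Fin.sum_univ_two] at hg
    simp only [hv0, hv1'] at hg
    have hA : ∀ y, ∑ i, (g (i, 0) * QuadraticMap.polar ⇑Q (e i) y +
        g (i, 1) * QuadraticMap.polar ⇑Q (J.mulVec (e i)) y) = 0 := by
      intro y
      have h := congrArg (fun x => QuadraticMap.polarBilin Q x y) hg
      simpa [map_sum, LinearMap.sum_apply, hPa] using h
    have key : ∀ j, g (j, 0) * QuadraticMap.polar ⇑Q (e j) (e j) +
          g (j, 1) * QuadraticMap.polar ⇑Q (J.mulVec (e j)) (e j) = 0 ∧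
        g (j, 0) * QuadraticMap.polar ⇑Q (e j) (J.mulVec (e j)) +
          g (j, 1) * QuadraticMap.polar ⇑Q (J.mulVec (e j)) (J.mulVec (e j)) = 0 := by
      intro j
      constructor
      · have h := hA (e j)
        rw [Finset.sum_eq_single j] at h
        · exact h
        · intro i _ hij
          rw [(hv1 i j hij).1, (hv1 i j hij).2.1, mul_zero, mul_zero, add_zero]
        · intro hj; exact absurd (Finset.mem_univ j) hj
      · have h := hA (J.mulVec (e j))
        rw [Finset.sum_eq_single j] at h
        · exact h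
        · intro i _ hij
          rw [(hv1 i j hij).2.2.1, (hv1 i j hij).2.2.2, mul_zero, mul_zero, add_zero]
        · intro hj; exact absurd (Finset.mem_univ j) hj
    have fin : ∀ j, g (j, 0) = 0 ∧ g (j, 1) = 0 := by
      intro j
      obtain ⟨k1, k2⟩ := key j
      by_cases hj : j = Fin.last d
      · subst hj
        rw [hv3.1, hv3.2.1] at k1
        rw [hv3.2.2.1, hv3.2.2.2] at k2
        constructor
        · have h3 : (β ^ 2 - 4 * n * α ^ 2) * g (Fin.last d, 0) = 0 := by
            linear_combination β * k2 - 2 * n * α * k1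
          exact (mul_eq_zero.mp h3).resolve_left hdet
        · have h3 : (β ^ 2 - 4 * n * α ^ 2) * g (Fin.last d, 1) = 0 := by
            linear_combination β * k1 - 2 * α * k2
          exact (mul_eq_zero.mp h3).resolve_left hdet
      · obtain ⟨q1, q2, q3, q4⟩ := hv2 j hj
        rw [q1, q2] at k1
        rw [q3, q4] at k2
        constructor
        · linear_combination k2
        · linear_combination k1
    rintro ⟨j, k⟩
    fin_cases k
    · exact (fin j).1
    · exact (fin j).2
  have hc : Fintype.card (Fin (d + 1) × Fin 2) = Module.finrank F (ι → F) := by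
    rw [Module.finrank_fintype_fun_eq_card, hcard, Fintype.card_prod, Fintype.card_fin,
      Fintype.card_fin]
    ring
  refine ⟨basisOfLinearIndependentOfCardEqFinrank hli hc, fun i => ⟨?_, ?_⟩⟩
  · rw [coe_basisOfLinearIndependentOfCardEqFinrank]
    exact hv0 i
  · rw [coe_basisOfLinearIndependentOfCardEqFinrank]
    exact hv1' i

end Cfsg.Agent.Helper5
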