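import Mathlib
import Cfsg.Agent.Helper43.C3ODefs
import Cfsg.Agent.Helper5.C3OCore

/-!
# helper5: piece RINV of CALL C3O (helper43): the involution fixing the `u j` and negating the `g u j`
-/

set_option autoImplicit false

namespace Cfsg.Agent.Helper5

open Matrix Module Polynomial
open Cfsg.Agent.Helper43.C3O

universe u

variable {F : Type u} [Field F] [Fintype F] {ι : Type} [Fintype ι] [DecidableEq ι]

/-- PIECE RINV -/
theorem c3o_rinv (h2 : (2 : F) ≠ 0) (Q : QuadraticForm F (ι → F))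
    (hQ : (QuadraticMap.polarBilin Q).Nondegenerate) (d : ℕ) (hcard : Fintype.card ι = 2 * d)
    (g : ↥(Cfsg.isometryGroup F ⇑Q)) (hg : gm g * gm g = -1) (u : Fin d → ι → F)
    (hu1 : ∀ j, Q (u j) ≠ 0)
    (hu2 : ∀ i j, i ≠ j → QuadraticMap.polar ⇑Q (u i) (u j) = 0 ∧
      QuadraticMap.polar ⇑Q (u i) ((gm g).mulVec (u j)) = 0) :
    ∃ R : ↥(Cfsg.isometryGroup F ⇑Q), R * R = 1 ∧ gm R * gm g = -(gm g * gm R) ∧
      ∀ j, (gm R).mulVec (u j) = u j := by
  have hGQ : ∀ x, Q ((gm g).mulVec x) = Q x := fun x => C3OCore.iso_quad g x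
  have hGP : ∀ x y, QuadraticMap.polar ⇑Q ((gm g).mulVec x) ((gm g).mulVec y) =
      QuadraticMap.polar ⇑Q x y := by
    intro x y
    unfold QuadraticMap.polar
    rw [← Matrix.mulVec_add, hGQ, hGQ, hGQ]
  have hGG : ∀ x, (gm g).mulVec ((gm g).mulVec x) = -x := by
    intro x
    rw [Matrix.mulVec_mulVec, hg, Matrix.neg_mulVec, Matrix.one_mulVec]
  have hself : ∀ x : ι → F, QuadraticMap.polar ⇑Q x x = 2 * Q x := by
    intro x
    rw [QuadraticMap.polar_self]
    simp only [nsmul_eq_mul, Nat.cast_ofNat]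
  have hxGx : ∀ x, QuadraticMap.polar ⇑Q x ((gm g).mulVec x) = 0 := by
    intro x
    have h := hGP x ((gm g).mulVec x)
    rw [hGG, QuadraticMap.polar_neg_right, QuadraticMap.polar_comm] at h
    have h3 : (2 : F) * QuadraticMap.polar ⇑Q x ((gm g).mulVec x) = 0 := by
      linear_combination -h
    exact (mul_eq_zero.mp h3).resolve_left h2
  let w : Fin d × Fin 2 → (ι → F) := fun p => if p.2 = 0 then u p.1 else (gm g).mulVec (u p.1)
  have hw0 : ∀ j, w (j, 0) = u j := fun j => rfl
  have hw1 : ∀ j, w (j, 1) = (gm g).mulVec (u j) := fun j => by simp [w]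
  have horth4 : ∀ i j, (i ≠ j → QuadraticMap.polar ⇑Q (w (i, 0)) (w (j, 0)) = 0) ∧
      QuadraticMap.polar ⇑Q (w (i, 0)) (w (j, 1)) = 0 ∧
      QuadraticMap.polar ⇑Q (w (i, 1)) (w (j, 0)) = 0 ∧
      (i ≠ j → QuadraticMap.polar ⇑Q (w (i, 1)) (w (j, 1)) = 0) := by
    intro i j
    simp only [hw0, hw1]
    refine ⟨fun hij => (hu2 i j hij).1, ?_, ?_, fun hij => ?_⟩
    · by_cases hij : i = j
      · subst hij; exact hxGx _
      · exact (hu2 i j hij).2
    · rw [QuadraticMap.polar_comm]
      by_cases hij : j = i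
      · subst hij; exact hxGx _
      · exact (hu2 j i hij).2
    · rw [hGP]; exact (hu2 i j hij).1
  have horth : ∀ p q, p ≠ q → QuadraticMap.polar ⇑Q (w p) (w q) = 0 := by
    rintro ⟨i, k⟩ ⟨j, l⟩ hpq
    fin_cases k <;> fin_cases l
    · exact (horth4 i j).1 (fun hij => hpq (by rw [hij]))
    · exact (horth4 i j).2.1
    · exact (horth4 i j).2.2.1
    · exact (horth4 i j).2.2.2 (fun hij => hpq (by rw [hij]))
  have hnorm : ∀ p, QuadraticMap.polar ⇑Q (w p) (w p) ≠ 0 := by
    rintro ⟨i, k⟩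
    rw [hself]
    refine mul_ne_zero h2 ?_
    fin_cases k
    · exact hu1 i
    · show Q (w (i, 1)) ≠ 0
      rw [hw1, hGQ]; exact hu1 i
  have hli : LinearIndependent F w := by
    rw [Fintype.linearIndependent_iff]
    intro c hc q
    have h := congrArg (fun x => QuadraticMap.polarBilin Q x (w q)) hc
    simp only [map_sum, LinearMap.sum_apply, map_smul, LinearMap.smul_apply, smul_eq_mul,
      map_zero, LinearMap.zero_apply, QuadraticMap.polarBilin_apply_apply] at h
    rw [Finset.sum_eq_single q] at h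
    · exact (mul_eq_zero.mp h).resolve_right (hnorm q)
    · intro p _ hpq
      rw [horth p q hpq, mul_zero]
    · intro hq; exact absurd (Finset.mem_univ q) hq
  have hc : Fintype.card (Fin d × Fin 2) = Module.finrank F (ι → F) := by
    rw [Module.finrank_fintype_fun_eq_card, hcard, Fintype.card_prod, Fintype.card_fin,
      Fintype.card_fin]
    ring
  let b : Module.Basis (Fin d × Fin 2) F (ι → F) :=
    basisOfLinearIndependentOfCardEqFinrank' w hli hc
  have hb : ∀ p, b p = w p := fun p => by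
    show (basisOfLinearIndependentOfCardEqFinrank' w hli hc) p = w p
    rw [coe_basisOfLinearIndependentOfCardEqFinrank']
  let s : Fin d × Fin 2 → F := fun p => if p.2 = 0 then 1 else -1
  have hss : ∀ p, s p * s p = 1 := by
    intro p
    simp only [s]
    split_ifs <;> ring
  have hs0 : ∀ j, s (j, 0) = 1 := fun j => rfl
  have hs1 : ∀ j, s (j, 1) = -1 := fun j => by simp [s]
  let R : (ι → F) →ₗ[F] (ι → F) := b.constr F (fun p => s p • b p)
  have hR : ∀ p, R (b p) = s p • b p := fun p => b.constr_basis F _ p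
  have hR0 : ∀ j, R (u j) = u j := by
    intro j
    have h := hR (j, 0)
    rw [hb, hw0, hs0, one_smul] at h
    exact h
  have hR1 : ∀ j, R ((gm g).mulVec (u j)) = -((gm g).mulVec (u j)) := by
    intro j
    have h := hR (j, 1)
    rw [hb, hw1, hs1, neg_one_smul] at h
    exact h
  have hRR : R ∘ₗ R = LinearMap.id := by
    apply b.ext
    intro p
    show R (R (b p)) = b p
    rw [hR, map_smul, hR, smul_smul, hss, one_smul]
  let Re : (ι → F) ≃ₗ[F] (ι → F) := LinearEquiv.ofLinearMap R R hRR hRR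
  have hRe : ∀ x, Re x = R x := fun x => rfl
  have hpol : ∀ x y, QuadraticMap.polar ⇑Q (R x) (R y) = QuadraticMap.polar ⇑Q x y := by
    have hB : (QuadraticMap.polarBilin Q).compl₁₂ R R = QuadraticMap.polarBilin Q := by
      apply LinearMap.ext_basis b b
      intro p q
      rw [LinearMap.compl₁₂_apply]
      show QuadraticMap.polar ⇑Q (R (b p)) (R (b q)) = QuadraticMap.polar ⇑Q (b p) (b q)
      rw [hR, hR, QuadraticMap.polar_smul_left, QuadraticMap.polar_smul_right, smul_eq_mul,
        smul_eq_mul]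
      by_cases hpq : p = q
      · subst hpq
        rw [← mul_assoc, hss, one_mul]
      · rw [hb, hb, horth p q hpq, mul_zero, mul_zero]
    intro x y
    exact congrArg (fun B => B x y) hB
  have hQR : ∀ v, Q (Re v) = Q v := C3OCore.quad_of_polar h2 Q R hpol
  obtain ⟨R', hR'⟩ := C3OCore.iso_of_equiv (⇑Q) Re hQR
  have hcomm : R ∘ₗ Matrix.toLin' (gm g) = -(Matrix.toLin' (gm g) ∘ₗ R) := by
    apply b.ext
    rintro ⟨j, k⟩
    fin_cases k
    · show R (Matrix.toLin' (gm g) (b (j, 0))) = -(Matrix.toLin' (gm g) (R (b (j, 0))))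
      rw [hb, hw0, Matrix.toLin'_apply, hR1, hR0, Matrix.toLin'_apply]
    · show R (Matrix.toLin' (gm g) (b (j, 1))) = -(Matrix.toLin' (gm g) (R (b (j, 1))))
      rw [hb, hw1, Matrix.toLin'_apply, hGG, hR1, Matrix.toLin'_apply, Matrix.mulVec_neg, hGG,
        map_neg, hR0, neg_neg]
  refine ⟨R', ?_, ?_, ?_⟩
  · apply C3OCore.iso_ext
    intro v
    show (gm R' * gm R').mulVec v = (1 : Matrix ι ι F).mulVec v
    rw [← Matrix.mulVec_mulVec, hR', hR', Matrix.one_mulVec, hRe, hRe]
    exact congrArg (fun f => f v) hRR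
  · apply C3OCore.mat_ext
    intro x
    rw [← Matrix.mulVec_mulVec, Matrix.neg_mulVec, ← Matrix.mulVec_mulVec, hR', hR', hRe, hRe]
    have h3 := congrArg (fun f => f x) hcomm
    simpa [Matrix.toLin'_apply] using h3
  · intro j
    rw [hR', hRe]
    exact hR0 j

end Cfsg.Agent.Helper5
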