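import Mathlib
import Cfsg.Agent.Helper44.SPUDefs
import Cfsg.Agent.Helper13.SpSplit

/-!
CALL S2316 (helper44), piece LEVI (double by helper5): the Levi projection of the pointwise
stabiliser of the standard totally isotropic `k`-space of the symplectic space onto `Sp_2(m-k)`.
-/

set_option autoImplicit false
open Classical

namespace Cfsg.Agent.Helper5.SPULEVI

open Matrix Cfsg.Agent.Helper44.SPU Cfsg.Agent.Helper13

variable {F : Type*} [Field F] [Fintype F] {m : ℕ}

theorem pair_ll_eq {k : ℕ} (hk : k ≤ m) (i : Fin k) :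
    pairEquiv hk (Sum.inl (Sum.inl i)) = Sum.inl (Fin.castLE hk i) := by
  rw [pairEquiv_ll]
  congr 1

theorem pair_lr_eq {k : ℕ} (hk : k ≤ m) (i : Fin k) :
    pairEquiv hk (Sum.inl (Sum.inr i)) = Sum.inr (Fin.castLE hk i) := by
  rw [pairEquiv_lr]
  congr 1

/-- column facts: the lower left block has zero `inl`-columns -/
theorem c_zero {k : ℕ} (hk : k ≤ m) (g : symplecticGroup (Fin m) F) (hg : g ∈ Qs hk F 0)
    (c : Fin (m - k) ⊕ Fin (m - k)) (i : Fin k) :
    (pblk hk g.1).toBlocks₂₁ c (Sum.inl i) = 0 := by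
  have h := congrFun (hg.1 i) (pairEquiv hk (Sum.inr c))
  rw [mulVec_eV] at h
  show g.1 (pairEquiv hk (Sum.inr c)) (pairEquiv hk (Sum.inl (Sum.inl i))) = 0
  rw [pair_ll_eq, h]
  unfold eV
  rw [Pi.single_apply, if_neg]
  rw [← pair_ll_eq hk i]
  intro h'
  exact absurd ((pairEquiv hk).injective h') (by simp)

/-- row facts: the upper right block has zero `inr`-rows -/
theorem b_zero {k : ℕ} (hk : k ≤ m) (g : symplecticGroup (Fin m) F) (hg : g ∈ Qs hk F 0)
    (i : Fin k) (c : Fin (m - k) ⊕ Fin (m - k)) :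
    (pblk hk g.1).toBlocks₁₂ (Sum.inr i) c = 0 := by
  have hinv := (mem_symplecticGroup_iff_sympForm g.1).mp g.2
  have h1 := hinv (Pi.single (pairEquiv hk (Sum.inr c)) 1) (eV hk F i)
  rw [hg.1 i, sympForm_eV, sympForm_eV, Matrix.mulVec_single_one] at h1
  show g.1 (pairEquiv hk (Sum.inl (Sum.inr i))) (pairEquiv hk (Sum.inr c)) = 0
  rw [pair_lr_eq]
  refine Eq.trans h1 ?_
  rw [Pi.single_apply, if_neg]
  rw [← pair_lr_eq hk i]
  intro h'
  exact absurd ((pairEquiv hk).injective h') (by simp)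

theorem d_mem {k : ℕ} (hk : k ≤ m) (g : symplecticGroup (Fin m) F) (hg : g ∈ Qs hk F 0) :
    (pblk hk g.1).toBlocks₂₂ ∈ symplecticGroup (Fin (m - k)) F := by
  rw [SymplecticGroup.mem_iff]
  have h := pblk_sp hk g
  rw [← Matrix.fromBlocks_toBlocks (pblk hk g.1), fromBlocks_transpose, fromBlocks_multiply,
    fromBlocks_multiply, fromBlocks_inj] at h
  obtain ⟨-, -, -, h4⟩ := h
  simp only [Matrix.mul_zero, add_zero, zero_add] at h4
  have hC : (pblk hk g.1).toBlocks₂₁ * J (Fin k) F * ((pblk hk g.1).toBlocks₂₁)ᵀ = 0 := by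
    ext c c'
    have hc := c_zero hk g hg
    simp [Matrix.mul_apply, Fintype.sum_sum_type, J, hc]
  rw [hC, zero_add] at h4
  exact h4

/-- the Levi projection -/
noncomputable def leviHom {k : ℕ} (hk : k ≤ m) :
    ↥(Qs hk F 0) →* symplecticGroup (Fin (m - k)) F where
  toFun g := ⟨(pblk hk g.1.1).toBlocks₂₂, d_mem hk g.1 g.2⟩
  map_one' := by
    apply Subtype.ext
    show (pblk hk (1 : Matrix (Fin m ⊕ Fin m) (Fin m ⊕ Fin m) F)).toBlocks₂₂ = 1
    ext x y
    simp [pblk, Matrix.toBlocks₂₂, Matrix.one_apply, (pairEquiv hk).injective.eq_iff]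
  map_mul' g h := by
    apply Subtype.ext
    show (pblk hk (g.1.1 * h.1.1)).toBlocks₂₂ =
      (pblk hk g.1.1).toBlocks₂₂ * (pblk hk h.1.1).toBlocks₂₂
    rw [pblk_mul]
    have e1 := Matrix.fromBlocks_toBlocks (pblk hk g.1.1)
    have e2 := Matrix.fromBlocks_toBlocks (pblk hk h.1.1)
    conv_lhs => rw [← e1, ← e2, fromBlocks_multiply, toBlocks_fromBlocks₂₂]
    have hz : (pblk hk g.1.1).toBlocks₂₁ * (pblk hk h.1.1).toBlocks₁₂ = 0 := by
      ext c c'
      simp [Matrix.mul_apply, Fintype.sum_sum_type, c_zero hk g.1 g.2, b_zero hk h.1 h.2]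
    rw [hz, zero_add]

/-- LEVI: the Levi projection of the pointwise stabiliser of the standard totally isotropic
`k`-space onto `Sp_2(m-k)`. -/
theorem spu_levi {k : ℕ} (hk : k ≤ m) :
    ∃ π : ↥(Cfsg.Agent.Helper13.Qs hk F 0) →* Matrix.symplecticGroup (Fin (m - k)) F,
      Function.Surjective π := by
  refine ⟨leviHom hk, ?_⟩
  intro D0
  set g0 := (stdSplitEquiv hk).symm ((1 : symplecticGroup (Fin k) F), D0) with hg0
  have hval : (g0.1 : Matrix (Fin m ⊕ Fin m) (Fin m ⊕ Fin m) F) =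
      (fromBlocks (1 : Matrix (Fin k ⊕ Fin k) (Fin k ⊕ Fin k) F) 0 0 D0.1).submatrix
        (pairEquiv hk).symm (pairEquiv hk).symm := rfl
  have hmem : g0.1 ∈ Qs hk F 0 := by
    refine ⟨fun i => ?_, fun i hi => absurd hi (Nat.not_lt_zero _)⟩
    funext a
    rw [mulVec_eV, hval]
    obtain ⟨a', rfl⟩ := (pairEquiv hk).surjective a
    unfold eV
    rw [← pair_ll_eq hk i]
    rcases a' with x | c
    · simp [Matrix.one_apply, Pi.single_apply, (pairEquiv hk).injective.eq_iff]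
    · simp [(pairEquiv hk).injective.eq_iff]
  refine ⟨⟨g0.1, hmem⟩, ?_⟩
  apply Subtype.ext
  show (pblk hk g0.1.1).toBlocks₂₂ = D0.1
  rw [hval]
  ext x y
  simp [pblk, Matrix.toBlocks₂₂]

end Cfsg.Agent.Helper5.SPULEVI
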