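import Mathlib
import Cfsg.Agent.Helper43.C3ODefs
import Cfsg.Agent.Helper5.C3OCore

/-!
# helper5: piece CONJFIN of CALL C3O (helper43): two frames with the same invariants are conjugate
-/

set_option autoImplicit false

namespace Cfsg.Agent.Helper5

open Matrix Module Polynomial
open Cfsg.Agent.Helper43.C3O

universe u

variable {F : Type u} [Field F] [Fintype F] {ι : Type} [Fintype ι] [DecidableEq ι]

/-- PIECE CONJFIN (FRB is a hypothesis) -/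
theorem c3o_conjfin (h2 : (2 : F) ≠ 0) (Q : QuadraticForm F (ι → F)) (n : F)
    (hn : ¬ IsSquare n) (d : ℕ) (hcard : Fintype.card ι = 2 * (d + 1))
    (hfrb : ∀ (J : Matrix ι ι F), IsJ Q n J → ∀ (e : Fin (d + 1) → ι → F) (α β : F),
      IsFrame Q J e α β → ¬ (α = 0 ∧ β = 0) →
      ∃ b : Module.Basis (Fin (d + 1) × Fin 2) F (ι → F),
        ∀ i, b (i, 0) = e i ∧ b (i, 1) = J.mulVec (e i))
    (J₁ J₂ : Matrix ι ι F) (hJ₁ : IsJ Q n J₁) (hJ₂ : IsJ Q n J₂) (e₁ e₂ : Fin (d + 1) → ι → F)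
    (α β : F) (he₁ : IsFrame Q J₁ e₁ α β) (he₂ : IsFrame Q J₂ e₂ α β)
    (hαβ : ¬ (α = 0 ∧ β = 0)) :
    ∃ h : ↥(Cfsg.isometryGroup F ⇑Q), gm h * J₁ = J₂ * gm h := by
  obtain ⟨b₁, hb₁⟩ := hfrb J₁ hJ₁ e₁ α β he₁ hαβ
  obtain ⟨b₂, hb₂⟩ := hfrb J₂ hJ₂ e₂ α β he₂ hαβ
  obtain ⟨u1, u2, u3⟩ := C3OCore.frame_vals Q n J₁ hJ₁ d e₁ α β he₁
  obtain ⟨w1, w2, w3⟩ := C3OCore.frame_vals Q n J₂ hJ₂ d e₂ α β he₂
  have B1 : ∀ i, b₁ (i, 0) = e₁ i := fun i => (hb₁ i).1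
  have B1' : ∀ i, b₁ (i, 1) = J₁.mulVec (e₁ i) := fun i => (hb₁ i).2
  have B2 : ∀ i, b₂ (i, 0) = e₂ i := fun i => (hb₂ i).1
  have B2' : ∀ i, b₂ (i, 1) = J₂.mulVec (e₂ i) := fun i => (hb₂ i).2
  let h : (ι → F) ≃ₗ[F] (ι → F) := b₁.equiv b₂ (Equiv.refl _)
  have hh : ∀ p, h (b₁ p) = b₂ p := fun p => by
    show b₁.equiv b₂ (Equiv.refl _) (b₁ p) = b₂ p
    rw [Module.Basis.equiv_apply]
    rfl
  have hg4 : ∀ i j,
      (QuadraticMap.polar ⇑Q (b₂ (i, 0)) (b₂ (j, 0)) =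
        QuadraticMap.polar ⇑Q (b₁ (i, 0)) (b₁ (j, 0))) ∧
      (QuadraticMap.polar ⇑Q (b₂ (i, 0)) (b₂ (j, 1)) =
        QuadraticMap.polar ⇑Q (b₁ (i, 0)) (b₁ (j, 1))) ∧
      (QuadraticMap.polar ⇑Q (b₂ (i, 1)) (b₂ (j, 0)) =
        QuadraticMap.polar ⇑Q (b₁ (i, 1)) (b₁ (j, 0))) ∧
      (QuadraticMap.polar ⇑Q (b₂ (i, 1)) (b₂ (j, 1)) =
        QuadraticMap.polar ⇑Q (b₁ (i, 1)) (b₁ (j, 1))) := by
    intro i j
    simp only [B1, B1', B2, B2']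
    by_cases hij : i = j
    · subst hij
      by_cases hi : i = Fin.last d
      · subst hi
        obtain ⟨a1, a2, a3, a4⟩ := u3
        obtain ⟨c1, c2, c3, c4⟩ := w3
        exact ⟨by rw [c1, a1], by rw [c3, a3], by rw [c2, a2], by rw [c4, a4]⟩
      · obtain ⟨a1, a2, a3, a4⟩ := u2 i hi
        obtain ⟨c1, c2, c3, c4⟩ := w2 i hi
        exact ⟨by rw [c1, a1], by rw [c3, a3], by rw [c2, a2], by rw [c4, a4]⟩
    · obtain ⟨a1, a2, a3, a4⟩ := u1 i j hij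
      obtain ⟨c1, c2, c3, c4⟩ := w1 i j hij
      exact ⟨by rw [c1, a1], by rw [c3, a3], by rw [c2, a2], by rw [c4, a4]⟩
  have hgram : ∀ p q, QuadraticMap.polar ⇑Q (b₂ p) (b₂ q) =
      QuadraticMap.polar ⇑Q (b₁ p) (b₁ q) := by
    rintro ⟨i, k⟩ ⟨j, l⟩
    fin_cases k <;> fin_cases l
    · exact (hg4 i j).1
    · exact (hg4 i j).2.1
    · exact (hg4 i j).2.2.1
    · exact (hg4 i j).2.2.2
  have hpol : ∀ x y, QuadraticMap.polar ⇑Q (h x) (h y) = QuadraticMap.polar ⇑Q x y := by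
    have hB : (QuadraticMap.polarBilin Q).compl₁₂ (h : (ι → F) →ₗ[F] (ι → F))
        (h : (ι → F) →ₗ[F] (ι → F)) = QuadraticMap.polarBilin Q := by
      apply LinearMap.ext_basis b₁ b₁
      intro p q
      rw [LinearMap.compl₁₂_apply]
      show QuadraticMap.polar ⇑Q (h (b₁ p)) (h (b₁ q)) = QuadraticMap.polar ⇑Q (b₁ p) (b₁ q)
      rw [hh, hh]
      exact hgram p q
    intro x y
    exact congrArg (fun B => B x y) hB
  have hQ : ∀ v, Q (h v) = Q v := C3OCore.quad_of_polar h2 Q h hpol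
  obtain ⟨g, hg⟩ := C3OCore.iso_of_equiv (⇑Q) h hQ
  have hcomm : (h : (ι → F) →ₗ[F] (ι → F)) ∘ₗ Matrix.toLin' J₁ =
      Matrix.toLin' J₂ ∘ₗ (h : (ι → F) →ₗ[F] (ι → F)) := by
    apply b₁.ext
    rintro ⟨i, k⟩
    fin_cases k
    · show h (Matrix.toLin' J₁ (b₁ (i, 0))) = Matrix.toLin' J₂ (h (b₁ (i, 0)))
      rw [Matrix.toLin'_apply, Matrix.toLin'_apply, hh, B1, B2, ← B1', hh, B2']
    · show h (Matrix.toLin' J₁ (b₁ (i, 1))) = Matrix.toLin' J₂ (h (b₁ (i, 1)))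
      rw [Matrix.toLin'_apply, Matrix.toLin'_apply, hh, B1', B2', C3OCore.JJ n J₁ hJ₁.1,
        C3OCore.JJ n J₂ hJ₂.1, map_smul, ← B1, hh, B2]
  refine ⟨g, C3OCore.mat_ext fun x => ?_⟩
  rw [← Matrix.mulVec_mulVec, ← Matrix.mulVec_mulVec, hg, hg]
  have h3 := congrArg (fun f => f x) hcomm
  simpa [Matrix.toLin'_apply] using h3

end Cfsg.Agent.Helper5
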