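import Mathlib
import Cfsg.Agent.Helper5.SLCard
import Cfsg.Agent.S0263

set_option autoImplicit false
set_option linter.unusedSimpArgs false

namespace Cfsg.Agent.Helper5

open Matrix

section GL2
variable {F : Type*} [Field F]

/-- The upper unitriangular element `[[1, b], [0, 1]]` of `GL_2(F)`. -/
noncomputable def uGL (b : F) : GL (Fin 2) F :=
  ⟨!![1, b; 0, 1], !![1, -b; 0, 1],
    by simp [Matrix.mul_fin_two, Matrix.one_fin_two],
    by simp [Matrix.mul_fin_two, Matrix.one_fin_two]⟩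

theorem uGL_coe (b : F) : ((uGL b : GL (Fin 2) F) : Matrix (Fin 2) (Fin 2) F) = !![1, b; 0, 1] := rfl

theorem uGL_mul (a b : F) : uGL a * uGL b = uGL (a + b) := by
  apply Units.ext
  simp [uGL_coe, Matrix.mul_fin_two, add_comm]

theorem uGL_zero : uGL (0 : F) = 1 := by
  apply Units.ext
  simp [uGL_coe, Matrix.one_fin_two]

theorem uGL_injective : Function.Injective (uGL : F → GL (Fin 2) F) := by
  intro a b h
  have := congrArg (fun g : GL (Fin 2) F => (g : Matrix (Fin 2) (Fin 2) F) 0 1) h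
  simpa [uGL_coe] using this

theorem uGL_eq_one_iff (b : F) : uGL b = 1 ↔ b = 0 := by
  rw [← uGL_zero]
  exact uGL_injective.eq_iff

/-- `b ↦ [[1, b], [0, 1]]` as a group hom. -/
noncomputable def uHom : Multiplicative F →* GL (Fin 2) F where
  toFun b := uGL (Multiplicative.toAdd b)
  map_one' := uGL_zero
  map_mul' _ _ := (uGL_mul _ _).symm

/-- The upper unitriangular subgroup of `GL_2(F)`. -/
noncomputable def UGL : Subgroup (GL (Fin 2) F) := (uHom (F := F)).range

theorem mem_UGL_iff (g : GL (Fin 2) F) : g ∈ (UGL : Subgroup (GL (Fin 2) F)) ↔ ∃ b : F, uGL b = g := by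
  constructor
  · rintro ⟨b, rfl⟩
    exact ⟨Multiplicative.toAdd b, rfl⟩
  · rintro ⟨b, rfl⟩
    exact ⟨Multiplicative.ofAdd b, rfl⟩

theorem uGL_mem_UGL (b : F) : uGL b ∈ (UGL : Subgroup (GL (Fin 2) F)) := (mem_UGL_iff _).2 ⟨b, rfl⟩

theorem card_UGL [Fintype F] : Nat.card (UGL : Subgroup (GL (Fin 2) F)) = Fintype.card F := by
  have hinj : Function.Injective (uHom (F := F)) := by
    intro a b h
    exact Multiplicative.toAdd.injective (uGL_injective (F := F) h)
  rw [UGL, ← Nat.card_congr (MonoidHom.ofInjective hinj).toEquiv,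
    Nat.card_congr (Multiplicative.toAdd (α := F)), Nat.card_eq_fintype_card]

/-- Entries of a product with `uGL` on the right. -/
theorem mul_uGL_coe (g : GL (Fin 2) F) (t : F) :
    ((g * uGL t : GL (Fin 2) F) : Matrix (Fin 2) (Fin 2) F) =
      !![g 0 0, g 0 0 * t + g 0 1; g 1 0, g 1 0 * t + g 1 1] := by
  rw [Units.val_mul, uGL_coe]
  ext i j
  fin_cases i <;> fin_cases j <;> simp [Matrix.mul_apply, Fin.sum_univ_two]

/-- Entries of a product with `uGL` on the left. -/
theorem uGL_mul_coe (g : GL (Fin 2) F) (s : F) :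
    ((uGL s * g : GL (Fin 2) F) : Matrix (Fin 2) (Fin 2) F) =
      !![g 0 0 + s * g 1 0, g 0 1 + s * g 1 1; g 1 0, g 1 1] := by
  rw [Units.val_mul, uGL_coe]
  ext i j
  fin_cases i <;> fin_cases j <;> simp [Matrix.mul_apply, Fin.sum_univ_two]

theorem lower_left_eq_zero_of_conj {g : GL (Fin 2) F} {s t : F} (ht : t ≠ 0)
    (h : g * uGL t = uGL s * g) : (g : Matrix (Fin 2) (Fin 2) F) 1 0 = 0 := by
  have h1 := congrArg (fun x : GL (Fin 2) F => (x : Matrix (Fin 2) (Fin 2) F) 1 1) h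
  simp only [mul_uGL_coe, uGL_mul_coe] at h1
  simp at h1
  rcases h1 with h1 | h1
  · exact h1
  · exact absurd h1 ht

theorem det_of_lower_left_eq_zero {g : GL (Fin 2) F}
    (hg : (g : Matrix (Fin 2) (Fin 2) F) 1 0 = 0) :
    (g : Matrix (Fin 2) (Fin 2) F) 0 0 ≠ 0 ∧ (g : Matrix (Fin 2) (Fin 2) F) 1 1 ≠ 0 := by
  have hdet : (g : Matrix (Fin 2) (Fin 2) F).det ≠ 0 := Matrix.GeneralLinearGroup.det_ne_zero g
  rw [Matrix.det_fin_two, hg, mul_zero, sub_zero] at hdet
  exact ⟨left_ne_zero_of_mul hdet, right_ne_zero_of_mul hdet⟩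

theorem conj_of_lower_left_eq_zero {g : GL (Fin 2) F}
    (hg : (g : Matrix (Fin 2) (Fin 2) F) 1 0 = 0) (y : F) :
    g * uGL y = uGL ((g : Matrix (Fin 2) (Fin 2) F) 0 0 * y / (g : Matrix (Fin 2) (Fin 2) F) 1 1) * g := by
  obtain ⟨h0, h1⟩ := det_of_lower_left_eq_zero hg
  apply Units.ext
  rw [mul_uGL_coe, uGL_mul_coe, hg]
  ext i j
  fin_cases i <;> fin_cases j <;> simp
  field_simp
  ring

theorem conj_of_lower_left_eq_zero' {g : GL (Fin 2) F}
    (hg : (g : Matrix (Fin 2) (Fin 2) F) 1 0 = 0) (x : F) :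
    g * uGL ((g : Matrix (Fin 2) (Fin 2) F) 1 1 * x / (g : Matrix (Fin 2) (Fin 2) F) 0 0) = uGL x * g := by
  obtain ⟨h0, h1⟩ := det_of_lower_left_eq_zero hg
  rw [conj_of_lower_left_eq_zero hg]
  congr 2
  field_simp

theorem mem_normalizer_UGL_iff (g : GL (Fin 2) F) :
    g ∈ Subgroup.normalizer ((UGL : Subgroup (GL (Fin 2) F)) : Set (GL (Fin 2) F)) ↔
      (g : Matrix (Fin 2) (Fin 2) F) 1 0 = 0 := by
  rw [Subgroup.mem_normalizer_iff]
  constructor
  · intro h
    have h1 := (h (uGL 1)).1 (uGL_mem_UGL 1)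
    obtain ⟨s, hs⟩ := (mem_UGL_iff _).1 h1
    have h2 : g * uGL 1 = uGL s * g := by
      rw [hs]; group
    exact lower_left_eq_zero_of_conj one_ne_zero h2
  · intro hg h
    constructor
    · intro hh
      obtain ⟨y, rfl⟩ := (mem_UGL_iff _).1 hh
      rw [conj_of_lower_left_eq_zero hg y, mul_assoc, mul_inv_cancel, mul_one]
      exact uGL_mem_UGL _
    · intro hh
      obtain ⟨x, hx⟩ := (mem_UGL_iff _).1 hh
      have h3 := conj_of_lower_left_eq_zero' hg x
      rw [hx] at h3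
      have h4 : h = uGL ((g : Matrix (Fin 2) (Fin 2) F) 1 1 * x / (g : Matrix (Fin 2) (Fin 2) F) 0 0) := by
        have : g * uGL ((g : Matrix (Fin 2) (Fin 2) F) 1 1 * x / (g : Matrix (Fin 2) (Fin 2) F) 0 0) = g * h := by
          rw [h3]; group
        exact (mul_left_cancel this).symm
      rw [h4]
      exact uGL_mem_UGL _

section card
variable [Fintype F]

/-- The Borel subgroup (as a set) has `q (q-1)^2` elements. -/
theorem card_lower_left_zero :
    Nat.card {g : GL (Fin 2) F // (g : Matrix (Fin 2) (Fin 2) F) 1 0 = 0} =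
      Fintype.card F * (Fintype.card F - 1) ^ 2 := by
  let e : {g : GL (Fin 2) F // (g : Matrix (Fin 2) (Fin 2) F) 1 0 = 0} ≃ Fˣ × Fˣ × F :=
    { toFun := fun g => (Units.mk0 _ (det_of_lower_left_eq_zero g.2).1,
        Units.mk0 _ (det_of_lower_left_eq_zero g.2).2, (g.1 : Matrix (Fin 2) (Fin 2) F) 0 1)
      invFun := fun x => ⟨Matrix.GeneralLinearGroup.mkOfDetNeZero !![(x.1 : F), x.2.2; 0, (x.2.1 : F)]
        (by simp [Matrix.det_fin_two]), by
          simp [Matrix.GeneralLinearGroup.mkOfDetNeZero]⟩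
      left_inv := by
        rintro ⟨g, hg⟩
        apply Subtype.ext
        apply Units.ext
        ext i j
        fin_cases i <;> fin_cases j <;> simp [Matrix.GeneralLinearGroup.mkOfDetNeZero, hg]
      right_inv := by
        rintro ⟨a, d, b⟩
        simp [Matrix.GeneralLinearGroup.mkOfDetNeZero] }
  rw [Nat.card_congr e, Nat.card_prod, Nat.card_prod, Nat.card_units, Nat.card_eq_fintype_card]
  ring

theorem card_normalizer_UGL :
    Nat.card (Subgroup.normalizer ((UGL : Subgroup (GL (Fin 2) F)) : Set (GL (Fin 2) F))) =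
      Fintype.card F * (Fintype.card F - 1) ^ 2 := by
  rw [← card_lower_left_zero]
  exact Nat.card_congr (Equiv.subtypeEquivRight mem_normalizer_UGL_iff)

omit [Fintype F] in
theorem mem_centralizer_uGL_iff {t : F} (ht : t ≠ 0) (g : GL (Fin 2) F) :
    g ∈ Subgroup.centralizer ({uGL t} : Set (GL (Fin 2) F)) ↔
      (g : Matrix (Fin 2) (Fin 2) F) 1 0 = 0 ∧
        (g : Matrix (Fin 2) (Fin 2) F) 0 0 = (g : Matrix (Fin 2) (Fin 2) F) 1 1 := by
  rw [Subgroup.mem_centralizer_iff]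
  simp only [Set.mem_singleton_iff, forall_eq]
  constructor
  · intro h
    have h10 : (g : Matrix (Fin 2) (Fin 2) F) 1 0 = 0 := lower_left_eq_zero_of_conj ht h.symm
    refine ⟨h10, ?_⟩
    have h1 := congrArg (fun x : GL (Fin 2) F => (x : Matrix (Fin 2) (Fin 2) F) 0 1) h
    simp only [mul_uGL_coe, uGL_mul_coe] at h1
    simp at h1
    have h2 : t * ((g : Matrix (Fin 2) (Fin 2) F) 0 0 - (g : Matrix (Fin 2) (Fin 2) F) 1 1) = 0 := by
      first | linear_combination h1 | linear_combination -h1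
    rcases mul_eq_zero.1 h2 with h3 | h3
    · exact absurd h3 ht
    · exact sub_eq_zero.1 h3
  · rintro ⟨h10, h00⟩
    apply Units.ext
    rw [mul_uGL_coe, uGL_mul_coe, h10, h00]
    ext i j
    fin_cases i <;> fin_cases j <;> simp
    ring

theorem card_centralizer_uGL {t : F} (ht : t ≠ 0) :
    Nat.card (Subgroup.centralizer ({uGL t} : Set (GL (Fin 2) F))) =
      Fintype.card F * (Fintype.card F - 1) := by
  let e : {g : GL (Fin 2) F // (g : Matrix (Fin 2) (Fin 2) F) 1 0 = 0 ∧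
        (g : Matrix (Fin 2) (Fin 2) F) 0 0 = (g : Matrix (Fin 2) (Fin 2) F) 1 1} ≃ Fˣ × F :=
    { toFun := fun g => (Units.mk0 _ (det_of_lower_left_eq_zero g.2.1).1,
        (g.1 : Matrix (Fin 2) (Fin 2) F) 0 1)
      invFun := fun x => ⟨Matrix.GeneralLinearGroup.mkOfDetNeZero !![(x.1 : F), x.2; 0, (x.1 : F)]
        (by simp [Matrix.det_fin_two]), by
          simp [Matrix.GeneralLinearGroup.mkOfDetNeZero]⟩
      left_inv := by
        rintro ⟨g, hg, hg'⟩
        apply Subtype.ext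
        apply Units.ext
        ext i j
        fin_cases i <;> fin_cases j <;> simp [Matrix.GeneralLinearGroup.mkOfDetNeZero, hg, hg']
      right_inv := by
        rintro ⟨a, b⟩
        simp [Matrix.GeneralLinearGroup.mkOfDetNeZero] }
  rw [Nat.card_congr (Equiv.subtypeEquivRight (mem_centralizer_uGL_iff ht)), Nat.card_congr e,
    Nat.card_prod, Nat.card_units, Nat.card_eq_fintype_card]
  ring

section sylow
variable (p : ℕ) [Fact p.Prime] [CharP F p]

theorem card_sylow_GL2 (P : Sylow p (GL (Fin 2) F)) : Nat.card P = Fintype.card F := by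
  have := Cfsg.Agent.S0263.result (F := F) rfl p 2 P
  simpa using this

/-- The upper unitriangular subgroup as a Sylow `p`-subgroup of `GL_2(F)`. -/
noncomputable def sylowU : Sylow p (GL (Fin 2) F) :=
  Sylow.ofCard UGL (by
    obtain ⟨P⟩ : Nonempty (Sylow p (GL (Fin 2) F)) := inferInstance
    rw [card_UGL, ← P.card_eq_multiplicity, card_sylow_GL2])

theorem sylowU_coe : ((sylowU p : Sylow p (GL (Fin 2) F)) : Subgroup (GL (Fin 2) F)) = UGL :=
  Sylow.coe_ofCard _ _

theorem sylowU_coe_set : ((sylowU p : Sylow p (GL (Fin 2) F)) : Set (GL (Fin 2) F)) =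
    ((UGL : Subgroup (GL (Fin 2) F)) : Set (GL (Fin 2) F)) := by
  rw [← Sylow.coe_coe, sylowU_coe]

theorem exists_smul_sylowU (P : Sylow p (GL (Fin 2) F)) :
    ∃ g : GL (Fin 2) F, g • sylowU p = P := MulAction.exists_smul_eq _ _ _

theorem mem_smul_sylowU_iff (g x : GL (Fin 2) F) :
    x ∈ g • (sylowU p : Sylow p (GL (Fin 2) F)) ↔ ∃ b : F, g * uGL b * g⁻¹ = x := by
  change x ∈ ((g • sylowU p : Sylow p (GL (Fin 2) F)) : Subgroup (GL (Fin 2) F)) ↔ _
  rw [Sylow.coe_subgroup_smul, sylowU_coe, Subgroup.mem_smul_pointwise_iff_exists]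
  constructor
  · rintro ⟨s, hs, rfl⟩
    obtain ⟨b, rfl⟩ := (mem_UGL_iff _).1 hs
    exact ⟨b, rfl⟩
  · rintro ⟨b, rfl⟩
    exact ⟨uGL b, uGL_mem_UGL b, rfl⟩

theorem smul_sylowU_eq_iff (g : GL (Fin 2) F) :
    g • (sylowU p : Sylow p (GL (Fin 2) F)) = sylowU p ↔ (g : Matrix (Fin 2) (Fin 2) F) 1 0 = 0 := by
  rw [Sylow.smul_eq_iff_mem_normalizer, sylowU_coe_set, mem_normalizer_UGL_iff]

/-- The number of Sylow `p`-subgroups of `GL_2(q)` is `q + 1`. -/
theorem card_sylow_GL2_eq : Nat.card (Sylow p (GL (Fin 2) F)) = Fintype.card F + 1 := by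
  rw [Sylow.card_eq_index_normalizer (sylowU p), sylowU_coe_set]
  have h1 := Subgroup.card_mul_index
    (Subgroup.normalizer ((UGL : Subgroup (GL (Fin 2) F)) : Set (GL (Fin 2) F)))
  rw [card_normalizer_UGL, Matrix.card_GL_field] at h1
  simp only [Fin.prod_univ_two, Fin.val_zero, Fin.val_one, pow_zero, pow_one] at h1
  have hq : 1 < Fintype.card F := Fintype.one_lt_card
  obtain ⟨k, hk⟩ : ∃ k, Fintype.card F = k + 2 := ⟨Fintype.card F - 2, by omega⟩
  rw [hk] at h1 ⊢
  have e1 : (k + 2) ^ 2 - 1 = (k + 1) * (k + 3) := by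
    have : (k + 2) ^ 2 = (k + 1) * (k + 3) + 1 := by ring
    omega
  have e2 : (k + 2) ^ 2 - (k + 2) = (k + 2) * (k + 1) := by
    have : (k + 2) ^ 2 = (k + 2) * (k + 1) + (k + 2) := by ring
    omega
  have e3 : k + 2 - 1 = k + 1 := by omega
  rw [e1, e2, e3] at h1
  have hpos : 0 < (k + 2) * (k + 1) ^ 2 := by positivity
  apply Nat.eq_of_mul_eq_mul_left hpos
  rw [h1]; ring

end sylow

end card

end GL2

end Cfsg.Agent.Helper5
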