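import Mathlib
import Cfsg.Agent.Helper90.HTDefs
import Cfsg.Agent.Helper34.HTHFIX
import Cfsg.Agent.Helper5.HTHGUORD

set_option autoImplicit false

/-!
# helper5: piece FPF of CALL S5953 (helper90): an element of order `r` of `SU_c(q)`, `c` minimal, has no
fixed vectors
-/

namespace Cfsg.Agent.Helper5.HT5953

open Module Polynomial Cfsg.Agent.Helper90.HT

section models

variable {F : Type*} [Field F] [Fintype F] (q : ℕ) (hq : Fintype.card F = q ^ 2)

include hq

/-- FPF (uses HFIX, HGUORD on the range of `T - 1`): no fixed vectors. -/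
theorem ht_fpf (c : ℕ) (hc2 : 2 ≤ c) (r : ℕ) [Fact r.Prime] (hr2 : 2 < r) (hrq : ¬ r ∣ q)
    (hcmin : ∀ j, 1 ≤ j → j < c → ¬ r ∣ (if Even j then q ^ j - 1 else q ^ j + 1))
    (g : Matrix.SpecialLinearGroup (Fin c) F) (hg : g ∈ Cfsg.SU c F q) (hgr : g ^ r = 1)
    (hg1 : g ≠ 1) :
    LinearMap.ker (Matrix.toLin' (g : Matrix (Fin c) (Fin c) F) - 1) = ⊥ := by
  classical
  have hrp : r.Prime := Fact.out
  let σ : F →+* F := Cfsg.Agent.Helper5.frobQ hq
  have hσ : ∀ a, σ a = a ^ q := fun a => Cfsg.Agent.Helper5.frobQ_apply hq a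
  have hh : IsHerm σ (Cfsg.hermForm c F q) := isHerm_hermForm hq σ hσ c
  have hnd : ∀ v, (∀ w, Cfsg.hermForm c F q v w = 0) → v = 0 := hermForm_nondeg hq c
  have hT : HPres (Cfsg.hermForm c F q) (Matrix.toLin' (g : Matrix (Fin c) (Fin c) F)) :=
    hpres_of_mem_SU c g hg
  have hMr : (g : Matrix (Fin c) (Fin c) F) ^ r = 1 := by
    have h3 := congrArg Subtype.val hgr
    simpa using h3
  have hTr : (Matrix.toLin' (g : Matrix (Fin c) (Fin c) F)) ^ r = 1 := by
    have h3 := congrArg (Matrix.toLinAlgEquiv' (R := F) (n := Fin c)) hMr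
    rw [map_pow, map_one] at h3
    exact h3
  have hrF : (r : F) ≠ 0 := by
    intro h0
    obtain ⟨p, hp⟩ := CharP.exists F
    haveI := hp
    have hpr : p ∣ r := (CharP.cast_eq_zero_iff F p r).mp h0
    have hpp : p.Prime := CharP.char_is_prime F p
    have hpe : p = r := (Nat.prime_dvd_prime_iff_eq hpp hrp).mp hpr
    have hpq : p ∣ q ^ 2 := by
      apply (CharP.cast_eq_zero_iff F p (q ^ 2)).mp
      rw [← hq]
      exact Nat.cast_card_eq_zero F
    rw [hpe] at hpq
    exact hrq (hrp.dvd_of_dvd_pow hpq)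
  obtain ⟨hDT, hcompl, -, -, -, hDnd⟩ := Cfsg.Agent.Helper34.HT5953.ht_fix σ
    (Cfsg.hermForm c F q) hh hnd (Matrix.toLin' (g : Matrix (Fin c) (Fin c) F)) hT r hrF hTr
  generalize hTdef : Matrix.toLin' (g : Matrix (Fin c) (Fin c) F) = T at *
  have hDT' : ∀ x ∈ LinearMap.range (T - 1), T x ∈ LinearMap.range (T - 1) :=
    fun x hx => hDT (Submodule.mem_map_of_mem hx)
  let TD : Module.End F (LinearMap.range (T - 1)) := T.restrict hDT'
  let hD' : LinearMap.range (T - 1) → LinearMap.range (T - 1) → F :=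
    fun u v => Cfsg.hermForm c F q (u : Fin c → F) (v : Fin c → F)
  have hhD : IsHerm σ hD' := hh.restrict (LinearMap.range (T - 1))
  have hndD : ∀ v : LinearMap.range (T - 1), (∀ w : LinearMap.range (T - 1), hD' v w = 0) →
      v = 0 := by
    intro v hv
    apply Subtype.ext
    exact hDnd v.1 v.2 (fun w hw => hv ⟨w, hw⟩)
  have hTD : HPres hD' TD := fun u v => hT u.1 v.1
  have hTDk : ∀ (k : ℕ) (x : LinearMap.range (T - 1)),
      (((TD ^ k) x : LinearMap.range (T - 1)) : Fin c → F) = (T ^ k) (x : Fin c → F) := by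
    intro k
    induction k with
    | zero => intro x; rfl
    | succ k ih =>
      intro x
      rw [pow_succ, pow_succ, Module.End.mul_apply, Module.End.mul_apply, ih]
      rfl
  have hTDr : TD ^ r = 1 := by
    apply LinearMap.ext
    intro x
    apply Subtype.ext
    rw [hTDk, hTr]
    rfl
  by_contra hker
  have hTD1 : TD ≠ 1 := by
    intro h1
    apply hg1
    have hTall : T = 1 := by
      apply LinearMap.ext
      intro x
      have hx : x ∈ LinearMap.ker (T - 1) ⊔ LinearMap.range (T - 1) := by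
        rw [hcompl.sup_eq_top]
        trivial
      obtain ⟨k, hk, d, hd, rfl⟩ := Submodule.mem_sup.mp hx
      have hk' : T k = k := by
        have h3 := LinearMap.mem_ker.mp hk
        rw [LinearMap.sub_apply, Module.End.one_apply, sub_eq_zero] at h3
        exact h3
      have hd' : T d = d := by
        have h3 := congrArg (fun f : Module.End F (LinearMap.range (T - 1)) =>
          ((f ⟨d, hd⟩ : LinearMap.range (T - 1)) : Fin c → F)) h1
        exact h3
      rw [map_add, hk', hd']
      rfl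
    apply Subtype.ext
    have h3 := congrArg LinearMap.toMatrix' hTall
    rw [← hTdef, LinearMap.toMatrix'_toLin', LinearMap.toMatrix'_one] at h3
    exact h3
  obtain ⟨j, hj1, hjD, hjr⟩ := Cfsg.Agent.Helper5.HT5953.ht_guord σ hD' q hq hσ hhD hndD TD hTD r
    hrq hTDr hTD1
  have hjc : c ≤ j := by
    by_contra hlt
    exact hcmin j hj1 (by omega) hjr
  have hDtop : LinearMap.range (T - 1) = ⊤ := by
    apply Submodule.eq_top_of_finrank_eq
    have h1 := Submodule.finrank_le (LinearMap.range (T - 1))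
    rw [Module.finrank_fin_fun] at h1 ⊢
    omega
  apply hker
  have h3 := hcompl.inf_eq_bot
  rw [hDtop, inf_top_eq] at h3
  exact h3

end models

end Cfsg.Agent.Helper5.HT5953
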