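import Mathlib
import Cfsg.Agent.Helper5.Klein
import Cfsg.Agent.Helper5.OPlus4b
import Cfsg.Agent.Helper5.EndIso
import Cfsg.Agent.Helper5.OmegaIso2
import Cfsg.Agent.Helper5.Symp

set_option autoImplicit false
set_option linter.unusedSimpArgs false
set_option linter.unusedSectionVars false

namespace Cfsg.Agent.Helper5

open Matrix

section isoneg
variable {F : Type*} [Field F] {ι : Type} [Fintype ι] [DecidableEq ι]

/-- Minus the identity as an isometry of an even function. -/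
noncomputable def isoNeg (Q : (ι → F) → F) (hQ : ∀ v, Q (-v) = Q v) : isoU F Q :=
  ⟨-1, fun v => by
    change Q (-v) = _
    exact hQ v⟩

theorem isoNeg_comm (Q : (ι → F) → F) (hQ : ∀ v, Q (-v) = Q v) (u : isoU F Q) :
    isoNeg Q hQ * u = u * isoNeg Q hQ := by
  apply isoU_ext
  apply LinearMap.ext
  intro v
  change -(((u : (Module.End F (ι → F))ˣ) : Module.End F (ι → F)) v) =
    ((u : (Module.End F (ι → F))ˣ) : Module.End F (ι → F)) (-v)
  rw [map_neg]

theorem det_toMatrix_neg_one :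
    Matrix.det (LinearMap.toMatrix' (-1 : Module.End F (ι → F))) = (-1) ^ Fintype.card ι := by
  rw [map_neg, Matrix.det_neg]
  have : LinearMap.toMatrix' (1 : Module.End F (ι → F)) = 1 := LinearMap.toMatrix'_id
  rw [this, Matrix.det_one, mul_one]

theorem isoNeg_coe (Q : (ι → F) → F) (hQ : ∀ v, Q (-v) = Q v) :
    (((isoNeg Q hQ : isoU F Q) : (Module.End F (ι → F))ˣ) : Module.End F (ι → F)) = -1 := rfl

end isoneg

section o5
variable {F : Type*} [Field F]

/-- The inclusion of the five-dimensional space into the Klein space. -/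
def o5I (F : Type*) [Field F] : (Unit ⊕ (Fin 2 ⊕ Fin 2) → F) →ₗ[F] (Fin 3 ⊕ Fin 3 → F) where
  toFun w := Sum.elim ![w (Sum.inr (Sum.inl 0)), w (Sum.inl ()), w (Sum.inr (Sum.inl 1))]
    ![w (Sum.inr (Sum.inr 0)), w (Sum.inl ()), w (Sum.inr (Sum.inr 1))]
  map_add' u v := by
    funext c
    rcases c with c | c <;> fin_cases c <;> simp
  map_smul' a u := by
    funext c
    rcases c with c | c <;> fin_cases c <;> simp

/-- The retraction of the Klein space onto the five-dimensional space. -/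
def o5R (F : Type*) [Field F] : (Fin 3 ⊕ Fin 3 → F) →ₗ[F] (Unit ⊕ (Fin 2 ⊕ Fin 2) → F) where
  toFun v := Sum.elim (fun _ => v (Sum.inl 1))
    (Sum.elim ![v (Sum.inl 0), v (Sum.inl 2)] ![v (Sum.inr 0), v (Sum.inr 2)])
  map_add' u v := by
    funext c
    rcases c with c | c | c
    · simp
    · fin_cases c <;> simp
    · fin_cases c <;> simp
  map_smul' a u := by
    funext c
    rcases c with c | c | c
    · simp
    · fin_cases c <;> simp
    · fin_cases c <;> simp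

theorem o5R_I (w : Unit ⊕ (Fin 2 ⊕ Fin 2) → F) : o5R F (o5I F w) = w := by
  funext c
  rcases c with c | c | c
  · simp [o5R, o5I]
  · fin_cases c <;> simp [o5R, o5I]
  · fin_cases c <;> simp [o5R, o5I]

theorem o5I_R (v : Fin 3 ⊕ Fin 3 → F) (h : v (Sum.inl 1) = v (Sum.inr 1)) :
    o5I F (o5R F v) = v := by
  funext c
  rcases c with c | c <;> fin_cases c <;> simp [o5R, o5I, h]

theorem o5I_mem (w : Unit ⊕ (Fin 2 ⊕ Fin 2) → F) :
    (o5I F w) (Sum.inl 1) = (o5I F w) (Sum.inr 1) := by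
  simp [o5I]

theorem o5_quad (w : Unit ⊕ (Fin 2 ⊕ Fin 2) → F) :
    Cfsg.quadFormPlus 3 F (o5I F w) = Cfsg.quadFormOdd 2 F w := by
  unfold Cfsg.quadFormPlus Cfsg.quadFormOdd
  simp [o5I, Fin.sum_univ_three, Fin.sum_univ_two]
  ring

/-- The Plücker coordinates of the symplectic form. -/
def o5J (F : Type*) [Field F] : Fin 3 ⊕ Fin 3 → F := Sum.elim ![0, -1, 0] ![0, 1, 0]

theorem o5_polar (v : Fin 3 ⊕ Fin 3 → F) :
    v (Sum.inl 1) - v (Sum.inr 1) =
      Cfsg.quadFormPlus 3 F (v + o5J F) - Cfsg.quadFormPlus 3 F v + 1 := by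
  unfold Cfsg.quadFormPlus
  simp [o5J, Fin.sum_univ_three]
  ring

theorem kleinAct_mul (g h : Matrix (Fin 4) (Fin 4) F) (v : Fin 3 ⊕ Fin 3 → F) :
    kleinAct (g * h) v = kleinAct g (kleinAct h v) :=
  LinearMap.congr_fun ((kleinHom F).map_mul g h) v

theorem kleinAct_one (v : Fin 3 ⊕ Fin 3 → F) : kleinAct (1 : Matrix (Fin 4) (Fin 4) F) v = v :=
  LinearMap.congr_fun (kleinHom F).map_one v

theorem kleinAct_quad (g : Matrix (Fin 4) (Fin 4) F) (hdet : g.det = 1) (v : Fin 3 ⊕ Fin 3 → F) :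
    Cfsg.quadFormPlus 3 F (kleinAct g v) = Cfsg.quadFormPlus 3 F v := by
  rw [kleinAct_apply, klein_quad, hdet, one_mul]

theorem kleinAct_mem (g : Matrix (Fin 4) (Fin 4) F) (hdet : g.det = 1)
    (hJ : kleinAct g (o5J F) = o5J F) (v : Fin 3 ⊕ Fin 3 → F)
    (hv : v (Sum.inl 1) = v (Sum.inr 1)) :
    (kleinAct g v) (Sum.inl 1) = (kleinAct g v) (Sum.inr 1) := by
  have h1 := o5_polar (kleinAct g v)
  have h2 := o5_polar v
  have e1 : Cfsg.quadFormPlus 3 F (kleinAct g v + o5J F) = Cfsg.quadFormPlus 3 F (v + o5J F) := by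
    have : kleinAct g v + o5J F = kleinAct g (v + o5J F) := by rw [map_add, hJ]
    rw [this, kleinAct_quad g hdet]
  rw [e1, kleinAct_quad g hdet, ← h2] at h1
  linear_combination h1 + hv

/-- The symplectic group as `4 × 4` matrices indexed by `Fin 4`. -/
noncomputable def sp4Mat (F : Type*) [Field F] : Matrix.symplecticGroup (Fin 2) F →* Matrix (Fin 4) (Fin 4) F where
  toFun A := (A : Matrix (Fin 2 ⊕ Fin 2) (Fin 2 ⊕ Fin 2) F).submatrix fin4Sum fin4Sum
  map_one' := by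
    rw [sp_coe_one, Matrix.submatrix_one_equiv]
  map_mul' A B := by
    rw [sp_coe_mul, Matrix.submatrix_mul_equiv]

theorem sp4Mat_apply (A : Matrix.symplecticGroup (Fin 2) F) :
    sp4Mat F A = (A : Matrix (Fin 2 ⊕ Fin 2) (Fin 2 ⊕ Fin 2) F).submatrix fin4Sum fin4Sum := rfl

theorem sp4Mat_det (A : Matrix.symplecticGroup (Fin 2) F) : (sp4Mat F A).det = 1 := by
  rw [sp4Mat_apply, Matrix.det_submatrix_equiv_self]
  exact SymplecticGroup.det_eq_one A.2

theorem kleinA_o5J : kleinA F (o5J F) = (Matrix.J (Fin 2) F).submatrix fin4Sum fin4Sum := by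
  ext i j
  fin_cases i <;> fin_cases j <;>
    simp [kleinA, o5J, fin4Sum, Matrix.J, Matrix.fromBlocks, Matrix.one_apply]

theorem sp4Mat_J (A : Matrix.symplecticGroup (Fin 2) F) :
    kleinAct (sp4Mat F A) (o5J F) = o5J F := by
  rw [kleinAct_apply, kleinA_o5J, sp4Mat_apply, Matrix.transpose_submatrix,
    Matrix.submatrix_mul_equiv, Matrix.submatrix_mul_equiv, SymplecticGroup.mem_iff.1 A.2,
    ← kleinA_o5J, kleinK_A]

/-- The action on the five-dimensional space. -/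
def o5Act (g : Matrix (Fin 4) (Fin 4) F) : Module.End F (Unit ⊕ (Fin 2 ⊕ Fin 2) → F) :=
  (o5R F) ∘ₗ (kleinAct g) ∘ₗ (o5I F)

theorem o5Act_apply (g : Matrix (Fin 4) (Fin 4) F) (w : Unit ⊕ (Fin 2 ⊕ Fin 2) → F) :
    o5Act g w = o5R F (kleinAct g (o5I F w)) := rfl

theorem o5I_Act (A : Matrix.symplecticGroup (Fin 2) F) (w : Unit ⊕ (Fin 2 ⊕ Fin 2) → F) :
    o5I F (o5Act (sp4Mat F A) w) = kleinAct (sp4Mat F A) (o5I F w) := by
  rw [o5Act_apply, o5I_R _ (kleinAct_mem _ (sp4Mat_det A) (sp4Mat_J A) _ (o5I_mem w))]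

/-- The representation of `Sp₄` on the five-dimensional space. -/
noncomputable def o5Hom (F : Type*) [Field F] :
    Matrix.symplecticGroup (Fin 2) F →* Module.End F (Unit ⊕ (Fin 2 ⊕ Fin 2) → F) where
  toFun A := o5Act (sp4Mat F A)
  map_one' := by
    apply LinearMap.ext
    intro w
    rw [o5Act_apply, map_one, kleinAct_one, o5R_I]
    rfl
  map_mul' A B := by
    apply LinearMap.ext
    intro w
    rw [Module.End.mul_apply, o5Act_apply, o5Act_apply, o5I_Act, map_mul, kleinAct_mul]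

theorem o5Hom_quad (A : Matrix.symplecticGroup (Fin 2) F) (w : Unit ⊕ (Fin 2 ⊕ Fin 2) → F) :
    Cfsg.quadFormOdd 2 F (o5Hom F A w) = Cfsg.quadFormOdd 2 F w := by
  change Cfsg.quadFormOdd 2 F (o5Act (sp4Mat F A) w) = _
  rw [← o5_quad, o5I_Act, kleinAct_quad _ (sp4Mat_det A), o5_quad]

/-- The homomorphism `Sp₄ → O₅`. -/
noncomputable def o5Iso (F : Type*) [Field F] :
    Matrix.symplecticGroup (Fin 2) F →* isoU F (Cfsg.quadFormOdd 2 F) :=
  isoUHom _ (o5Hom F) o5Hom_quad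

theorem o5Iso_coe (A : Matrix.symplecticGroup (Fin 2) F) :
    (((o5Iso F A : isoU F (Cfsg.quadFormOdd 2 F)) : (Module.End F (Unit ⊕ (Fin 2 ⊕ Fin 2) → F))ˣ) :
      Module.End F (Unit ⊕ (Fin 2 ⊕ Fin 2) → F)) = o5Act (sp4Mat F A) := rfl

/-- An element of the kernel acts trivially on the whole Klein space. -/
theorem o5Iso_ker (h2 : (2 : F) ≠ 0) (A : Matrix.symplecticGroup (Fin 2) F)
    (hA : A ∈ (o5Iso F).ker) (v : Fin 3 ⊕ Fin 3 → F) : kleinAct (sp4Mat F A) v = v := by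
  rw [MonoidHom.mem_ker] at hA
  have h1 : o5Act (sp4Mat F A) = 1 := by
    rw [← o5Iso_coe, hA]
    rfl
  have key : ∀ w : Unit ⊕ (Fin 2 ⊕ Fin 2) → F, kleinAct (sp4Mat F A) (o5I F w) = o5I F w := by
    intro w
    rw [← o5I_Act, h1]
    rfl
  set c : F := (v (Sum.inr 1) - v (Sum.inl 1)) / 2 with hc
  have hv : (v - c • o5J F) (Sum.inl 1) = (v - c • o5J F) (Sum.inr 1) := by
    simp [o5J, hc]
    field_simp
    ring
  have hdec : v = o5I F (o5R F (v - c • o5J F)) + c • o5J F := by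
    rw [o5I_R _ hv]
    abel
  rw [hdec, map_add, map_smul, key, sp4Mat_J]

end o5

end Cfsg.Agent.Helper5
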