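import Mathlib
import Cfsg.Agent.Helper5.Klein
import Cfsg.Agent.Helper5.O5

set_option autoImplicit false
set_option linter.unusedSimpArgs false
set_option linter.unusedSectionVars false

namespace Cfsg.Agent.Helper5

open Matrix

section kleindual
variable {K : Type*} [Field K]

/-- The swap of the two halves of the Plücker coordinates (the Hodge star). -/
def plSwap (p : Fin 3 ⊕ Fin 3 → K) : Fin 3 ⊕ Fin 3 → K := p ∘ Sum.swap

theorem plSwap_apply_inl (p : Fin 3 ⊕ Fin 3 → K) (i : Fin 3) : plSwap p (Sum.inl i) = p (Sum.inr i) :=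
  rfl

theorem plSwap_apply_inr (p : Fin 3 ⊕ Fin 3 → K) (i : Fin 3) : plSwap p (Sum.inr i) = p (Sum.inl i) :=
  rfl

theorem plSwap_plSwap (p : Fin 3 ⊕ Fin 3 → K) : plSwap (plSwap p) = p := by
  funext c
  rcases c with c | c <;> rfl

theorem kleinAct_inl0 (M : Matrix (Fin 4) (Fin 4) K) (p : Fin 3 ⊕ Fin 3 → K) :
    kleinAct M p (Sum.inl 0) = (M * kleinA K p * Mᵀ) 0 1 := rfl
theorem kleinAct_inl1 (M : Matrix (Fin 4) (Fin 4) K) (p : Fin 3 ⊕ Fin 3 → K) :
    kleinAct M p (Sum.inl 1) = (M * kleinA K p * Mᵀ) 0 2 := rfl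
theorem kleinAct_inl2 (M : Matrix (Fin 4) (Fin 4) K) (p : Fin 3 ⊕ Fin 3 → K) :
    kleinAct M p (Sum.inl 2) = (M * kleinA K p * Mᵀ) 0 3 := rfl
theorem kleinAct_inr0 (M : Matrix (Fin 4) (Fin 4) K) (p : Fin 3 ⊕ Fin 3 → K) :
    kleinAct M p (Sum.inr 0) = (M * kleinA K p * Mᵀ) 2 3 := rfl
theorem kleinAct_inr1 (M : Matrix (Fin 4) (Fin 4) K) (p : Fin 3 ⊕ Fin 3 → K) :
    kleinAct M p (Sum.inr 1) = (M * kleinA K p * Mᵀ) 3 1 := rfl
theorem kleinAct_inr2 (M : Matrix (Fin 4) (Fin 4) K) (p : Fin 3 ⊕ Fin 3 → K) :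
    kleinAct M p (Sum.inr 2) = (M * kleinA K p * Mᵀ) 1 2 := rfl

/-- The Klein action commutes with ring homomorphisms. -/
theorem kleinAct_map (ψ : K →+* K) (M : Matrix (Fin 4) (Fin 4) K) (p : Fin 3 ⊕ Fin 3 → K) :
    ψ ∘ (kleinAct M p) = kleinAct (M.map ψ) (ψ ∘ p) := by
  funext c
  rcases c with c | c <;> fin_cases c <;>
    simp only [Function.comp, kleinAct_inl0, kleinAct_inl1, kleinAct_inl2, kleinAct_inr0,
      kleinAct_inr1, kleinAct_inr2, klein_conj_apply, Matrix.map_apply, map_add, map_sub, map_mul,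
      Fin.zero_eta, Fin.mk_one, Fin.reduceFinMk]

/-- The Klein action of the transpose is the transpose of the Klein action. -/
theorem kleinAct_transpose_dot (M : Matrix (Fin 4) (Fin 4) K) (u w : Fin 3 ⊕ Fin 3 → K) :
    kleinAct Mᵀ u ⬝ᵥ w = u ⬝ᵥ kleinAct M w := by
  simp only [dotProduct, Fintype.sum_sum_type, Fin.sum_univ_three, kleinAct_inl0, kleinAct_inl1,
    kleinAct_inl2, kleinAct_inr0, kleinAct_inr1, kleinAct_inr2, klein_conj_apply,
    Matrix.transpose_apply]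
  ring

theorem dot_plSwap (u v : Fin 3 ⊕ Fin 3 → K) :
    u ⬝ᵥ plSwap v = Cfsg.quadFormPlus 3 K (u + v) - Cfsg.quadFormPlus 3 K u -
      Cfsg.quadFormPlus 3 K v := by
  unfold Cfsg.quadFormPlus
  simp only [dotProduct, Fintype.sum_sum_type, Fin.sum_univ_three, plSwap_apply_inl,
    plSwap_apply_inr, Pi.add_apply]
  ring

theorem kleinAct_polar (M : Matrix (Fin 4) (Fin 4) K) (hdet : M.det = 1)
    (u v : Fin 3 ⊕ Fin 3 → K) :
    kleinAct M u ⬝ᵥ plSwap (kleinAct M v) = u ⬝ᵥ plSwap v := by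
  rw [dot_plSwap, dot_plSwap, ← map_add, kleinAct_quad M hdet, kleinAct_quad M hdet,
    kleinAct_quad M hdet]

/-- The Hodge star intertwines the Klein action with its dual. -/
theorem plSwap_kleinAct (M M' : Matrix (Fin 4) (Fin 4) K) (hdet : M.det = 1) (h : Mᵀ * M' = 1)
    (v : Fin 3 ⊕ Fin 3 → K) : plSwap (kleinAct M v) = kleinAct M' (plSwap v) := by
  have h' : M' * Mᵀ = 1 := mul_eq_one_comm.1 h
  have key : kleinAct Mᵀ (plSwap (kleinAct M v)) = plSwap v := by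
    have h1 : ∀ u : Fin 3 ⊕ Fin 3 → K,
        u ⬝ᵥ kleinAct Mᵀ (plSwap (kleinAct M v)) = u ⬝ᵥ plSwap v := by
      intro u
      rw [← kleinAct_transpose_dot, Matrix.transpose_transpose, kleinAct_polar M hdet]
    funext c
    have h2 := h1 (Pi.single c 1)
    rw [single_dotProduct, single_dotProduct, one_mul, one_mul] at h2
    exact h2
  calc plSwap (kleinAct M v) = kleinAct (M' * Mᵀ) (plSwap (kleinAct M v)) := by
        rw [h', kleinAct_one]
    _ = kleinAct M' (plSwap v) := by rw [kleinAct_mul, key]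

/-- The semilinear involution whose fixed points form the orthogonal space of minus type. -/
def plTheta (ψ : K →+* K) (p : Fin 3 ⊕ Fin 3 → K) : Fin 3 ⊕ Fin 3 → K := plSwap (ψ ∘ p)

theorem plTheta_kleinAct (ψ : K →+* K) (M : Matrix (Fin 4) (Fin 4) K) (hdet : M.det = 1)
    (hU : Mᵀ * M.map ψ = 1) (p : Fin 3 ⊕ Fin 3 → K) :
    plTheta ψ (kleinAct M p) = kleinAct M (plTheta ψ p) := by
  unfold plTheta
  rw [kleinAct_map]
  apply plSwap_kleinAct
  · have := RingHom.map_det ψ M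
    rw [RingHom.mapMatrix_apply] at this
    rw [← this, hdet, map_one]
  · have := congrArg Matrix.transpose hU
    rw [Matrix.transpose_mul, Matrix.transpose_transpose, Matrix.transpose_one] at this
    exact this

/-- The parametrisation of the fixed points of `plTheta`. -/
def plPar (ψ : K →+* K) (z : Fin 3 → K) : Fin 3 ⊕ Fin 3 → K := Sum.elim z (ψ ∘ z)

theorem plTheta_par (ψ : K →+* K) (hψ : ∀ x, ψ (ψ x) = x) (z : Fin 3 → K) :
    plTheta ψ (plPar ψ z) = plPar ψ z := by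
  funext c
  rcases c with c | c
  · change ψ (ψ (z c)) = z c
    exact hψ _
  · rfl

theorem par_of_theta (ψ : K →+* K) (p : Fin 3 ⊕ Fin 3 → K) (h : plTheta ψ p = p) :
    p = plPar ψ (p ∘ Sum.inl) := by
  funext c
  rcases c with c | c
  · rfl
  · have := congrFun h (Sum.inr c)
    exact this.symm

theorem kleinAct_par (ψ : K →+* K) (hψ : ∀ x, ψ (ψ x) = x) (M : Matrix (Fin 4) (Fin 4) K)
    (hdet : M.det = 1) (hU : Mᵀ * M.map ψ = 1) (z : Fin 3 → K) :
    plPar ψ ((kleinAct M (plPar ψ z)) ∘ Sum.inl) = kleinAct M (plPar ψ z) := by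
  symm
  apply par_of_theta
  rw [plTheta_kleinAct ψ M hdet hU, plTheta_par ψ hψ]

theorem plPar_quad (ψ : K →+* K) (z : Fin 3 → K) :
    Cfsg.quadFormPlus 3 K (plPar ψ z) = ∑ i, z i * ψ (z i) := rfl

/-- Every vector is a combination of two fixed points of `plTheta`. -/
theorem exists_par_decomp (ψ : K →+* K) (hψ : ∀ x, ψ (ψ x) = x) (δ : K) (hδ : ψ δ ≠ δ)
    (p : Fin 3 ⊕ Fin 3 → K) :
    ∃ u u' : Fin 3 → K, p = plPar ψ u + δ • plPar ψ u' := by
  have hd : δ - ψ δ ≠ 0 := sub_ne_zero.2 (Ne.symm hδ)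
  have hd' : ψ δ - δ ≠ 0 := sub_ne_zero.2 hδ
  refine ⟨fun i => p (Sum.inl i) - δ * ((p (Sum.inl i) - ψ (p (Sum.inr i))) / (δ - ψ δ)),
    fun i => (p (Sum.inl i) - ψ (p (Sum.inr i))) / (δ - ψ δ), ?_⟩
  funext c
  rcases c with c | c
  · simp [plPar]
  · simp only [plPar, Pi.add_apply, Pi.smul_apply, Sum.elim_inr, Function.comp, smul_eq_mul,
      map_sub, map_mul, map_div₀, hψ]
    field_simp
    ring

end kleindual

end Cfsg.Agent.Helper5
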