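import Mathlib
import Cfsg.Agent.Helper5.EndIso
import Cfsg.Agent.Helper5.OmegaIso2
import Cfsg.Agent.Helper5.SLCard
import Cfsg.Agent.Helper5.SLGen

set_option autoImplicit false
set_option linter.unusedSimpArgs false
set_option linter.unusedSectionVars false

namespace Cfsg.Agent.Helper5

open Matrix
open scoped commutatorElement

section sl2gen
variable {F : Type*} [Field F]

/-- `SL₂` over a field with at least three elements is generated by the elements `t' t⁻¹`
where `t'` is conjugate to `t` under an invertible matrix. -/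
theorem sl2_induction_conj (hF : ∃ c : F, c ≠ 0 ∧ c ≠ 1)
    (P : Matrix.SpecialLinearGroup (Fin 2) F → Prop)
    (hP : ∀ (d d' : Matrix (Fin 2) (Fin 2) F) (t t' : Matrix.SpecialLinearGroup (Fin 2) F),
      d * d' = 1 → d * (t : Matrix (Fin 2) (Fin 2) F) = (t' : Matrix (Fin 2) (Fin 2) F) * d →
      P (t' * t⁻¹))
    (hmul : ∀ A B, P A → P B → P (A * B)) (a : Matrix.SpecialLinearGroup (Fin 2) F) : P a := by
  obtain ⟨c, hc0, hc1⟩ := hF
  have hc1' : c - 1 ≠ 0 := sub_ne_zero.2 hc1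
  refine SL_transvection_induction P ?_ hmul a
  intro i j hij b
  have key : ∀ (d d' : Matrix (Fin 2) (Fin 2) F), d * d' = 1 →
      d * (Matrix.SpecialLinearGroup.transvection hij (b / (c - 1)) :
          Matrix (Fin 2) (Fin 2) F) =
        (Matrix.SpecialLinearGroup.transvection hij (c * (b / (c - 1))) :
          Matrix (Fin 2) (Fin 2) F) * d →
      P (Matrix.SpecialLinearGroup.transvection hij b) := by
    intro d d' h ht
    have := hP d d' _ _ h ht
    rw [Matrix.SpecialLinearGroup.transvection_inv,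
      ← Matrix.SpecialLinearGroup.transvection_add] at this
    have e : c * (b / (c - 1)) + -(b / (c - 1)) = b := by
      field_simp
      ring
    rw [e] at this
    exact this
  fin_cases i <;> fin_cases j
  · exact absurd rfl hij
  · apply key !![c, 0; 0, 1] !![c⁻¹, 0; 0, 1]
    · ext k l
      fin_cases k <;> fin_cases l <;> simp [Matrix.mul_apply, Fin.sum_univ_two, hc0]
    · rw [Matrix.SpecialLinearGroup.transvection_coe, Matrix.SpecialLinearGroup.transvection_coe]
      ext k l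
      fin_cases k <;> fin_cases l <;>
        simp [Matrix.mul_apply, Fin.sum_univ_two, Matrix.single_apply, Matrix.one_apply]
  · apply key !![1, 0; 0, c] !![1, 0; 0, c⁻¹]
    · ext k l
      fin_cases k <;> fin_cases l <;> simp [Matrix.mul_apply, Fin.sum_univ_two, hc0]
    · rw [Matrix.SpecialLinearGroup.transvection_coe, Matrix.SpecialLinearGroup.transvection_coe]
      ext k l
      fin_cases k <;> fin_cases l <;>
        simp [Matrix.mul_apply, Fin.sum_univ_two, Matrix.single_apply, Matrix.one_apply]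
  · exact absurd rfl hij

/-- A matrix of determinant one commuting with the two elementary nilpotent matrices up to
scalars is central in `SL₂`. -/
theorem sl2_mem_center_of_scalar_comm (s : Matrix.SpecialLinearGroup (Fin 2) F)
    (h : ∀ t : Matrix.SpecialLinearGroup (Fin 2) F, ∃ r : F,
      (s : Matrix (Fin 2) (Fin 2) F) * (t : Matrix (Fin 2) (Fin 2) F) =
        r • ((t : Matrix (Fin 2) (Fin 2) F) * (s : Matrix (Fin 2) (Fin 2) F))) :
    s ∈ Subgroup.center (Matrix.SpecialLinearGroup (Fin 2) F) := by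
  have hdet : (s : Matrix (Fin 2) (Fin 2) F) 0 0 * (s : Matrix (Fin 2) (Fin 2) F) 1 1 -
      (s : Matrix (Fin 2) (Fin 2) F) 0 1 * (s : Matrix (Fin 2) (Fin 2) F) 1 0 = 1 := by
    rw [← Matrix.det_fin_two]
    exact s.2
  obtain ⟨r, hr⟩ := h (Matrix.SpecialLinearGroup.transvection (i := (0 : Fin 2)) (j := 1)
    (by decide) 1)
  obtain ⟨r', hr'⟩ := h (Matrix.SpecialLinearGroup.transvection (i := (1 : Fin 2)) (j := 0)
    (by decide) 1)
  rw [Matrix.SpecialLinearGroup.transvection_coe] at hr hr'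
  have e00 := congrFun (congrFun hr 0) 0
  have e10 := congrFun (congrFun hr 1) 0
  have e01 := congrFun (congrFun hr 0) 1
  have f01 := congrFun (congrFun hr' 0) 1
  have f00 := congrFun (congrFun hr' 0) 0
  simp [Matrix.mul_apply, Fin.sum_univ_two, Matrix.single_apply, Matrix.one_apply,
    Matrix.add_apply] at e00 e10 e01 f01 f00
  have h10 : (s : Matrix (Fin 2) (Fin 2) F) 1 0 = 0 := by
    by_contra hne
    have hr1 : r = 1 := by
      have : (s : Matrix (Fin 2) (Fin 2) F) 1 0 * (1 - r) = 0 := by linear_combination e10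
      rcases mul_eq_zero.1 this with h' | h'
      · exact absurd h' hne
      · exact (sub_eq_zero.1 h').symm
    rw [hr1] at e00
    exact hne (by linear_combination -e00)
  have h00 : (s : Matrix (Fin 2) (Fin 2) F) 0 0 ≠ 0 := by
    intro h0
    rw [h0, h10] at hdet
    simp at hdet
  have hr1 : r = 1 := by
    rw [h10] at e00
    have : (s : Matrix (Fin 2) (Fin 2) F) 0 0 * (1 - r) = 0 := by linear_combination e00
    rcases mul_eq_zero.1 this with h' | h'
    · exact absurd h' h00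
    · exact (sub_eq_zero.1 h').symm
  have h11 : (s : Matrix (Fin 2) (Fin 2) F) 1 1 = (s : Matrix (Fin 2) (Fin 2) F) 0 0 := by
    rw [hr1] at e01
    linear_combination -e01
  have h01 : (s : Matrix (Fin 2) (Fin 2) F) 0 1 = 0 := by
    by_contra hne
    have hr1' : r' = 1 := by
      have : (s : Matrix (Fin 2) (Fin 2) F) 0 1 * (1 - r') = 0 := by linear_combination f01
      rcases mul_eq_zero.1 this with h' | h'
      · exact absurd h' hne
      · exact (sub_eq_zero.1 h').symm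
    rw [hr1'] at f00
    exact hne (by linear_combination f00)
  rw [Matrix.SpecialLinearGroup.mem_center_iff]
  refine ⟨(s : Matrix (Fin 2) (Fin 2) F) 0 0, ?_, ?_⟩
  · rw [Fintype.card_fin, pow_two]
    rw [h11, h01] at hdet
    linear_combination hdet
  · ext i j
    fin_cases i <;> fin_cases j <;> simp [h01, h10, h11]

end sl2gen

section o3
variable {F : Type*} [Field F]

/-- The three-dimensional space as trace-zero `2 × 2` matrices. -/
def m3C (F : Type*) [Field F] : (Unit ⊕ (Fin 1 ⊕ Fin 1) → F) →ₗ[F] Matrix (Fin 2) (Fin 2) F where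
  toFun v := !![v (Sum.inl ()), v (Sum.inr (Sum.inl 0)); v (Sum.inr (Sum.inr 0)), - v (Sum.inl ())]
  map_add' u v := by
    ext i j
    fin_cases i <;> fin_cases j <;> simp
    ring
  map_smul' c v := by
    ext i j
    fin_cases i <;> fin_cases j <;> simp

/-- The coordinates of a trace-zero `2 × 2` matrix. -/
def m3K (F : Type*) [Field F] : Matrix (Fin 2) (Fin 2) F →ₗ[F] (Unit ⊕ (Fin 1 ⊕ Fin 1) → F) where
  toFun X := Sum.elim (fun _ => X 0 0) (Sum.elim (fun _ => X 0 1) (fun _ => X 1 0))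
  map_add' M N := by
    funext c
    rcases c with c | c | c <;> simp
  map_smul' a M := by
    funext c
    rcases c with c | c | c <;> simp

theorem m3K_C (v : Unit ⊕ (Fin 1 ⊕ Fin 1) → F) : m3K F (m3C F v) = v := by
  funext c
  rcases c with c | c | c
  · simp [m3K, m3C]
  · have : c = 0 := Subsingleton.elim _ _
    simp [m3K, m3C, this]
  · have : c = 0 := Subsingleton.elim _ _
    simp [m3K, m3C, this]

theorem m3C_K (X : Matrix (Fin 2) (Fin 2) F) (h : X 1 1 = - X 0 0) : m3C F (m3K F X) = X := by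
  ext i j
  fin_cases i <;> fin_cases j <;> simp [m3K, m3C, h]

theorem m3C_tr (v : Unit ⊕ (Fin 1 ⊕ Fin 1) → F) : (m3C F v) 1 1 = - (m3C F v) 0 0 := by
  simp [m3C]

theorem m3_quad (X : Matrix (Fin 2) (Fin 2) F) (h : X 1 1 = - X 0 0) :
    Cfsg.quadFormOdd 1 F (m3K F X) = - X.det := by
  rw [Matrix.det_fin_two]
  unfold Cfsg.quadFormOdd
  simp [m3K, h]
  ring

theorem conj_tr (d d' X : Matrix (Fin 2) (Fin 2) F) (h : d * d' = 1) (hX : X 1 1 = - X 0 0) :
    (d * X * d') 1 1 = - (d * X * d') 0 0 := by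
  have h' : d' * d = 1 := mul_eq_one_comm.1 h
  have h1 : Matrix.trace (d * X * d') = Matrix.trace X := by
    rw [Matrix.trace_mul_cycle, h', one_mul]
  rw [Matrix.trace_fin_two, Matrix.trace_fin_two] at h1
  linear_combination h1 + hX

/-- The maps `X ↦ d X d'` on trace-zero matrices. -/
def m3Cj (d d' : Matrix (Fin 2) (Fin 2) F) : Module.End F (Unit ⊕ (Fin 1 ⊕ Fin 1) → F) where
  toFun v := m3K F (d * m3C F v * d')
  map_add' u v := by rw [map_add, mul_add, add_mul, map_add]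
  map_smul' c v := by
    rw [map_smul, Matrix.mul_smul, Matrix.smul_mul, map_smul]
    rfl

theorem m3Cj_apply (d d' : Matrix (Fin 2) (Fin 2) F) (v : Unit ⊕ (Fin 1 ⊕ Fin 1) → F) :
    m3Cj d d' v = m3K F (d * m3C F v * d') := rfl

theorem m3Cj_one : m3Cj (1 : Matrix (Fin 2) (Fin 2) F) 1 = 1 := by
  apply LinearMap.ext
  intro v
  rw [m3Cj_apply, one_mul, mul_one, m3K_C]
  rfl

theorem m3Cj_mul (d d' e e' : Matrix (Fin 2) (Fin 2) F) (he : e * e' = 1) :
    m3Cj d d' * m3Cj e e' = m3Cj (d * e) (e' * d') := by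
  apply LinearMap.ext
  intro v
  rw [Module.End.mul_apply, m3Cj_apply, m3Cj_apply, m3Cj_apply,
    m3C_K _ (conj_tr e e' _ he (m3C_tr v))]
  simp only [mul_assoc]

theorem m3Cj_quad (d d' : Matrix (Fin 2) (Fin 2) F) (h : d * d' = 1)
    (v : Unit ⊕ (Fin 1 ⊕ Fin 1) → F) :
    Cfsg.quadFormOdd 1 F (m3Cj d d' v) = Cfsg.quadFormOdd 1 F v := by
  rw [m3Cj_apply, m3_quad _ (conj_tr d d' _ h (m3C_tr v)), Matrix.det_mul, Matrix.det_mul,
    mul_right_comm, ← Matrix.det_mul, h, Matrix.det_one, one_mul, ← m3_quad _ (m3C_tr v), m3K_C]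

theorem sl_mul_inv (a : Matrix.SpecialLinearGroup (Fin 2) F) :
    (a : Matrix (Fin 2) (Fin 2) F) * ((a⁻¹ : Matrix.SpecialLinearGroup (Fin 2) F) :
      Matrix (Fin 2) (Fin 2) F) = 1 := by
  rw [← Matrix.SpecialLinearGroup.coe_mul, mul_inv_cancel, Matrix.SpecialLinearGroup.coe_one]

theorem sl_inv_mul (a : Matrix.SpecialLinearGroup (Fin 2) F) :
    ((a⁻¹ : Matrix.SpecialLinearGroup (Fin 2) F) : Matrix (Fin 2) (Fin 2) F) *
      (a : Matrix (Fin 2) (Fin 2) F) = 1 := by
  rw [← Matrix.SpecialLinearGroup.coe_mul, inv_mul_cancel, Matrix.SpecialLinearGroup.coe_one]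

/-- The adjoint representation of `SL₂` on trace-zero matrices. -/
def m3AdHom (F : Type*) [Field F] :
    Matrix.SpecialLinearGroup (Fin 2) F →* Module.End F (Unit ⊕ (Fin 1 ⊕ Fin 1) → F) where
  toFun a := m3Cj (a : Matrix (Fin 2) (Fin 2) F)
    ((a⁻¹ : Matrix.SpecialLinearGroup (Fin 2) F) : Matrix (Fin 2) (Fin 2) F)
  map_one' := by
    rw [inv_one, Matrix.SpecialLinearGroup.coe_one, m3Cj_one]
  map_mul' a b := by
    rw [m3Cj_mul _ _ _ _ (sl_mul_inv b), _root_.mul_inv_rev, Matrix.SpecialLinearGroup.coe_mul,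
      Matrix.SpecialLinearGroup.coe_mul]

/-- The adjoint representation as a homomorphism to the isometries. -/
noncomputable def o3Ad (F : Type*) [Field F] :
    Matrix.SpecialLinearGroup (Fin 2) F →* isoU F (Cfsg.quadFormOdd 1 F) :=
  isoUHom _ (m3AdHom F) (fun a v => m3Cj_quad _ _ (sl_mul_inv a) v)

theorem o3Ad_coe (a : Matrix.SpecialLinearGroup (Fin 2) F) :
    (((o3Ad F a : isoU F (Cfsg.quadFormOdd 1 F)) : (Module.End F (Unit ⊕ (Fin 1 ⊕ Fin 1) → F))ˣ) :
      Module.End F (Unit ⊕ (Fin 1 ⊕ Fin 1) → F)) =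
    m3Cj (a : Matrix (Fin 2) (Fin 2) F)
      ((a⁻¹ : Matrix.SpecialLinearGroup (Fin 2) F) : Matrix (Fin 2) (Fin 2) F) := rfl

/-- The isometry `X ↦ d X d⁻¹`. -/
noncomputable def o3C (d d' : Matrix (Fin 2) (Fin 2) F) (h : d * d' = 1) :
    isoU F (Cfsg.quadFormOdd 1 F) :=
  ⟨⟨m3Cj d d', m3Cj d' d,
    by rw [m3Cj_mul _ _ _ _ (mul_eq_one_comm.1 h), h, m3Cj_one],
    by rw [m3Cj_mul _ _ _ _ h, mul_eq_one_comm.1 h, m3Cj_one]⟩,
    fun v => m3Cj_quad d d' h v⟩

theorem o3C_conj (d d' : Matrix (Fin 2) (Fin 2) F) (h : d * d' = 1)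
    (t t' : Matrix.SpecialLinearGroup (Fin 2) F)
    (ht : d * (t : Matrix (Fin 2) (Fin 2) F) = (t' : Matrix (Fin 2) (Fin 2) F) * d) :
    o3C d d' h * o3Ad F t = o3Ad F t' * o3C d d' h := by
  have h' : d' * d = 1 := mul_eq_one_comm.1 h
  apply isoU_ext
  change m3Cj d d' * m3Cj (t : Matrix (Fin 2) (Fin 2) F)
      ((t⁻¹ : Matrix.SpecialLinearGroup (Fin 2) F) : Matrix (Fin 2) (Fin 2) F) =
    m3Cj (t' : Matrix (Fin 2) (Fin 2) F)
      ((t'⁻¹ : Matrix.SpecialLinearGroup (Fin 2) F) : Matrix (Fin 2) (Fin 2) F) * m3Cj d d'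
  rw [m3Cj_mul _ _ _ _ (sl_mul_inv t), m3Cj_mul _ _ _ _ h, ht]
  congr 1
  -- `t⁻¹ d' = d' t'⁻¹`
  have e1 : d' * (t' : Matrix (Fin 2) (Fin 2) F) = (t : Matrix (Fin 2) (Fin 2) F) * d' := by
    calc d' * (t' : Matrix (Fin 2) (Fin 2) F)
        = d' * ((t' : Matrix (Fin 2) (Fin 2) F) * d) * d' := by
          rw [mul_assoc, mul_assoc, h, mul_one]
      _ = (t : Matrix (Fin 2) (Fin 2) F) * d' := by
          rw [← ht, ← mul_assoc, h', one_mul]
  calc ((t⁻¹ : Matrix.SpecialLinearGroup (Fin 2) F) : Matrix (Fin 2) (Fin 2) F) * d'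
      = ((t⁻¹ : Matrix.SpecialLinearGroup (Fin 2) F) : Matrix (Fin 2) (Fin 2) F) *
          ((t : Matrix (Fin 2) (Fin 2) F) * d') *
          ((t'⁻¹ : Matrix.SpecialLinearGroup (Fin 2) F) : Matrix (Fin 2) (Fin 2) F) := by
        rw [← e1, mul_assoc, mul_assoc, sl_mul_inv, mul_one]
    _ = d' * ((t'⁻¹ : Matrix.SpecialLinearGroup (Fin 2) F) : Matrix (Fin 2) (Fin 2) F) := by
        rw [← mul_assoc, sl_inv_mul, one_mul]

theorem o3Ad_mem_commutator (hF : ∃ c : F, c ≠ 0 ∧ c ≠ 1)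
    (a : Matrix.SpecialLinearGroup (Fin 2) F) :
    o3Ad F a ∈ commutator (isoU F (Cfsg.quadFormOdd 1 F)) := by
  refine sl2_induction_conj hF (fun a => o3Ad F a ∈ commutator (isoU F (Cfsg.quadFormOdd 1 F)))
    ?_ ?_ a
  · intro d d' t t' h ht
    have hconj := o3C_conj d d' h t t' ht
    have e : o3Ad F (t' * t⁻¹) = ⁅o3C d d' h, o3Ad F t⁆ := by
      rw [commutatorElement_def, hconj, map_mul, map_inv]
      group
    rw [e, commutator_def]
    exact Subgroup.commutator_mem_commutator (Subgroup.mem_top _) (Subgroup.mem_top _)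
  · intro A B hA hB
    rw [map_mul]
    exact Subgroup.mul_mem _ hA hB

/-- The kernel of the adjoint representation is central. -/
theorem o3Ad_ker_le : (o3Ad F).ker ≤ Subgroup.center (Matrix.SpecialLinearGroup (Fin 2) F) := by
  intro a ha
  rw [MonoidHom.mem_ker] at ha
  have h1 : m3Cj (a : Matrix (Fin 2) (Fin 2) F)
      ((a⁻¹ : Matrix.SpecialLinearGroup (Fin 2) F) : Matrix (Fin 2) (Fin 2) F) = 1 := by
    rw [← o3Ad_coe, ha]
    rfl
  have key : ∀ v : Unit ⊕ (Fin 1 ⊕ Fin 1) → F,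
      (a : Matrix (Fin 2) (Fin 2) F) * m3C F v = m3C F v * (a : Matrix (Fin 2) (Fin 2) F) := by
    intro v
    have h2 := congrArg (m3C F) (LinearMap.congr_fun h1 v)
    rw [m3Cj_apply, m3C_K _ (conj_tr _ _ _ (sl_mul_inv a) (m3C_tr v))] at h2
    have h3 : (a : Matrix (Fin 2) (Fin 2) F) * m3C F v *
        ((a⁻¹ : Matrix.SpecialLinearGroup (Fin 2) F) : Matrix (Fin 2) (Fin 2) F) = m3C F v := h2
    calc (a : Matrix (Fin 2) (Fin 2) F) * m3C F v
        = (a : Matrix (Fin 2) (Fin 2) F) * m3C F v *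
          (((a⁻¹ : Matrix.SpecialLinearGroup (Fin 2) F) : Matrix (Fin 2) (Fin 2) F) *
            (a : Matrix (Fin 2) (Fin 2) F)) := by rw [sl_inv_mul, mul_one]
      _ = m3C F v * (a : Matrix (Fin 2) (Fin 2) F) := by rw [← mul_assoc, h3]
  have k1 := key (Pi.single (Sum.inr (Sum.inl 0)) 1)
  have k2 := key (Pi.single (Sum.inr (Sum.inr 0)) 1)
  have hdet : (a : Matrix (Fin 2) (Fin 2) F) 0 0 * (a : Matrix (Fin 2) (Fin 2) F) 1 1 -
      (a : Matrix (Fin 2) (Fin 2) F) 0 1 * (a : Matrix (Fin 2) (Fin 2) F) 1 0 = 1 := by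
    rw [← Matrix.det_fin_two]
    exact a.2
  have e10 : (a : Matrix (Fin 2) (Fin 2) F) 1 0 = 0 := by
    have := congrFun (congrFun k1 1) 1
    simpa [m3C, Matrix.mul_apply, Fin.sum_univ_two] using this
  have e11 : (a : Matrix (Fin 2) (Fin 2) F) 1 1 = (a : Matrix (Fin 2) (Fin 2) F) 0 0 := by
    have := congrFun (congrFun k1 0) 1
    simpa [m3C, Matrix.mul_apply, Fin.sum_univ_two] using this.symm
  have e01 : (a : Matrix (Fin 2) (Fin 2) F) 0 1 = 0 := by
    have := congrFun (congrFun k2 0) 0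
    simpa [m3C, Matrix.mul_apply, Fin.sum_univ_two] using this
  rw [Matrix.SpecialLinearGroup.mem_center_iff]
  refine ⟨(a : Matrix (Fin 2) (Fin 2) F) 0 0, ?_, ?_⟩
  · rw [Fintype.card_fin, pow_two]
    rw [e11, e01] at hdet
    linear_combination hdet
  · ext i j
    fin_cases i <;> fin_cases j <;> simp [e01, e10, e11]

/-- Minus the identity as an isometry. -/
noncomputable def o3Neg (F : Type*) [Field F] : isoU F (Cfsg.quadFormOdd 1 F) :=
  ⟨-1, fun v => by
    change Cfsg.quadFormOdd 1 F (-v) = _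
    unfold Cfsg.quadFormOdd
    simp⟩

theorem o3Neg_comm (u : isoU F (Cfsg.quadFormOdd 1 F)) : o3Neg F * u = u * o3Neg F := by
  apply isoU_ext
  apply LinearMap.ext
  intro v
  change -(((u : (Module.End F (Unit ⊕ (Fin 1 ⊕ Fin 1) → F))ˣ) :
      Module.End F (Unit ⊕ (Fin 1 ⊕ Fin 1) → F)) v) =
    ((u : (Module.End F (Unit ⊕ (Fin 1 ⊕ Fin 1) → F))ˣ) :
      Module.End F (Unit ⊕ (Fin 1 ⊕ Fin 1) → F)) (-v)
  rw [map_neg]

theorem det_o3Neg : Matrix.det (LinearMap.toMatrix'
    (-1 : Module.End F (Unit ⊕ (Fin 1 ⊕ Fin 1) → F))) = -1 := by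
  rw [map_neg, Matrix.det_neg]
  have : LinearMap.toMatrix' (1 : Module.End F (Unit ⊕ (Fin 1 ⊕ Fin 1) → F)) = 1 :=
    LinearMap.toMatrix'_id
  rw [this, Matrix.det_one]
  simp
  ring

end o3

end Cfsg.Agent.Helper5
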