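import Mathlib
import Cfsg.Agent.Helper5.KleinDual
import Cfsg.Agent.Helper5.EndIso
import Cfsg.Agent.Helper5.NormOne

set_option autoImplicit false
set_option linter.unusedSimpArgs false
set_option linter.unusedSectionVars false

namespace Cfsg.Agent.Helper5

open Matrix

section o6minus
variable {F : Type*} [Field F] (a b : F) [Fact (∀ r : F, r ^ 2 ≠ -b + a * r)]

theorem plPar_add (z z' : Fin 3 → QuadraticAlgebra F (-b) a) :
    plPar (starRingEnd (QuadraticAlgebra F (-b) a)) (z + z') =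
      plPar (starRingEnd _) z + plPar (starRingEnd _) z' := by
  funext c
  rcases c with c | c <;> simp [plPar]

theorem plPar_smul (r : F) (z : Fin 3 → QuadraticAlgebra F (-b) a) :
    plPar (starRingEnd (QuadraticAlgebra F (-b) a)) (r • z) = r • plPar (starRingEnd _) z := by
  funext c
  rcases c with c | c
  · simp [plPar]
  · simp only [plPar, Sum.elim_inr, Function.comp, Pi.smul_apply, starRingEnd_apply]
    ext <;> simp <;> ring

/-- The action of a unitary matrix on the fixed points of the semilinear involution. -/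
def u6Act (M : Matrix (Fin 4) (Fin 4) (QuadraticAlgebra F (-b) a)) :
    Module.End F (Fin 3 → QuadraticAlgebra F (-b) a) where
  toFun z := (kleinAct M (plPar (starRingEnd _) z)) ∘ Sum.inl
  map_add' z z' := by
    rw [plPar_add, map_add]
    rfl
  map_smul' r z := by
    rw [plPar_smul, ← algebraMap_smul (QuadraticAlgebra F (-b) a) r (plPar _ z), map_smul,
      algebraMap_smul]
    rfl

theorem u6Act_apply (M : Matrix (Fin 4) (Fin 4) (QuadraticAlgebra F (-b) a))
    (z : Fin 3 → QuadraticAlgebra F (-b) a) :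
    u6Act a b M z = (kleinAct M (plPar (starRingEnd _) z)) ∘ Sum.inl := rfl

theorem u6_par (M : Matrix (Fin 4) (Fin 4) (QuadraticAlgebra F (-b) a)) (hdet : M.det = 1)
    (hU : Mᵀ * M.map (starRingEnd _) = 1) (z : Fin 3 → QuadraticAlgebra F (-b) a) :
    plPar (starRingEnd _) (u6Act a b M z) = kleinAct M (plPar (starRingEnd _) z) :=
  kleinAct_par _ (fun x => star_star x) M hdet hU z

theorem u6Act_one : u6Act a b (1 : Matrix (Fin 4) (Fin 4) (QuadraticAlgebra F (-b) a)) = 1 := by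
  apply LinearMap.ext
  intro z
  rw [u6Act_apply, kleinAct_one]
  rfl

theorem u6Act_mul (M M' : Matrix (Fin 4) (Fin 4) (QuadraticAlgebra F (-b) a)) (hdet : M'.det = 1)
    (hU : M'ᵀ * M'.map (starRingEnd _) = 1) :
    u6Act a b (M * M') = u6Act a b M * u6Act a b M' := by
  apply LinearMap.ext
  intro z
  rw [Module.End.mul_apply, u6Act_apply, u6Act_apply, u6_par a b M' hdet hU, kleinAct_mul]

/-- The sum of the three norms. -/
def nrm3 (z : Fin 3 → QuadraticAlgebra F (-b) a) : F := ∑ i, QuadraticAlgebra.norm (z i)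

theorem par_quad (z : Fin 3 → QuadraticAlgebra F (-b) a) :
    Cfsg.quadFormPlus 3 (QuadraticAlgebra F (-b) a) (plPar (starRingEnd _) z) =
      algebraMap F (QuadraticAlgebra F (-b) a) (nrm3 a b z) := by
  rw [plPar_quad, nrm3, map_sum]
  apply Finset.sum_congr rfl
  intro i _
  rw [QuadraticAlgebra.algebraMap_norm_eq_mul_star, starRingEnd_apply]

theorem u6Act_nrm (M : Matrix (Fin 4) (Fin 4) (QuadraticAlgebra F (-b) a)) (hdet : M.det = 1)
    (hU : Mᵀ * M.map (starRingEnd _) = 1) (z : Fin 3 → QuadraticAlgebra F (-b) a) :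
    nrm3 a b (u6Act a b M z) = nrm3 a b z := by
  apply QuadraticAlgebra.algebraMap_injective (a := -b) (b := a)
  rw [← par_quad, ← par_quad, u6_par a b M hdet hU, kleinAct_quad M hdet]

/-- The coordinates identifying the sum of three norm forms with the standard minus form. -/
def u6Phi (c : QuadraticAlgebra F (-b) a) :
    (Fin 3 → QuadraticAlgebra F (-b) a) →ₗ[F] ((Fin 2 ⊕ Fin 2) ⊕ Fin 2 → F) where
  toFun z := Sum.elim (Sum.elim ![(z 0).re - (c * z 1).re, (z 0).im - (c * z 1).im]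
      ![(z 0).re + (c * z 1).re + a * (z 0).im,
        b * ((z 0).im + (c * z 1).im) + a * (c * z 1).re])
    ![(z 2).re, (z 2).im]
  map_add' z z' := by
    funext k
    rcases k with (k | k) | k <;> fin_cases k <;> simp [mul_add] <;> ring
  map_smul' r z := by
    funext k
    rcases k with (k | k) | k <;> fin_cases k <;> simp <;> ring

theorem u6Phi_quad (c : QuadraticAlgebra F (-b) a) (hc : QuadraticAlgebra.norm c = -1)
    (z : Fin 3 → QuadraticAlgebra F (-b) a) :
    Cfsg.quadFormMinus 2 F a b (u6Phi a b c z) = nrm3 a b z := by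
  have h1 : QuadraticAlgebra.norm (z 1) = -QuadraticAlgebra.norm (c * z 1) := by
    rw [map_mul, hc]
    ring
  unfold Cfsg.quadFormMinus nrm3
  rw [Fin.sum_univ_three, h1]
  obtain ⟨w, hw⟩ : ∃ w, w = c * z 1 := ⟨_, rfl⟩
  simp only [u6Phi, LinearMap.coe_mk, AddHom.coe_mk, ← hw, Fin.sum_univ_two, Sum.elim_inl,
    Sum.elim_inr, QuadraticAlgebra.norm_def, Matrix.cons_val_zero, Matrix.cons_val_one]
  ring

theorem u6Phi_injective (c : QuadraticAlgebra F (-b) a) (hc : c ≠ 0) (hd : 4 * b - a ^ 2 ≠ 0) :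
    Function.Injective (u6Phi a b c) := by
  rw [injective_iff_map_eq_zero]
  intro z hz
  have e1 := congrFun hz (Sum.inl (Sum.inl 0))
  have e2 := congrFun hz (Sum.inl (Sum.inl 1))
  have e3 := congrFun hz (Sum.inl (Sum.inr 0))
  have e4 := congrFun hz (Sum.inl (Sum.inr 1))
  have e5 := congrFun hz (Sum.inr 0)
  have e6 := congrFun hz (Sum.inr 1)
  obtain ⟨w, hw⟩ : ∃ w, w = c * z 1 := ⟨_, rfl⟩
  simp only [u6Phi, LinearMap.coe_mk, AddHom.coe_mk, ← hw, Sum.elim_inl, Sum.elim_inr,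
    Matrix.cons_val_zero, Matrix.cons_val_one, Pi.zero_apply] at e1 e2 e3 e4 e5 e6
  have him : (z 0).im = 0 := by
    have : (4 * b - a ^ 2) * (z 0).im = 0 := by
      linear_combination 2 * e4 + 2 * b * e2 + a * e1 - a * e3
    rcases mul_eq_zero.1 this with h | h
    · exact absurd h hd
    · exact h
  have hre : (z 0).re = 0 := by
    have : (4 * b - a ^ 2) * (z 0).re = 0 := by
      linear_combination 2 * b * e3 + 2 * b * e1 - a * e4 - a * b * e2 - a ^ 2 * e1
    rcases mul_eq_zero.1 this with h | h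
    · exact absurd h hd
    · exact h
  have h0 : z 0 = 0 := QuadraticAlgebra.ext hre him
  have hw0 : w = 0 := by
    apply QuadraticAlgebra.ext
    · rw [hre] at e1
      simpa using (neg_eq_zero.1 (by linear_combination e1 : -w.re = 0))
    · rw [him] at e2
      simpa using (neg_eq_zero.1 (by linear_combination e2 : -w.im = 0))
  have h1 : z 1 = 0 := by
    rw [hw0] at hw
    rcases mul_eq_zero.1 hw.symm with h | h
    · exact absurd h hc
    · exact h
  have h2 : z 2 = 0 := QuadraticAlgebra.ext e5 e6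
  funext i
  fin_cases i
  · exact h0
  · exact h1
  · exact h2

end o6minus

section endconj
variable {F : Type*} [Field F] {V W : Type*} [AddCommGroup V] [Module F V] [AddCommGroup W]
  [Module F W]

/-- Conjugation of endomorphisms by a linear equivalence, as a monoid homomorphism. -/
def endConj (Φ : V ≃ₗ[F] W) : Module.End F V →* Module.End F W where
  toFun f := Φ.toLinearMap ∘ₗ f ∘ₗ Φ.symm.toLinearMap
  map_one' := by
    apply LinearMap.ext
    intro x
    simp
  map_mul' f g := by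
    apply LinearMap.ext
    intro x
    simp

theorem endConj_apply (Φ : V ≃ₗ[F] W) (f : Module.End F V) (x : W) :
    endConj Φ f x = Φ (f (Φ.symm x)) := rfl

end endconj

section o6hom
variable {F : Type*} [Field F] (a b : F) [Fact (∀ r : F, r ^ 2 ≠ -b + a * r)] {q : ℕ}

/-- Unitarity in matrix form. -/
theorem su4_unitary (hq : q ≠ 0) (hstar : ∀ z : QuadraticAlgebra F (-b) a, star z = z ^ q)
    (g : Matrix.SpecialLinearGroup (Fin 4) (QuadraticAlgebra F (-b) a))
    (hg : g ∈ Cfsg.SU 4 (QuadraticAlgebra F (-b) a) q) :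
    (g : Matrix (Fin 4) (Fin 4) (QuadraticAlgebra F (-b) a))ᵀ *
      (g : Matrix (Fin 4) (Fin 4) (QuadraticAlgebra F (-b) a)).map (starRingEnd _) = 1 := by
  refine Matrix.ext fun j k => ?_
  have h := hg (Pi.single j 1) (Pi.single k 1)
  simp only [Cfsg.hermForm, Cfsg.slToMat] at h
  have hc : ((Units.coeHom (Matrix (Fin 4) (Fin 4) (QuadraticAlgebra F (-b) a))).comp
      Matrix.SpecialLinearGroup.toGL) g
      = (g : Matrix (Fin 4) (Fin 4) (QuadraticAlgebra F (-b) a)) := rfl
  rw [hc] at h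
  simp only [Matrix.mul_apply, Matrix.transpose_apply, Matrix.map_apply, starRingEnd_apply, hstar]
  have h1 : ∀ (l : Fin 4) (x : Fin 4),
      ((g : Matrix (Fin 4) (Fin 4) (QuadraticAlgebra F (-b) a)) *ᵥ Pi.single l 1) x =
        (g : Matrix (Fin 4) (Fin 4) (QuadraticAlgebra F (-b) a)) x l := by
    intro l x
    simp
  simp only [h1] at h
  rw [h]
  fin_cases j <;> fin_cases k <;> simp [Pi.single_apply, hq]

/-- The action of `SU₄` on the fixed points. -/
def u6Hom (hq : q ≠ 0) (hstar : ∀ z : QuadraticAlgebra F (-b) a, star z = z ^ q) :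
    ↥(Cfsg.SU 4 (QuadraticAlgebra F (-b) a) q) →*
      Module.End F (Fin 3 → QuadraticAlgebra F (-b) a) where
  toFun g := u6Act a b ((g : Matrix.SpecialLinearGroup (Fin 4) (QuadraticAlgebra F (-b) a)) :
    Matrix (Fin 4) (Fin 4) (QuadraticAlgebra F (-b) a))
  map_one' := u6Act_one a b
  map_mul' g h := by
    change u6Act a b (((g * h : ↥(Cfsg.SU 4 (QuadraticAlgebra F (-b) a) q)) :
      Matrix.SpecialLinearGroup (Fin 4) (QuadraticAlgebra F (-b) a)) :
      Matrix (Fin 4) (Fin 4) (QuadraticAlgebra F (-b) a)) = _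
    rw [Subgroup.coe_mul, Matrix.SpecialLinearGroup.coe_mul,
      u6Act_mul a b _ _ h.1.2 (su4_unitary a b hq hstar h.1 h.2)]

theorem u6_finrank : Module.finrank F (Fin 3 → QuadraticAlgebra F (-b) a) =
    Module.finrank F ((Fin 2 ⊕ Fin 2) ⊕ Fin 2 → F) := by
  rw [Module.finrank_pi_fintype, Module.finrank_fintype_fun_eq_card]
  simp [QuadraticAlgebra.finrank_eq_two]

/-- The coordinates as a linear equivalence. -/
noncomputable def u6PhiE (c : QuadraticAlgebra F (-b) a) (hc : c ≠ 0) (hd : 4 * b - a ^ 2 ≠ 0) :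
    (Fin 3 → QuadraticAlgebra F (-b) a) ≃ₗ[F] ((Fin 2 ⊕ Fin 2) ⊕ Fin 2 → F) :=
  LinearMap.linearEquivOfInjective (u6Phi a b c) (u6Phi_injective a b c hc hd) (u6_finrank a b)

theorem u6PhiE_apply (c : QuadraticAlgebra F (-b) a) (hc : c ≠ 0) (hd : 4 * b - a ^ 2 ≠ 0)
    (z : Fin 3 → QuadraticAlgebra F (-b) a) : u6PhiE a b c hc hd z = u6Phi a b c z := rfl

/-- The homomorphism `SU₄(q) → O⁻₆(q)`. -/
noncomputable def u6Rho (hq : q ≠ 0) (hstar : ∀ z : QuadraticAlgebra F (-b) a, star z = z ^ q)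
    (c : QuadraticAlgebra F (-b) a) (hc0 : c ≠ 0) (hc : QuadraticAlgebra.norm c = -1)
    (hd : 4 * b - a ^ 2 ≠ 0) :
    ↥(Cfsg.SU 4 (QuadraticAlgebra F (-b) a) q) →* isoU F (Cfsg.quadFormMinus 2 F a b) :=
  isoUHom _ ((endConj (u6PhiE a b c hc0 hd)).comp (u6Hom a b hq hstar)) (fun g v => by
    change Cfsg.quadFormMinus 2 F a b (u6PhiE a b c hc0 hd (u6Act a b _ ((u6PhiE a b c hc0 hd).symm v)))
      = _
    rw [u6PhiE_apply, u6Phi_quad a b c hc, u6Act_nrm a b _ g.1.2 (su4_unitary a b hq hstar g.1 g.2),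
      ← u6Phi_quad a b c hc, ← u6PhiE_apply a b c hc0 hd, LinearEquiv.apply_symm_apply])

theorem u6Rho_coe (hq : q ≠ 0) (hstar : ∀ z : QuadraticAlgebra F (-b) a, star z = z ^ q)
    (c : QuadraticAlgebra F (-b) a) (hc0 : c ≠ 0) (hc : QuadraticAlgebra.norm c = -1)
    (hd : 4 * b - a ^ 2 ≠ 0) (g : ↥(Cfsg.SU 4 (QuadraticAlgebra F (-b) a) q))
    (v : (Fin 2 ⊕ Fin 2) ⊕ Fin 2 → F) :
    (((u6Rho a b hq hstar c hc0 hc hd g : isoU F (Cfsg.quadFormMinus 2 F a b)) :
      (Module.End F ((Fin 2 ⊕ Fin 2) ⊕ Fin 2 → F))ˣ) :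
      Module.End F ((Fin 2 ⊕ Fin 2) ⊕ Fin 2 → F)) v =
    u6PhiE a b c hc0 hd (u6Act a b ((g : Matrix.SpecialLinearGroup (Fin 4)
      (QuadraticAlgebra F (-b) a)) : Matrix (Fin 4) (Fin 4) (QuadraticAlgebra F (-b) a))
      ((u6PhiE a b c hc0 hd).symm v)) := rfl

/-- An element of the kernel acts trivially on the Klein space. -/
theorem u6Rho_ker (hq : q ≠ 0) (hstar : ∀ z : QuadraticAlgebra F (-b) a, star z = z ^ q)
    (c : QuadraticAlgebra F (-b) a) (hc0 : c ≠ 0) (hc : QuadraticAlgebra.norm c = -1)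
    (hd : 4 * b - a ^ 2 ≠ 0) (hnb : ¬ (a = 0 ∧ (2 : F) = 0))
    (g : ↥(Cfsg.SU 4 (QuadraticAlgebra F (-b) a) q))
    (hg : g ∈ (u6Rho a b hq hstar c hc0 hc hd).ker) (p : Fin 3 ⊕ Fin 3 → QuadraticAlgebra F (-b) a) :
    kleinAct ((g : Matrix.SpecialLinearGroup (Fin 4) (QuadraticAlgebra F (-b) a)) :
      Matrix (Fin 4) (Fin 4) (QuadraticAlgebra F (-b) a)) p = p := by
  rw [MonoidHom.mem_ker] at hg
  have h1 : ∀ z : Fin 3 → QuadraticAlgebra F (-b) a,
      u6Act a b ((g : Matrix.SpecialLinearGroup (Fin 4) (QuadraticAlgebra F (-b) a)) :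
        Matrix (Fin 4) (Fin 4) (QuadraticAlgebra F (-b) a)) z = z := by
    intro z
    have h2 := u6Rho_coe a b hq hstar c hc0 hc hd g (u6PhiE a b c hc0 hd z)
    rw [hg, LinearEquiv.symm_apply_apply] at h2
    exact (u6PhiE a b c hc0 hd).injective h2.symm
  have h3 : ∀ z : Fin 3 → QuadraticAlgebra F (-b) a,
      kleinAct ((g : Matrix.SpecialLinearGroup (Fin 4) (QuadraticAlgebra F (-b) a)) :
        Matrix (Fin 4) (Fin 4) (QuadraticAlgebra F (-b) a)) (plPar (starRingEnd _) z) =
        plPar (starRingEnd _) z := by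
    intro z
    rw [← u6_par a b _ g.1.2 (su4_unitary a b hq hstar g.1 g.2), h1]
  have hω : starRingEnd (QuadraticAlgebra F (-b) a) (QuadraticAlgebra.omega) ≠
      QuadraticAlgebra.omega := by
    intro h
    have e1 := congrArg QuadraticAlgebra.re h
    have e2 := congrArg QuadraticAlgebra.im h
    simp [starRingEnd_apply, QuadraticAlgebra.omega] at e1 e2
    apply hnb
    refine ⟨e1, ?_⟩
    linear_combination -e2
  obtain ⟨u, u', hp⟩ := exists_par_decomp (starRingEnd (QuadraticAlgebra F (-b) a))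
    (fun x => star_star x) _ hω p
  rw [hp, map_add, map_smul, h3, h3]

end o6hom

end Cfsg.Agent.Helper5
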