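import Mathlib
import Cfsg.Agent.Helper5.O6Minus
import Cfsg.Agent.Helper5.HermCount

set_option autoImplicit false

namespace Cfsg.Agent.Helper5

open Matrix

section starpow
variable {F : Type*} [Field F] [Fintype F] (a b : F) [Fact (∀ r : F, r ^ 2 ≠ -b + a * r)]

/-- On the quadratic extension of a finite field, conjugation is the Frobenius map. -/
theorem quadAlg_star_eq_pow (z : QuadraticAlgebra F (-b) a) : star z = z ^ Fintype.card F := by
  classical
  have : Finite (QuadraticAlgebra F (-b) a) :=
    Finite.of_equiv _ (QuadraticAlgebra.equivProd (-b) a).symm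
  set φ := FiniteField.frobeniusAlgHom F (QuadraticAlgebra F (-b) a) with hφ
  have hord : orderOf φ = 2 := by
    rw [hφ, FiniteField.orderOf_frobeniusAlgHom, QuadraticAlgebra.finrank_eq_two]
  obtain ⟨w, hw⟩ : ∃ w, w = φ (QuadraticAlgebra.omega) := ⟨_, rfl⟩
  have hω2 : (QuadraticAlgebra.omega : QuadraticAlgebra F (-b) a) * QuadraticAlgebra.omega =
      algebraMap F _ (-b) + a • QuadraticAlgebra.omega := by
    rw [QuadraticAlgebra.algebraMap_eq]
    ext <;> simp [QuadraticAlgebra.omega]
  have h1 : w * w = algebraMap F _ (-b) + a • w := by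
    rw [hw, ← map_mul, hω2, map_add, map_smul, AlgHom.commutes]
  have hz : ∀ z : QuadraticAlgebra F (-b) a,
      z = algebraMap F _ z.re + z.im • QuadraticAlgebra.omega := by
    intro z
    rw [QuadraticAlgebra.algebraMap_eq]
    ext <;> simp [QuadraticAlgebra.omega]
  have h2 : (w - QuadraticAlgebra.omega) * (w - star (QuadraticAlgebra.omega)) = 0 := by
    rw [QuadraticAlgebra.algebraMap_eq] at h1
    have e1 := congrArg QuadraticAlgebra.re h1
    have e2 := congrArg QuadraticAlgebra.im h1
    simp at e1 e2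
    ext
    · simp [QuadraticAlgebra.omega]
      linear_combination e1
    · simp [QuadraticAlgebra.omega]
      linear_combination e2
  have key : w = star (QuadraticAlgebra.omega) := by
    rcases mul_eq_zero.1 h2 with h | h
    · exfalso
      have : φ = 1 := by
        apply AlgHom.ext
        intro z
        rw [hz z, map_add, map_smul, AlgHom.commutes, ← hw, sub_eq_zero.1 h]
        rfl
      rw [this, orderOf_one] at hord
      norm_num at hord
    · exact sub_eq_zero.1 h
  have h3 : z ^ Fintype.card F = φ z := rfl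
  rw [h3, hz z, map_add, map_smul, AlgHom.commutes, ← hw, key, QuadraticAlgebra.algebraMap_eq]
  ext
  · simp [QuadraticAlgebra.omega]
    ring
  · simp [QuadraticAlgebra.omega]

/-- An element of norm `-1`. -/
theorem quadAlg_exists_norm_neg_one :
    ∃ c : QuadraticAlgebra F (-b) a, c ≠ 0 ∧ QuadraticAlgebra.norm c = -1 := by
  classical
  letI : Fintype (QuadraticAlgebra F (-b) a) :=
    Fintype.ofEquiv _ (QuadraticAlgebra.equivProd (-b) a).symm
  have hL : Fintype.card (QuadraticAlgebra F (-b) a) = Fintype.card F ^ 2 := by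
    rw [Fintype.card_congr (QuadraticAlgebra.equivProd (-b) a), Fintype.card_prod, pow_two]
  have hm : (-1 : QuadraticAlgebra F (-b) a) ^ Fintype.card F = -1 := by
    rw [← quadAlg_star_eq_pow]
    simp
  obtain ⟨l, hl0, hl⟩ := exists_norm_eq hL (c := (-1 : QuadraticAlgebra F (-b) a))
    (neg_ne_zero.2 one_ne_zero) hm
  refine ⟨l, hl0, ?_⟩
  apply QuadraticAlgebra.algebraMap_injective (a := -b) (b := a)
  rw [QuadraticAlgebra.algebraMap_norm_eq_mul_star, quadAlg_star_eq_pow, hl]
  simp

end starpow

end Cfsg.Agent.Helper5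

namespace Cfsg.Agent.Helper5

open Matrix

section sumap
variable {L K : Type*} [Field L] [Field K]

theorem hermForm_comp_ringHom (e : L →+* K) (n q : ℕ) (u v : Fin n → L) :
    Cfsg.hermForm n K q (e ∘ u) (e ∘ v) = e (Cfsg.hermForm n L q u v) := by
  simp [Cfsg.hermForm, map_sum, map_mul, map_pow]

theorem map_mulVec_comp_ringHom (e : L →+* K) {n : ℕ} (M : Matrix (Fin n) (Fin n) L)
    (u : Fin n → L) : (M.map e) *ᵥ (e ∘ u) = e ∘ (M *ᵥ u) := by
  funext i
  simp [Matrix.mulVec, dotProduct, map_sum]

theorem slMap_mem_SU (e : L ≃+* K) (n q : ℕ) (g : Matrix.SpecialLinearGroup (Fin n) L)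
    (hg : g ∈ Cfsg.SU n L q) :
    Matrix.SpecialLinearGroup.map (e : L →+* K) g ∈ Cfsg.SU n K q := by
  intro u v
  obtain ⟨u', rfl⟩ : ∃ u' : Fin n → L, u = (e : L →+* K) ∘ u' :=
    ⟨e.symm ∘ u, by funext i; simp⟩
  obtain ⟨v', rfl⟩ : ∃ v' : Fin n → L, v = (e : L →+* K) ∘ v' :=
    ⟨e.symm ∘ v, by funext i; simp⟩
  have h := hg u' v'
  have hc : Cfsg.slToMat n K (Matrix.SpecialLinearGroup.map (e : L →+* K) g) =
      (Cfsg.slToMat n L g).map (e : L →+* K) := rfl
  rw [hc, map_mulVec_comp_ringHom, map_mulVec_comp_ringHom, hermForm_comp_ringHom,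
    hermForm_comp_ringHom, h]

/-- Transport of the special unitary group along a ring isomorphism. -/
def suMapEquiv (e : L ≃+* K) (n q : ℕ) : ↥(Cfsg.SU n L q) ≃* ↥(Cfsg.SU n K q) where
  toFun g := ⟨Matrix.SpecialLinearGroup.map (e : L →+* K) g.1, slMap_mem_SU e n q g.1 g.2⟩
  invFun g := ⟨Matrix.SpecialLinearGroup.map (e.symm : K →+* L) g.1,
    slMap_mem_SU e.symm n q g.1 g.2⟩
  left_inv g := by
    apply Subtype.ext
    apply Subtype.ext
    ext i j
    simp [Matrix.SpecialLinearGroup.map_apply_coe, RingHom.mapMatrix_apply, Matrix.map_apply]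
  right_inv g := by
    apply Subtype.ext
    apply Subtype.ext
    ext i j
    simp [Matrix.SpecialLinearGroup.map_apply_coe, RingHom.mapMatrix_apply, Matrix.map_apply]
  map_mul' g h := by
    apply Subtype.ext
    exact map_mul _ _ _

end sumap

/-- A subgroup contained in another of at least the same index is equal to it. -/
theorem subgroup_eq_of_le_of_index_le {G : Type*} [Group G] [Finite G] (H K : Subgroup G)
    (h : H ≤ K) (hidx : H.index ≤ K.index) : H = K := by
  apply le_antisymm h
  rw [← Subgroup.relIndex_eq_one]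
  have h1 := Subgroup.relIndex_mul_index h
  have h2 : K.index ≠ 0 := Subgroup.index_ne_zero_of_finite
  have h3 : H.relIndex K ≠ 0 := by
    intro h0
    rw [h0, zero_mul] at h1
    exact Subgroup.index_ne_zero_of_finite h1.symm
  have h4 : H.relIndex K * K.index ≤ 1 * K.index := by
    rw [h1, one_mul]
    exact hidx
  have h5 := Nat.le_of_mul_le_mul_right h4 (Nat.pos_of_ne_zero h2)
  omega

end Cfsg.Agent.Helper5
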