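import Mathlib

set_option autoImplicit false
set_option linter.unusedSimpArgs false

namespace Cfsg.Agent.Helper5

open Matrix
open scoped LinearAlgebra.Projectivization MatrixGroups

section
variable {F : Type*} [Field F]

/-- The `2 × 2` determinant of two vectors. -/
def dt (u v : Fin 2 → F) : F := u 0 * v 1 - u 1 * v 0

theorem mk_eq_mk_iff_dt (u v : Fin 2 → F) (hu : u ≠ 0) (hv : v ≠ 0) :
    Projectivization.mk F u hu = Projectivization.mk F v hv ↔ dt u v = 0 := by
  rw [Projectivization.mk_eq_mk_iff']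
  constructor
  · rintro ⟨a, rfl⟩
    simp [dt]
    ring
  · intro h
    unfold dt at h
    have hv' : v 0 ≠ 0 ∨ v 1 ≠ 0 := by
      by_contra hcon
      push Not at hcon
      apply hv
      funext i
      fin_cases i
      · exact hcon.1
      · exact hcon.2
    rcases hv' with h0 | h1
    · refine ⟨u 0 / v 0, ?_⟩
      funext i
      fin_cases i
      · simp [div_mul_cancel₀ _ h0]
      · simp
        field_simp
        linear_combination h
    · refine ⟨u 1 / v 1, ?_⟩
      funext i
      fin_cases i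
      · simp
        field_simp
        linear_combination -h
      · simp [div_mul_cancel₀ _ h1]

theorem dt_ne_zero_of_ne {a b : ℙ F (Fin 2 → F)} (hab : a ≠ b) : dt a.rep b.rep ≠ 0 := by
  intro h
  apply hab
  rw [← Projectivization.mk_rep a, ← Projectivization.mk_rep b]
  exact (mk_eq_mk_iff_dt _ _ _ _).2 h

/-- Three pairwise independent vectors in `F^2`: a matrix sending the standard frame to them. -/
theorem exists_gl_frame (u v w : Fin 2 → F) (huv : dt u v ≠ 0) (huw : dt u w ≠ 0)
    (hvw : dt v w ≠ 0) :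
    ∃ (g : GL (Fin 2) F) (α β : F), α ≠ 0 ∧ β ≠ 0 ∧ g • (![1, 0] : Fin 2 → F) = α • u ∧
      g • (![0, 1] : Fin 2 → F) = β • v ∧ g • (![1, 1] : Fin 2 → F) = w := by
  have hα : dt w v / dt u v ≠ 0 := by
    apply div_ne_zero _ huv
    intro h
    apply hvw
    unfold dt at h ⊢
    linear_combination -h
  have hβ : dt u w / dt u v ≠ 0 := div_ne_zero huw huv
  refine ⟨Matrix.GeneralLinearGroup.mkOfDetNeZero
    !![dt w v / dt u v * u 0, dt u w / dt u v * v 0; dt w v / dt u v * u 1, dt u w / dt u v * v 1] ?_,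
    dt w v / dt u v, dt u w / dt u v, hα, hβ, ?_, ?_, ?_⟩
  · rw [Matrix.det_fin_two]
    simp only [Matrix.of_apply, Matrix.cons_val', Matrix.cons_val_zero, Matrix.cons_val_one,
      Matrix.cons_val_fin_one]
    have : dt w v / dt u v * u 0 * (dt u w / dt u v * v 1) - dt u w / dt u v * v 0 * (dt w v / dt u v * u 1)
        = (dt w v / dt u v) * (dt u w / dt u v) * dt u v := by
      unfold dt
      ring
    rw [this]
    exact mul_ne_zero (mul_ne_zero hα hβ) huv
  · funext i
    change (Matrix.mulVec _ _) i = _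
    fin_cases i <;> simp [Matrix.GeneralLinearGroup.mkOfDetNeZero, Matrix.mulVec, dotProduct,
      Fin.sum_univ_two]
  · funext i
    change (Matrix.mulVec _ _) i = _
    fin_cases i <;> simp [Matrix.GeneralLinearGroup.mkOfDetNeZero, Matrix.mulVec, dotProduct,
      Fin.sum_univ_two]
  · have e0 : dt w v / dt u v * u 0 + dt u w / dt u v * v 0 = w 0 := by
      rw [div_mul_eq_mul_div, div_mul_eq_mul_div, ← add_div, div_eq_iff huv]
      unfold dt
      ring
    have e1 : dt w v / dt u v * u 1 + dt u w / dt u v * v 1 = w 1 := by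
      rw [div_mul_eq_mul_div, div_mul_eq_mul_div, ← add_div, div_eq_iff huv]
      unfold dt
      ring
    funext i
    change (Matrix.mulVec _ _) i = _
    fin_cases i
    · simpa [Matrix.GeneralLinearGroup.mkOfDetNeZero, Matrix.mulVec, dotProduct,
        Fin.sum_univ_two] using e0
    · simpa [Matrix.GeneralLinearGroup.mkOfDetNeZero, Matrix.mulVec, dotProduct,
        Fin.sum_univ_two] using e1

theorem gl_smul_zero (M : GL (Fin 2) F) (u : Fin 2 → F) :
    (M • u) 0 = (M : Matrix (Fin 2) (Fin 2) F) 0 0 * u 0 + (M : Matrix (Fin 2) (Fin 2) F) 0 1 * u 1 := by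
  change (Matrix.mulVec _ _) 0 = _
  simp [Matrix.mulVec, dotProduct, Fin.sum_univ_two]

theorem gl_smul_one (M : GL (Fin 2) F) (u : Fin 2 → F) :
    (M • u) 1 = (M : Matrix (Fin 2) (Fin 2) F) 1 0 * u 0 + (M : Matrix (Fin 2) (Fin 2) F) 1 1 * u 1 := by
  change (Matrix.mulVec _ _) 1 = _
  simp [Matrix.mulVec, dotProduct, Fin.sum_univ_two]

theorem dt_gl_smul (M : GL (Fin 2) F) (u v : Fin 2 → F) :
    dt (M • u) (M • v) = (M : Matrix (Fin 2) (Fin 2) F).det * dt u v := by
  unfold dt
  rw [gl_smul_zero, gl_smul_one, gl_smul_zero, gl_smul_one, Matrix.det_fin_two]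
  ring

theorem dt_smul_smul (a b : F) (u v : Fin 2 → F) : dt (a • u) (b • v) = a * b * dt u v := by
  unfold dt
  simp
  ring

theorem std1_ne : (![1, 0] : Fin 2 → F) ≠ 0 := by
  intro h
  have := congrFun h 0
  simp at this

theorem std2_ne : (![0, 1] : Fin 2 → F) ≠ 0 := by
  intro h
  have := congrFun h 1
  simp at this

theorem std3_ne : (![1, 1] : Fin 2 → F) ≠ 0 := by
  intro h
  have := congrFun h 0
  simp at this

/-- `PGL_2(F)` moves the standard frame to any triple of distinct points. -/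
theorem exists_pgl_frame (a b c : ℙ F (Fin 2 → F)) (hab : a ≠ b) (hac : a ≠ c) (hbc : b ≠ c) :
    ∃ g : Matrix.ProjGenLinGroup (Fin 2) F,
      g • Projectivization.mk F (![1, 0] : Fin 2 → F) std1_ne = a ∧
      g • Projectivization.mk F (![0, 1] : Fin 2 → F) std2_ne = b ∧
      g • Projectivization.mk F (![1, 1] : Fin 2 → F) std3_ne = c := by
  obtain ⟨g, α, β, hα, hβ, h1, h2, h3⟩ := exists_gl_frame a.rep b.rep c.rep
    (dt_ne_zero_of_ne hab) (dt_ne_zero_of_ne hac) (dt_ne_zero_of_ne hbc)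
  refine ⟨Matrix.ProjGenLinGroup.mk g, ?_, ?_, ?_⟩
  · rw [Projectivization.PGL.mk_smul_mk]
    conv_rhs => rw [← Projectivization.mk_rep a]
    rw [Projectivization.mk_eq_mk_iff']
    exact ⟨α, h1.symm⟩
  · rw [Projectivization.PGL.mk_smul_mk]
    conv_rhs => rw [← Projectivization.mk_rep b]
    rw [Projectivization.mk_eq_mk_iff']
    exact ⟨β, h2.symm⟩
  · rw [Projectivization.PGL.mk_smul_mk]
    conv_rhs => rw [← Projectivization.mk_rep c]
    rw [Projectivization.mk_eq_mk_iff']
    exact ⟨1, by rw [one_smul, h3]⟩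

/-- `PGL_2(F)` is 3-transitive on the projective line. -/
theorem pgl_three_transitive :
    MulAction.IsMultiplyPretransitive (Matrix.ProjGenLinGroup (Fin 2) F) (ℙ F (Fin 2 → F)) 3 := by
  rw [MulAction.isMultiplyPretransitive_iff]
  intro x y
  obtain ⟨g₁, h1, h2, h3⟩ := exists_pgl_frame (x 0) (x 1) (x 2)
    (x.injective.ne (by decide)) (x.injective.ne (by decide)) (x.injective.ne (by decide))
  obtain ⟨g₂, k1, k2, k3⟩ := exists_pgl_frame (y 0) (y 1) (y 2)
    (y.injective.ne (by decide)) (y.injective.ne (by decide)) (y.injective.ne (by decide))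
  refine ⟨g₂ * g₁⁻¹, ?_⟩
  ext i
  rw [Function.Embedding.smul_apply, mul_smul]
  fin_cases i
  · change g₂ • g₁⁻¹ • x 0 = y 0
    rw [← h1, inv_smul_smul, k1]
  · change g₂ • g₁⁻¹ • x 1 = y 1
    rw [← h2, inv_smul_smul, k2]
  · change g₂ • g₁⁻¹ • x 2 = y 2
    rw [← h3, inv_smul_smul, k3]

/-- An element of `GL_2(F)` fixing three distinct points of the projective line is scalar. -/
theorem gl_scalar_of_fix_three (M : GL (Fin 2) F) (a b c : ℙ F (Fin 2 → F)) (hab : a ≠ b)
    (hac : a ≠ c) (hbc : b ≠ c)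
    (ha : Matrix.ProjGenLinGroup.mk M • a = a) (hb : Matrix.ProjGenLinGroup.mk M • b = b)
    (hc : Matrix.ProjGenLinGroup.mk M • c = c) :
    ∃ l : F, (M : Matrix (Fin 2) (Fin 2) F) = Matrix.scalar (Fin 2) l := by
  have huv := dt_ne_zero_of_ne hab
  have huw := dt_ne_zero_of_ne hac
  have hvw := dt_ne_zero_of_ne hbc
  have key : ∀ p : ℙ F (Fin 2 → F), Matrix.ProjGenLinGroup.mk M • p = p →
      ∃ l : F, l • p.rep = M • p.rep := by
    intro p hp
    have h := hp
    conv_lhs at h => rw [← Projectivization.mk_rep p]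
    conv_rhs at h => rw [← Projectivization.mk_rep p]
    rw [Projectivization.PGL.mk_smul_mk, Projectivization.mk_eq_mk_iff'] at h
    exact h
  obtain ⟨l, hl⟩ := key a ha
  obtain ⟨m, hm⟩ := key b hb
  obtain ⟨n, hn⟩ := key c hc
  have hdet : (M : Matrix (Fin 2) (Fin 2) F).det ≠ 0 := Matrix.GeneralLinearGroup.det_ne_zero M
  have e1 : l * m = (M : Matrix (Fin 2) (Fin 2) F).det := by
    have := dt_gl_smul M a.rep b.rep
    rw [← hl, ← hm, dt_smul_smul] at this
    exact mul_right_cancel₀ huv this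
  have e2 : l * n = (M : Matrix (Fin 2) (Fin 2) F).det := by
    have := dt_gl_smul M a.rep c.rep
    rw [← hl, ← hn, dt_smul_smul] at this
    exact mul_right_cancel₀ huw this
  have e3 : m * n = (M : Matrix (Fin 2) (Fin 2) F).det := by
    have := dt_gl_smul M b.rep c.rep
    rw [← hm, ← hn, dt_smul_smul] at this
    exact mul_right_cancel₀ hvw this
  have hl0 : l ≠ 0 := by
    rintro rfl
    rw [zero_mul] at e1
    exact hdet e1.symm
  have hn0 : n ≠ 0 := by
    rintro rfl
    rw [mul_zero] at e2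
    exact hdet e2.symm
  have hmn : m = n := mul_left_cancel₀ hl0 (e1.trans e2.symm)
  have hlm : l = m := mul_right_cancel₀ hn0 (e2.trans e3.symm)
  subst hmn
  subst hlm
  refine ⟨l, ?_⟩
  have a0 := congrFun hl 0
  have a1 := congrFun hl 1
  have b0 := congrFun hm 0
  have b1 := congrFun hm 1
  rw [gl_smul_zero] at a0 b0
  rw [gl_smul_one] at a1 b1
  simp only [Pi.smul_apply, smul_eq_mul] at a0 a1 b0 b1
  have huv' : a.rep 0 * b.rep 1 - a.rep 1 * b.rep 0 ≠ 0 := huv
  have h00 : (M : Matrix (Fin 2) (Fin 2) F) 0 0 = l := by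
    have : ((M : Matrix (Fin 2) (Fin 2) F) 0 0 - l) * (a.rep 0 * b.rep 1 - a.rep 1 * b.rep 0) = 0 := by
      linear_combination (-(b.rep 1)) * a0 + (a.rep 1) * b0
    rcases mul_eq_zero.1 this with h | h
    · exact sub_eq_zero.1 h
    · exact absurd h huv'
  have h01 : (M : Matrix (Fin 2) (Fin 2) F) 0 1 = 0 := by
    have : (M : Matrix (Fin 2) (Fin 2) F) 0 1 * (a.rep 0 * b.rep 1 - a.rep 1 * b.rep 0) = 0 := by
      linear_combination (b.rep 0) * a0 - (a.rep 0) * b0
    rcases mul_eq_zero.1 this with h | h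
    · exact h
    · exact absurd h huv'
  have h10 : (M : Matrix (Fin 2) (Fin 2) F) 1 0 = 0 := by
    have : (M : Matrix (Fin 2) (Fin 2) F) 1 0 * (a.rep 0 * b.rep 1 - a.rep 1 * b.rep 0) = 0 := by
      linear_combination (-(b.rep 1)) * a1 + (a.rep 1) * b1
    rcases mul_eq_zero.1 this with h | h
    · exact h
    · exact absurd h huv'
  have h11 : (M : Matrix (Fin 2) (Fin 2) F) 1 1 = l := by
    have : ((M : Matrix (Fin 2) (Fin 2) F) 1 1 - l) * (a.rep 0 * b.rep 1 - a.rep 1 * b.rep 0) = 0 := by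
      linear_combination (b.rep 0) * a1 - (a.rep 0) * b1
    rcases mul_eq_zero.1 this with h | h
    · exact sub_eq_zero.1 h
    · exact absurd h huv'
  ext i j
  fin_cases i <;> fin_cases j <;> simp [h00, h01, h10, h11]

/-- Only the identity of `PGL_2(F)` fixes three distinct points. -/
theorem pgl_eq_one_of_fix_three (g : Matrix.ProjGenLinGroup (Fin 2) F) (a b c : ℙ F (Fin 2 → F))
    (hab : a ≠ b) (hac : a ≠ c) (hbc : b ≠ c) (ha : g • a = a) (hb : g • b = b) (hc : g • c = c) :
    g = 1 := by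
  obtain ⟨M, rfl⟩ := Matrix.ProjGenLinGroup.mk_surjective g
  obtain ⟨l, hl⟩ := gl_scalar_of_fix_three M a b c hab hac hbc ha hb hc
  rw [Matrix.ProjGenLinGroup.mk_eq_one, Matrix.GeneralLinearGroup.mem_center_iff_val_mem_range_scalar]
  exact ⟨l, hl.symm⟩

end

end Cfsg.Agent.Helper5
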