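import Mathlib

set_option autoImplicit false

/-! Two square-zero elements `A`, `B` of an algebra with `Z = AB + BA` integral: the Fitting
idempotent of `Z`, and the matrix units on the part where `Z` is invertible (for S5064). -/

namespace Cfsg.Agent.Helper5.QPair

open Polynomial

/-- The data: two square-zero elements, the factorisation `X^m * g` of the minimal polynomial
of `Z = AB + BA` and Bezout coefficients. -/
structure QP (k : Type*) [Field k] (S : Type*) [Ring S] [Algebra k S] where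
  A : S
  B : S
  hA : A * A = 0
  hB : B * B = 0
  m : ℕ
  g : k[X]
  u : k[X]
  v : k[X]
  u' : k[X]
  v' : k[X]
  hmin : ∀ p : k[X], aeval (A * B + B * A) p = 0 ↔ X ^ m * g ∣ p
  hmonic : g.Monic
  h1 : u * X ^ m + v * g = 1
  h2 : u' * X + v' * g = 1

variable {k : Type*} [Field k] {S : Type*} [Ring S] [Algebra k S]

theorem exists_QP (A B : S) (hA : A * A = 0) (hB : B * B = 0)
    (hint : IsIntegral k (A * B + B * A)) : ∃ Q : QP k S, Q.A = A ∧ Q.B = B := by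
  have hP0 : minpoly k (A * B + B * A) ≠ 0 := minpoly.ne_zero hint
  obtain ⟨q, hq, hnd⟩ := exists_eq_pow_rootMultiplicity_mul_and_not_dvd _ hP0 0
  rw [C_0, sub_zero] at hq hnd
  have hmon : q.Monic := by
    have h1 : (X ^ (minpoly k (A * B + B * A)).rootMultiplicity 0 * q).Monic := by
      rw [← hq]
      exact minpoly.monic hint
    exact Monic.of_mul_monic_left (monic_X_pow _) h1
  have hcop : IsCoprime (X : k[X]) q := (Irreducible.coprime_iff_not_dvd irreducible_X).mpr hnd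
  obtain ⟨u, v, huv⟩ := hcop.pow_left (m := (minpoly k (A * B + B * A)).rootMultiplicity 0)
  obtain ⟨u', v', huv'⟩ := hcop
  refine ⟨⟨A, B, hA, hB, (minpoly k (A * B + B * A)).rootMultiplicity 0, q, u, v, u', v', ?_,
    hmon, huv, huv'⟩, rfl, rfl⟩
  intro p
  rw [← hq]
  exact (minpoly.dvd_iff).symm

namespace QP

variable (Q : QP k S)

/-- `Z = AB + BA`. -/
def Z : S := Q.A * Q.B + Q.B * Q.A

/-- The idempotent onto the part where `Z` is invertible. -/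
noncomputable def e : S := aeval Q.Z (Q.u * X ^ Q.m)

/-- The inverse of `Z` on the part where it is invertible. -/
noncomputable def Y : S := aeval Q.Z (Q.u' * (Q.u * X ^ Q.m))

theorem hmin' (p : k[X]) : aeval Q.Z p = 0 ↔ X ^ Q.m * Q.g ∣ p := Q.hmin p

theorem comm_A_Z : Commute Q.A Q.Z := by
  show Q.A * (Q.A * Q.B + Q.B * Q.A) = (Q.A * Q.B + Q.B * Q.A) * Q.A
  rw [mul_add, add_mul, ← mul_assoc, Q.hA, zero_mul, zero_add, mul_assoc Q.B, Q.hA, mul_zero,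
    add_zero, mul_assoc]

theorem comm_B_Z : Commute Q.B Q.Z := by
  show Q.B * (Q.A * Q.B + Q.B * Q.A) = (Q.A * Q.B + Q.B * Q.A) * Q.B
  rw [mul_add, add_mul, ← mul_assoc Q.B Q.B, Q.hB, zero_mul, add_zero, mul_assoc Q.A, Q.hB,
    mul_zero, zero_add, mul_assoc]

theorem comm_aeval (T : S) (h : Commute T Q.Z) (p : k[X]) : Commute T (aeval Q.Z p) := by
  have h1 : aeval Q.Z p ∈ Algebra.adjoin k {Q.Z} := aeval_mem_adjoin_singleton k Q.Z
  have h2 : Algebra.adjoin k {Q.Z} ≤ Subalgebra.centralizer k {T} := by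
    apply Algebra.adjoin_le
    intro x hx
    rw [Set.mem_singleton_iff] at hx
    subst hx
    rw [SetLike.mem_coe, Subalgebra.mem_centralizer_iff]
    intro g hg
    rw [Set.mem_singleton_iff] at hg
    subst hg
    exact h.eq
  have h3 := h2 h1
  rw [Subalgebra.mem_centralizer_iff] at h3
  exact h3 T rfl

theorem comm_A_aeval (p : k[X]) : Commute Q.A (aeval Q.Z p) := Q.comm_aeval _ Q.comm_A_Z p

theorem comm_B_aeval (p : k[X]) : Commute Q.B (aeval Q.Z p) := Q.comm_aeval _ Q.comm_B_Z p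

theorem comm_aeval_aeval (p q : k[X]) : Commute (aeval Q.Z p) (aeval Q.Z q) := by
  show aeval Q.Z p * aeval Q.Z q = aeval Q.Z q * aeval Q.Z p
  rw [← map_mul, ← map_mul, mul_comm]

theorem aeval_congr {f₁ f₂ : k[X]} (h : X ^ Q.m * Q.g ∣ f₁ - f₂) : aeval Q.Z f₁ = aeval Q.Z f₂ := by
  have := (Q.hmin' _).mpr h
  rw [map_sub, sub_eq_zero] at this
  exact this

theorem e_mul_e : Q.e * Q.e = Q.e := by
  show aeval Q.Z (Q.u * X ^ Q.m) * aeval Q.Z (Q.u * X ^ Q.m) = aeval Q.Z (Q.u * X ^ Q.m)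
  rw [← map_mul]
  apply Q.aeval_congr
  refine ⟨-(Q.u * Q.v), ?_⟩
  linear_combination (Q.u * X ^ Q.m) * Q.h1

theorem Z_mul_Y : Q.Z * Q.Y = Q.e := by
  show Q.Z * aeval Q.Z (Q.u' * (Q.u * X ^ Q.m)) = aeval Q.Z (Q.u * X ^ Q.m)
  have hX : Q.Z = aeval Q.Z (X : k[X]) := (aeval_X Q.Z).symm
  nth_rewrite 1 [hX]
  rw [← map_mul]
  apply Q.aeval_congr
  refine ⟨-(Q.u * Q.v'), ?_⟩
  linear_combination (Q.u * X ^ Q.m) * Q.h2

theorem Y_eq : Q.Y = aeval Q.Z Q.u' * Q.e := by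
  show aeval Q.Z (Q.u' * (Q.u * X ^ Q.m)) = aeval Q.Z Q.u' * aeval Q.Z (Q.u * X ^ Q.m)
  rw [map_mul]

theorem Y_mul_e : Q.Y * Q.e = Q.Y := by
  rw [Y_eq, mul_assoc, e_mul_e]

theorem comm_e_Y : Commute Q.e Q.Y := Q.comm_aeval_aeval _ _

theorem e_mul_Y : Q.e * Q.Y = Q.Y := by
  rw [Q.comm_e_Y.eq, Y_mul_e]

theorem comm_A_e : Commute Q.A Q.e := Q.comm_A_aeval _
theorem comm_B_e : Commute Q.B Q.e := Q.comm_B_aeval _
theorem comm_A_Y : Commute Q.A Q.Y := Q.comm_A_aeval _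
theorem comm_B_Y : Commute Q.B Q.Y := Q.comm_B_aeval _

theorem one_sub_e : 1 - Q.e = aeval Q.Z (Q.v * Q.g) := by
  show 1 - aeval Q.Z (Q.u * X ^ Q.m) = aeval Q.Z (Q.v * Q.g)
  have h : aeval Q.Z (Q.u * X ^ Q.m) + aeval Q.Z (Q.v * Q.g) = 1 := by
    rw [← map_add, Q.h1, map_one]
  rw [← h]
  abel

theorem Zpow_mul : Q.Z ^ Q.m * (1 - Q.e) = 0 := by
  rw [one_sub_e]
  have hX : Q.Z ^ Q.m = aeval Q.Z ((X : k[X]) ^ Q.m) := by rw [map_pow, aeval_X]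
  rw [hX, ← map_mul]
  apply (Q.hmin' _).mpr
  exact ⟨Q.v, by ring⟩

theorem aeval_g_mul_e : aeval Q.Z Q.g * Q.e = 0 := by
  show aeval Q.Z Q.g * aeval Q.Z (Q.u * X ^ Q.m) = 0
  rw [← map_mul]
  apply (Q.hmin' _).mpr
  exact ⟨Q.u, by ring⟩

/-- If `f(Z) e = 0` then `g ∣ f`. -/
theorem dvd_of_aeval_mul_e {f : k[X]} (h : aeval Q.Z f * Q.e = 0) : Q.g ∣ f := by
  have h1 : aeval Q.Z (f * (Q.u * X ^ Q.m)) = 0 := by rw [map_mul]; exact h
  have h2 := (Q.hmin' _).mp h1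
  have h3 : Q.g ∣ f * (Q.u * X ^ Q.m) := dvd_trans (dvd_mul_left _ _) h2
  have hcop : IsCoprime Q.g (Q.u * X ^ Q.m) := ⟨Q.v, 1, by linear_combination Q.h1⟩
  exact hcop.dvd_of_dvd_mul_right h3

/-- The matrix unit `E₁₂`. -/
noncomputable def p : S := Q.A * Q.e

/-- The matrix unit `E₂₁`. -/
noncomputable def q : S := Q.B * Q.Y

theorem eA : Q.e * Q.A = Q.A * Q.e := Q.comm_A_e.eq.symm
theorem eB : Q.e * Q.B = Q.B * Q.e := Q.comm_B_e.eq.symm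
theorem YA : Q.Y * Q.A = Q.A * Q.Y := Q.comm_A_Y.eq.symm
theorem YB : Q.Y * Q.B = Q.B * Q.Y := Q.comm_B_Y.eq.symm

theorem p_mul_p : Q.p * Q.p = 0 := by
  show Q.A * Q.e * (Q.A * Q.e) = 0
  rw [mul_assoc, ← mul_assoc Q.e, Q.eA, mul_assoc Q.A Q.e, ← mul_assoc, Q.hA, zero_mul]

theorem q_mul_q : Q.q * Q.q = 0 := by
  show Q.B * Q.Y * (Q.B * Q.Y) = 0
  rw [mul_assoc, ← mul_assoc Q.Y, Q.YB, mul_assoc Q.B Q.Y, ← mul_assoc, Q.hB, zero_mul]

theorem e_mul_p : Q.e * Q.p = Q.p := by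
  show Q.e * (Q.A * Q.e) = Q.A * Q.e
  rw [← mul_assoc, Q.eA, mul_assoc, Q.e_mul_e]

theorem p_mul_e : Q.p * Q.e = Q.p := by
  show Q.A * Q.e * Q.e = Q.A * Q.e
  rw [mul_assoc, Q.e_mul_e]

theorem e_mul_q : Q.e * Q.q = Q.q := by
  show Q.e * (Q.B * Q.Y) = Q.B * Q.Y
  rw [← mul_assoc, Q.eB, mul_assoc, Q.e_mul_Y]

theorem q_mul_e : Q.q * Q.e = Q.q := by
  show Q.B * Q.Y * Q.e = Q.B * Q.Y
  rw [mul_assoc, Q.Y_mul_e]

theorem pq_add_qp : Q.p * Q.q + Q.q * Q.p = Q.e := by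
  show Q.A * Q.e * (Q.B * Q.Y) + Q.B * Q.Y * (Q.A * Q.e) = Q.e
  have h1 : Q.A * Q.e * (Q.B * Q.Y) = Q.A * Q.B * Q.Y := by
    rw [mul_assoc, ← mul_assoc Q.e, Q.eB, mul_assoc Q.B, Q.e_mul_Y, mul_assoc]
  have h2 : Q.B * Q.Y * (Q.A * Q.e) = Q.B * Q.A * Q.Y := by
    rw [mul_assoc, ← mul_assoc Q.Y, Q.YA, mul_assoc Q.A, Q.Y_mul_e, mul_assoc]
  rw [h1, h2, ← add_mul]
  exact Q.Z_mul_Y

theorem qp_eq : Q.q * Q.p = Q.e - Q.p * Q.q := by
  rw [← Q.pq_add_qp]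
  abel

end QP

end Cfsg.Agent.Helper5.QPair
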