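import Cfsg.Agent.Helper5.QPairZ

set_option autoImplicit false
set_option linter.unusedSimpArgs false
set_option linter.unusedVariables false
set_option linter.unusedSectionVars false

/-! Quadratic pairs (S5063): a quadratic element lies in the group generated by one orbit of root
subgroups, or centralizes all root elements. -/

namespace Cfsg.Agent.Helper5.QPair

open scoped commutatorElement

variable {k : Type*} [Field k] {M : Type*} [AddCommGroup M] [Module k M] [FiniteDimensional k M]
  {G : Subgroup (LinearMap.GeneralLinearGroup k M)}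

/-- An endomorphism commuting with the group generated by an orbit and killing one of its root
elements vanishes. -/
theorem zero_of_kills_root (hG : Cfsg.IsQuadraticPair G)
    (hR : RS G (Cfsg.quadraticRootSubgroups G))
    {y : LinearMap.GeneralLinearGroup k M} (hy : y ∈ Cfsg.minimalQuadraticElements G)
    (T : Module.End k M)
    (hTc : ∀ g ∈ (⨆ A ∈ orb G (Cfsg.sameActionSubgroup G y), A),
      T * (g : Module.End k M) = (g : Module.End k M) * T)
    (hTy : T * ((y : M →ₗ[k] M) - 1) = 0) : T = 0 := by
  let K : Submodule k M :=
    { carrier := {m | ∀ g ∈ G, T ((g : Module.End k M) m) = 0}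
      add_mem' := by
        intro x y hx hy g hg
        rw [map_add, map_add, hx g hg, hy g hg, add_zero]
      zero_mem' := by
        intro g hg
        rw [map_zero, map_zero]
      smul_mem' := by
        intro c x hx g hg
        rw [map_smul, map_smul, hx g hg, smul_zero] }
  have hKinv : ∀ g ∈ G, ∀ w ∈ K, (g : M →ₗ[k] M) w ∈ K := by
    intro g hg w hw g' hg'
    have := hw (g' * g) (G.mul_mem hg' hg)
    rwa [unit_mul_apply] at this
  have hA₀ : Cfsg.sameActionSubgroup G y ∈ Cfsg.quadraticRootSubgroups G := ⟨y, hy, rfl⟩
  have hyK : y ∈ ⨆ A ∈ orb G (Cfsg.sameActionSubgroup G y), A :=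
    hR.le_iSup (mem_orb_self G _) (Subgroup.subset_closure (self_mem_class hy))
  rcases hG.1.2 K hKinv with hK | hK
  · exfalso
    apply hy.1.2.1.2
    apply LinearMap.ext
    intro m
    have hmem : ((y : M →ₗ[k] M) - 1) m ∈ K := by
      intro g hg
      obtain ⟨h, hh, z, hz, rfl⟩ := exists_mul_of_mem_sup_centralizer _ (hR.G_le hA₀ hg)
      have hzy : y * z = z * y := Subgroup.mem_centralizer_iff.mp hz y hyK
      have e1 : (z : Module.End k M) * ((y : Module.End k M) - 1) =
          ((y : Module.End k M) - 1) * (z : Module.End k M) := by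
        rw [mul_sub, sub_mul, mul_one, one_mul, ← Units.val_mul, ← Units.val_mul, hzy]
      have e2 : T * ((h * z : LinearMap.GeneralLinearGroup k M) : Module.End k M) *
          ((y : Module.End k M) - 1) = 0 := by
        rw [Units.val_mul, mul_assoc, mul_assoc, e1, ← mul_assoc T, hTc h hh, mul_assoc,
          ← mul_assoc T, hTy, zero_mul, mul_zero]
      exact congrArg (fun f : Module.End k M => f m) e2
    rw [hK] at hmem
    exact (Submodule.mem_bot k).mp hmem
  · apply LinearMap.ext
    intro m
    have hm : m ∈ K := by
      rw [hK]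
      exact Submodule.mem_top
    exact hm 1 G.one_mem

/-- A quadratic element centralizes all root elements or lies in the group generated by a single
orbit of root subgroups. -/
theorem quad_cases (hG : Cfsg.IsQuadraticPair G) (htwo : (2 : k) ≠ 0)
    (ha : ∃ a : k, a ≠ 0 ∧ a ^ 2 ≠ 1) (hR : RS G (Cfsg.quadraticRootSubgroups G)) :
    ∀ r : ℕ, ∀ (x : LinearMap.GeneralLinearGroup k M) (N : Module.End k M), x ∈ G →
      (x : Module.End k M) = 1 + N → N * N = 0 → Fam G N →
      Module.finrank k (LinearMap.range N) ≤ r →
      (∀ σ ∈ Cfsg.minimalQuadraticElements G, σ * x = x * σ) ∨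
      ∃ σ₀ ∈ Cfsg.minimalQuadraticElements G,
        x ∈ ⨆ A ∈ orb G (Cfsg.sameActionSubgroup G σ₀), A := by
  intro r
  induction r with
  | zero =>
    intro x N hxG hx hN2 hfam hr
    left
    have hN0 : N = 0 := by
      have h0 := Nat.le_zero.mp hr
      rw [← LinearMap.range_eq_bot]
      exact Submodule.finrank_eq_zero.mp h0
    have : x = 1 := Units.ext (by rw [hx, hN0, add_zero]; rfl)
    intro σ hσ
    rw [this, mul_one, one_mul]
  | succ r ih =>
    intro x N hxG hx hN2 hfam hr
    by_cases hB : ∀ σ ∈ Cfsg.minimalQuadraticElements G,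
        ((σ : M →ₗ[k] M) - 1) * (N * ((σ : M →ₗ[k] M) - 1)) = 0
    · left
      have hTB : TB G N := ⟨hN2, hfam, hB⟩
      intro σ hσ
      have h1 := hTB.comm_root hG htwo ha hσ
      apply Units.ext
      have hσv : (σ : Module.End k M) = 1 + ((σ : M →ₗ[k] M) - 1) := by abel
      rw [Units.val_mul, Units.val_mul, hx, hσv]
      simp only [mul_add, add_mul, one_mul, mul_one, h1]
      abel
    · right
      push Not at hB
      obtain ⟨σ, hσ, hne⟩ := hB
      obtain ⟨p, hp2, hp0, hpfam, hprank, hNp, hpN, hlt⟩ := caseA htwo ha hN2 hfam hσ hne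
      obtain ⟨y, hy, hy1⟩ := QP.mp (G := G) p hp2 hp0 hpfam
      have hyd : y ∈ Cfsg.minimalQuadraticElements G := by
        refine ⟨hy, fun z hz => ?_⟩
        show Module.finrank k (LinearMap.range ((y : M →ₗ[k] M) - 1)) ≤ _
        rw [hy1]
        exact hprank.trans (hσ.2 z hz)
      have hyv : (y : Module.End k M) = 1 + p := by
        rw [← hy1]
        abel
      have hx' : ((x * y⁻¹ : LinearMap.GeneralLinearGroup k M) : Module.End k M) =
          1 + (N - p) := by
        rw [Units.val_mul, inv_val_of y p hp2 hyv, hx, add_mul, one_mul, mul_sub, mul_one, hNp,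
          sub_zero]
        abel
      have hN'2 : (N - p) * (N - p) = 0 := by
        rw [sub_mul, mul_sub, mul_sub, hN2, hNp, hpN, hp2]
        abel
      have hN'fam : Fam G (N - p) := by
        intro c
        obtain ⟨u, huG, hu⟩ := hfam c
        obtain ⟨v, hvG, hv⟩ := hpfam c
        have hv2 : (c • p) * (c • p) = 0 := by rw [smul_mul_smul_comm, hp2, smul_zero]
        refine ⟨u * v⁻¹, G.mul_mem huG (G.inv_mem hvG), ?_⟩
        rw [Units.val_mul, inv_val_of v (c • p) hv2 hv, hu, add_mul, one_mul, mul_sub, mul_one,
          smul_mul_smul_comm, hNp, smul_zero, sub_zero, smul_sub]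
        abel
      have hyK : y ∈ ⨆ A ∈ orb G (Cfsg.sameActionSubgroup G y), A :=
        hR.le_iSup (mem_orb_self G _) (Subgroup.subset_closure (self_mem_class hyd))
      refine ⟨y, hyd, ?_⟩
      have hxy : x = (x * y⁻¹) * y := by group
      have hx'K : x * y⁻¹ ∈ ⨆ A ∈ orb G (Cfsg.sameActionSubgroup G y), A := by
        by_contra hnot
        have hcen : ∀ g ∈ (⨆ A ∈ orb G (Cfsg.sameActionSubgroup G y), A),
            g * (x * y⁻¹) = (x * y⁻¹) * g := by
          rcases ih (x * y⁻¹) (N - p) (G.mul_mem hxG (G.inv_mem hy.1)) hx' hN'2 hN'fam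
            (by omega) with h1 | ⟨σ₁, hσ₁, h1⟩
          · intro g hg
            have hle : (⨆ A ∈ orb G (Cfsg.sameActionSubgroup G y), A) ≤
                Subgroup.centralizer {x * y⁻¹} := by
              apply iSup₂_le
              intro A hA
              obtain ⟨τ, hτ, rfl⟩ := hR.orb_subset ⟨y, hyd, rfl⟩ hA
              apply (Subgroup.closure_le _).mpr
              intro z hz
              rw [SetLike.mem_coe, Subgroup.mem_centralizer_iff]
              intro w hw
              rw [Set.mem_singleton_iff] at hw
              subst hw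
              exact (h1 z hz.1).symm
            have h2 := Subgroup.mem_centralizer_iff.mp (hle hg) (x * y⁻¹) rfl
            exact h2.symm
          · have hne' : orb G (Cfsg.sameActionSubgroup G σ₁) ≠
                orb G (Cfsg.sameActionSubgroup G y) := by
              intro heq
              apply hnot
              rw [← heq]
              exact h1
            have hb := hR.comm_orb ⟨y, hyd, rfl⟩ ⟨σ₁, hσ₁, rfl⟩ (Ne.symm hne')
            intro g hg
            have h2 := Subgroup.commutator_eq_bot_iff_le_centralizer.mp hb hg
            exact (Subgroup.mem_centralizer_iff.mp h2 _ h1).symm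
        have hT : (N - p) = 0 := by
          apply zero_of_kills_root hG hR hyd (N - p)
          · intro g hg
            have h3 : (g : Module.End k M) *
                ((x * y⁻¹ : LinearMap.GeneralLinearGroup k M) : Module.End k M) =
                ((x * y⁻¹ : LinearMap.GeneralLinearGroup k M) : Module.End k M) *
                  (g : Module.End k M) := by
              rw [← Units.val_mul, ← Units.val_mul, hcen g hg]
            rw [hx', mul_add, add_mul, mul_one, one_mul] at h3
            exact (add_left_cancel h3).symm
          · rw [hy1, sub_mul, hNp, hp2, sub_zero]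
        apply hnot
        have : x * y⁻¹ = 1 := Units.ext (by rw [hx', hT, add_zero]; rfl)
        rw [this]
        exact Subgroup.one_mem _
      rw [hxy]
      exact Subgroup.mul_mem _ hx'K hyK

end Cfsg.Agent.Helper5.QPair
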