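import Cfsg.Agent.Helper5.QPairAA

set_option autoImplicit false
set_option linter.unusedSimpArgs false
set_option linter.unusedVariables false
set_option linter.unusedSectionVars false

/-! Generic lemmas for S5063: commuting products, pull-back of subgroups along an injective
homomorphism defined on a subgroup, restriction of a linear group to an invariant subspace. -/

namespace Cfsg.Agent.Helper5.QPair

open scoped commutatorElement

section genericAB

variable {Γ : Type*} [Group Γ] {Γ' : Type*} [Group Γ']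

theorem exists_mul_of_mem_sup_comm (K₁ K₂ : Subgroup Γ)
    (hc : ∀ x ∈ K₁, ∀ y ∈ K₂, x * y = y * x) {g : Γ} (hg : g ∈ K₁ ⊔ K₂) :
    ∃ x ∈ K₁, ∃ y ∈ K₂, g = x * y := by
  rw [Subgroup.sup_eq_closure] at hg
  induction hg using Subgroup.closure_induction with
  | mem x hx =>
    rcases hx with hx | hx
    · exact ⟨x, hx, 1, one_mem _, (mul_one x).symm⟩
    · exact ⟨1, one_mem _, x, hx, (one_mul x).symm⟩
  | one => exact ⟨1, one_mem _, 1, one_mem _, (mul_one 1).symm⟩
  | mul x y _ _ hx hy =>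
    obtain ⟨h₁, hh₁, z₁, hz₁, rfl⟩ := hx
    obtain ⟨h₂, hh₂, z₂, hz₂, rfl⟩ := hy
    refine ⟨h₁ * h₂, K₁.mul_mem hh₁ hh₂, z₁ * z₂, K₂.mul_mem hz₁ hz₂, ?_⟩
    have hcc : h₂ * z₁ = z₁ * h₂ := hc h₂ hh₂ z₁ hz₁
    calc h₁ * z₁ * (h₂ * z₂) = h₁ * (z₁ * h₂) * z₂ := by group
      _ = h₁ * (h₂ * z₁) * z₂ := by rw [hcc]
      _ = h₁ * h₂ * (z₁ * z₂) := by group
  | inv x _ hx =>
    obtain ⟨h₁, hh₁, z₁, hz₁, rfl⟩ := hx
    refine ⟨h₁⁻¹, K₁.inv_mem hh₁, z₁⁻¹, K₂.inv_mem hz₁, ?_⟩
    rw [hc h₁ hh₁ z₁ hz₁, mul_inv_rev]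

theorem conjBy_eq_of_le {G A : Subgroup Γ} (h : ∀ g ∈ G, Cfsg.conjBy A g ≤ A) :
    ∀ g ∈ G, Cfsg.conjBy A g = A := by
  intro g hg
  apply le_antisymm (h g hg)
  intro x hx
  have h2 := h g⁻¹ (G.inv_mem hg) (mem_conjBy (g := g⁻¹) hx)
  rw [mem_conjBy_iff]
  rw [inv_inv] at h2
  exact h2

/-- A group isomorphism maps the centre onto the centre. -/
theorem qs_map_center {H H' : Type*} [Group H] [Group H'] (e : H ≃* H') :
    (Subgroup.center H).map (e : H →* H') = Subgroup.center H' := by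
  ext x
  constructor
  · rintro ⟨y, hy, rfl⟩
    have hy' : ∀ g, g * y = y * g := Subgroup.mem_center_iff.mp hy
    rw [Subgroup.mem_center_iff]
    intro g
    obtain ⟨g', rfl⟩ := e.surjective g
    have := hy' g'
    change e g' * e y = e y * e g'
    rw [← map_mul, ← map_mul, this]
  · intro hx
    rw [Subgroup.mem_center_iff] at hx
    refine ⟨e.symm x, ?_, by simp⟩
    change e.symm x ∈ Subgroup.center H
    rw [Subgroup.mem_center_iff]
    intro g
    apply e.injective
    rw [map_mul, map_mul, e.apply_symm_apply]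
    exact hx (e g)

/-- `Cfsg.IsQuasisimple` is invariant under group isomorphism. -/
theorem qs_of_equiv {H H' : Type*} [Group H] [Group H'] (e : H ≃* H')
    (h : Cfsg.IsQuasisimple H) : Cfsg.IsQuasisimple H' := by
  obtain ⟨hp, hs⟩ := h
  refine ⟨?_, ?_⟩
  · have := hp
    exact Group.IsPerfect.ofSurjective (f := (e : H →* H')) e.surjective
  · have e' : H ⧸ Subgroup.center H ≃* H' ⧸ Subgroup.center H' :=
      QuotientGroup.congr (Subgroup.center H) (Subgroup.center H') e (qs_map_center e)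
    have := hs
    exact e'.symm.isSimpleGroup

/-- Pull-back of a subgroup along a homomorphism defined on a subgroup. -/
def pull {H : Subgroup Γ} (f : ↥H →* Γ') (X' : Subgroup Γ') : Subgroup Γ :=
  (X'.comap f).map H.subtype

theorem mem_pull {H : Subgroup Γ} (f : ↥H →* Γ') (X' : Subgroup Γ') {x : Γ} :
    x ∈ pull f X' ↔ ∃ hx : x ∈ H, f ⟨x, hx⟩ ∈ X' := by
  constructor
  · rintro ⟨y, hy, rfl⟩
    exact ⟨y.2, hy⟩
  · rintro ⟨hx, h⟩
    exact ⟨⟨x, hx⟩, h, rfl⟩

theorem pull_le {H : Subgroup Γ} (f : ↥H →* Γ') (X' : Subgroup Γ') : pull f X' ≤ H := by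
  intro x hx
  exact ((mem_pull f X').mp hx).1

theorem pull_comm {H : Subgroup Γ} (f : ↥H →* Γ') (hf : Function.Injective f)
    {X' Y' : Subgroup Γ'} (h : ⁅X', Y'⁆ = ⊥) : ⁅pull f X', pull f Y'⁆ = ⊥ := by
  rw [Subgroup.commutator_eq_bot_iff_le_centralizer]
  intro x hx
  rw [Subgroup.mem_centralizer_iff]
  intro y hy
  obtain ⟨hxH, hx'⟩ := (mem_pull f X').mp hx
  obtain ⟨hyH, hy'⟩ := (mem_pull f Y').mp hy
  have h1 := Subgroup.commutator_eq_bot_iff_le_centralizer.mp h hx'
  have h2 : f ⟨y, hyH⟩ * f ⟨x, hxH⟩ = f ⟨x, hxH⟩ * f ⟨y, hyH⟩ :=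
    Subgroup.mem_centralizer_iff.mp h1 _ hy'
  rw [← map_mul, ← map_mul] at h2
  exact congrArg Subtype.val (hf h2)

theorem pull_conj {H : Subgroup Γ} (f : ↥H →* Γ') {X' : Subgroup Γ'} {h : Γ} (hh : h ∈ H)
    (hX : Cfsg.conjBy X' (f ⟨h, hh⟩) ≤ X') : Cfsg.conjBy (pull f X') h ≤ pull f X' := by
  rintro x ⟨y, hy, rfl⟩
  obtain ⟨hyH, hy'⟩ := (mem_pull f X').mp hy
  rw [mem_pull]
  refine ⟨H.mul_mem (H.mul_mem hh hyH) (H.inv_mem hh), ?_⟩
  have e : (⟨h * y * h⁻¹, H.mul_mem (H.mul_mem hh hyH) (H.inv_mem hh)⟩ : ↥H) =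
      ⟨h, hh⟩ * ⟨y, hyH⟩ * ⟨h, hh⟩⁻¹ := rfl
  show f ⟨h * y * h⁻¹, _⟩ ∈ X'
  rw [e, map_mul, map_mul, map_inv]
  exact hX (mem_conjBy hy')

/-- The pull-back is isomorphic to the original subgroup. -/
noncomputable def pullEquiv {H : Subgroup Γ} (f : ↥H →* Γ') (hf : Function.Injective f)
    {X' : Subgroup Γ'} (hX : X' ≤ f.range) : ↥(pull f X') ≃* ↥X' :=
  MulEquiv.ofBijective
    ((f.comp (Subgroup.inclusion (pull_le f X'))).codRestrict X' (fun x => by
      obtain ⟨hx, h⟩ := (mem_pull f X').mp x.2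
      exact h))
    (by
      constructor
      · intro a b hab
        have h1 : f (Subgroup.inclusion (pull_le f X') a) =
            f (Subgroup.inclusion (pull_le f X') b) := congrArg Subtype.val hab
        have h2 := hf h1
        exact Subgroup.inclusion_injective _ h2
      · intro y
        obtain ⟨h, hh⟩ := hX y.2
        have hmem : (h : Γ) ∈ pull f X' := (mem_pull f X').mpr ⟨h.2, by
          show f ⟨h.1, h.2⟩ ∈ X'
          have : (⟨h.1, h.2⟩ : ↥H) = h := rfl
          rw [this, hh]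
          exact y.2⟩
        refine ⟨⟨h, hmem⟩, ?_⟩
        apply Subtype.ext
        exact hh)

theorem pull_closure {H : Subgroup Γ} (f : ↥H →* Γ') (hf : Function.Injective f)
    {X' : Subgroup Γ'} (hX : X' ≤ f.range) (S : Set Γ) (S' : Set Γ')
    (hS : ∀ h : ↥H, f h ∈ S' → (h : Γ) ∈ S)
    (hcl : Subgroup.closure (S' ∩ (X' : Set Γ')) = X') :
    Subgroup.closure (S ∩ (pull f X' : Set Γ)) = pull f X' := by
  apply le_antisymm
  · exact (Subgroup.closure_le _).mpr Set.inter_subset_right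
  · have hP : X' ≤ ((Subgroup.closure (S ∩ (pull f X' : Set Γ))).subgroupOf H).map f := by
      refine hcl.ge.trans ((Subgroup.closure_le _).mpr ?_)
      rintro y ⟨hyS, hyX⟩
      obtain ⟨h, rfl⟩ := hX hyX
      refine ⟨h, ?_, rfl⟩
      rw [SetLike.mem_coe, Subgroup.mem_subgroupOf]
      apply Subgroup.subset_closure
      exact ⟨hS h hyS, (mem_pull f X').mpr ⟨h.2, hyX⟩⟩
    intro x hx
    obtain ⟨hxH, hx'⟩ := (mem_pull f X').mp hx
    obtain ⟨h', hh', hfh'⟩ := hP hx'
    have : h' = ⟨x, hxH⟩ := hf hfh'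
    have hh'' : h' ∈ (Subgroup.closure (S ∩ (pull f X' : Set Γ))).subgroupOf H := hh'
    rw [this] at hh''
    exact Subgroup.mem_subgroupOf.mp hh''

end genericAB

section restrictAB

variable {k : Type*} [Field k] {M : Type*} [AddCommGroup M] [Module k M]

/-- Restriction of the action of a subgroup to an invariant subspace. -/
def resHom (H : Subgroup (LinearMap.GeneralLinearGroup k M)) (W : Submodule k M)
    (hW : ∀ h ∈ H, ∀ w ∈ W, (h : Module.End k M) w ∈ W) :
    ↥H →* LinearMap.GeneralLinearGroup k ↥W where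
  toFun h :=
    { val := (h.1 : Module.End k M).restrict (hW h.1 h.2)
      inv := ((h.1⁻¹ : LinearMap.GeneralLinearGroup k M) : Module.End k M).restrict
        (hW _ (H.inv_mem h.2))
      val_inv := by
        apply LinearMap.ext
        intro w
        apply Subtype.ext
        show (h.1 : Module.End k M)
          (((h.1⁻¹ : LinearMap.GeneralLinearGroup k M) : Module.End k M) w) = w
        rw [← unit_mul_apply, mul_inv_cancel]
        rfl
      inv_val := by
        apply LinearMap.ext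
        intro w
        apply Subtype.ext
        show ((h.1⁻¹ : LinearMap.GeneralLinearGroup k M) : Module.End k M)
          ((h.1 : Module.End k M) w) = w
        rw [← unit_mul_apply, inv_mul_cancel]
        rfl }
  map_one' := by
    apply Units.ext
    apply LinearMap.ext
    intro w
    apply Subtype.ext
    rfl
  map_mul' := by
    intro a b
    apply Units.ext
    apply LinearMap.ext
    intro w
    apply Subtype.ext
    show ((a.1 * b.1 : LinearMap.GeneralLinearGroup k M) : Module.End k M) w =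
      (a.1 : Module.End k M) ((b.1 : Module.End k M) w)
    rw [unit_mul_apply]

theorem resHom_coe (H : Subgroup (LinearMap.GeneralLinearGroup k M)) (W : Submodule k M)
    (hW : ∀ h ∈ H, ∀ w ∈ W, (h : Module.End k M) w ∈ W) (h : ↥H) (w : ↥W) :
    ((((resHom H W hW h : LinearMap.GeneralLinearGroup k ↥W) : Module.End k ↥W) w : ↥W) : M) =
      (h.1 : Module.End k M) (w : M) := rfl

/-- The linear group elements commuting with an endomorphism. -/
def endComm (T : Module.End k M) : Subgroup (LinearMap.GeneralLinearGroup k M) where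
  carrier := {g | Commute T (g : Module.End k M)}
  one_mem' := Commute.one_right T
  mul_mem' := by
    intro a b ha hb
    show Commute T ((a * b : LinearMap.GeneralLinearGroup k M) : Module.End k M)
    rw [Units.val_mul]
    exact Commute.mul_right ha hb
  inv_mem' := by
    intro a ha
    exact Commute.units_inv_right ha

/-- A minimal element among the nonzero subspaces with a property. -/
theorem exists_min_submodule [FiniteDimensional k M] (P : Submodule k M → Prop) :
    ∀ (n : ℕ) (W : Submodule k M), W ≠ ⊥ → P W → Module.finrank k W ≤ n →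
      ∃ W' : Submodule k M, W' ≤ W ∧ W' ≠ ⊥ ∧ P W' ∧
        ∀ W'' : Submodule k M, W'' ≤ W' → W'' ≠ ⊥ → P W'' → W'' = W' := by
  intro n
  induction n with
  | zero =>
    intro W hW _ hd
    exfalso
    apply hW
    exact Submodule.finrank_eq_zero.mp (Nat.le_zero.mp hd)
  | succ n ih =>
    intro W hW hP hd
    by_cases hmin : ∀ W'' : Submodule k M, W'' ≤ W → W'' ≠ ⊥ → P W'' → W'' = W
    · exact ⟨W, le_rfl, hW, hP, hmin⟩
    · push Not at hmin
      obtain ⟨W'', hle, hne, hP'', hneq⟩ := hmin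
      have hlt : W'' < W := lt_of_le_of_ne hle hneq
      have hfr : Module.finrank k ↥W'' ≤ n := by
        have := Submodule.finrank_lt_finrank_of_lt hlt
        omega
      obtain ⟨W', hW'le, hW'ne, hW'P, hW'min⟩ := ih W'' hne hP'' hfr
      exact ⟨W', hW'le.trans hle, hW'ne, hW'P, hW'min⟩

end restrictAB

end Cfsg.Agent.Helper5.QPair
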