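import Cfsg.Agent.Helper5.QPairAB

set_option autoImplicit false
set_option linter.unusedSimpArgs false
set_option linter.unusedVariables false
set_option linter.unusedSectionVars false

/-! Quadratic pairs (S5063): the quadratic elements centralizing the root elements, and the
restriction of the group they generate to a minimal invariant subspace. -/

namespace Cfsg.Agent.Helper5.QPair

open scoped commutatorElement

variable {k : Type*} [Field k] {M : Type*} [AddCommGroup M] [Module k M] [FiniteDimensional k M]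
  {G : Subgroup (LinearMap.GeneralLinearGroup k M)}

/-- The quadratic elements centralizing all root elements. -/
def cQuad (G : Subgroup (LinearMap.GeneralLinearGroup k M)) :
    Set (LinearMap.GeneralLinearGroup k M) :=
  {x | x ∈ Cfsg.quadraticElements G ∧ ∀ σ ∈ Cfsg.minimalQuadraticElements G, σ * x = x * σ}

/-- The subgroup they generate. -/
def HQ (G : Subgroup (LinearMap.GeneralLinearGroup k M)) :
    Subgroup (LinearMap.GeneralLinearGroup k M) := Subgroup.closure (cQuad G)

omit [FiniteDimensional k M] in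
theorem HQ_le : HQ G ≤ G := (Subgroup.closure_le _).mpr (fun x hx => hx.1.1)

omit [FiniteDimensional k M] in
theorem HQ_comm {h : LinearMap.GeneralLinearGroup k M} (hh : h ∈ HQ G)
    {σ : LinearMap.GeneralLinearGroup k M} (hσ : σ ∈ Cfsg.minimalQuadraticElements G) :
    σ * h = h * σ := by
  have hle : HQ G ≤ Subgroup.centralizer (Cfsg.minimalQuadraticElements G) := by
    apply (Subgroup.closure_le _).mpr
    intro x hx
    rw [SetLike.mem_coe, Subgroup.mem_centralizer_iff]
    intro σ hσ
    exact hx.2 σ hσ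
  exact Subgroup.mem_centralizer_iff.mp (hle hh) σ hσ

omit [FiniteDimensional k M] in
theorem HQ_comm_end {h : LinearMap.GeneralLinearGroup k M} (hh : h ∈ HQ G)
    {σ : LinearMap.GeneralLinearGroup k M} (hσ : σ ∈ Cfsg.minimalQuadraticElements G) :
    Commute (h : Module.End k M) (σ : Module.End k M) := by
  show (h : Module.End k M) * (σ : Module.End k M) = (σ : Module.End k M) * (h : Module.End k M)
  rw [← Units.val_mul, ← Units.val_mul, HQ_comm hh hσ]

omit [FiniteDimensional k M] in
theorem G0_comm_HQ : ∀ x ∈ (⨆ A ∈ Cfsg.quadraticRootSubgroups G, A), ∀ y ∈ HQ G,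
    x * y = y * x := by
  intro x hx y hy
  have hle : (⨆ A ∈ Cfsg.quadraticRootSubgroups G, A) ≤ Subgroup.centralizer {y} := by
    apply iSup₂_le
    rintro A ⟨σ, hσ, rfl⟩
    apply (Subgroup.closure_le _).mpr
    intro z hz
    rw [SetLike.mem_coe, Subgroup.mem_centralizer_iff]
    intro w hw
    rw [Set.mem_singleton_iff] at hw
    subst hw
    exact (HQ_comm hy hz.1).symm
  exact (Subgroup.mem_centralizer_iff.mp (hle hx) y rfl).symm

theorem G_le_sup_HQ (hG : Cfsg.IsQuadraticPair G) (htwo : (2 : k) ≠ 0)
    (ha : ∃ a : k, a ≠ 0 ∧ a ^ 2 ≠ 1) (hR : RS G (Cfsg.quadraticRootSubgroups G)) :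
    G ≤ (⨆ A ∈ Cfsg.quadraticRootSubgroups G, A) ⊔ HQ G := by
  intro x hx
  have hx' : x ∈ Subgroup.closure (Cfsg.quadraticElements G) := by
    rw [hG.2]
    exact hx
  refine (Subgroup.closure_le _).mpr (fun y hy => ?_) hx'
  rcases quad_cases hG htwo ha hR _ y ((y : M →ₗ[k] M) - 1) hy.1 (by abel) hy.2.1.1
    (fam_of_mem hy) le_rfl with h1 | ⟨σ₀, hσ₀, h1⟩
  · exact Subgroup.mem_sup_right (Subgroup.subset_closure ⟨hy, h1⟩)
  · apply Subgroup.mem_sup_left
    have hle : (⨆ A ∈ orb G (Cfsg.sameActionSubgroup G σ₀), A) ≤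
        ⨆ A ∈ Cfsg.quadraticRootSubgroups G, A :=
      iSup₂_le fun A hA => le_iSup₂ (f := fun (A : Subgroup (LinearMap.GeneralLinearGroup k M))
        (_ : A ∈ Cfsg.quadraticRootSubgroups G) => A) A (hR.orb_subset ⟨σ₀, hσ₀, rfl⟩ hA)
    exact hle h1

section withW

variable (hG : Cfsg.IsQuadraticPair G) (htwo : (2 : k) ≠ 0)
    (ha : ∃ a : k, a ≠ 0 ∧ a ^ 2 ≠ 1) (hR : RS G (Cfsg.quadraticRootSubgroups G))
    {W : Submodule k M} (hW : ∀ h ∈ HQ G, ∀ w ∈ W, (h : Module.End k M) w ∈ W) (hW0 : W ≠ ⊥)

include hG htwo ha hR hW hW0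

/-- An endomorphism commuting with the root elements and vanishing on a nonzero `H`-invariant
subspace vanishes. -/
theorem ext_of_comm (T : Module.End k M)
    (hTc : ∀ σ ∈ Cfsg.minimalQuadraticElements G, Commute T (σ : Module.End k M))
    (hTW : ∀ w ∈ W, T w = 0) : T = 0 := by
  have hG0 : (⨆ A ∈ Cfsg.quadraticRootSubgroups G, A) ≤ endComm T := by
    apply iSup₂_le
    rintro A ⟨σ, hσ, rfl⟩
    apply (Subgroup.closure_le _).mpr
    intro z hz
    exact hTc z hz.1
  let K : Submodule k M :=
    { carrier := {m | ∀ g ∈ G, T ((g : Module.End k M) m) = 0}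
      add_mem' := by
        intro x y hx hy g hg
        rw [map_add, map_add, hx g hg, hy g hg, add_zero]
      zero_mem' := by
        intro g hg
        rw [map_zero, map_zero]
      smul_mem' := by
        intro c x hx g hg
        rw [map_smul, map_smul, hx g hg, smul_zero] }
  have hKinv : ∀ g ∈ G, ∀ w ∈ K, (g : M →ₗ[k] M) w ∈ K := by
    intro g hg w hw g' hg'
    have := hw (g' * g) (G.mul_mem hg' hg)
    rwa [unit_mul_apply] at this
  rcases hG.1.2 K hKinv with hK | hK
  · exfalso
    apply hW0
    rw [eq_bot_iff]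
    intro w hw
    rw [← hK]
    intro g hg
    obtain ⟨x, hx, y, hy, rfl⟩ := exists_mul_of_mem_sup_comm _ _ G0_comm_HQ
      (G_le_sup_HQ hG htwo ha hR hg)
    rw [unit_mul_apply]
    have hc : Commute T (x : Module.End k M) := hG0 hx
    have h2 : T ((x : Module.End k M) ((y : Module.End k M) w)) =
        (x : Module.End k M) (T ((y : Module.End k M) w)) :=
      congrArg (fun f : Module.End k M => f ((y : Module.End k M) w)) hc.eq
    rw [h2, hTW _ (hW y hy w hw), map_zero]
  · apply LinearMap.ext
    intro m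
    have hm : m ∈ K := by
      rw [hK]
      exact Submodule.mem_top
    exact hm 1 G.one_mem

theorem resHom_injective : Function.Injective (resHom (HQ G) W hW) := by
  rw [injective_iff_map_eq_one]
  intro h hh
  apply Subtype.ext
  apply Units.ext
  have hT : ((h.1 : Module.End k M) - 1) = 0 := by
    apply ext_of_comm hG htwo ha hR hW hW0
    · intro σ hσ
      exact (HQ_comm_end h.2 hσ).sub_left (Commute.one_left _)
    · intro w hw
      have h1 := congrArg (fun u : LinearMap.GeneralLinearGroup k ↥W =>
        (((u : Module.End k ↥W) ⟨w, hw⟩ : ↥W) : M)) hh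
      show (h.1 : Module.End k M) w - w = 0
      exact sub_eq_zero.mpr h1
  exact sub_eq_zero.mp hT

/-- Restriction maps centralizing quadratic elements to quadratic elements. -/
theorem res_quad {x : LinearMap.GeneralLinearGroup k M} (hx : x ∈ cQuad G) :
    resHom (HQ G) W hW ⟨x, Subgroup.subset_closure hx⟩ ∈
      Cfsg.quadraticElements (resHom (HQ G) W hW).range := by
  refine ⟨⟨_, rfl⟩, ⟨?_, ?_⟩, ?_⟩
  · apply LinearMap.ext
    intro w
    apply Subtype.ext
    show ((x : Module.End k M) - 1) (((x : Module.End k M) - 1) (w : M)) = 0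
    exact congrArg (fun f : Module.End k M => f (w : M)) hx.1.2.1.1
  · intro h0
    apply hx.1.2.1.2
    apply ext_of_comm hG htwo ha hR hW hW0
    · intro σ hσ
      exact (HQ_comm_end (Subgroup.subset_closure hx) hσ).sub_left (Commute.one_left _)
    · intro w hw
      have h1 := congrArg (fun f : Module.End k ↥W => ((f ⟨w, hw⟩ : ↥W) : M)) h0
      exact h1
  · rintro τ' ⟨c, hc⟩
    obtain ⟨y, hyG, hy⟩ := fam_of_mem hx.1 c
    have hyH : y ∈ HQ G := by
      by_cases hc0 : c = 0
      · have : y = 1 := Units.ext (by rw [hy, hc0, zero_smul, add_zero]; rfl)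
        rw [this]
        exact Subgroup.one_mem _
      · apply Subgroup.subset_closure
        have e : (y : Module.End k M) - 1 = c • ((x : Module.End k M) - 1) := by
          rw [hy]
          abel
        refine ⟨⟨hyG, ⟨?_, ?_⟩, ?_⟩, ?_⟩
        · rw [e, smul_mul_smul_comm, hx.1.2.1.1, smul_zero]
        · rw [e]
          intro h0
          exact hx.1.2.1.2 ((smul_eq_zero.mp h0).resolve_left hc0)
        · rintro τ ⟨c', hc'⟩
          apply hx.1.2.2
          refine ⟨c' * c, ?_⟩
          rw [hc', e, smul_smul]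
        · intro σ hσ
          apply Units.ext
          have h1 : (σ : Module.End k M) * ((x : Module.End k M) - 1) =
              ((x : Module.End k M) - 1) * (σ : Module.End k M) := by
            rw [mul_sub, sub_mul, mul_one, one_mul, ← Units.val_mul, ← Units.val_mul, hx.2 σ hσ]
          rw [Units.val_mul, Units.val_mul, hy, mul_add, add_mul, mul_one, one_mul,
            mul_smul_comm, smul_mul_assoc, h1]
    refine ⟨⟨y, hyH⟩, ?_⟩
    apply Units.ext
    apply LinearMap.ext
    intro w
    apply Subtype.ext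
    rw [resHom_coe, hc]
    show (y : Module.End k M) (w : M) = (w : M) + c • ((x : Module.End k M) (w : M) - (w : M))
    rw [hy]
    rfl

/-- Quadratic elements of the restricted group lift to centralizing quadratic elements. -/
theorem lift_quad (h : ↥(HQ G))
    (hq : resHom (HQ G) W hW h ∈ Cfsg.quadraticElements (resHom (HQ G) W hW).range) :
    (h : LinearMap.GeneralLinearGroup k M) ∈ cQuad G := by
  obtain ⟨-, ⟨hsq, hne⟩, hfam⟩ := hq
  have hcomm : ∀ σ ∈ Cfsg.minimalQuadraticElements G,
      Commute ((h.1 : Module.End k M) - 1) (σ : Module.End k M) :=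
    fun σ hσ => (HQ_comm_end h.2 hσ).sub_left (Commute.one_left _)
  refine ⟨⟨HQ_le h.2, ⟨?_, ?_⟩, ?_⟩, fun σ hσ => HQ_comm h.2 hσ⟩
  · apply ext_of_comm hG htwo ha hR hW hW0
    · intro σ hσ
      exact (hcomm σ hσ).mul_left (hcomm σ hσ)
    · intro w hw
      have h1 := congrArg (fun f : Module.End k ↥W => ((f ⟨w, hw⟩ : ↥W) : M)) hsq
      exact h1
  · intro h0
    apply hne
    apply LinearMap.ext
    intro w
    apply Subtype.ext
    show ((h.1 : Module.End k M) - 1) (w : M) = 0
    rw [h0]
    rfl
  · rintro τ ⟨c, hc⟩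
    have hsq' : (c • (((resHom (HQ G) W hW h : LinearMap.GeneralLinearGroup k ↥W) :
        Module.End k ↥W) - 1)) * (c • (((resHom (HQ G) W hW h :
          LinearMap.GeneralLinearGroup k ↥W) : Module.End k ↥W) - 1)) = 0 := by
      rw [smul_mul_smul_comm, hsq, smul_zero]
    obtain ⟨h_c, hh_c⟩ := hfam (⟨c, unitOf_val _ hsq'⟩ :
      unitOf _ hsq' ∈ Cfsg.scalarFamily (resHom (HQ G) W hW h))
    have hT : (h_c.1 : Module.End k M) - (1 + c • ((h.1 : Module.End k M) - 1)) = 0 := by
      apply ext_of_comm hG htwo ha hR hW hW0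
      · intro σ hσ
        exact (HQ_comm_end h_c.2 hσ).sub_left
          ((Commute.one_left _).add_left ((hcomm σ hσ).smul_left c))
      · intro w hw
        have h1 := congrArg (fun u : LinearMap.GeneralLinearGroup k ↥W =>
          (((u : Module.End k ↥W) ⟨w, hw⟩ : ↥W) : M)) hh_c
        have h2 : (h_c.1 : Module.End k M) w =
            w + c • ((h.1 : Module.End k M) w - w) := by
          rw [← resHom_coe (HQ G) W hW h_c ⟨w, hw⟩]
          refine h1.trans ?_
          show ((((unitOf _ hsq' : LinearMap.GeneralLinearGroup k ↥W) : Module.End k ↥W)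
            ⟨w, hw⟩ : ↥W) : M) = _
          rw [unitOf_val]
          rfl
        show (h_c.1 : Module.End k M) w - (w + c • ((h.1 : Module.End k M) w - w)) = 0
        rw [h2, sub_self]
    have : τ = h_c.1 := Units.ext (by
      rw [hc]
      exact (sub_eq_zero.mp hT).symm)
    rw [this]
    exact HQ_le h_c.2

/-- The restricted group is a quadratic pair on a minimal invariant subspace. -/
theorem res_pair
    (hmin : ∀ W'' : Submodule k M, W'' ≤ W → W'' ≠ ⊥ →
      (∀ h ∈ HQ G, ∀ w ∈ W'', (h : Module.End k M) w ∈ W'') → W'' = W) :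
    Cfsg.IsQuadraticPair (resHom (HQ G) W hW).range := by
  refine ⟨⟨?_, ?_⟩, ?_⟩
  · obtain ⟨w, hw, hw0⟩ := Submodule.exists_mem_ne_zero_of_ne_bot hW0
    exact ⟨⟨w, hw⟩, fun h => hw0 (congrArg Subtype.val h)⟩
  · intro W' hW'
    by_cases hb : W' = ⊥
    · exact Or.inl hb
    · right
      have h1 : W'.map W.subtype = W := by
        apply hmin
        · exact Submodule.map_subtype_le W W'
        · intro h0
          apply hb
          exact Submodule.map_injective_of_injective W.injective_subtype
            (h0.trans (Submodule.map_bot _).symm)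
        · rintro h hh v ⟨w, hw, rfl⟩
          exact ⟨((resHom (HQ G) W hW ⟨h, hh⟩ : LinearMap.GeneralLinearGroup k ↥W) :
            Module.End k ↥W) w, hW' _ ⟨⟨h, hh⟩, rfl⟩ w hw, rfl⟩
      apply Submodule.map_injective_of_injective W.injective_subtype
      rw [h1, Submodule.map_subtype_top]
  · apply le_antisymm
    · apply (Subgroup.closure_le _).mpr
      intro x hx
      exact hx.1
    · have htop : (⊤ : Subgroup ↥(HQ G)) = Subgroup.closure
          (((↑) : ↥(HQ G) → LinearMap.GeneralLinearGroup k M) ⁻¹' cQuad G) :=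
        (Subgroup.closure_closure_coe_preimage (k := cQuad G)).symm
      have hrange : (resHom (HQ G) W hW).range = Subgroup.closure
          (⇑(resHom (HQ G) W hW) ''
            (((↑) : ↥(HQ G) → LinearMap.GeneralLinearGroup k M) ⁻¹' cQuad G)) := by
        rw [MonoidHom.range_eq_map, htop, MonoidHom.map_closure]
      intro x hx
      rw [hrange] at hx
      refine (Subgroup.closure_le _).mpr ?_ hx
      rintro _ ⟨s, hs, rfl⟩
      exact Subgroup.subset_closure (res_quad hG htwo ha hR hW hW0 hs)

omit hG htwo ha hR in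
theorem finrank_res_lt
    (hmin : ∀ W'' : Submodule k M, W'' ≤ W → W'' ≠ ⊥ →
      (∀ h ∈ HQ G, ∀ w ∈ W'', (h : Module.End k M) w ∈ W'') → W'' = W)
    {σ : LinearMap.GeneralLinearGroup k M} (hσ : σ ∈ Cfsg.minimalQuadraticElements G) :
    Module.finrank k ↥W < Module.finrank k M := by
  by_contra hge
  push Not at hge
  have htop : W = ⊤ := Submodule.eq_top_of_finrank_eq (le_antisymm (Submodule.finrank_le W) hge)
  have h1 : LinearMap.ker ((σ : Module.End k M) - 1) = W := by
    apply hmin
    · rw [htop]
      exact le_top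
    · intro h0
      apply hσ.1.2.1.2
      rw [← LinearMap.range_eq_bot, eq_bot_iff, ← h0]
      exact range_le_ker_of_sq _ hσ.1.2.1.1
    · intro h hh w hw
      rw [LinearMap.mem_ker] at hw ⊢
      have hc := (HQ_comm_end hh hσ).sub_right (Commute.one_right _)
      have h2 : ((σ : Module.End k M) - 1) ((h : Module.End k M) w) =
          (h : Module.End k M) (((σ : Module.End k M) - 1) w) :=
        (congrArg (fun f : Module.End k M => f w) hc.eq).symm
      rw [h2, hw, map_zero]
  apply hσ.1.2.1.2
  rw [← LinearMap.ker_eq_top, h1, htop]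

end withW

end Cfsg.Agent.Helper5.QPair
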