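import Cfsg.Agent.Helper5.QPairAC

set_option autoImplicit false
set_option linter.unusedSimpArgs false
set_option linter.unusedVariables false
set_option linter.unusedSectionVars false

/-! Quadratic pairs (S5063): the inductive step of the central product decomposition. -/

namespace Cfsg.Agent.Helper5.QPair

open scoped commutatorElement

/-- The decomposition statement. -/
def Dec {k : Type*} [Field k] {M : Type*} [AddCommGroup M] [Module k M]
    (G : Subgroup (LinearMap.GeneralLinearGroup k M)) : Prop :=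
  ∃ (ι : Type) (_ : Finite ι) (Gi : ι → Subgroup (LinearMap.GeneralLinearGroup k M)),
    (∀ i, Gi i ≤ G ∧ ∀ g ∈ G, Cfsg.conjBy (Gi i) g = Gi i) ∧
    (∀ i j, i ≠ j → ⁅Gi i, Gi j⁆ = ⊥) ∧
    (∀ i, Cfsg.IsQuasisimple ↥(Gi i) ∧
      Subgroup.closure (Cfsg.quadraticElements G ∩
        (Gi i : Set (LinearMap.GeneralLinearGroup k M))) = Gi i) ∧
    Cfsg.quadraticElements G ⊆ ⋃ i, (Gi i : Set (LinearMap.GeneralLinearGroup k M))

theorem orbgrp_conj {Γ : Type*} [Group Γ] (G : Subgroup Γ) (A₀ : Subgroup Γ) :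
    ∀ g ∈ G, Cfsg.conjBy (⨆ A ∈ orb G A₀, A) g = ⨆ A ∈ orb G A₀, A := by
  apply conjBy_eq_of_le
  intro g hg
  show Subgroup.map _ _ ≤ _
  rw [Subgroup.map_le_iff_le_comap]
  apply iSup₂_le
  intro A hA
  rw [← Subgroup.map_le_iff_le_comap]
  have hmem : Cfsg.conjBy A g ∈ orb G A₀ := by
    have h2 : Cfsg.conjBy A g ∈ orb G A := ⟨g, hg, rfl⟩
    rw [orb_eq_of_mem hA] at h2
    exact h2
  exact le_iSup₂ (f := fun (A : Subgroup Γ) (_ : A ∈ orb G A₀) => A) _ hmem

variable {k : Type*} [Field k] {M : Type*} [AddCommGroup M] [Module k M] [FiniteDimensional k M]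
  {G : Subgroup (LinearMap.GeneralLinearGroup k M)}

omit [FiniteDimensional k M] in
theorem orbgrp_gen (hR : RS G (Cfsg.quadraticRootSubgroups G))
    {σ₀ : LinearMap.GeneralLinearGroup k M} (hσ₀ : σ₀ ∈ Cfsg.minimalQuadraticElements G) :
    Subgroup.closure (Cfsg.quadraticElements G ∩
      ((⨆ A ∈ orb G (Cfsg.sameActionSubgroup G σ₀), A :
        Subgroup (LinearMap.GeneralLinearGroup k M)) :
          Set (LinearMap.GeneralLinearGroup k M))) =
      ⨆ A ∈ orb G (Cfsg.sameActionSubgroup G σ₀), A := by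
  apply le_antisymm
  · exact (Subgroup.closure_le _).mpr Set.inter_subset_right
  · apply iSup₂_le
    intro A hA
    obtain ⟨σ, hσ, rfl⟩ := hR.orb_subset ⟨σ₀, hσ₀, rfl⟩ hA
    apply Subgroup.closure_mono
    intro z hz
    exact ⟨hz.1.1, hR.le_iSup hA (Subgroup.subset_closure hz)⟩

/-- A quadratic element of minimal commutator rank exists. -/
theorem exists_minimal_quad (hne : (Cfsg.quadraticElements G).Nonempty) :
    ∃ σ, σ ∈ Cfsg.minimalQuadraticElements G := by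
  have hS : (Cfsg.commutatorRank '' Cfsg.quadraticElements G).Nonempty := hne.image _
  obtain ⟨σ, hσ, hσr⟩ := Nat.sInf_mem hS
  refine ⟨σ, hσ, fun τ hτ => ?_⟩
  rw [hσr]
  exact Nat.sInf_le ⟨τ, hτ, rfl⟩

/-- The inductive step. -/
theorem dec_step (hG : Cfsg.IsQuadraticPair G) (htwo : (2 : k) ≠ 0)
    (ha : ∃ a : k, a ≠ 0 ∧ a ^ 2 ≠ 1)
    (hS : ∀ x ∈ Cfsg.minimalQuadraticElements G,
      (Cfsg.sameActionSubgroup G x : Set (LinearMap.GeneralLinearGroup k M)) =
        Cfsg.sameActionClass G x ∪ {1})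
    (hoppex : ∀ x ∈ Cfsg.minimalQuadraticElements G,
      ∃ φ ∈ Cfsg.minimalQuadraticElements G, Opp x φ)
    (hR : RS G (Cfsg.quadraticRootSubgroups G))
    {σs : LinearMap.GeneralLinearGroup k M} (hσs : σs ∈ Cfsg.minimalQuadraticElements G)
    (IH : ∀ (W : Submodule k M) (G' : Subgroup (LinearMap.GeneralLinearGroup k ↥W)),
      Module.finrank k ↥W < Module.finrank k M → Cfsg.IsQuadraticPair G' → Dec G') : Dec G := by
  classical
  have hfin := orbits_finite hG hR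
  have : Finite ↥{c : Set (Subgroup (LinearMap.GeneralLinearGroup k M)) |
      ∃ A ∈ Cfsg.quadraticRootSubgroups G, c = orb G A} := hfin.to_subtype
  let e := Finite.equivFin ↥{c : Set (Subgroup (LinearMap.GeneralLinearGroup k M)) |
      ∃ A ∈ Cfsg.quadraticRootSubgroups G, c = orb G A}
  have hpart : ∀ i, ∃ σ ∈ Cfsg.minimalQuadraticElements G,
      ((e.symm i).1 : Set (Subgroup (LinearMap.GeneralLinearGroup k M))) =
        orb G (Cfsg.sameActionSubgroup G σ) := by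
    intro i
    obtain ⟨A, ⟨σ, hσ, rfl⟩, h⟩ := (e.symm i).2
    exact ⟨σ, hσ, h⟩
  have hM0 : (⊤ : Submodule k M) ≠ ⊥ := by
    obtain ⟨m, hm⟩ := hG.1.1
    intro h
    have : m ∈ (⊤ : Submodule k M) := Submodule.mem_top
    rw [h] at this
    exact hm ((Submodule.mem_bot k).mp this)
  obtain ⟨W, -, hW0, hW, hmin⟩ := exists_min_submodule
    (fun W : Submodule k M => ∀ h ∈ HQ G, ∀ w ∈ W, (h : Module.End k M) w ∈ W) _ ⊤ hM0
    (fun _ _ _ _ => Submodule.mem_top) le_rfl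
  have hpair := res_pair hG htwo ha hR hW hW0 hmin
  have hlt := finrank_res_lt hW hW0 hmin hσs
  obtain ⟨ι', hι', Hi, ha', hb', hd', he'⟩ := IH W _ hlt hpair
  have hinj := resHom_injective hG htwo ha hR hW hW0
  have hG0le : ∀ σ ∈ Cfsg.minimalQuadraticElements G,
      (⨆ A ∈ orb G (Cfsg.sameActionSubgroup G σ), A) ≤
        ⨆ A ∈ Cfsg.quadraticRootSubgroups G, A := fun σ hσ =>
    iSup₂_le fun A hA => le_iSup₂ (f := fun (A : Subgroup (LinearMap.GeneralLinearGroup k M))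
      (_ : A ∈ Cfsg.quadraticRootSubgroups G) => A) A (hR.orb_subset ⟨σ, hσ, rfl⟩ hA)
  refine ⟨Fin (Nat.card ↥{c : Set (Subgroup (LinearMap.GeneralLinearGroup k M)) |
      ∃ A ∈ Cfsg.quadraticRootSubgroups G, c = orb G A}) ⊕ ι', inferInstance,
    Sum.elim (fun i => ⨆ A ∈ (e.symm i).1, A)
      (fun j => pull (resHom (HQ G) W hW) (Hi j)), ?_, ?_, ?_, ?_⟩
  · rintro (i | j)
    · obtain ⟨σ, hσ, h⟩ := hpart i
      show (⨆ A ∈ (e.symm i).1, A) ≤ G ∧ ∀ g ∈ G,
        Cfsg.conjBy (⨆ A ∈ (e.symm i).1, A) g = ⨆ A ∈ (e.symm i).1, A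
      rw [h]
      exact ⟨hR.iSup_le_G ⟨σ, hσ, rfl⟩, orbgrp_conj G _⟩
    · show pull (resHom (HQ G) W hW) (Hi j) ≤ G ∧ ∀ g ∈ G,
        Cfsg.conjBy (pull (resHom (HQ G) W hW) (Hi j)) g = pull (resHom (HQ G) W hW) (Hi j)
      refine ⟨(pull_le _ _).trans HQ_le, ?_⟩
      apply conjBy_eq_of_le
      intro g hg
      obtain ⟨x, hx, y, hy, rfl⟩ := exists_mul_of_mem_sup_comm _ _ G0_comm_HQ
        (G_le_sup_HQ hG htwo ha hR hg)
      rw [← conjBy_conjBy]
      have h1 : Cfsg.conjBy (pull (resHom (HQ G) W hW) (Hi j)) y ≤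
          pull (resHom (HQ G) W hW) (Hi j) :=
        pull_conj _ hy (le_of_eq ((ha' j).2 _ ⟨⟨y, hy⟩, rfl⟩))
      have hxc : x ∈ Subgroup.centralizer ((HQ G : Subgroup (LinearMap.GeneralLinearGroup k M)) :
          Set (LinearMap.GeneralLinearGroup k M)) :=
        Subgroup.mem_centralizer_iff.mpr (fun h hh => (G0_comm_HQ x hx h hh).symm)
      have h2 : Cfsg.conjBy (pull (resHom (HQ G) W hW) (Hi j)) x =
          pull (resHom (HQ G) W hW) (Hi j) := conjBy_of_centralizer (pull_le _ _) hxc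
      calc Cfsg.conjBy (Cfsg.conjBy (pull (resHom (HQ G) W hW) (Hi j)) y) x
          ≤ Cfsg.conjBy (pull (resHom (HQ G) W hW) (Hi j)) x := Subgroup.map_mono h1
        _ = pull (resHom (HQ G) W hW) (Hi j) := h2
  · rintro (i | i) (j | j) hij
    · obtain ⟨σ, hσ, h⟩ := hpart i
      obtain ⟨τ, hτ, h'⟩ := hpart j
      show ⁅(⨆ A ∈ (e.symm i).1, A), (⨆ A ∈ (e.symm j).1, A)⁆ = ⊥
      rw [h, h']
      apply hR.comm_orb ⟨σ, hσ, rfl⟩ ⟨τ, hτ, rfl⟩
      intro heq
      apply hij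
      have : i = j := e.symm.injective (Subtype.ext (by rw [h, h', heq]))
      rw [this]
    · obtain ⟨σ, hσ, h⟩ := hpart i
      show ⁅(⨆ A ∈ (e.symm i).1, A), pull (resHom (HQ G) W hW) (Hi j)⁆ = ⊥
      rw [h, Subgroup.commutator_eq_bot_iff_le_centralizer]
      intro x hx
      rw [Subgroup.mem_centralizer_iff]
      intro y hy
      exact (G0_comm_HQ x (hG0le σ hσ hx) y (pull_le _ _ hy)).symm
    · obtain ⟨σ, hσ, h⟩ := hpart j
      show ⁅pull (resHom (HQ G) W hW) (Hi i), (⨆ A ∈ (e.symm j).1, A)⁆ = ⊥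
      rw [h, Subgroup.commutator_comm, Subgroup.commutator_eq_bot_iff_le_centralizer]
      intro x hx
      rw [Subgroup.mem_centralizer_iff]
      intro y hy
      exact (G0_comm_HQ x (hG0le σ hσ hx) y (pull_le _ _ hy)).symm
    · exact pull_comm _ hinj (hb' i j (fun h => hij (congrArg Sum.inr h)))
  · rintro (i | j)
    · obtain ⟨σ, hσ, h⟩ := hpart i
      show Cfsg.IsQuasisimple ↥(⨆ A ∈ (e.symm i).1, A) ∧
        Subgroup.closure (Cfsg.quadraticElements G ∩
          ((⨆ A ∈ (e.symm i).1, A : Subgroup (LinearMap.GeneralLinearGroup k M)) :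
            Set (LinearMap.GeneralLinearGroup k M))) = ⨆ A ∈ (e.symm i).1, A
      rw [h]
      exact ⟨(main_orb htwo ha hS hoppex hR hσ hG).1, orbgrp_gen hR hσ⟩
    · have hXle : Hi j ≤ (resHom (HQ G) W hW).range := (ha' j).1
      refine ⟨qs_of_equiv (pullEquiv _ hinj hXle).symm (hd' j).1,
        pull_closure _ hinj hXle _ _ ?_ (hd' j).2⟩
      intro h hq
      exact (lift_quad hG htwo ha hR hW hW0 h hq).1
  · intro x hx
    rw [Set.mem_iUnion]
    rcases quad_cases hG htwo ha hR _ x ((x : M →ₗ[k] M) - 1) hx.1 (by abel) hx.2.1.1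
      (fam_of_mem hx) le_rfl with h1 | ⟨σ₀, hσ₀, h1⟩
    · have hxc : x ∈ cQuad G := ⟨hx, h1⟩
      have hq := res_quad hG htwo ha hR hW hW0 hxc
      obtain ⟨j, hj⟩ := Set.mem_iUnion.mp (he' hq)
      exact ⟨Sum.inr j, (mem_pull _ _).mpr ⟨Subgroup.subset_closure hxc, hj⟩⟩
    · refine ⟨Sum.inl (e ⟨orb G (Cfsg.sameActionSubgroup G σ₀),
        Cfsg.sameActionSubgroup G σ₀, ⟨σ₀, hσ₀, rfl⟩, rfl⟩), ?_⟩
      show x ∈ ⨆ A ∈ (e.symm (e ⟨orb G (Cfsg.sameActionSubgroup G σ₀),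
        Cfsg.sameActionSubgroup G σ₀, ⟨σ₀, hσ₀, rfl⟩, rfl⟩)).1, A
      rw [Equiv.symm_apply_apply]
      exact h1

omit [FiniteDimensional k M] in
/-- From the decomposition statement to a family indexed by `Fin s`. -/
theorem dec_fin (hG : Cfsg.IsQuadraticPair G) (h : Dec G) :
    ∃ (s : ℕ) (Gi : Fin s → Subgroup (LinearMap.GeneralLinearGroup k M)),
      (∀ i, Gi i ≤ G ∧ ∀ g ∈ G, Cfsg.conjBy (Gi i) g = Gi i) ∧
      (∀ i j, i ≠ j → ⁅Gi i, Gi j⁆ = ⊥) ∧ (⨆ i, Gi i) = G ∧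
      (∀ i, Cfsg.IsQuasisimple ↥(Gi i) ∧
        Subgroup.closure (Cfsg.quadraticElements G ∩
          (Gi i : Set (LinearMap.GeneralLinearGroup k M))) = Gi i) ∧
      Cfsg.quadraticElements G ⊆ ⋃ i, (Gi i : Set (LinearMap.GeneralLinearGroup k M)) := by
  obtain ⟨ι, hι, Gi, ha', hb', hd', he'⟩ := h
  let e := Finite.equivFin ι
  refine ⟨Nat.card ι, fun i => Gi (e.symm i), fun i => ha' (e.symm i),
    fun i j hij => hb' _ _ (fun h => hij (e.symm.injective h)), ?_, fun i => hd' (e.symm i), ?_⟩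
  · apply le_antisymm
    · exact iSup_le fun i => (ha' _).1
    · intro x hx
      have hx' : x ∈ Subgroup.closure (Cfsg.quadraticElements G) := by
        rw [hG.2]
        exact hx
      refine (Subgroup.closure_le _).mpr (fun y hy => ?_) hx'
      obtain ⟨i, hi⟩ := Set.mem_iUnion.mp (he' hy)
      apply Subgroup.mem_iSup_of_mem (e i)
      show y ∈ Gi (e.symm (e i))
      rw [Equiv.symm_apply_apply]
      exact hi
  · intro x hx
    obtain ⟨i, hi⟩ := Set.mem_iUnion.mp (he' hx)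
    refine Set.mem_iUnion.mpr ⟨e i, ?_⟩
    show x ∈ Gi (e.symm (e i))
    rw [Equiv.symm_apply_apply]
    exact hi

end Cfsg.Agent.Helper5.QPair
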