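import Mathlib

set_option autoImplicit false

/-! Matrix units `E₁₂ = p`, `E₂₁ = q` in a corner `e S e` of a ring (for S5064). -/

namespace Cfsg.Agent.Helper5.QPair

/-- A pair `p, q` with `p² = q² = 0`, `pq + qp = e`, `e` a two-sided identity for `p` and `q`. -/
structure MUnits (S : Type*) [Ring S] where
  p : S
  q : S
  e : S
  pp : p * p = 0
  qq : q * q = 0
  pq_qp : p * q + q * p = e
  ep : e * p = p
  pe : p * e = p
  eq' : e * q = q
  qe : q * e = q

namespace MUnits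

variable {S : Type*} [Ring S] (U : MUnits S)

theorem qp_eq : U.q * U.p = U.e - U.p * U.q := by
  rw [← U.pq_qp]
  abel

theorem pqp : U.p * (U.q * U.p) = U.p := by
  rw [U.qp_eq, mul_sub, U.pe, ← mul_assoc, U.pp, zero_mul, sub_zero]

theorem qpq : U.q * (U.p * U.q) = U.q := by
  rw [← mul_assoc, U.qp_eq, sub_mul, U.eq', mul_assoc, U.qq, mul_zero, sub_zero]

theorem ee : U.e * U.e = U.e := by
  nth_rewrite 2 [← U.pq_qp]
  rw [mul_add, ← mul_assoc, ← mul_assoc, U.ep, U.eq', U.pq_qp]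

theorem e_pq : U.e * (U.p * U.q) = U.p * U.q := by rw [← mul_assoc, U.ep]
theorem e_qp : U.e * (U.q * U.p) = U.q * U.p := by rw [← mul_assoc, U.eq']
theorem pq_e : U.p * U.q * U.e = U.p * U.q := by rw [mul_assoc, U.qe]
theorem qp_e : U.q * U.p * U.e = U.q * U.p := by rw [mul_assoc, U.pe]

theorem waa : (U.p * U.q) * (U.p * U.q) = U.p * U.q := by rw [mul_assoc, U.qpq]
theorem wab : (U.p * U.q) * U.p = U.p := by rw [mul_assoc, U.pqp]
theorem wac : (U.p * U.q) * U.q = 0 := by rw [mul_assoc, U.qq, mul_zero]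
theorem wad : (U.p * U.q) * (U.q * U.p) = 0 := by
  rw [mul_assoc, ← mul_assoc U.q, U.qq, zero_mul, mul_zero]
theorem wba : U.p * (U.p * U.q) = 0 := by rw [← mul_assoc, U.pp, zero_mul]
theorem wbb : U.p * U.p = 0 := U.pp
theorem wbc : U.p * U.q = U.p * U.q := rfl
theorem wbd : U.p * (U.q * U.p) = U.p := U.pqp
theorem wca : U.q * (U.p * U.q) = U.q := U.qpq
theorem wcb : U.q * U.p = U.q * U.p := rfl
theorem wcc : U.q * U.q = 0 := U.qq
theorem wcd : U.q * (U.q * U.p) = 0 := by rw [← mul_assoc, U.qq, zero_mul]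
theorem wda : (U.q * U.p) * (U.p * U.q) = 0 := by
  rw [mul_assoc, ← mul_assoc U.p, U.pp, zero_mul, mul_zero]
theorem wdb : (U.q * U.p) * U.p = 0 := by rw [mul_assoc, U.pp, mul_zero]
theorem wdc : (U.q * U.p) * U.q = U.q := by rw [mul_assoc, U.qpq]
theorem wdd : (U.q * U.p) * (U.q * U.p) = U.q * U.p := by rw [mul_assoc, U.pqp]

theorem prod_aux (x W y W' : S) (h : W * y = y * W) : (x * W) * (y * W') = (x * y) * (W * W') := by
  rw [mul_assoc, ← mul_assoc W, h, mul_assoc, mul_assoc]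

theorem comm_pq (y : S) (hp : U.p * y = y * U.p) (hq : U.q * y = y * U.q) :
    (U.p * U.q) * y = y * (U.p * U.q) := by
  rw [mul_assoc, hq, ← mul_assoc, hp, mul_assoc]

theorem comm_qp (y : S) (hp : U.p * y = y * U.p) (hq : U.q * y = y * U.q) :
    (U.q * U.p) * y = y * (U.q * U.p) := by
  rw [mul_assoc, hp, ← mul_assoc, hq, mul_assoc]

/-- The value of a `2 × 2` array of coefficients. -/
def val (x1 x2 x3 x4 : S) : S := x1 * (U.p * U.q) + x2 * U.p + x3 * U.q + x4 * (U.q * U.p)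

/-- Multiplication of `2 × 2` arrays. -/
theorem val_mul (x1 x2 x3 x4 y1 y2 y3 y4 : S)
    (h1p : U.p * y1 = y1 * U.p) (h1q : U.q * y1 = y1 * U.q)
    (h2p : U.p * y2 = y2 * U.p) (h2q : U.q * y2 = y2 * U.q)
    (h3p : U.p * y3 = y3 * U.p) (h3q : U.q * y3 = y3 * U.q)
    (h4p : U.p * y4 = y4 * U.p) (h4q : U.q * y4 = y4 * U.q) :
    U.val x1 x2 x3 x4 * U.val y1 y2 y3 y4 =
      U.val (x1 * y1 + x2 * y3) (x1 * y2 + x2 * y4) (x3 * y1 + x4 * y3) (x3 * y2 + x4 * y4) := by
  have h1a := U.comm_pq y1 h1p h1q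
  have h1d := U.comm_qp y1 h1p h1q
  have h2a := U.comm_pq y2 h2p h2q
  have h2d := U.comm_qp y2 h2p h2q
  have h3a := U.comm_pq y3 h3p h3q
  have h3d := U.comm_qp y3 h3p h3q
  have h4a := U.comm_pq y4 h4p h4q
  have h4d := U.comm_qp y4 h4p h4q
  unfold val
  simp only [add_mul, mul_add]
  simp only [prod_aux _ _ _ _ h1a,
    prod_aux _ _ _ _ h1p,
    prod_aux _ _ _ _ h1q,
    prod_aux _ _ _ _ h1d,
    prod_aux _ _ _ _ h2a,
    prod_aux _ _ _ _ h2p,
    prod_aux _ _ _ _ h2q,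
    prod_aux _ _ _ _ h2d,
    prod_aux _ _ _ _ h3a,
    prod_aux _ _ _ _ h3p,
    prod_aux _ _ _ _ h3q,
    prod_aux _ _ _ _ h3d,
    prod_aux _ _ _ _ h4a,
    prod_aux _ _ _ _ h4p,
    prod_aux _ _ _ _ h4q,
    prod_aux _ _ _ _ h4d]
  simp only [U.waa, U.wab, U.wac, U.wad, U.wba, U.wbb, U.wbd, U.wca, U.wcc, U.wcd, U.wda, U.wdb,
    U.wdc, U.wdd, mul_zero, add_zero, zero_add]
  abel

/-- Independence of the four matrix units over coefficients `x` with `x e = x` commuting with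
`p` and `q`. -/
theorem val_eq_zero (x1 x2 x3 x4 : S)
    (h1p : U.p * x1 = x1 * U.p) (h1q : U.q * x1 = x1 * U.q)
    (h2p : U.p * x2 = x2 * U.p) (h2q : U.q * x2 = x2 * U.q)
    (h3p : U.p * x3 = x3 * U.p) (h3q : U.q * x3 = x3 * U.q)
    (h4p : U.p * x4 = x4 * U.p) (h4q : U.q * x4 = x4 * U.q)
    (h1e : x1 * U.e = x1) (h2e : x2 * U.e = x2) (h3e : x3 * U.e = x3) (h4e : x4 * U.e = x4)
    (H : U.val x1 x2 x3 x4 = 0) : x1 = 0 ∧ x2 = 0 ∧ x3 = 0 ∧ x4 = 0 := by
  unfold val at H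
  -- multiply on the right by `p q` and by `q p`
  have H1 : x1 * (U.p * U.q) + x3 * U.q = 0 := by
    have := congrArg (fun t => t * (U.p * U.q)) H
    simp only [add_mul] at this
    rw [mul_assoc x1, U.waa, mul_assoc x2, U.wba, mul_assoc x3, U.wca, mul_assoc x4, U.wda] at this
    simpa only [mul_zero, add_zero, zero_mul] using this
  have H2 : x2 * U.p + x4 * (U.q * U.p) = 0 := by
    have := congrArg (fun t => t * (U.q * U.p)) H
    simp only [add_mul] at this
    rw [mul_assoc x1, U.wad, mul_assoc x2, U.wbd, mul_assoc x3, U.wcd, mul_assoc x4, U.wdd] at this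
    simpa only [mul_zero, add_zero, zero_add, zero_mul] using this
  -- multiply on the left by `p`
  have H3 : x3 * (U.p * U.q) = 0 := by
    have := congrArg (fun t => U.p * t) H1
    simp only [mul_add] at this
    rw [← mul_assoc U.p x1, h1p, mul_assoc x1, U.wba, mul_zero, zero_add, ← mul_assoc U.p x3, h3p,
      mul_assoc x3, mul_zero] at this
    exact this
  have H4 : x4 * U.p = 0 := by
    have := congrArg (fun t => U.p * t) H2
    simp only [mul_add] at this
    rw [← mul_assoc U.p x2, h2p, mul_assoc x2, U.pp, mul_zero, zero_add, ← mul_assoc U.p x4, h4p,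
      mul_assoc x4, U.wbd, mul_zero] at this
    exact this
  have key : ∀ x : S, U.p * x = x * U.p → U.q * x = x * U.q → x * U.e = x →
      (x * U.p = 0 ∨ x * U.q = 0) → x = 0 := by
    intro x hp hq he h
    have hxp : x * U.p = 0 := by
      rcases h with h | h
      · exact h
      · calc x * U.p = x * (U.p * (U.q * U.p)) := by rw [U.pqp]
          _ = U.p * (x * U.q) * U.p := by rw [← mul_assoc, ← hp, mul_assoc, mul_assoc, mul_assoc]
          _ = 0 := by rw [h, mul_zero, zero_mul]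
    have hxq : x * U.q = 0 := by
      calc x * U.q = x * (U.q * (U.p * U.q)) := by rw [U.qpq]
        _ = U.q * (x * U.p) * U.q := by rw [← mul_assoc, ← hq, mul_assoc, mul_assoc, mul_assoc]
        _ = 0 := by rw [hxp, mul_zero, zero_mul]
    rw [← he, ← U.pq_qp, mul_add, ← mul_assoc, hxp, zero_mul, ← mul_assoc, hxq, zero_mul, add_zero]
  have hx3q : x3 * U.q = 0 := by
    calc x3 * U.q = x3 * (U.q * (U.p * U.q)) := by rw [U.qpq]
      _ = U.q * (x3 * (U.p * U.q)) := by rw [← mul_assoc, ← h3q, mul_assoc]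
      _ = 0 := by rw [H3, mul_zero]
  have hx3 : x3 = 0 := key x3 h3p h3q h3e (Or.inr hx3q)
  have hx4 : x4 = 0 := key x4 h4p h4q h4e (Or.inl H4)
  have hx1 : x1 = 0 := by
    apply key x1 h1p h1q h1e (Or.inl ?_)
    rw [hx3, zero_mul, add_zero] at H1
    calc x1 * U.p = x1 * ((U.p * U.q) * U.p) := by rw [U.wab]
      _ = x1 * (U.p * U.q) * U.p := by rw [mul_assoc x1]
      _ = 0 := by rw [H1, zero_mul]
  have hx2 : x2 = 0 := by
    apply key x2 h2p h2q h2e (Or.inl ?_)
    rw [hx4, zero_mul, add_zero] at H2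
    exact H2
  exact ⟨hx1, hx2, hx3, hx4⟩

end MUnits

end Cfsg.Agent.Helper5.QPair
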