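import Mathlib

set_option autoImplicit false

/-! `SL₂` over a commutative ring: elementary matrix identities (ring version of `SLAlgA`),
used for S5064. -/

namespace Cfsg.Agent.Helper5.SLRing

open Matrix
open scoped commutatorElement

variable {𝒜 : Type*} [CommRing 𝒜]

local notation:max "⟪" g "⟫" => ((g : SpecialLinearGroup (Fin 2) 𝒜) : Matrix (Fin 2) (Fin 2) 𝒜)

/-- Upper unitriangular element. -/
def uu (t : 𝒜) : SpecialLinearGroup (Fin 2) 𝒜 :=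
  ⟨!![1, t; 0, 1], by simp [Matrix.det_fin_two]⟩

/-- Lower unitriangular element. -/
def ll (s : 𝒜) : SpecialLinearGroup (Fin 2) 𝒜 :=
  ⟨!![1, 0; s, 1], by simp [Matrix.det_fin_two]⟩

@[simp] theorem uu_00 (t : 𝒜) : ⟪uu t⟫ 0 0 = 1 := rfl
@[simp] theorem uu_01 (t : 𝒜) : ⟪uu t⟫ 0 1 = t := rfl
@[simp] theorem uu_10 (t : 𝒜) : ⟪uu t⟫ 1 0 = 0 := rfl
@[simp] theorem uu_11 (t : 𝒜) : ⟪uu t⟫ 1 1 = 1 := rfl
@[simp] theorem ll_00 (t : 𝒜) : ⟪ll t⟫ 0 0 = 1 := rfl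
@[simp] theorem ll_01 (t : 𝒜) : ⟪ll t⟫ 0 1 = 0 := rfl
@[simp] theorem ll_10 (t : 𝒜) : ⟪ll t⟫ 1 0 = t := rfl
@[simp] theorem ll_11 (t : 𝒜) : ⟪ll t⟫ 1 1 = 1 := rfl

theorem sl_ext (g h : SpecialLinearGroup (Fin 2) 𝒜) (h00 : ⟪g⟫ 0 0 = ⟪h⟫ 0 0)
    (h01 : ⟪g⟫ 0 1 = ⟪h⟫ 0 1) (h10 : ⟪g⟫ 1 0 = ⟪h⟫ 1 0) (h11 : ⟪g⟫ 1 1 = ⟪h⟫ 1 1) : g = h := by
  apply Subtype.ext
  ext i j
  fin_cases i <;> fin_cases j <;> assumption

theorem det_eq (g : SpecialLinearGroup (Fin 2) 𝒜) :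
    ⟪g⟫ 0 0 * ⟪g⟫ 1 1 - ⟪g⟫ 0 1 * ⟪g⟫ 1 0 = 1 := by
  have := g.det_coe
  rwa [Matrix.det_fin_two] at this

theorem mul_entry (g h : SpecialLinearGroup (Fin 2) 𝒜) (i j : Fin 2) :
    ⟪g * h⟫ i j = ⟪g⟫ i 0 * ⟪h⟫ 0 j + ⟪g⟫ i 1 * ⟪h⟫ 1 j := by
  simp only [Matrix.SpecialLinearGroup.coe_mul, Matrix.mul_apply, Fin.sum_univ_two]

@[simp] theorem inv_00 (g : SpecialLinearGroup (Fin 2) 𝒜) : ⟪g⁻¹⟫ 0 0 = ⟪g⟫ 1 1 := by
  simp only [Matrix.SpecialLinearGroup.coe_inv, Matrix.adjugate_fin_two]; rfl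
@[simp] theorem inv_01 (g : SpecialLinearGroup (Fin 2) 𝒜) : ⟪g⁻¹⟫ 0 1 = - ⟪g⟫ 0 1 := by
  simp only [Matrix.SpecialLinearGroup.coe_inv, Matrix.adjugate_fin_two]; rfl
@[simp] theorem inv_10 (g : SpecialLinearGroup (Fin 2) 𝒜) : ⟪g⁻¹⟫ 1 0 = - ⟪g⟫ 1 0 := by
  simp only [Matrix.SpecialLinearGroup.coe_inv, Matrix.adjugate_fin_two]; rfl
@[simp] theorem inv_11 (g : SpecialLinearGroup (Fin 2) 𝒜) : ⟪g⁻¹⟫ 1 1 = ⟪g⟫ 0 0 := by
  simp only [Matrix.SpecialLinearGroup.coe_inv, Matrix.adjugate_fin_two]; rfl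

theorem one_00 : ⟪(1 : SpecialLinearGroup (Fin 2) 𝒜)⟫ 0 0 = 1 := by
  simp only [Matrix.SpecialLinearGroup.coe_one]; rfl
theorem one_01 : ⟪(1 : SpecialLinearGroup (Fin 2) 𝒜)⟫ 0 1 = 0 := by
  simp only [Matrix.SpecialLinearGroup.coe_one]; rfl
theorem one_10 : ⟪(1 : SpecialLinearGroup (Fin 2) 𝒜)⟫ 1 0 = 0 := by
  simp only [Matrix.SpecialLinearGroup.coe_one]; rfl
theorem one_11 : ⟪(1 : SpecialLinearGroup (Fin 2) 𝒜)⟫ 1 1 = 1 := by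
  simp only [Matrix.SpecialLinearGroup.coe_one]; rfl

theorem uu_zero : uu (0 : 𝒜) = 1 := by
  apply sl_ext <;> simp [one_00, one_01, one_10, one_11]

theorem uu_add (s t : 𝒜) : uu s * uu t = uu (s + t) := by
  apply sl_ext <;> simp [mul_entry]
  ring

theorem uu_inv (t : 𝒜) : (uu t)⁻¹ = uu (-t) := by
  apply sl_ext <;> simp

theorem ll_zero : ll (0 : 𝒜) = 1 := by
  apply sl_ext <;> simp [one_00, one_01, one_10, one_11]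

theorem ll_add (s t : 𝒜) : ll s * ll t = ll (s + t) := by
  apply sl_ext <;> simp [mul_entry]

theorem ll_inv (t : 𝒜) : (ll t)⁻¹ = ll (-t) := by
  apply sl_ext <;> simp

theorem conj_uu_00 (g : SpecialLinearGroup (Fin 2) 𝒜) (t : 𝒜) :
    ⟪g * uu t * g⁻¹⟫ 0 0 = 1 - ⟪g⟫ 0 0 * ⟪g⟫ 1 0 * t := by
  simp [mul_entry]; linear_combination det_eq g

theorem conj_uu_10 (g : SpecialLinearGroup (Fin 2) 𝒜) (t : 𝒜) :
    ⟪g * uu t * g⁻¹⟫ 1 0 = - (⟪g⟫ 1 0) ^ 2 * t := by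
  simp [mul_entry]; ring

theorem conj_uu_of_upper (h : SpecialLinearGroup (Fin 2) 𝒜) (h10 : ⟪h⟫ 1 0 = 0) (t : 𝒜) :
    h * uu t * h⁻¹ = uu ((⟪h⟫ 0 0) ^ 2 * t) := by
  have hd := det_eq h
  rw [h10] at hd
  apply sl_ext <;> simp [mul_entry, h10]
  · linear_combination hd
  · ring
  · linear_combination hd

theorem conj_ll_of_d0 (w : SpecialLinearGroup (Fin 2) 𝒜) (h11 : ⟪w⟫ 1 1 = 0) (s : 𝒜) :
    w * ll s * w⁻¹ = uu (-(⟪w⟫ 0 1) ^ 2 * s) := by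
  have hd := det_eq w
  rw [h11] at hd
  apply sl_ext <;> simp [mul_entry, h11]
  · linear_combination hd
  · ring
  · linear_combination hd

theorem conj_uu_eq (g : SpecialLinearGroup (Fin 2) 𝒜) (τ β : 𝒜) (h10 : ⟪g⟫ 1 0 = β)
    (h00 : ⟪g⟫ 0 0 = τ * β) (t : 𝒜) :
    g * uu t * g⁻¹ = uu τ * ll (-β ^ 2 * t) * uu (-τ) := by
  have hd := det_eq g
  rw [h10, h00] at hd
  apply sl_ext <;> simp [mul_entry, h10, h00]
  · linear_combination (1 : 𝒜) * hd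
  · ring
  · ring
  · linear_combination (1 : 𝒜) * hd

/-- `U(x) L(c) U(y)` decomposition when the lower left entry is a unit. -/
theorem decomp (g : SpecialLinearGroup (Fin 2) 𝒜) (c' : 𝒜) (hc : ⟪g⟫ 1 0 * c' = 1) :
    g = uu ((⟪g⟫ 0 0 - 1) * c') * ll (⟪g⟫ 1 0) * uu ((⟪g⟫ 1 1 - 1) * c') := by
  have hd := det_eq g
  apply sl_ext <;> simp [mul_entry]
  · linear_combination (-(⟪g⟫ 0 0 - 1)) * hc
  · linear_combination (-((⟪g⟫ 0 0 - 1) * (⟪g⟫ 1 1 - 1) * c' + ⟪g⟫ 0 1)) * hc - c' * hd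
  · linear_combination (-(⟪g⟫ 1 1 - 1)) * hc

/-- Scaling map `g ↦ diag(c,1) g diag(c,1)⁻¹`. -/
def scalFun (c c' : 𝒜) (hc : c * c' = 1) (g : SpecialLinearGroup (Fin 2) 𝒜) :
    SpecialLinearGroup (Fin 2) 𝒜 :=
  ⟨!![⟪g⟫ 0 0, c * ⟪g⟫ 0 1; c' * ⟪g⟫ 1 0, ⟪g⟫ 1 1], by
      rw [Matrix.det_fin_two]
      have := det_eq g
      simp only [Matrix.of_apply, Matrix.cons_val', Matrix.cons_val_zero, Matrix.cons_val_one,
        Matrix.cons_val_fin_one]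
      linear_combination this - (⟪g⟫ 0 1 * ⟪g⟫ 1 0) * hc⟩

@[simp] theorem scalFun_00 (c c' : 𝒜) (hc : c * c' = 1) (g : SpecialLinearGroup (Fin 2) 𝒜) :
    ⟪scalFun c c' hc g⟫ 0 0 = ⟪g⟫ 0 0 := rfl
@[simp] theorem scalFun_01 (c c' : 𝒜) (hc : c * c' = 1) (g : SpecialLinearGroup (Fin 2) 𝒜) :
    ⟪scalFun c c' hc g⟫ 0 1 = c * ⟪g⟫ 0 1 := rfl
@[simp] theorem scalFun_10 (c c' : 𝒜) (hc : c * c' = 1) (g : SpecialLinearGroup (Fin 2) 𝒜) :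
    ⟪scalFun c c' hc g⟫ 1 0 = c' * ⟪g⟫ 1 0 := rfl
@[simp] theorem scalFun_11 (c c' : 𝒜) (hc : c * c' = 1) (g : SpecialLinearGroup (Fin 2) 𝒜) :
    ⟪scalFun c c' hc g⟫ 1 1 = ⟪g⟫ 1 1 := rfl

theorem scalFun_mul (c c' : 𝒜) (hc : c * c' = 1) (g h : SpecialLinearGroup (Fin 2) 𝒜) :
    scalFun c c' hc (g * h) = scalFun c c' hc g * scalFun c c' hc h := by
  apply sl_ext <;> simp [mul_entry]
  · linear_combination (-(⟪g⟫ 0 1 * ⟪h⟫ 1 0)) * hc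
  · ring
  · ring
  · linear_combination (-(⟪g⟫ 1 0 * ⟪h⟫ 0 1)) * hc

/-- Scaling automorphism. -/
def scal (c c' : 𝒜) (hc : c * c' = 1) :
    SpecialLinearGroup (Fin 2) 𝒜 →* SpecialLinearGroup (Fin 2) 𝒜 :=
  MonoidHom.mk' (scalFun c c' hc) (scalFun_mul c c' hc)

theorem scal_uu (c c' : 𝒜) (hc : c * c' = 1) (t : 𝒜) : scal c c' hc (uu t) = uu (c * t) := by
  show scalFun c c' hc (uu t) = _
  apply sl_ext <;> simp

theorem scal_ll (c c' : 𝒜) (hc : c * c' = 1) (t : 𝒜) : scal c c' hc (ll t) = ll (c' * t) := by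
  show scalFun c c' hc (ll t) = _
  apply sl_ext <;> simp

/-- The map `g ↦ ν g ν⁻¹`, `ν = [[0,1],[-a,0]]`. -/
def nuFun (a a' : 𝒜) (ha : a * a' = 1) (g : SpecialLinearGroup (Fin 2) 𝒜) :
    SpecialLinearGroup (Fin 2) 𝒜 :=
  ⟨!![⟪g⟫ 1 1, -(⟪g⟫ 1 0) * a'; -(a * ⟪g⟫ 0 1), ⟪g⟫ 0 0], by
      rw [Matrix.det_fin_two]
      have := det_eq g
      simp only [Matrix.of_apply, Matrix.cons_val', Matrix.cons_val_zero, Matrix.cons_val_one,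
        Matrix.cons_val_fin_one]
      linear_combination this - (⟪g⟫ 0 1 * ⟪g⟫ 1 0) * ha⟩

@[simp] theorem nuFun_00 (a a' : 𝒜) (ha : a * a' = 1) (g : SpecialLinearGroup (Fin 2) 𝒜) :
    ⟪nuFun a a' ha g⟫ 0 0 = ⟪g⟫ 1 1 := rfl
@[simp] theorem nuFun_01 (a a' : 𝒜) (ha : a * a' = 1) (g : SpecialLinearGroup (Fin 2) 𝒜) :
    ⟪nuFun a a' ha g⟫ 0 1 = -(⟪g⟫ 1 0) * a' := rfl
@[simp] theorem nuFun_10 (a a' : 𝒜) (ha : a * a' = 1) (g : SpecialLinearGroup (Fin 2) 𝒜) :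
    ⟪nuFun a a' ha g⟫ 1 0 = -(a * ⟪g⟫ 0 1) := rfl
@[simp] theorem nuFun_11 (a a' : 𝒜) (ha : a * a' = 1) (g : SpecialLinearGroup (Fin 2) 𝒜) :
    ⟪nuFun a a' ha g⟫ 1 1 = ⟪g⟫ 0 0 := rfl

theorem nuFun_mul (a a' : 𝒜) (ha : a * a' = 1) (g h : SpecialLinearGroup (Fin 2) 𝒜) :
    nuFun a a' ha (g * h) = nuFun a a' ha g * nuFun a a' ha h := by
  apply sl_ext <;> simp [mul_entry]
  · linear_combination (-(⟪g⟫ 1 0 * ⟪h⟫ 0 1)) * ha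
  · ring
  · ring
  · linear_combination (-(⟪g⟫ 0 1 * ⟪h⟫ 1 0)) * ha

/-- The automorphism `g ↦ ν g ν⁻¹`. -/
def nuHom (a a' : 𝒜) (ha : a * a' = 1) :
    SpecialLinearGroup (Fin 2) 𝒜 →* SpecialLinearGroup (Fin 2) 𝒜 :=
  MonoidHom.mk' (nuFun a a' ha) (nuFun_mul a a' ha)

theorem nuHom_apply (a a' : 𝒜) (ha : a * a' = 1) (g : SpecialLinearGroup (Fin 2) 𝒜) :
    nuHom a a' ha g = nuFun a a' ha g := rfl

theorem nuHom_uu (a a' : 𝒜) (ha : a * a' = 1) (t : 𝒜) :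
    nuHom a a' ha (uu t) = ll (-(a * t)) := by
  show nuFun a a' ha (uu t) = _
  apply sl_ext <;> simp

theorem nuHom_ll (a a' : 𝒜) (ha : a * a' = 1) (t : 𝒜) :
    nuHom a a' ha (ll t) = uu (-t * a') := by
  show nuFun a a' ha (ll t) = _
  apply sl_ext <;> simp

/-- Iterated commutator `[h, [h, … [h, u]]]`. -/
def comr {G : Type*} [Group G] (h : G) : ℕ → G → G
  | 0, u => u
  | r + 1, u => ⁅h, comr h r u⁆

theorem map_comr {G G' : Type*} [Group G] [Group G'] (f : G →* G') (h u : G) (r : ℕ) :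
    f (comr h r u) = comr (f h) r (f u) := by
  induction r with
  | zero => rfl
  | succ r ih =>
    show f ⁅h, comr h r u⁆ = ⁅f h, comr (f h) r (f u)⁆
    rw [map_commutatorElement, ih]

theorem comr_mem {G : Type*} [Group G] (S : Subgroup G) {h u : G} (hh : h ∈ S) (hu : u ∈ S)
    (r : ℕ) : comr h r u ∈ S := by
  induction r with
  | zero => exact hu
  | succ r ih =>
    show ⁅h, comr h r u⁆ ∈ S
    rw [commutatorElement_def]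
    exact S.mul_mem (S.mul_mem (S.mul_mem hh ih) (S.inv_mem hh)) (S.inv_mem ih)

theorem comr_uu (h : SpecialLinearGroup (Fin 2) 𝒜) (h10 : ⟪h⟫ 1 0 = 0) (r : ℕ) (t : 𝒜) :
    comr h r (uu t) = uu (((⟪h⟫ 0 0) ^ 2 - 1) ^ r * t) := by
  induction r with
  | zero => simp [comr]
  | succ r ih =>
    show ⁅h, comr h r (uu t)⁆ = _
    rw [ih, commutatorElement_def, conj_uu_of_upper h h10, uu_inv, uu_add]
    congr 1
    ring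

end Cfsg.Agent.Helper5.SLRing
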