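import Cfsg.Agent.Helper5.QPairA
import Cfsg.Agent.Helper5.QPairU
import Cfsg.Agent.Helper5.SLRingA

set_option autoImplicit false

/-! The representation `SL₂(k[X]/(g)) → Sˣ` attached to a pair of square-zero elements (S5064). -/

namespace Cfsg.Agent.Helper5.QPair

open Polynomial Matrix

variable {k : Type*} [Field k] {S : Type*} [Ring S] [Algebra k S]

namespace QP

variable (Q : QP k S)

/-- The matrix units. -/
noncomputable def mu : MUnits S where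
  p := Q.p
  q := Q.q
  e := Q.e
  pp := Q.p_mul_p
  qq := Q.q_mul_q
  pq_qp := Q.pq_add_qp
  ep := Q.e_mul_p
  pe := Q.p_mul_e
  eq' := Q.e_mul_q
  qe := Q.q_mul_e

/-- The embedding of the coefficient ring `k[X]/(g)`. -/
noncomputable def phi : AdjoinRoot Q.g →ₗ[k] S :=
  (LinearMap.mulRight k Q.e) ∘ₗ (aeval Q.Z).toLinearMap ∘ₗ (AdjoinRoot.modByMonicHom Q.hmonic)

theorem comm_e_aeval (f : k[X]) : Commute Q.e (aeval Q.Z f) := Q.comm_aeval_aeval _ _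

theorem phi_mk (f : k[X]) : Q.phi (AdjoinRoot.mk Q.g f) = aeval Q.Z f * Q.e := by
  show aeval Q.Z (f %ₘ Q.g) * Q.e = aeval Q.Z f * Q.e
  have h := modByMonic_add_div f Q.g
  have h2 : aeval Q.Z f = aeval Q.Z (f %ₘ Q.g) + aeval Q.Z Q.g * aeval Q.Z (f /ₘ Q.g) := by
    rw [← map_mul, ← map_add, h]
  have h3 : aeval Q.Z Q.g * aeval Q.Z (f /ₘ Q.g) * Q.e = 0 := by
    rw [mul_assoc, ← (Q.comm_e_aeval _).eq, ← mul_assoc, Q.aeval_g_mul_e, zero_mul]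
  rw [h2, add_mul, h3, add_zero]

theorem phi_mul (a b : AdjoinRoot Q.g) : Q.phi (a * b) = Q.phi a * Q.phi b := by
  obtain ⟨f, rfl⟩ := AdjoinRoot.mk_surjective a
  obtain ⟨h, rfl⟩ := AdjoinRoot.mk_surjective b
  rw [← map_mul, phi_mk, phi_mk, phi_mk, map_mul]
  calc aeval Q.Z f * aeval Q.Z h * Q.e = aeval Q.Z f * (aeval Q.Z h * (Q.e * Q.e)) := by
        rw [Q.e_mul_e, mul_assoc]
    _ = aeval Q.Z f * (Q.e * aeval Q.Z h * Q.e) := by
        rw [(Q.comm_e_aeval h).eq, mul_assoc]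
    _ = aeval Q.Z f * Q.e * (aeval Q.Z h * Q.e) := by
        simp only [mul_assoc]

theorem phi_one : Q.phi 1 = Q.e := by
  rw [← map_one (AdjoinRoot.mk Q.g), phi_mk, map_one, one_mul]

theorem phi_algebraMap (c : k) : Q.phi (algebraMap k (AdjoinRoot Q.g) c) = c • Q.e := by
  rw [Algebra.algebraMap_eq_smul_one, map_smul, phi_one]

theorem phi_root : Q.phi (AdjoinRoot.root Q.g) = Q.Z * Q.e := by
  rw [← AdjoinRoot.mk_X, phi_mk, aeval_X]

theorem phi_mul_e (a : AdjoinRoot Q.g) : Q.phi a * Q.e = Q.phi a := by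
  obtain ⟨f, rfl⟩ := AdjoinRoot.mk_surjective a
  rw [phi_mk, mul_assoc, Q.e_mul_e]

theorem e_mul_phi (a : AdjoinRoot Q.g) : Q.e * Q.phi a = Q.phi a := by
  obtain ⟨f, rfl⟩ := AdjoinRoot.mk_surjective a
  rw [phi_mk, ← mul_assoc, (Q.comm_e_aeval f).eq, mul_assoc, Q.e_mul_e]

theorem comm_phi_A (a : AdjoinRoot Q.g) : Commute (Q.phi a) Q.A := by
  obtain ⟨f, rfl⟩ := AdjoinRoot.mk_surjective a
  rw [phi_mk]
  exact Commute.mul_left (Q.comm_A_aeval f).symm Q.comm_A_e.symm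

theorem comm_phi_B (a : AdjoinRoot Q.g) : Commute (Q.phi a) Q.B := by
  obtain ⟨f, rfl⟩ := AdjoinRoot.mk_surjective a
  rw [phi_mk]
  exact Commute.mul_left (Q.comm_B_aeval f).symm Q.comm_B_e.symm

theorem comm_phi_e (a : AdjoinRoot Q.g) : Commute (Q.phi a) Q.e := by
  show Q.phi a * Q.e = Q.e * Q.phi a
  rw [phi_mul_e, e_mul_phi]

theorem comm_phi_Y (a : AdjoinRoot Q.g) : Commute (Q.phi a) Q.Y := by
  obtain ⟨f, rfl⟩ := AdjoinRoot.mk_surjective a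
  rw [phi_mk]
  exact Commute.mul_left (Q.comm_aeval_aeval _ _) (Q.comm_aeval_aeval _ _)

theorem p_phi (a : AdjoinRoot Q.g) : Q.p * Q.phi a = Q.phi a * Q.p :=
  (Commute.mul_right (Q.comm_phi_A a) (Q.comm_phi_e a)).eq.symm

theorem q_phi (a : AdjoinRoot Q.g) : Q.q * Q.phi a = Q.phi a * Q.q :=
  (Commute.mul_right (Q.comm_phi_B a) (Q.comm_phi_Y a)).eq.symm

theorem phi_injective : Function.Injective Q.phi := by
  rw [injective_iff_map_eq_zero]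
  intro a ha
  obtain ⟨f, rfl⟩ := AdjoinRoot.mk_surjective a
  rw [phi_mk] at ha
  exact AdjoinRoot.mk_eq_zero.mpr (Q.dvd_of_aeval_mul_e ha)

/-- The distinguished unit `λ` of the coefficient ring. -/
noncomputable def lam : AdjoinRoot Q.g := AdjoinRoot.root Q.g

/-- Its inverse. -/
noncomputable def lamInv : AdjoinRoot Q.g := AdjoinRoot.mk Q.g Q.u'

theorem lam_mul : Q.lam * Q.lamInv = 1 := by
  have h := congrArg (AdjoinRoot.mk Q.g) Q.h2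
  rw [map_add, map_mul, map_mul, AdjoinRoot.mk_self, mul_zero, add_zero, AdjoinRoot.mk_X,
    map_one] at h
  rw [mul_comm]
  exact h

/-- The (non-unital) ring homomorphism from `2 × 2` matrices. -/
noncomputable def PsiM (m : Matrix (Fin 2) (Fin 2) (AdjoinRoot Q.g)) : S :=
  Q.mu.val (Q.phi (m 0 0)) (Q.phi (m 0 1)) (Q.phi (m 1 0)) (Q.phi (m 1 1))

theorem PsiM_mul (m n : Matrix (Fin 2) (Fin 2) (AdjoinRoot Q.g)) :
    Q.PsiM (m * n) = Q.PsiM m * Q.PsiM n := by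
  unfold PsiM
  rw [Q.mu.val_mul _ _ _ _ _ _ _ _ (Q.p_phi _) (Q.q_phi _) (Q.p_phi _) (Q.q_phi _) (Q.p_phi _)
    (Q.q_phi _) (Q.p_phi _) (Q.q_phi _)]
  simp only [Matrix.mul_apply, Fin.sum_univ_two, map_add, Q.phi_mul]

theorem PsiM_one : Q.PsiM 1 = Q.e := by
  unfold PsiM MUnits.val
  simp only [Matrix.one_apply_eq, Matrix.one_apply_ne, ne_eq, zero_ne_one, one_ne_zero,
    not_false_eq_true, map_zero, zero_mul, add_zero, Q.phi_one]
  show Q.e * (Q.p * Q.q) + Q.e * (Q.q * Q.p) = Q.e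
  rw [← mul_add, Q.pq_add_qp, Q.e_mul_e]

theorem e_mul_PsiM (m : Matrix (Fin 2) (Fin 2) (AdjoinRoot Q.g)) : Q.e * Q.PsiM m = Q.PsiM m := by
  rw [← PsiM_one, ← PsiM_mul, one_mul]

theorem PsiM_mul_e (m : Matrix (Fin 2) (Fin 2) (AdjoinRoot Q.g)) : Q.PsiM m * Q.e = Q.PsiM m := by
  rw [← PsiM_one, ← PsiM_mul, mul_one]

/-- The representation, as a function. -/
noncomputable def rho (g : SpecialLinearGroup (Fin 2) (AdjoinRoot Q.g)) : S :=
  (1 - Q.e) + Q.PsiM (g : Matrix (Fin 2) (Fin 2) (AdjoinRoot Q.g))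

theorem rho_one : Q.rho 1 = 1 := by
  unfold rho
  rw [Matrix.SpecialLinearGroup.coe_one, PsiM_one]
  abel

theorem rho_mul (g h : SpecialLinearGroup (Fin 2) (AdjoinRoot Q.g)) :
    Q.rho (g * h) = Q.rho g * Q.rho h := by
  unfold rho
  rw [Matrix.SpecialLinearGroup.coe_mul, PsiM_mul]
  obtain ⟨P1, hP1⟩ : ∃ P1, P1 = Q.PsiM (g : Matrix (Fin 2) (Fin 2) (AdjoinRoot Q.g)) := ⟨_, rfl⟩
  obtain ⟨P2, hP2⟩ : ∃ P2, P2 = Q.PsiM (h : Matrix (Fin 2) (Fin 2) (AdjoinRoot Q.g)) := ⟨_, rfl⟩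
  have e1 : Q.e * P2 = P2 := by rw [hP2]; exact Q.e_mul_PsiM _
  have e2 : P1 * Q.e = P1 := by rw [hP1]; exact Q.PsiM_mul_e _
  rw [← hP1, ← hP2]
  have e3 : (1 - Q.e) * (1 - Q.e) = 1 - Q.e := by
    rw [mul_sub, mul_one, sub_mul, one_mul, Q.e_mul_e, sub_self, sub_zero]
  have e4 : (1 - Q.e) * P2 = 0 := by rw [sub_mul, one_mul, e1, sub_self]
  have e5 : P1 * (1 - Q.e) = 0 := by rw [mul_sub, mul_one, e2, sub_self]
  rw [add_mul, mul_add, mul_add, e3, e4, e5, add_zero, zero_add]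

theorem rho_mul_e (g : SpecialLinearGroup (Fin 2) (AdjoinRoot Q.g)) :
    Q.rho g * Q.e = Q.PsiM (g : Matrix (Fin 2) (Fin 2) (AdjoinRoot Q.g)) := by
  unfold rho
  rw [add_mul, sub_mul, one_mul, Q.e_mul_e, sub_self, zero_add, PsiM_mul_e]

theorem e_mul_rho (g : SpecialLinearGroup (Fin 2) (AdjoinRoot Q.g)) :
    Q.e * Q.rho g = Q.PsiM (g : Matrix (Fin 2) (Fin 2) (AdjoinRoot Q.g)) := by
  unfold rho
  rw [mul_add, mul_sub, mul_one, Q.e_mul_e, sub_self, zero_add, e_mul_PsiM]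

/-- The representation as a monoid homomorphism. -/
noncomputable def rhoHom : SpecialLinearGroup (Fin 2) (AdjoinRoot Q.g) →* S where
  toFun := Q.rho
  map_one' := Q.rho_one
  map_mul' := Q.rho_mul

/-- The representation into the unit group. -/
noncomputable def rhoHat : SpecialLinearGroup (Fin 2) (AdjoinRoot Q.g) →* Sˣ :=
  Q.rhoHom.toHomUnits

theorem rhoHat_val (g : SpecialLinearGroup (Fin 2) (AdjoinRoot Q.g)) :
    ((Q.rhoHat g : Sˣ) : S) = Q.rho g := rfl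

theorem rho_uu (t : AdjoinRoot Q.g) : Q.rho (SLRing.uu t) = 1 + Q.phi t * Q.p := by
  unfold rho PsiM MUnits.val
  simp only [SLRing.uu_00, SLRing.uu_01, SLRing.uu_10, SLRing.uu_11, map_zero, zero_mul, add_zero,
    Q.phi_one]
  show 1 - Q.e + (Q.e * (Q.p * Q.q) + Q.phi t * Q.p + Q.e * (Q.q * Q.p)) = 1 + Q.phi t * Q.p
  have h : Q.e * (Q.p * Q.q) + Q.e * (Q.q * Q.p) = Q.e := by
    rw [← mul_add, Q.pq_add_qp, Q.e_mul_e]
  calc 1 - Q.e + (Q.e * (Q.p * Q.q) + Q.phi t * Q.p + Q.e * (Q.q * Q.p)) =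
        1 - Q.e + (Q.e * (Q.p * Q.q) + Q.e * (Q.q * Q.p)) + Q.phi t * Q.p := by abel
    _ = 1 + Q.phi t * Q.p := by rw [h]; abel

theorem rho_ll (s : AdjoinRoot Q.g) : Q.rho (SLRing.ll s) = 1 + Q.phi s * Q.q := by
  unfold rho PsiM MUnits.val
  simp only [SLRing.ll_00, SLRing.ll_01, SLRing.ll_10, SLRing.ll_11, map_zero, zero_mul, add_zero,
    Q.phi_one]
  show 1 - Q.e + (Q.e * (Q.p * Q.q) + Q.phi s * Q.q + Q.e * (Q.q * Q.p)) = 1 + Q.phi s * Q.q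
  have h : Q.e * (Q.p * Q.q) + Q.e * (Q.q * Q.p) = Q.e := by
    rw [← mul_add, Q.pq_add_qp, Q.e_mul_e]
  calc 1 - Q.e + (Q.e * (Q.p * Q.q) + Q.phi s * Q.q + Q.e * (Q.q * Q.p)) =
        1 - Q.e + (Q.e * (Q.p * Q.q) + Q.e * (Q.q * Q.p)) + Q.phi s * Q.q := by abel
    _ = 1 + Q.phi s * Q.q := by rw [h]; abel

theorem rho_uu_alg (c : k) :
    Q.rho (SLRing.uu (algebraMap k (AdjoinRoot Q.g) c)) = 1 + c • (Q.A * Q.e) := by
  rw [rho_uu, phi_algebraMap, smul_mul_assoc, Q.e_mul_p]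
  rfl

theorem rho_ll_alg (c : k) :
    Q.rho (SLRing.ll (algebraMap k (AdjoinRoot Q.g) c * Q.lam)) = 1 + c • (Q.B * Q.e) := by
  rw [rho_ll, phi_mul, phi_algebraMap]
  show 1 + c • Q.e * Q.phi (AdjoinRoot.root Q.g) * Q.q = 1 + c • (Q.B * Q.e)
  rw [phi_root, smul_mul_assoc, smul_mul_assoc]
  congr 2
  show Q.e * (Q.Z * Q.e) * (Q.B * Q.Y) = Q.B * Q.e
  have hZe : Commute Q.Z Q.e := by
    have : Q.Z = aeval Q.Z (X : k[X]) := (aeval_X Q.Z).symm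
    rw [this]
    exact (Q.comm_e_aeval X).symm
  have s1 : Q.e * (Q.Z * Q.e) = Q.Z * Q.e := by
    rw [← mul_assoc, ← hZe.eq, mul_assoc, Q.e_mul_e]
  rw [s1]
  calc Q.Z * Q.e * (Q.B * Q.Y) = Q.Z * (Q.e * Q.B) * Q.Y := by simp only [mul_assoc]
    _ = Q.Z * (Q.B * Q.e) * Q.Y := by rw [Q.eB]
    _ = (Q.Z * Q.B) * (Q.e * Q.Y) := by simp only [mul_assoc]
    _ = (Q.B * Q.Z) * Q.Y := by rw [Q.e_mul_Y, Q.comm_B_Z.eq]
    _ = Q.B * Q.e := by rw [mul_assoc, Q.Z_mul_Y]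

theorem val_sub (U : MUnits S) (x1 x2 x3 x4 y1 y2 y3 y4 : S) :
    U.val x1 x2 x3 x4 - U.val y1 y2 y3 y4 = U.val (x1 - y1) (x2 - y2) (x3 - y3) (x4 - y4) := by
  unfold MUnits.val
  simp only [sub_mul]
  abel

theorem rho_injective : Function.Injective Q.rho := by
  intro g h hgh
  unfold rho at hgh
  have h1 : Q.PsiM (g : Matrix (Fin 2) (Fin 2) (AdjoinRoot Q.g)) =
      Q.PsiM (h : Matrix (Fin 2) (Fin 2) (AdjoinRoot Q.g)) := add_left_cancel hgh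
  unfold PsiM at h1
  have h2 := sub_eq_zero.mpr h1
  rw [val_sub] at h2
  simp only [← map_sub] at h2
  obtain ⟨e1, e2, e3, e4⟩ := Q.mu.val_eq_zero _ _ _ _ (Q.p_phi _) (Q.q_phi _) (Q.p_phi _)
    (Q.q_phi _) (Q.p_phi _) (Q.q_phi _) (Q.p_phi _) (Q.q_phi _) (Q.phi_mul_e _) (Q.phi_mul_e _)
    (Q.phi_mul_e _) (Q.phi_mul_e _) h2
  have hz : ∀ x y : AdjoinRoot Q.g, Q.phi (x - y) = 0 → x = y := by
    intro x y hxy
    have := Q.phi_injective (hxy.trans (map_zero Q.phi).symm)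
    exact sub_eq_zero.mp this
  exact SLRing.sl_ext g h (hz _ _ e1) (hz _ _ e2) (hz _ _ e3) (hz _ _ e4)

theorem rhoHat_injective : Function.Injective Q.rhoHat := by
  intro g h hgh
  apply Q.rho_injective
  have := congrArg (fun x : Sˣ => (x : S)) hgh
  exact this

end QP

end Cfsg.Agent.Helper5.QPair
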