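import Cfsg.Agent.Helper5.QPairB

set_option autoImplicit false

/-! The unipotent part of a pair of square-zero endomorphisms: a flag on the Fitting null
component of `Z = AB + BA` and the depth of group elements with respect to it (S5064). -/

namespace Cfsg.Agent.Helper5.QPair

open Polynomial
open scoped commutatorElement

variable {k : Type*} [Field k] {M : Type*} [AddCommGroup M] [Module k M]

namespace QP

variable (Q : QP k (Module.End k M))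

/-- The flag `F₀ = (1 - e) M`, `F_{j+1} = A F_j + B F_j`. -/
noncomputable def Fl : ℕ → Submodule k M
  | 0 => LinearMap.range (1 - Q.e)
  | (j + 1) => (Fl j).map Q.A ⊔ (Fl j).map Q.B

theorem Fl_zero : Q.Fl 0 = LinearMap.range (1 - Q.e) := rfl

theorem Fl_succ (j : ℕ) : Q.Fl (j + 1) = (Q.Fl j).map Q.A ⊔ (Q.Fl j).map Q.B := rfl

theorem A_mem {j : ℕ} {v : M} (hv : v ∈ Q.Fl j) : Q.A v ∈ Q.Fl (j + 1) :=
  Submodule.mem_sup_left (Submodule.mem_map_of_mem hv)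

theorem B_mem {j : ℕ} {v : M} (hv : v ∈ Q.Fl j) : Q.B v ∈ Q.Fl (j + 1) :=
  Submodule.mem_sup_right (Submodule.mem_map_of_mem hv)

theorem mem_Fl_succ {j : ℕ} {v : M} (hv : v ∈ Q.Fl (j + 1)) :
    ∃ y₁ ∈ Q.Fl j, ∃ y₂ ∈ Q.Fl j, v = Q.A y₁ + Q.B y₂ := by
  rw [Fl_succ, Submodule.mem_sup] at hv
  obtain ⟨a, ha, b, hb, rfl⟩ := hv
  obtain ⟨y₁, hy₁, rfl⟩ := Submodule.mem_map.mp ha
  obtain ⟨y₂, hy₂, rfl⟩ := Submodule.mem_map.mp hb
  exact ⟨y₁, hy₁, y₂, hy₂, rfl⟩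

theorem Fl_succ_le (j : ℕ) : Q.Fl (j + 1) ≤ Q.Fl j := by
  induction j with
  | zero =>
    rw [Fl_succ, Fl_zero]
    apply sup_le
    · rintro _ ⟨x, hx, rfl⟩
      obtain ⟨y, rfl⟩ := hx
      refine ⟨Q.A y, ?_⟩
      have h : (1 - Q.e) * Q.A = Q.A * (1 - Q.e) := by
        rw [sub_mul, mul_sub, one_mul, mul_one, Q.eA]
      exact congrArg (fun f : Module.End k M => f y) h
    · rintro _ ⟨x, hx, rfl⟩
      obtain ⟨y, rfl⟩ := hx
      refine ⟨Q.B y, ?_⟩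
      have h : (1 - Q.e) * Q.B = Q.B * (1 - Q.e) := by
        rw [sub_mul, mul_sub, one_mul, mul_one, Q.eB]
      exact congrArg (fun f : Module.End k M => f y) h
  | succ j ih =>
    rw [Q.Fl_succ (j + 1), Q.Fl_succ j]
    exact sup_le_sup (Submodule.map_mono ih) (Submodule.map_mono ih)

theorem Fl_anti {i j : ℕ} (h : i ≤ j) : Q.Fl j ≤ Q.Fl i :=
  antitone_nat_of_succ_le Q.Fl_succ_le h

theorem AA_apply (v : M) : Q.A (Q.A v) = 0 := by
  have := congrArg (fun f : Module.End k M => f v) Q.hA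
  exact this

theorem BB_apply (v : M) : Q.B (Q.B v) = 0 := by
  have := congrArg (fun f : Module.End k M => f v) Q.hB
  exact this

theorem Z_apply (v : M) : Q.Z v = Q.A (Q.B v) + Q.B (Q.A v) := rfl

theorem Fl_step_A {j : ℕ} {x : M} (hx : x ∈ Q.Fl (j + 2)) : ∃ w ∈ Q.Fl (j + 1), Q.A x = Q.Z w := by
  obtain ⟨y₁, -, y₂, hy₂, rfl⟩ := Q.mem_Fl_succ hx
  obtain ⟨z₁, hz₁, z₂, -, rfl⟩ := Q.mem_Fl_succ hy₂
  refine ⟨Q.A z₁, Q.A_mem hz₁, ?_⟩
  rw [Z_apply]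
  simp only [map_add, Q.AA_apply, Q.BB_apply, map_zero, zero_add, add_zero]

theorem Fl_step_B {j : ℕ} {x : M} (hx : x ∈ Q.Fl (j + 2)) : ∃ w ∈ Q.Fl (j + 1), Q.B x = Q.Z w := by
  obtain ⟨y₁, hy₁, y₂, -, rfl⟩ := Q.mem_Fl_succ hx
  obtain ⟨z₁, -, z₂, hz₂, rfl⟩ := Q.mem_Fl_succ hy₁
  refine ⟨Q.B z₂, Q.B_mem hz₂, ?_⟩
  rw [Z_apply]
  simp only [map_add, Q.AA_apply, Q.BB_apply, map_zero, zero_add, add_zero]

theorem Fl_step {j : ℕ} {v : M} (hv : v ∈ Q.Fl (j + 3)) : ∃ w ∈ Q.Fl (j + 1), v = Q.Z w := by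
  obtain ⟨y₁, hy₁, y₂, hy₂, rfl⟩ := Q.mem_Fl_succ hv
  obtain ⟨w₁, hw₁, e₁⟩ := Q.Fl_step_A hy₁
  obtain ⟨w₂, hw₂, e₂⟩ := Q.Fl_step_B hy₂
  exact ⟨w₁ + w₂, add_mem hw₁ hw₂, by rw [e₁, e₂, map_add]⟩

theorem Fl_pow (i : ℕ) {v : M} (hv : v ∈ Q.Fl (2 * i + 1)) : ∃ w ∈ Q.Fl 1, v = (Q.Z ^ i) w := by
  induction i generalizing v with
  | zero => exact ⟨v, hv, by simp⟩
  | succ i ih =>
    have h1 : 2 * (i + 1) + 1 = 2 * i + 3 := by ring
    rw [h1] at hv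
    obtain ⟨w, hw, rfl⟩ := Q.Fl_step hv
    obtain ⟨w', hw', rfl⟩ := ih hw
    refine ⟨w', hw', ?_⟩
    rw [pow_succ']
    rfl

theorem Fl_eq_bot : Q.Fl (2 * Q.m + 1) = ⊥ := by
  rw [eq_bot_iff]
  intro v hv
  obtain ⟨w, hw, rfl⟩ := Q.Fl_pow Q.m hv
  have hw0 : w ∈ Q.Fl 0 := Q.Fl_succ_le 0 hw
  obtain ⟨y, rfl⟩ := hw0
  have := congrArg (fun f : Module.End k M => f y) Q.Zpow_mul
  rw [Submodule.mem_bot]
  exact this

theorem Fl_eq_bot_of_le {r : ℕ} (h : 2 * Q.m + 1 ≤ r) : Q.Fl r = ⊥ := by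
  rw [eq_bot_iff, ← Q.Fl_eq_bot]
  exact Q.Fl_anti h

/-- Depth of a group element with respect to the flag. -/
def Dp (i : ℕ) (h : (Module.End k M)ˣ) : Prop :=
  (∀ j, ∀ v ∈ Q.Fl j, (h : Module.End k M) v - v ∈ Q.Fl (j + i)) ∧
  (∀ j, ∀ v ∈ Q.Fl j, ((h⁻¹ : (Module.End k M)ˣ) : Module.End k M) v - v ∈ Q.Fl (j + i))

theorem Dp_one (i : ℕ) : Q.Dp i 1 := by
  constructor
  · intro j v _
    simp
  · intro j v _
    simp

theorem Dp_inv {i : ℕ} {h : (Module.End k M)ˣ} (hh : Q.Dp i h) : Q.Dp i h⁻¹ :=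
  ⟨hh.2, by rw [inv_inv]; exact hh.1⟩

theorem Dp_stab {i : ℕ} {h : (Module.End k M)ˣ} (hh : Q.Dp i h) {j : ℕ} {v : M}
    (hv : v ∈ Q.Fl j) : (h : Module.End k M) v ∈ Q.Fl j := by
  have h1 := Q.Fl_anti (Nat.le_add_right j i) (hh.1 j v hv)
  have h2 := add_mem h1 hv
  rwa [sub_add_cancel] at h2

theorem Dp_mul_aux {i : ℕ} {g h : (Module.End k M)ˣ} (hg : Q.Dp i g) (hh : Q.Dp i h) (j : ℕ)
    (v : M) (hv : v ∈ Q.Fl j) : ((g * h : (Module.End k M)ˣ) : Module.End k M) v - v ∈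
      Q.Fl (j + i) := by
  have h1 := hg.1 j _ (Q.Dp_stab hh hv)
  have h2 := hh.1 j v hv
  have h3 := add_mem h1 h2
  rw [sub_add_sub_cancel] at h3
  exact h3

theorem Dp_mul {i : ℕ} {g h : (Module.End k M)ˣ} (hg : Q.Dp i g) (hh : Q.Dp i h) :
    Q.Dp i (g * h) := by
  refine ⟨Q.Dp_mul_aux hg hh, ?_⟩
  rw [mul_inv_rev]
  exact Q.Dp_mul_aux (Q.Dp_inv hh) (Q.Dp_inv hg)

theorem Dp_comm_aux {a b : ℕ} {g h : (Module.End k M)ˣ} (hg : Q.Dp a g) (hh : Q.Dp b h) (j : ℕ)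
    (v : M) (hv : v ∈ Q.Fl j) : ((⁅g, h⁆ : (Module.End k M)ˣ) : Module.End k M) v - v ∈
      Q.Fl (j + (a + b)) := by
  obtain ⟨w, hw⟩ : ∃ w : M, w = ((g⁻¹ : (Module.End k M)ˣ) : Module.End k M)
      (((h⁻¹ : (Module.End k M)ˣ) : Module.End k M) v) := ⟨_, rfl⟩
  have hwF : w ∈ Q.Fl j := by
    rw [hw]
    exact Q.Dp_stab (Q.Dp_inv hg) (Q.Dp_stab (Q.Dp_inv hh) hv)
  have hv' : v = (h : Module.End k M) ((g : Module.End k M) w) := by
    rw [hw]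
    have h1 : (g : Module.End k M) (((g⁻¹ : (Module.End k M)ˣ) : Module.End k M)
        (((h⁻¹ : (Module.End k M)ˣ) : Module.End k M) v)) =
        ((h⁻¹ : (Module.End k M)ˣ) : Module.End k M) v := by
      have := congrArg (fun f : Module.End k M => f (((h⁻¹ : (Module.End k M)ˣ) :
        Module.End k M) v)) (Units.mul_inv g)
      exact this
    rw [h1]
    have := congrArg (fun f : Module.End k M => f v) (Units.mul_inv h)
    exact this.symm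
  have hc : ((⁅g, h⁆ : (Module.End k M)ˣ) : Module.End k M) v =
      (g : Module.End k M) ((h : Module.End k M) w) := by
    rw [hw, commutatorElement_def]
    rfl
  have hx := hg.1 j w hwF
  have hy := hh.1 j w hwF
  have h1 := hg.1 (j + b) _ hy
  have h2 := hh.1 (j + a) _ hx
  have e1 : j + b + a = j + (a + b) := by ring
  have e2 : j + a + b = j + (a + b) := by ring
  rw [e1] at h1
  rw [e2] at h2
  have h3 := sub_mem h1 h2
  rw [hc]
  have e3 : (g : Module.End k M) ((h : Module.End k M) w) - v =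
      (g : Module.End k M) ((h : Module.End k M) w) -
        (h : Module.End k M) ((g : Module.End k M) w) := by rw [← hv']
  rw [e3]
  convert h3 using 1
  simp only [map_sub]
  abel

theorem Dp_comm {a b : ℕ} {g h : (Module.End k M)ˣ} (hg : Q.Dp a g) (hh : Q.Dp b h) :
    Q.Dp (a + b) ⁅g, h⁆ := by
  refine ⟨Q.Dp_comm_aux hg hh, ?_⟩
  rw [commutatorElement_inv, add_comm a b]
  exact Q.Dp_comm_aux hh hg

theorem Dp_comr {h u : (Module.End k M)ˣ} (hh : Q.Dp 1 h) (hu : Q.Dp 1 u) (r : ℕ) :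
    Q.Dp (r + 1) (SLRing.comr h r u) := by
  induction r with
  | zero => exact hu
  | succ r ih =>
    show Q.Dp (r + 1 + 1) ⁅h, SLRing.comr h r u⁆
    rw [add_comm (r + 1) 1]
    exact Q.Dp_comm hh ih

theorem Dp_trivial {r : ℕ} {h : (Module.End k M)ˣ} (hh : Q.Dp r h) (hr : Q.Fl r = ⊥) :
    (h : Module.End k M) * (1 - Q.e) = 1 - Q.e := by
  apply LinearMap.ext
  intro v
  have h1 := hh.1 0 ((1 - Q.e) v) ⟨v, rfl⟩
  rw [zero_add, hr, Submodule.mem_bot, sub_eq_zero] at h1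
  exact h1

theorem Dp_of_A (h : (Module.End k M)ˣ) (c d : k) (hv : (h : Module.End k M) = 1 + c • Q.A)
    (hinv : ((h⁻¹ : (Module.End k M)ˣ) : Module.End k M) = 1 + d • Q.A) : Q.Dp 1 h := by
  constructor
  · intro j v hvF
    rw [hv]
    simp only [LinearMap.add_apply, Module.End.one_apply, LinearMap.smul_apply, add_sub_cancel_left]
    exact Submodule.smul_mem _ _ (Q.A_mem hvF)
  · intro j v hvF
    rw [hinv]
    simp only [LinearMap.add_apply, Module.End.one_apply, LinearMap.smul_apply, add_sub_cancel_left]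
    exact Submodule.smul_mem _ _ (Q.A_mem hvF)

theorem Dp_of_B (h : (Module.End k M)ˣ) (c d : k) (hv : (h : Module.End k M) = 1 + c • Q.B)
    (hinv : ((h⁻¹ : (Module.End k M)ˣ) : Module.End k M) = 1 + d • Q.B) : Q.Dp 1 h := by
  constructor
  · intro j v hvF
    rw [hv]
    simp only [LinearMap.add_apply, Module.End.one_apply, LinearMap.smul_apply, add_sub_cancel_left]
    exact Submodule.smul_mem _ _ (Q.B_mem hvF)
  · intro j v hvF
    rw [hinv]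
    simp only [LinearMap.add_apply, Module.End.one_apply, LinearMap.smul_apply, add_sub_cancel_left]
    exact Submodule.smul_mem _ _ (Q.B_mem hvF)

end QP

end Cfsg.Agent.Helper5.QPair
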