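import Cfsg.Agent.Helper5.SLRingC

set_option autoImplicit false

/-! The subgroup `⟨U(k), L(kλ)⟩` of `SL₂(𝒜)`: if every nonzero `t` with `U(t)` in the subgroup is a
unit, then `𝒜 = k[λ]` is a field and the subgroup is all of `SL₂(𝒜)`. -/

namespace Cfsg.Agent.Helper5.SLRing

open Matrix

variable {𝒜 : Type*} [CommRing 𝒜] (k : Type*) [Field k] [Algebra k 𝒜] (lam : 𝒜)

local notation:max "⟪" g "⟫" => ((g : SpecialLinearGroup (Fin 2) 𝒜) : Matrix (Fin 2) (Fin 2) 𝒜)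

/-- Quadratic descent: if `ρ² ∈ Λ` and the root group `U(τ) L(ρ R) U(-τ)` lies in `X`,
then `ρ ∈ Λ`. -/
theorem descent (htwo : (2 : k) ≠ 0) (ha : ∃ a : k, a ≠ 0 ∧ a ^ 2 ≠ 1) [Nontrivial 𝒜]
    (hU : ∀ l ∈ Lam k lam, l ≠ 0 → ∃ l' ∈ Lam k lam, l * l' = 1)
    (τ ρ ρ' : 𝒜) (hρ : ρ * ρ' = 1) (hρ2 : ρ ^ 2 ∈ Lam k lam)
    (hP : ∀ t, uu t ∈ XX k lam → uu τ * ll (ρ * t) * uu (-τ) ∈ XX k lam) : ρ ∈ Lam k lam := by
  have hinj : Function.Injective (algebraMap k 𝒜) := (algebraMap k 𝒜).injective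
  by_cases hθ : ρ ^ 2 = 1 ∨ ρ ^ 2 = -1
  · by_cases h4 : ∃ a : k, a ≠ 0 ∧ a ^ 4 ≠ 1
    · obtain ⟨a, ha0, ha4⟩ := h4
      have haa : algebraMap k 𝒜 a * algebraMap k 𝒜 a⁻¹ = 1 := by
        rw [← map_mul, mul_inv_cancel₀ ha0, map_one]
      have hne : (algebraMap k 𝒜 a) ^ 4 ≠ 1 := by
        intro h
        apply ha4
        apply hinj
        rw [map_pow, h, map_one]
      have hθ4 : (ρ ^ 2) ^ 2 = 1 := by
        rcases hθ with h | h <;> rw [h] <;> ring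
      apply descent4 k lam hU _ _ (Subalgebra.algebraMap_mem _ a) (Subalgebra.algebraMap_mem _ a⁻¹)
        haa τ ρ ρ' hρ hρ2 ?_ ?_ hP
      · intro h
        apply hne
        linear_combination (algebraMap k 𝒜 a ^ 2 * ρ ^ 2 + 1) * h - (algebraMap k 𝒜 a ^ 4) * hθ4
      · intro h
        apply hne
        linear_combination (algebraMap k 𝒜 a ^ 2 * ρ ^ 2 - 1) * h - (algebraMap k 𝒜 a ^ 4) * hθ4
    · push Not at h4
      have h5 : (5 : k) = 0 := five_eq_zero k htwo ha h4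
      have h5' : (5 : 𝒜) = 0 := by
        have := congrArg (algebraMap k 𝒜) h5
        rwa [map_ofNat, map_zero] at this
      rcases hθ with h | h
      · exact descent6a k lam h5' τ ρ h hP
      · exact descent6b k lam h5' τ ρ h hP
  · push Not at hθ
    apply descent4 k lam hU 1 1 (one_mem _) (one_mem _) (one_mul 1) τ ρ ρ' hρ hρ2 ?_ ?_ hP
    · intro h
      apply hθ.1
      linear_combination h
    · intro h
      apply hθ.2
      linear_combination h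

/-- Units of `𝒜` lying in the stabiliser ring have their inverse there. -/
theorem hU_of_star [Module.Finite k 𝒜]
    (hstar : ∀ t : 𝒜, t ≠ 0 → uu t ∈ XX k lam → IsUnit t) :
    ∀ l ∈ Lam k lam, l ≠ 0 → ∃ l' ∈ Lam k lam, l * l' = 1 := by
  intro l hl hl0
  obtain ⟨u, hu⟩ := hstar l hl0 (uu_mem_of_Lam k lam hl)
  let f : Lam k lam →ₗ[k] Lam k lam := LinearMap.mulLeft k ⟨l, hl⟩
  have hinj : Function.Injective f := by
    intro x y hxy
    have h1 : l * (x : 𝒜) = l * (y : 𝒜) := congrArg Subtype.val hxy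
    apply Subtype.ext
    have h2 : ((u⁻¹ : 𝒜ˣ) : 𝒜) * l = 1 := by
      rw [← hu]
      exact Units.inv_mul u
    calc (x : 𝒜) = ((u⁻¹ : 𝒜ˣ) : 𝒜) * (l * (x : 𝒜)) := by rw [← mul_assoc, h2, one_mul]
      _ = ((u⁻¹ : 𝒜ˣ) : 𝒜) * (l * (y : 𝒜)) := by rw [h1]
      _ = (y : 𝒜) := by rw [← mul_assoc, h2, one_mul]
  have hsurj : Function.Surjective f := LinearMap.surjective_of_injective hinj
  obtain ⟨x, hx⟩ := hsurj 1
  refine ⟨x, x.2, ?_⟩
  exact congrArg Subtype.val hx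

variable {lam} in
theorem lam_mem_Lam (htwo : (2 : k) ≠ 0) (ha : ∃ a : k, a ≠ 0 ∧ a ^ 2 ≠ 1) [Module.Finite k 𝒜]
    [Nontrivial 𝒜] {mu : 𝒜} (hlm : lam * mu = 1)
    (hU : ∀ l ∈ Lam k lam, l ≠ 0 → ∃ l' ∈ Lam k lam, l * l' = 1) : lam ∈ Lam k lam := by
  have hex : ∃ i, lam ^ (2 ^ i) ∈ Lam k lam := by
    obtain ⟨n, b0, b1, hb1, H⟩ := exists_upper k htwo hlm
    obtain ⟨y, hy1, hy2, -⟩ := exists_ne3 k htwo ha 0 (-b0) 0
    have hyb : y + b0 ≠ 0 := fun h => hy2 (by linear_combination h)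
    obtain ⟨h, hh, h10, h00⟩ := H y hy1 hyb
    have hsq := sq_mem_Lam k lam hh h10
    refine ⟨n + 1, ?_⟩
    have hc0 : y * b1⁻¹ ≠ 0 := mul_ne_zero hy1 (inv_ne_zero hb1)
    have hcc : algebraMap k 𝒜 (y * b1⁻¹) * algebraMap k 𝒜 (y * b1⁻¹)⁻¹ = 1 := by
      rw [← map_mul, mul_inv_cancel₀ hc0, map_one]
    have h5 : lam ^ 2 ^ (n + 1) = (⟪h⟫ 0 0) ^ 2 * (algebraMap k 𝒜 (y * b1⁻¹)⁻¹) ^ 2 := by
      rw [h00, pow_succ 2 n, pow_mul]
      linear_combination (-((lam ^ 2 ^ n) ^ 2 *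
        (algebraMap k 𝒜 (y * b1⁻¹) * algebraMap k 𝒜 (y * b1⁻¹)⁻¹ + 1))) * hcc
    rw [h5]
    exact mul_mem hsq (pow_mem (Subalgebra.algebraMap_mem _ _) 2)
  obtain ⟨i, hi⟩ := hex
  induction i with
  | zero => simpa using hi
  | succ i ih =>
    apply ih
    have hρ2 : (lam ^ (2 ^ i)) ^ 2 ∈ Lam k lam := by
      rw [← pow_mul, ← pow_succ]
      exact hi
    have hρρ' : lam ^ 2 ^ i * mu ^ 2 ^ i = 1 := by rw [← mul_pow, hlm, one_pow]
    cases i with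
    | zero =>
      apply descent k lam htwo ha hU 0 (lam ^ 2 ^ 0) (mu ^ 2 ^ 0) hρρ' hρ2
      intro t ht
      simp only [pow_zero, pow_one, neg_zero, uu_zero, one_mul, mul_one]
      exact ll_mem_of_uu k hlm ht
    | succ n =>
      obtain ⟨g, hg, h10, h00⟩ := chain k hlm 0 (fun _ => 1) (fun _ => one_ne_zero) n
      simp only [map_one, inv_one, map_zero, zero_add, one_mul] at h10 h00
      apply descent k lam htwo ha hU (∑ l ∈ Finset.range (n + 1), mu ^ (2 ^ l))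
        (lam ^ 2 ^ (n + 1)) (mu ^ 2 ^ (n + 1)) hρρ' hρ2
      intro t ht
      have h5 := (XX k lam).mul_mem ((XX k lam).mul_mem hg ((XX k lam).inv_mem ht))
        ((XX k lam).inv_mem hg)
      rw [uu_inv, conj_uu_eq g _ _ h10 h00] at h5
      convert h5 using 3
      rw [pow_succ 2 n, pow_mul]
      ring_nf

variable {lam} in
/-- The ring-theoretic main theorem. -/
theorem ring_main (htwo : (2 : k) ≠ 0) (ha : ∃ a : k, a ≠ 0 ∧ a ^ 2 ≠ 1) [Module.Finite k 𝒜]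
    [Nontrivial 𝒜] {mu : 𝒜} (hlm : lam * mu = 1)
    (hgen : Algebra.adjoin k ({lam} : Set 𝒜) = ⊤)
    (hstar : ∀ t : 𝒜, t ≠ 0 → uu t ∈ XX k lam → IsUnit t) :
    (∀ t : 𝒜, t ≠ 0 → IsUnit t) ∧ XX k lam = ⊤ := by
  have hU := hU_of_star k lam hstar
  have hlam := lam_mem_Lam k htwo ha hlm hU
  have htop : ∀ t : 𝒜, t ∈ Lam k lam := by
    intro t
    have h3 : Algebra.adjoin k ({lam} : Set 𝒜) ≤ Lam k lam := by
      apply Algebra.adjoin_le
      intro y hy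
      rw [Set.mem_singleton_iff] at hy
      rw [hy]
      exact hlam
    apply h3
    rw [hgen]
    exact Algebra.mem_top
  have hUall : ∀ t : 𝒜, uu t ∈ XX k lam := fun t => uu_mem_of_Lam k lam (htop t)
  have hunit : ∀ t : 𝒜, t ≠ 0 → IsUnit t := fun t ht => hstar t ht (hUall t)
  refine ⟨hunit, ?_⟩
  have hLall : ∀ s : 𝒜, ll s ∈ XX k lam := by
    intro s
    have := ll_mem_of_uu k hlm (hUall (mu * s))
    rwa [← mul_assoc, hlm, one_mul] at this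
  have hdec : ∀ (g : SpecialLinearGroup (Fin 2) 𝒜) (c' : 𝒜), ⟪g⟫ 1 0 * c' = 1 →
      g ∈ XX k lam := by
    intro g c' hc
    rw [decomp g c' hc]
    exact (XX k lam).mul_mem ((XX k lam).mul_mem (hUall _) (hLall _)) (hUall _)
  rw [eq_top_iff]
  intro g _
  by_cases hc : ⟪g⟫ 1 0 = 0
  · have hd := det_eq g
    rw [hc, mul_zero, sub_zero] at hd
    have h1 : ll 1 * g ∈ XX k lam := by
      apply hdec _ (⟪g⟫ 1 1)
      rw [mul_entry, hc]
      simp only [ll_10, ll_11, one_mul, mul_zero, add_zero]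
      exact hd
    have h2 : g = (ll 1)⁻¹ * (ll 1 * g) := by group
    rw [h2]
    exact (XX k lam).mul_mem ((XX k lam).inv_mem (hLall 1)) h1
  · obtain ⟨u, hu⟩ := hunit _ hc
    apply hdec g ((u⁻¹ : 𝒜ˣ) : 𝒜)
    rw [← hu]
    exact Units.mul_inv u

end Cfsg.Agent.Helper5.SLRing
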