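import Cfsg.Agent.Helper5.QPairC
import Cfsg.Agent.Helper5.SLRingD

set_option autoImplicit false

/-! The group generated by the two scalar families `1 + cA`, `1 + cB` and its pairing with
`⟨U(k), L(kλ)⟩ ≤ SL₂(k[X]/(g))` (S5064). -/

namespace Cfsg.Agent.Helper5.QPair

open Polynomial Matrix
open scoped commutatorElement

variable {k : Type*} [Field k] {M : Type*} [AddCommGroup M] [Module k M]

namespace QP

variable (Q : QP k (Module.End k M))

/-- The unit `1 + cA`. -/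
noncomputable def sg (c : k) : (Module.End k M)ˣ where
  val := 1 + c • Q.A
  inv := 1 + (-c) • Q.A
  val_inv := by
    rw [add_mul, one_mul, mul_add, mul_one, smul_mul_smul_comm, Q.hA, smul_zero, add_zero,
      neg_smul]
    abel
  inv_val := by
    rw [add_mul, one_mul, mul_add, mul_one, smul_mul_smul_comm, Q.hA, smul_zero, add_zero,
      neg_smul]
    abel

/-- The unit `1 + cB`. -/
noncomputable def tg (c : k) : (Module.End k M)ˣ where
  val := 1 + c • Q.B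
  inv := 1 + (-c) • Q.B
  val_inv := by
    rw [add_mul, one_mul, mul_add, mul_one, smul_mul_smul_comm, Q.hB, smul_zero, add_zero,
      neg_smul]
    abel
  inv_val := by
    rw [add_mul, one_mul, mul_add, mul_one, smul_mul_smul_comm, Q.hB, smul_zero, add_zero,
      neg_smul]
    abel

theorem sg_val (c : k) : ((Q.sg c : (Module.End k M)ˣ) : Module.End k M) = 1 + c • Q.A := rfl
theorem tg_val (c : k) : ((Q.tg c : (Module.End k M)ˣ) : Module.End k M) = 1 + c • Q.B := rfl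
theorem sg_inv_val (c : k) :
    (((Q.sg c)⁻¹ : (Module.End k M)ˣ) : Module.End k M) = 1 + (-c) • Q.A := rfl
theorem tg_inv_val (c : k) :
    (((Q.tg c)⁻¹ : (Module.End k M)ˣ) : Module.End k M) = 1 + (-c) • Q.B := rfl

/-- The group generated by the two scalar families. -/
noncomputable def HH : Subgroup (Module.End k M)ˣ :=
  Subgroup.closure (Set.range Q.sg ∪ Set.range Q.tg)

theorem sg_mem (c : k) : Q.sg c ∈ Q.HH := Subgroup.subset_closure (Or.inl ⟨c, rfl⟩)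
theorem tg_mem (c : k) : Q.tg c ∈ Q.HH := Subgroup.subset_closure (Or.inr ⟨c, rfl⟩)

/-- Generators of the pairing subgroup. -/
noncomputable def pgens :
    Set (SpecialLinearGroup (Fin 2) (AdjoinRoot Q.g) × (Module.End k M)ˣ) :=
  (Set.range fun c : k => (SLRing.uu (algebraMap k (AdjoinRoot Q.g) c), Q.sg c)) ∪
    (Set.range fun c : k => (SLRing.ll (algebraMap k (AdjoinRoot Q.g) c * Q.lam), Q.tg c))

/-- The pairing subgroup. -/
noncomputable def TT : Subgroup (SpecialLinearGroup (Fin 2) (AdjoinRoot Q.g) × (Module.End k M)ˣ) :=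
  Subgroup.closure Q.pgens

/-- The invariant of the pairing subgroup. -/
def Inv (x : SpecialLinearGroup (Fin 2) (AdjoinRoot Q.g) × (Module.End k M)ˣ) : Prop :=
  x.1 ∈ SLRing.XX k Q.lam ∧ x.2 ∈ Q.HH ∧ Q.Dp 1 x.2 ∧
    (x.2 : Module.End k M) * Q.e = Q.PsiM (x.1 : Matrix (Fin 2) (Fin 2) (AdjoinRoot Q.g)) ∧
    Q.e * (x.2 : Module.End k M) = Q.PsiM (x.1 : Matrix (Fin 2) (Fin 2) (AdjoinRoot Q.g))

theorem Inv_one : Q.Inv 1 := by
  refine ⟨Subgroup.one_mem _, Subgroup.one_mem _, Q.Dp_one 1, ?_, ?_⟩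
  · show (1 : Module.End k M) * Q.e = Q.PsiM ((1 : SpecialLinearGroup (Fin 2) (AdjoinRoot Q.g)) :
      Matrix (Fin 2) (Fin 2) (AdjoinRoot Q.g))
    rw [one_mul, Matrix.SpecialLinearGroup.coe_one, Q.PsiM_one]
  · show Q.e * (1 : Module.End k M) = Q.PsiM ((1 : SpecialLinearGroup (Fin 2) (AdjoinRoot Q.g)) :
      Matrix (Fin 2) (Fin 2) (AdjoinRoot Q.g))
    rw [mul_one, Matrix.SpecialLinearGroup.coe_one, Q.PsiM_one]

theorem Inv_mul {x y : SpecialLinearGroup (Fin 2) (AdjoinRoot Q.g) × (Module.End k M)ˣ}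
    (hx : Q.Inv x) (hy : Q.Inv y) : Q.Inv (x * y) := by
  obtain ⟨x1, x2, x3, x4, x5⟩ := hx
  obtain ⟨y1, y2, y3, y4, y5⟩ := hy
  refine ⟨Subgroup.mul_mem _ x1 y1, Subgroup.mul_mem _ x2 y2, Q.Dp_mul x3 y3, ?_, ?_⟩
  · show (x.2 : Module.End k M) * (y.2 : Module.End k M) * Q.e =
      Q.PsiM ((x.1 * y.1 : SpecialLinearGroup (Fin 2) (AdjoinRoot Q.g)) :
        Matrix (Fin 2) (Fin 2) (AdjoinRoot Q.g))
    rw [Matrix.SpecialLinearGroup.coe_mul, Q.PsiM_mul, mul_assoc, y4]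
    calc (x.2 : Module.End k M) * Q.PsiM (y.1 : Matrix (Fin 2) (Fin 2) (AdjoinRoot Q.g))
        = (x.2 : Module.End k M) * (Q.e * Q.PsiM (y.1 : Matrix (Fin 2) (Fin 2) (AdjoinRoot Q.g))) := by
          rw [Q.e_mul_PsiM]
      _ = _ := by rw [← mul_assoc, x4]
  · show Q.e * ((x.2 : Module.End k M) * (y.2 : Module.End k M)) =
      Q.PsiM ((x.1 * y.1 : SpecialLinearGroup (Fin 2) (AdjoinRoot Q.g)) :
        Matrix (Fin 2) (Fin 2) (AdjoinRoot Q.g))
    rw [Matrix.SpecialLinearGroup.coe_mul, Q.PsiM_mul, ← mul_assoc, x5]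
    calc Q.PsiM (x.1 : Matrix (Fin 2) (Fin 2) (AdjoinRoot Q.g)) * (y.2 : Module.End k M)
        = Q.PsiM (x.1 : Matrix (Fin 2) (Fin 2) (AdjoinRoot Q.g)) * Q.e * (y.2 : Module.End k M) := by
          rw [Q.PsiM_mul_e]
      _ = _ := by rw [mul_assoc, y5]

theorem Inv_inv {x : SpecialLinearGroup (Fin 2) (AdjoinRoot Q.g) × (Module.End k M)ˣ}
    (hx : Q.Inv x) : Q.Inv x⁻¹ := by
  obtain ⟨x1, x2, x3, x4, x5⟩ := hx
  have hPP : Q.PsiM (x.1 : Matrix (Fin 2) (Fin 2) (AdjoinRoot Q.g)) *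
      Q.PsiM ((x.1⁻¹ : SpecialLinearGroup (Fin 2) (AdjoinRoot Q.g)) :
        Matrix (Fin 2) (Fin 2) (AdjoinRoot Q.g)) = Q.e := by
    rw [← Q.PsiM_mul, ← Matrix.SpecialLinearGroup.coe_mul, mul_inv_cancel,
      Matrix.SpecialLinearGroup.coe_one, Q.PsiM_one]
  have hPP' : Q.PsiM ((x.1⁻¹ : SpecialLinearGroup (Fin 2) (AdjoinRoot Q.g)) :
        Matrix (Fin 2) (Fin 2) (AdjoinRoot Q.g)) *
      Q.PsiM (x.1 : Matrix (Fin 2) (Fin 2) (AdjoinRoot Q.g)) = Q.e := by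
    rw [← Q.PsiM_mul, ← Matrix.SpecialLinearGroup.coe_mul, inv_mul_cancel,
      Matrix.SpecialLinearGroup.coe_one, Q.PsiM_one]
  refine ⟨Subgroup.inv_mem _ x1, Subgroup.inv_mem _ x2, Q.Dp_inv x3, ?_, ?_⟩
  · show ((x.2⁻¹ : (Module.End k M)ˣ) : Module.End k M) * Q.e =
      Q.PsiM ((x.1⁻¹ : SpecialLinearGroup (Fin 2) (AdjoinRoot Q.g)) :
        Matrix (Fin 2) (Fin 2) (AdjoinRoot Q.g))
    rw [← hPP, ← x4, ← mul_assoc, ← mul_assoc, Units.inv_mul, one_mul, Q.e_mul_PsiM]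
  · show Q.e * ((x.2⁻¹ : (Module.End k M)ˣ) : Module.End k M) =
      Q.PsiM ((x.1⁻¹ : SpecialLinearGroup (Fin 2) (AdjoinRoot Q.g)) :
        Matrix (Fin 2) (Fin 2) (AdjoinRoot Q.g))
    rw [← hPP', ← x5, mul_assoc, mul_assoc, Units.mul_inv, mul_one, Q.PsiM_mul_e]

theorem Inv_of_mem {x : SpecialLinearGroup (Fin 2) (AdjoinRoot Q.g) × (Module.End k M)ˣ}
    (hx : x ∈ Q.TT) : Q.Inv x := by
  induction hx using Subgroup.closure_induction with
  | mem x hx =>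
    rcases hx with ⟨c, rfl⟩ | ⟨c, rfl⟩
    · refine ⟨SLRing.uu_mem k Q.lam c, Q.sg_mem c, Q.Dp_of_A _ c (-c) rfl rfl, ?_, ?_⟩
      · show (1 + c • Q.A) * Q.e = Q.PsiM _
        rw [← Q.rho_mul_e, Q.rho_uu_alg, add_mul, add_mul, smul_mul_assoc, smul_mul_assoc,
          mul_assoc, Q.e_mul_e]
      · show Q.e * (1 + c • Q.A) = Q.PsiM _
        rw [← Q.rho_mul_e, Q.rho_uu_alg, add_mul, mul_add, smul_mul_assoc, mul_smul_comm,
          mul_assoc, Q.e_mul_e, Q.eA, mul_one, one_mul]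
    · refine ⟨SLRing.ll_mem k Q.lam c, Q.tg_mem c, Q.Dp_of_B _ c (-c) rfl rfl, ?_, ?_⟩
      · show (1 + c • Q.B) * Q.e = Q.PsiM _
        rw [← Q.rho_mul_e, Q.rho_ll_alg, add_mul, add_mul, smul_mul_assoc, smul_mul_assoc,
          mul_assoc, Q.e_mul_e]
      · show Q.e * (1 + c • Q.B) = Q.PsiM _
        rw [← Q.rho_mul_e, Q.rho_ll_alg, add_mul, mul_add, smul_mul_assoc, mul_smul_comm,
          mul_assoc, Q.e_mul_e, Q.eB, mul_one, one_mul]
  | one => exact Q.Inv_one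
  | mul x y _ _ hx hy => exact Q.Inv_mul hx hy
  | inv x _ hx => exact Q.Inv_inv hx

theorem exists_lift {x : SpecialLinearGroup (Fin 2) (AdjoinRoot Q.g)}
    (hx : x ∈ SLRing.XX k Q.lam) : ∃ y : (Module.End k M)ˣ, (x, y) ∈ Q.TT := by
  induction hx using Subgroup.closure_induction with
  | mem x hx =>
    rcases SLRing.gens_cases k Q.lam hx with ⟨c, rfl⟩ | ⟨c, rfl⟩
    · exact ⟨Q.sg c, Subgroup.subset_closure (Or.inl ⟨c, rfl⟩)⟩
    · exact ⟨Q.tg c, Subgroup.subset_closure (Or.inr ⟨c, rfl⟩)⟩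
  | one => exact ⟨1, Subgroup.one_mem _⟩
  | mul x y _ _ hx hy =>
    obtain ⟨x', hx'⟩ := hx
    obtain ⟨y', hy'⟩ := hy
    have := Subgroup.mul_mem _ hx' hy'
    rw [Prod.mk_mul_mk] at this
    exact ⟨x' * y', this⟩
  | inv x _ hx =>
    obtain ⟨x', hx'⟩ := hx
    have := Subgroup.inv_mem _ hx'
    rw [Prod.inv_mk] at this
    exact ⟨x'⁻¹, this⟩

/-- An element of the pairing subgroup acting trivially on the unipotent part is given by the
representation. -/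
theorem eq_rhoHat {x : SpecialLinearGroup (Fin 2) (AdjoinRoot Q.g) × (Module.End k M)ˣ}
    (hx : Q.Inv x) (htriv : (x.2 : Module.End k M) * (1 - Q.e) = 1 - Q.e) :
    x.2 = Q.rhoHat x.1 := by
  apply Units.ext
  rw [Q.rhoHat_val]
  unfold rho
  rw [← hx.2.2.2.1, ← htriv, ← mul_add]
  have : (1 - Q.e) + Q.e = 1 := by abel
  rw [this, mul_one]

/-- Deep commutators of elements of `X` are mapped into `H` by the representation. -/
theorem rhoHat_comr_mem {h u : SpecialLinearGroup (Fin 2) (AdjoinRoot Q.g)}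
    (hh : h ∈ SLRing.XX k Q.lam) (hu : u ∈ SLRing.XX k Q.lam) {r : ℕ} (hr : 2 * Q.m ≤ r) :
    Q.rhoHat (SLRing.comr h r u) ∈ Q.HH := by
  obtain ⟨h', hh'⟩ := Q.exists_lift hh
  obtain ⟨u', hu'⟩ := Q.exists_lift hu
  have hmem : SLRing.comr (h, h') r (u, u') ∈ Q.TT := SLRing.comr_mem _ hh' hu' r
  have hI := Q.Inv_of_mem hmem
  have e1 : (SLRing.comr (h, h') r (u, u')).1 = SLRing.comr h r u :=
    SLRing.map_comr (MonoidHom.fst _ _) (h, h') (u, u') r
  have e2 : (SLRing.comr (h, h') r (u, u')).2 = SLRing.comr h' r u' :=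
    SLRing.map_comr (MonoidHom.snd _ _) (h, h') (u, u') r
  have hD : Q.Dp (r + 1) (SLRing.comr h' r u') :=
    Q.Dp_comr (Q.Inv_of_mem hh').2.2.1 (Q.Inv_of_mem hu').2.2.1 r
  have hbot : Q.Fl (r + 1) = ⊥ := Q.Fl_eq_bot_of_le (by omega)
  have htriv := Q.Dp_trivial hD hbot
  rw [← e2] at htriv
  have := Q.eq_rhoHat hI htriv
  rw [e1] at this
  rw [← this]
  exact hI.2.1

end QP

end Cfsg.Agent.Helper5.QPair
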