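import Cfsg.Agent.Helper5.QPairD
import Cfsg.Prelude.Def_RootSubgroups

set_option autoImplicit false

/-! The minimality principle for quadratic pairs: lifting root elements of `SL₂(k[X]/(g))` into
the group generated by two scalar families forces the unipotent part to vanish (S5064). -/

namespace Cfsg.Agent.Helper5.QPair

open Polynomial Matrix
open scoped commutatorElement

variable {k : Type*} [Field k] {M : Type*} [AddCommGroup M] [Module k M]

namespace QP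

variable (Q : QP k (Module.End k M))

theorem Dp_of_mem_HH {g : (Module.End k M)ˣ} (hg : g ∈ Q.HH) : Q.Dp 1 g := by
  induction hg using Subgroup.closure_induction with
  | mem x hx =>
    rcases hx with ⟨c, rfl⟩ | ⟨c, rfl⟩
    · exact Q.Dp_of_A _ c (-c) rfl rfl
    · exact Q.Dp_of_B _ c (-c) rfl rfl
  | one => exact Q.Dp_one 1
  | mul x y _ _ hx hy => exact Q.Dp_mul hx hy
  | inv x _ hx => exact Q.Dp_inv hx

theorem prod_mem_Fl (l : List (Module.End k M)ˣ) (hl : ∀ g ∈ l, g ∈ Q.HH) (j : ℕ) (v : M)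
    (hv : v ∈ Q.Fl j) :
    (l.map fun g => ((g : (Module.End k M)ˣ) : Module.End k M) - 1).prod v ∈
      Q.Fl (j + l.length) := by
  induction l with
  | nil => simpa using hv
  | cons g l ih =>
    have h1 := ih (fun x hx => hl x (List.mem_cons_of_mem _ hx))
    have h2 := (Q.Dp_of_mem_HH (hl g List.mem_cons_self)).1 _ _ h1
    rw [List.map_cons, List.prod_cons, List.length_cons]
    exact h2

theorem unipotent_of_e_zero (he : Q.e = 0) : Cfsg.IsUnipotentOn Q.HH := by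
  refine ⟨2 * Q.m + 1, ?_⟩
  intro l hl hlen
  have key : (l.map fun g => ((g : (Module.End k M)ˣ) : Module.End k M) - 1).prod = 0 := by
    apply LinearMap.ext
    intro v
    have hv : v ∈ Q.Fl 0 := by
      rw [Q.Fl_zero, he, sub_zero]
      exact ⟨v, rfl⟩
    have h1 := Q.prod_mem_Fl l hl 0 v hv
    rw [hlen, zero_add, Q.Fl_eq_bot, Submodule.mem_bot] at h1
    exact h1
  have hconv : (List.map (fun g : M →ₗ[k] M => g - 1)
      (do let a ← l; pure ((a : LinearMap.GeneralLinearGroup k M) : M →ₗ[k] M))) =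
      l.map (fun g => ((g : (Module.End k M)ˣ) : Module.End k M) - 1) := by
    have h0 : (do let a ← l; pure ((a : LinearMap.GeneralLinearGroup k M) : M →ₗ[k] M)) =
        l.map (fun a => ((a : LinearMap.GeneralLinearGroup k M) : M →ₗ[k] M)) := by
      simp only [List.bind_eq_flatMap, List.pure_def]
      exact List.map_eq_flatMap.symm
    rw [h0, List.map_map]
    rfl
  rw [hconv]
  exact key

/-- The minimality principle: a square-zero `T ≠ 0` whose scalar family lies in `G` gives a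
quadratic element of `G`. -/
theorem mp {G : Subgroup (LinearMap.GeneralLinearGroup k M)} (T : Module.End k M)
    (hT2 : T * T = 0) (hT0 : T ≠ 0)
    (hfam : ∀ c : k, ∃ y ∈ G, ((y : LinearMap.GeneralLinearGroup k M) : M →ₗ[k] M) = 1 + c • T) :
    ∃ x ∈ Cfsg.quadraticElements G, ((x : LinearMap.GeneralLinearGroup k M) : M →ₗ[k] M) - 1 = T := by
  obtain ⟨y, hyG, hy⟩ := hfam 1
  have hy1 : ((y : LinearMap.GeneralLinearGroup k M) : M →ₗ[k] M) - 1 = T := by
    rw [hy, one_smul]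
    abel
  refine ⟨y, ⟨hyG, ⟨?_, ?_⟩, ?_⟩, hy1⟩
  · rw [hy1]
    exact hT2
  · rw [hy1]
    exact hT0
  · rintro z ⟨c, hz⟩
    rw [hy1] at hz
    obtain ⟨y', hy'G, hy'⟩ := hfam c
    have : z = y' := Units.ext (hz.trans hy'.symm)
    rw [this]
    exact hy'G

theorem p_ne_zero (he : Q.e ≠ 0) : Q.p ≠ 0 := by
  intro h
  apply he
  rw [← Q.pq_add_qp, h, zero_mul, mul_zero, add_zero]

theorem Be_ne_zero (he : Q.e ≠ 0) : Q.B * Q.e ≠ 0 := by
  intro h
  apply he
  have hq : Q.q = 0 := by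
    show Q.B * Q.Y = 0
    rw [← Q.e_mul_Y, ← mul_assoc, h, zero_mul]
  rw [← Q.pq_add_qp, hq, zero_mul, mul_zero, add_zero]

theorem Be_sq : (Q.B * Q.e) * (Q.B * Q.e) = 0 := by
  rw [mul_assoc, ← mul_assoc Q.e, Q.eB, mul_assoc Q.B Q.e, ← mul_assoc, Q.hB, zero_mul]

theorem nontrivial_alg (he : Q.e ≠ 0) : Nontrivial (AdjoinRoot Q.g) :=
  nontrivial_of_ne (1 : AdjoinRoot Q.g) 0 (fun h => he (by rw [← Q.phi_one, h, map_zero]))

/-- The two root groups of `SL₂` over the prime field lift into `H`. -/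
theorem rhoHat_gens_mem (htwo : (2 : k) ≠ 0) (ha : ∃ a : k, a ≠ 0 ∧ a ^ 2 ≠ 1) (he : Q.e ≠ 0)
    (c : k) :
    Q.rhoHat (SLRing.uu (algebraMap k (AdjoinRoot Q.g) c)) ∈ Q.HH ∧
      Q.rhoHat (SLRing.ll (algebraMap k (AdjoinRoot Q.g) c * Q.lam)) ∈ Q.HH := by
  have : Module.Finite k (AdjoinRoot Q.g) := Q.hmonic.finite_adjoinRoot
  have : Nontrivial (AdjoinRoot Q.g) := Q.nontrivial_alg he
  obtain ⟨s, hs, h, hh, h', hh', H⟩ := SLRing.exists_comr k htwo ha Q.lam_mul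
  have hs' : s ^ (2 * Q.m) ≠ 0 := pow_ne_zero _ hs
  obtain ⟨e1, e2⟩ := H (2 * Q.m) (c / s ^ (2 * Q.m))
  have e3 : s ^ (2 * Q.m) * (c / s ^ (2 * Q.m)) = c := by field_simp
  rw [e3] at e1 e2
  constructor
  · rw [← e1]
    exact Q.rhoHat_comr_mem hh (SLRing.uu_mem k Q.lam _) le_rfl
  · rw [← e2]
    exact Q.rhoHat_comr_mem hh' (SLRing.ll_mem k Q.lam _) le_rfl

theorem rhoHat_uu_alg_val (c : k) :
    ((Q.rhoHat (SLRing.uu (algebraMap k (AdjoinRoot Q.g) c)) : (Module.End k M)ˣ) :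
      Module.End k M) = 1 + c • (Q.A * Q.e) := by
  rw [Q.rhoHat_val, Q.rho_uu_alg]

theorem rhoHat_ll_alg_val (c : k) :
    ((Q.rhoHat (SLRing.ll (algebraMap k (AdjoinRoot Q.g) c * Q.lam)) : (Module.End k M)ˣ) :
      Module.End k M) = 1 + c • (Q.B * Q.e) := by
  rw [Q.rhoHat_val, Q.rho_ll_alg]

/-- If `range T = range (T e)` for `T` commuting with the idempotent `e`, then `T e = T`. -/
theorem mul_e_of_range [FiniteDimensional k M] (T : Module.End k M) (hT : Q.e * T = T * Q.e)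
    (h : Module.finrank k (LinearMap.range T) ≤ Module.finrank k (LinearMap.range (T * Q.e))) :
    T * Q.e = T := by
  have hle : LinearMap.range (T * Q.e) ≤ LinearMap.range T := LinearMap.range_comp_le_range _ _
  have heq : LinearMap.range (T * Q.e) = LinearMap.range T := Submodule.eq_of_le_of_finrank_le hle h
  rw [← hT]
  apply LinearMap.ext
  intro v
  have hv : T v ∈ LinearMap.range (T * Q.e) := by
    rw [heq]
    exact ⟨v, rfl⟩
  obtain ⟨w, hw⟩ := hv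
  show Q.e (T v) = T v
  rw [← hw]
  have h1 : Q.e * (T * Q.e) = T * Q.e := by rw [← mul_assoc, hT, mul_assoc, Q.e_mul_e]
  exact congrArg (fun f : Module.End k M => f w) h1

theorem A_mul_e [FiniteDimensional k M] (htwo : (2 : k) ≠ 0) (ha : ∃ a : k, a ≠ 0 ∧ a ^ 2 ≠ 1)
    (he : Q.e ≠ 0) {G : Subgroup (LinearMap.GeneralLinearGroup k M)} (hHG : Q.HH ≤ G)
    (hAmin : ∀ x ∈ Cfsg.quadraticElements G, Module.finrank k (LinearMap.range Q.A) ≤
      Module.finrank k (LinearMap.range ((x : M →ₗ[k] M) - 1))) : Q.A * Q.e = Q.A := by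
  apply Q.mul_e_of_range Q.A Q.eA
  obtain ⟨x, hx, hx1⟩ := mp (G := G) (Q.A * Q.e) Q.p_mul_p (Q.p_ne_zero he) (fun c =>
    ⟨_, hHG (Q.rhoHat_gens_mem htwo ha he c).1, Q.rhoHat_uu_alg_val c⟩)
  have := hAmin x hx
  rwa [hx1] at this

theorem B_mul_e [FiniteDimensional k M] (htwo : (2 : k) ≠ 0) (ha : ∃ a : k, a ≠ 0 ∧ a ^ 2 ≠ 1)
    (he : Q.e ≠ 0) {G : Subgroup (LinearMap.GeneralLinearGroup k M)} (hHG : Q.HH ≤ G)
    (hBmin : ∀ x ∈ Cfsg.quadraticElements G, Module.finrank k (LinearMap.range Q.B) ≤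
      Module.finrank k (LinearMap.range ((x : M →ₗ[k] M) - 1))) : Q.B * Q.e = Q.B := by
  apply Q.mul_e_of_range Q.B Q.eB
  obtain ⟨x, hx, hx1⟩ := mp (G := G) (Q.B * Q.e) Q.Be_sq (Q.Be_ne_zero he) (fun c =>
    ⟨_, hHG (Q.rhoHat_gens_mem htwo ha he c).2, Q.rhoHat_ll_alg_val c⟩)
  have := hBmin x hx
  rwa [hx1] at this

theorem sg_eq (hA : Q.A * Q.e = Q.A) (c : k) :
    Q.sg c = Q.rhoHat (SLRing.uu (algebraMap k (AdjoinRoot Q.g) c)) := by
  apply Units.ext
  rw [Q.rhoHat_uu_alg_val, hA]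
  rfl

theorem tg_eq (hB : Q.B * Q.e = Q.B) (c : k) :
    Q.tg c = Q.rhoHat (SLRing.ll (algebraMap k (AdjoinRoot Q.g) c * Q.lam)) := by
  apply Units.ext
  rw [Q.rhoHat_ll_alg_val, hB]
  rfl

theorem HH_eq_map (hA : Q.A * Q.e = Q.A) (hB : Q.B * Q.e = Q.B) :
    Q.HH = (SLRing.XX k Q.lam).map Q.rhoHat := by
  apply le_antisymm
  · apply (Subgroup.closure_le _).mpr
    rintro x (⟨c, rfl⟩ | ⟨c, rfl⟩)
    · rw [Q.sg_eq hA]
      exact Subgroup.mem_map_of_mem _ (SLRing.uu_mem k Q.lam c)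
    · rw [Q.tg_eq hB]
      exact Subgroup.mem_map_of_mem _ (SLRing.ll_mem k Q.lam c)
  · rw [Subgroup.map_le_iff_le_comap]
    apply (Subgroup.closure_le _).mpr
    intro x hx
    rcases SLRing.gens_cases k Q.lam hx with ⟨c, rfl⟩ | ⟨c, rfl⟩
    · show Q.rhoHat _ ∈ Q.HH
      rw [← Q.sg_eq hA]
      exact Q.sg_mem c
    · show Q.rhoHat _ ∈ Q.HH
      rw [← Q.tg_eq hB]
      exact Q.tg_mem c

theorem phi_eq_zero_of_mul_p {s : AdjoinRoot Q.g} (h : Q.phi s * Q.p = 0) : s = 0 := by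
  have h0p : Q.p * (0 : Module.End k M) = 0 * Q.p := by rw [mul_zero, zero_mul]
  have h0q : Q.q * (0 : Module.End k M) = 0 * Q.q := by rw [mul_zero, zero_mul]
  have hv : Q.mu.val 0 (Q.phi s) 0 0 = 0 := by
    unfold MUnits.val
    rw [zero_mul, zero_mul, zero_mul, zero_add, add_zero, add_zero]
    exact h
  obtain ⟨-, h2, -, -⟩ := Q.mu.val_eq_zero 0 (Q.phi s) 0 0 h0p h0q (Q.p_phi s) (Q.q_phi s) h0p h0q
    h0p h0q (zero_mul _) (Q.phi_mul_e s) (zero_mul _) (zero_mul _) hv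
  exact Q.phi_injective (h2.trans (map_zero Q.phi).symm)

theorem exists_zero_divisor {𝒜 : Type*} [CommRing 𝒜] [Algebra k 𝒜] [Module.Finite k 𝒜] (t : 𝒜)
    (ht : ¬ IsUnit t) : ∃ s : 𝒜, s ≠ 0 ∧ t * s = 0 := by
  by_contra hcon
  push Not at hcon
  apply ht
  have hinj : Function.Injective (LinearMap.mulLeft k t) := by
    rw [injective_iff_map_eq_zero]
    intro s hs
    by_contra hs0
    exact hcon s hs0 hs
  obtain ⟨x, hx⟩ := LinearMap.surjective_of_injective hinj 1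
  exact IsUnit.of_mul_eq_one x hx

/-- Every nonzero `t` with `U(t)` in `X` is a unit. -/
theorem star [FiniteDimensional k M]
    {G : Subgroup (LinearMap.GeneralLinearGroup k M)} (hHG : Q.HH ≤ G)
    (hAmin : ∀ x ∈ Cfsg.quadraticElements G, Module.finrank k (LinearMap.range Q.A) ≤
      Module.finrank k (LinearMap.range ((x : M →ₗ[k] M) - 1)))
    (hA : Q.A * Q.e = Q.A) (hB : Q.B * Q.e = Q.B) (t : AdjoinRoot Q.g) (ht : t ≠ 0)
    (htX : SLRing.uu t ∈ SLRing.XX k Q.lam) : IsUnit t := by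
  have : Module.Finite k (AdjoinRoot Q.g) := Q.hmonic.finite_adjoinRoot
  have hpA : Q.p = Q.A := hA
  have hT2 : (Q.phi t * Q.p) * (Q.phi t * Q.p) = 0 := by
    rw [mul_assoc, ← mul_assoc Q.p, Q.p_phi, mul_assoc (Q.phi t) Q.p, Q.p_mul_p, mul_zero, mul_zero]
  have hT0 : Q.phi t * Q.p ≠ 0 := fun h => ht (Q.phi_eq_zero_of_mul_p h)
  obtain ⟨x, hx, hx1⟩ := mp (G := G) (Q.phi t * Q.p) hT2 hT0 (fun c => by
    refine ⟨Q.rhoHat (SLRing.uu (algebraMap k (AdjoinRoot Q.g) c * t)), hHG ?_, ?_⟩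
    · rw [Q.HH_eq_map hA hB]
      exact Subgroup.mem_map_of_mem _ (SLRing.uu_smul_mem k Q.lam c htX)
    · rw [Q.rhoHat_val, Q.rho_uu, Q.phi_mul, Q.phi_algebraMap, smul_mul_assoc, smul_mul_assoc,
        Q.e_mul_phi])
  have hrank := hAmin x hx
  rw [hx1, ← Q.p_phi, hpA] at hrank
  have hle : LinearMap.range (Q.A * Q.phi t) ≤ LinearMap.range Q.A :=
    LinearMap.range_comp_le_range _ _
  have heq : LinearMap.range (Q.A * Q.phi t) = LinearMap.range Q.A :=
    Submodule.eq_of_le_of_finrank_le hle hrank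
  by_contra hnu
  obtain ⟨s, hs0, hts⟩ := exists_zero_divisor (k := k) t hnu
  apply hs0
  apply Q.phi_eq_zero_of_mul_p
  rw [hpA]
  apply LinearMap.ext
  intro v
  have hv : Q.A v ∈ LinearMap.range (Q.A * Q.phi t) := by
    rw [heq]
    exact ⟨v, rfl⟩
  obtain ⟨w, hw⟩ := hv
  show Q.phi s (Q.A v) = 0
  rw [← hw]
  have h1 : Q.phi s * (Q.A * Q.phi t) = 0 := by
    rw [← hpA, Q.p_phi, ← mul_assoc, ← Q.phi_mul, mul_comm, hts, map_zero, zero_mul]
  exact congrArg (fun f : Module.End k M => f w) h1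

end QP

end Cfsg.Agent.Helper5.QPair
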