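import Cfsg.Agent.Helper5.QPairE

set_option autoImplicit false

/-! Quadratic pairs: the group generated by two scalar families of minimal quadratic elements,
when not unipotent, is `SL₂` over a simple algebraic extension (S5064, assembly). -/

namespace Cfsg.Agent.Helper5.QPair

open Polynomial Matrix

universe u

namespace QP

theorem final {k : Type u} [Field k] {M : Type u} [AddCommGroup M] [Module k M]
    [FiniteDimensional k M] (Q : QP k (Module.End k M)) (htwo : (2 : k) ≠ 0)
    (ha : ∃ a : k, a ≠ 0 ∧ a ^ 2 ≠ 1) (he : Q.e ≠ 0)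
    {G : Subgroup (LinearMap.GeneralLinearGroup k M)} (hHG : Q.HH ≤ G)
    (hAmin : ∀ x ∈ Cfsg.quadraticElements G, Module.finrank k (LinearMap.range Q.A) ≤
      Module.finrank k (LinearMap.range ((x : M →ₗ[k] M) - 1)))
    (hBmin : ∀ x ∈ Cfsg.quadraticElements G, Module.finrank k (LinearMap.range Q.B) ≤
      Module.finrank k (LinearMap.range ((x : M →ₗ[k] M) - 1))) :
    ∃ (K : Type u) (_ : Field K) (_ : Algebra k K) (lam : K), IsAlgebraic k lam ∧
      IntermediateField.adjoin k ({lam} : Set K) = ⊤ ∧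
      Nonempty (↥Q.HH ≃* Matrix.SpecialLinearGroup (Fin 2) K) := by
  have hfin : Module.Finite k (AdjoinRoot Q.g) := Q.hmonic.finite_adjoinRoot
  have hnt : Nontrivial (AdjoinRoot Q.g) := Q.nontrivial_alg he
  have hA := Q.A_mul_e htwo ha he hHG hAmin
  have hB := Q.B_mul_e htwo ha he hHG hBmin
  have hstar := Q.star hHG hAmin hA hB
  obtain ⟨hunit, hXtop⟩ := SLRing.ring_main k htwo ha Q.lam_mul AdjoinRoot.adjoinRoot_eq_top hstar
  have hirr : Irreducible Q.g := by
    have hF : IsField (AdjoinRoot Q.g) :=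
      { exists_pair_ne := ⟨0, 1, zero_ne_one⟩
        mul_comm := mul_comm
        mul_inv_cancel := fun {a} ha => (hunit a ha).exists_right_inv }
    have hmax : (Ideal.span {Q.g} : Ideal k[X]).IsMaximal := Ideal.Quotient.maximal_of_isField _ hF
    have hprime : Prime Q.g := (Ideal.span_singleton_prime Q.hmonic.ne_zero).mp hmax.isPrime
    exact hprime.irreducible
  haveI : Fact (Irreducible Q.g) := ⟨hirr⟩
  have halg : IsAlgebraic k (AdjoinRoot.root Q.g) :=
    (AdjoinRoot.isIntegral_root' Q.hmonic).isAlgebraic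
  refine ⟨AdjoinRoot Q.g, AdjoinRoot.instField, inferInstance, AdjoinRoot.root Q.g, halg, ?_, ?_⟩
  · have h1 := IntermediateField.adjoin_simple_toSubalgebra_of_isAlgebraic halg
    apply IntermediateField.toSubalgebra_injective
    rw [h1, AdjoinRoot.adjoinRoot_eq_top, IntermediateField.top_toSubalgebra]
  · have hH : Q.HH = Q.rhoHat.range := by
      rw [Q.HH_eq_map hA hB, hXtop, ← MonoidHom.range_eq_map]
    exact ⟨(MulEquiv.subgroupCongr hH).trans (MonoidHom.ofInjective Q.rhoHat_injective).symm⟩

end QP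

end Cfsg.Agent.Helper5.QPair
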