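import Mathlib

set_option autoImplicit false
set_option linter.unusedSimpArgs false

/-! An explicit commutator identity for two square-zero elements `A`, `B` with `ABABA = 0`
(used for the unipotent case of quadratic pairs, S5065). -/

namespace Cfsg.Agent.Helper5.QPair

section

variable {k : Type*} [Field k] {S : Type*} [Ring S] [Algebra k S] (A B : S)

theorem uP_eq (hA : A * A = 0) (hB : B * B = 0) :
    (1 + A) * (1 + B) * (1 - A) * (1 - B) =
      1 + A * B - B * A - A * (B * A) + B * (A * B) + A * (B * (A * B)) := by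
  have hA' : ∀ x : S, A * (A * x) = 0 := fun x => by rw [← mul_assoc, hA, zero_mul]
  have hB' : ∀ x : S, B * (B * x) = 0 := fun x => by rw [← mul_assoc, hB, zero_mul]
  simp only [mul_add, add_mul, mul_sub, sub_mul, mul_one, one_mul, mul_assoc, hA, hA', hB, hB',
    mul_zero, zero_mul, add_zero, zero_add, sub_zero, zero_sub]
  abel

theorem uM_eq (hA : A * A = 0) (hB : B * B = 0) :
    (1 - A) * (1 - B) * (1 + A) * (1 + B) =
      1 + A * B - B * A + A * (B * A) - B * (A * B) + A * (B * (A * B)) := by
  have hA' : ∀ x : S, A * (A * x) = 0 := fun x => by rw [← mul_assoc, hA, zero_mul]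
  have hB' : ∀ x : S, B * (B * x) = 0 := fun x => by rw [← mul_assoc, hB, zero_mul]
  simp only [mul_add, add_mul, mul_sub, sub_mul, mul_one, one_mul, mul_assoc, hA, hA', hB, hB',
    mul_zero, zero_mul, add_zero, zero_add, sub_zero, zero_sub]
  abel

/-- The element `w = [σ, τ] [σ⁻¹, τ⁻¹]`. -/
def ww : S := (1 + A) * (1 + B) * (1 - A) * (1 - B) * ((1 - A) * (1 - B) * (1 + A) * (1 + B))

theorem ww_eq (hA : A * A = 0) (hB : B * B = 0) (h5 : A * (B * (A * (B * A))) = 0) :
    ww A B = 1 + (A * B + A * B) + (A * (B * (A * B)) + A * (B * (A * B)) + A * (B * (A * B))) +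
      (B * (A * (B * (A * B))) + B * (A * (B * (A * B)))) - (B * A + B * A) + B * (A * (B * A)) := by
  have hA' : ∀ x : S, A * (A * x) = 0 := fun x => by rw [← mul_assoc, hA, zero_mul]
  have hB' : ∀ x : S, B * (B * x) = 0 := fun x => by rw [← mul_assoc, hB, zero_mul]
  have h5' : ∀ x : S, A * (B * (A * (B * (A * x)))) = 0 := fun x => by
    have : A * (B * (A * (B * (A * x)))) = A * (B * (A * (B * A))) * x := by simp only [mul_assoc]
    rw [this, h5, zero_mul]
  unfold ww
  rw [uP_eq A B hA hB, uM_eq A B hA hB]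
  simp only [mul_add, add_mul, mul_sub, sub_mul, mul_one, one_mul, mul_assoc, hA, hA', hB, hB',
    h5, h5', mul_zero, zero_mul, add_zero, zero_add, sub_zero, zero_sub]
  abel

theorem A_ww_A (hA : A * A = 0) (hB : B * B = 0) (h5 : A * (B * (A * (B * A))) = 0) :
    A * ww A B * A = 0 := by
  have hA' : ∀ x : S, A * (A * x) = 0 := fun x => by rw [← mul_assoc, hA, zero_mul]
  have hB' : ∀ x : S, B * (B * x) = 0 := fun x => by rw [← mul_assoc, hB, zero_mul]
  have h5' : ∀ x : S, A * (B * (A * (B * (A * x)))) = 0 := fun x => by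
    have : A * (B * (A * (B * (A * x)))) = A * (B * (A * (B * A))) * x := by simp only [mul_assoc]
    rw [this, h5, zero_mul]
  rw [ww_eq A B hA hB h5]
  simp only [mul_add, add_mul, mul_sub, sub_mul, mul_one, one_mul, mul_assoc, hA, hA', hB, hB',
    h5, h5', mul_zero, zero_mul, add_zero, zero_add, sub_zero, zero_sub]

theorem comm_A_ww (hA : A * A = 0) (hB : B * B = 0) (h5 : A * (B * (A * (B * A))) = 0) :
    A * ww A B - ww A B * A =
      -(A * (B * A) + A * (B * A) + A * (B * A) + A * (B * A)) := by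
  have hA' : ∀ x : S, A * (A * x) = 0 := fun x => by rw [← mul_assoc, hA, zero_mul]
  have hB' : ∀ x : S, B * (B * x) = 0 := fun x => by rw [← mul_assoc, hB, zero_mul]
  have h5' : ∀ x : S, A * (B * (A * (B * (A * x)))) = 0 := fun x => by
    have : A * (B * (A * (B * (A * x)))) = A * (B * (A * (B * A))) * x := by simp only [mul_assoc]
    rw [this, h5, zero_mul]
  rw [ww_eq A B hA hB h5]
  simp only [mul_add, add_mul, mul_sub, sub_mul, mul_one, one_mul, mul_assoc, hA, hA', hB, hB',
    h5, h5', mul_zero, zero_mul, add_zero, zero_add, sub_zero, zero_sub]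
  abel

theorem ABA_ww (hA : A * A = 0) (hB : B * B = 0) (h5 : A * (B * (A * (B * A))) = 0) :
    A * (B * A) * ww A B = A * (B * A) := by
  have hA' : ∀ x : S, A * (A * x) = 0 := fun x => by rw [← mul_assoc, hA, zero_mul]
  have hB' : ∀ x : S, B * (B * x) = 0 := fun x => by rw [← mul_assoc, hB, zero_mul]
  have h5' : ∀ x : S, A * (B * (A * (B * (A * x)))) = 0 := fun x => by
    have : A * (B * (A * (B * (A * x)))) = A * (B * (A * (B * A))) * x := by simp only [mul_assoc]
    rw [this, h5, zero_mul]
  rw [ww_eq A B hA hB h5]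
  simp only [mul_add, add_mul, mul_sub, sub_mul, mul_one, one_mul, mul_assoc, hA, hA', hB, hB',
    h5, h5', mul_zero, zero_mul, add_zero, zero_add, sub_zero, zero_sub]

/-- The key identity: conjugating `w` by `1 + cA` multiplies it by `1 - 4c ABA`. -/
theorem conj_ww (hA : A * A = 0) (hB : B * B = 0) (h5 : A * (B * (A * (B * A))) = 0) (c : k) :
    (1 + c • A) * ww A B * (1 - c • A) = (1 - (4 * c) • (A * (B * A))) * ww A B := by
  have h1 := A_ww_A A B hA hB h5
  have h2 := comm_A_ww A B hA hB h5
  have h3 := ABA_ww A B hA hB h5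
  have e1 : (1 + c • A) * ww A B * (1 - c • A) =
      ww A B + c • (A * ww A B - ww A B * A) - (c * c) • (A * ww A B * A) := by
    rw [add_mul, one_mul, smul_mul_assoc, mul_sub, mul_one, add_mul, mul_smul_comm,
      smul_mul_assoc, mul_smul_comm, smul_smul]
    module
  have e2 : (1 - (4 * c) • (A * (B * A))) * ww A B = ww A B - (4 * c) • (A * (B * A)) := by
    rw [sub_mul, one_mul, smul_mul_assoc, h3]
  rw [e1, e2, h1, h2]
  module

end

end Cfsg.Agent.Helper5.QPair
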