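import Cfsg.Agent.Helper5.QPairF
import Cfsg.Agent.Helper5.QPairG

set_option autoImplicit false

/-! Quadratic pairs, the unipotent case: if `Z = AB + BA` is nilpotent for two minimal quadratic
elements, then `ABA = 0` (S5065). -/

namespace Cfsg.Agent.Helper5.QPair

variable {k : Type*} [Field k] {M : Type*} [AddCommGroup M] [Module k M]

/-- The scalar family of `1 + T` lies in `G`. -/
def Fam (G : Subgroup (LinearMap.GeneralLinearGroup k M)) (T : Module.End k M) : Prop :=
  ∀ c : k, ∃ y ∈ G, ((y : LinearMap.GeneralLinearGroup k M) : Module.End k M) = 1 + c • T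

theorem inv_val_of (y : (Module.End k M)ˣ) (T : Module.End k M) (hT : T * T = 0)
    (hy : (y : Module.End k M) = 1 + T) : ((y⁻¹ : (Module.End k M)ˣ) : Module.End k M) = 1 - T := by
  have h1 : (y : Module.End k M) * (1 - T) = 1 := by
    rw [hy, add_mul, one_mul, mul_sub, mul_one, hT]
    abel
  calc ((y⁻¹ : (Module.End k M)ˣ) : Module.End k M)
      = ((y⁻¹ : (Module.End k M)ˣ) : Module.End k M) * ((y : Module.End k M) * (1 - T)) := by
        rw [h1, mul_one]
    _ = 1 - T := by rw [← mul_assoc, Units.inv_mul, one_mul]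

theorem fam_one {G : Subgroup (LinearMap.GeneralLinearGroup k M)} {T : Module.End k M}
    (h : Fam G T) : ∃ y ∈ G, ((y : LinearMap.GeneralLinearGroup k M) : Module.End k M) = 1 + T := by
  obtain ⟨y, hy, hv⟩ := h 1
  exact ⟨y, hy, by rw [hv, one_smul]⟩

/-- The minimality hypothesis in operator form. -/
theorem hmin_of_mem {G : Subgroup (LinearMap.GeneralLinearGroup k M)}
    {σ : LinearMap.GeneralLinearGroup k M} (hσ : σ ∈ Cfsg.minimalQuadraticElements G)
    (T : Module.End k M) (hT2 : T * T = 0) (hT0 : T ≠ 0) (hfam : Fam G T) :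
    Module.finrank k (LinearMap.range ((σ : M →ₗ[k] M) - 1)) ≤
      Module.finrank k (LinearMap.range T) := by
  obtain ⟨x, hx, hx1⟩ := QP.mp (G := G) T hT2 hT0 hfam
  have := hσ.2 x hx
  unfold Cfsg.commutatorRank at this
  rwa [hx1] at this

section claim

variable [FiniteDimensional k M] {G : Subgroup (LinearMap.GeneralLinearGroup k M)}
  (A : Module.End k M)

theorem claim2 (htwo : (2 : k) ≠ 0) (hA : A * A = 0) (famA : Fam G A)
    (hmin : ∀ T : Module.End k M, T * T = 0 → T ≠ 0 → Fam G T →
      Module.finrank k (LinearMap.range A) ≤ Module.finrank k (LinearMap.range T))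
    (B : Module.End k M) (hB : B * B = 0) (famB : Fam G B)
    (h5 : A * (B * (A * (B * A))) = 0) : A * (B * A) = 0 := by
  by_contra hne
  obtain ⟨s1, hs1G, hs1⟩ := fam_one famA
  obtain ⟨t1, ht1G, ht1⟩ := fam_one famB
  have hs1i := inv_val_of s1 A hA hs1
  have ht1i := inv_val_of t1 B hB ht1
  obtain ⟨w, hw⟩ : ∃ w : (Module.End k M)ˣ,
      w = s1 * t1 * s1⁻¹ * t1⁻¹ * (s1⁻¹ * t1⁻¹ * s1 * t1) := ⟨_, rfl⟩
  have hwG : w ∈ G := by
    rw [hw]
    exact G.mul_mem (G.mul_mem (G.mul_mem (G.mul_mem hs1G ht1G) (G.inv_mem hs1G)) (G.inv_mem ht1G))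
      (G.mul_mem (G.mul_mem (G.mul_mem (G.inv_mem hs1G) (G.inv_mem ht1G)) hs1G) ht1G)
  have hwv : (w : Module.End k M) = ww A B := by
    rw [hw]
    simp only [Units.val_mul, hs1, ht1, hs1i, ht1i]
    rfl
  have famT : Fam G (A * (B * A)) := by
    intro c
    obtain ⟨sc, hscG, hsc⟩ := famA (-c / 4)
    have hcc : ((-c / 4) • A) * ((-c / 4) • A) = 0 := by
      rw [smul_mul_smul_comm, hA, smul_zero]
    have hsci := inv_val_of sc _ hcc hsc
    refine ⟨sc * w * sc⁻¹ * w⁻¹, G.mul_mem (G.mul_mem (G.mul_mem hscG hwG) (G.inv_mem hscG))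
      (G.inv_mem hwG), ?_⟩
    simp only [Units.val_mul, hsc, hsci, hwv]
    rw [conj_ww A B hA hB h5, ← hwv, mul_assoc, Units.mul_inv, mul_one]
    have h4 : (4 : k) ≠ 0 := by
      have : (4 : k) = 2 * 2 := by norm_num
      rw [this]
      exact mul_ne_zero htwo htwo
    have : (4 : k) * (-c / 4) = -c := by field_simp
    rw [this, neg_smul, sub_neg_eq_add]
  have hT2 : A * (B * A) * (A * (B * A)) = 0 := by
    have : A * (B * A) * (A * (B * A)) = A * (B * (A * A * (B * A))) := by simp only [mul_assoc]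
    rw [this, hA, zero_mul, mul_zero, mul_zero]
  have hrank := hmin _ hT2 hne famT
  have hle : LinearMap.range (A * (B * A)) ≤ LinearMap.range A := LinearMap.range_comp_le_range _ _
  have heq : LinearMap.range (A * (B * A)) = LinearMap.range A :=
    Submodule.eq_of_le_of_finrank_le hle hrank
  apply hne
  apply LinearMap.ext
  intro v
  have hv : A v ∈ LinearMap.range (A * (B * A)) := by
    rw [heq]
    exact ⟨v, rfl⟩
  obtain ⟨u, hu⟩ := hv
  show A (B (A v)) = 0
  rw [← hu]
  exact congrArg (fun f : Module.End k M => f u) h5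

theorem Z_mul_A (hA : A * A = 0) (B : Module.End k M) :
    (A * B + B * A) * A = A * (B * A) := by
  rw [add_mul, mul_assoc B, hA, mul_zero, add_zero, mul_assoc]

theorem Zsq_mul_A (hA : A * A = 0) (B : Module.End k M) :
    (A * B + B * A) ^ 2 * A = A * (B * (A * (B * A))) := by
  rw [pow_two, mul_assoc, Z_mul_A A hA, add_mul]
  have : B * A * (A * (B * A)) = B * (A * A * (B * A)) := by simp only [mul_assoc]
  rw [this, hA, zero_mul, mul_zero, add_zero]
  simp only [mul_assoc]

theorem claim_sq (htwo : (2 : k) ≠ 0) (hA : A * A = 0) (famA : Fam G A)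
    (hmin : ∀ T : Module.End k M, T * T = 0 → T ≠ 0 → Fam G T →
      Module.finrank k (LinearMap.range A) ≤ Module.finrank k (LinearMap.range T))
    (B : Module.End k M) (hB : B * B = 0) (famB : Fam G B)
    (h : (A * B + B * A) ^ 2 * A = 0) : (A * B + B * A) * A = 0 := by
  rw [Zsq_mul_A A hA] at h
  rw [Z_mul_A A hA]
  exact claim2 A htwo hA famA hmin B hB famB h

theorem claimN (htwo : (2 : k) ≠ 0) (hA : A * A = 0) (famA : Fam G A)
    (hmin : ∀ T : Module.End k M, T * T = 0 → T ≠ 0 → Fam G T →
      Module.finrank k (LinearMap.range A) ≤ Module.finrank k (LinearMap.range T)) (n : ℕ) :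
    ∀ (B : Module.End k M), B * B = 0 → Fam G B → (A * B + B * A) ^ n * A = 0 →
      (A * B + B * A) * A = 0 := by
  induction n using Nat.strong_induction_on with
  | _ n ih =>
    intro B hB famB hn
    rcases Nat.lt_or_ge n 3 with hlt | hge
    · apply claim_sq A htwo hA famA hmin B hB famB
      have h2 : (A * B + B * A) ^ 2 = (A * B + B * A) ^ (2 - n) * (A * B + B * A) ^ n := by
        rw [← pow_add]
        congr 1
        omega
      rw [h2, mul_assoc, hn, mul_zero]
    · -- the conjugate pair
      obtain ⟨t1, ht1G, ht1⟩ := fam_one famB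
      have ht1i := inv_val_of t1 B hB ht1
      obtain ⟨B', hB'⟩ : ∃ B' : Module.End k M, B' = (1 + B) * A * (1 - B) := ⟨_, rfl⟩
      have h1B : (1 - B) * (1 + B) = 1 := by
        rw [sub_mul, one_mul, mul_add, mul_one, hB]
        abel
      have hB'2 : B' * B' = 0 := by
        have : B' * B' = (1 + B) * A * ((1 - B) * (1 + B)) * A * (1 - B) := by
          rw [hB']
          simp only [mul_assoc]
        rw [this, h1B, mul_one, mul_assoc (1 + B), hA, mul_zero, zero_mul]
      have famB' : Fam G B' := by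
        intro c
        obtain ⟨sc, hscG, hsc⟩ := famA c
        refine ⟨t1 * sc * t1⁻¹, G.mul_mem (G.mul_mem ht1G hscG) (G.inv_mem ht1G), ?_⟩
        simp only [Units.val_mul, hsc, ht1, ht1i]
        rw [hB', mul_add, mul_one, add_mul, mul_smul_comm, smul_mul_assoc]
        have h2 : (1 + B) * (1 - B) = 1 := by
          rw [add_mul, one_mul, mul_sub, mul_one, hB]
          abel
        rw [h2]
      have hZ' : A * B' + B' * A = -((A * B + B * A) * (A * B + B * A)) := by
        have hA' : ∀ x : Module.End k M, A * (A * x) = 0 := fun x => by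
          rw [← mul_assoc, hA, zero_mul]
        have hB'' : ∀ x : Module.End k M, B * (B * x) = 0 := fun x => by
          rw [← mul_assoc, hB, zero_mul]
        rw [hB']
        simp only [mul_add, add_mul, mul_sub, sub_mul, mul_one, one_mul, mul_assoc, hA, hA', hB,
          hB'', mul_zero, zero_mul, add_zero, zero_add, sub_zero, zero_sub]
        abel
      have hm : (n + 1) / 2 < n := by omega
      have hpow : (A * B' + B' * A) ^ ((n + 1) / 2) * A = 0 := by
        rw [hZ', neg_pow, ← pow_two, ← pow_mul, mul_assoc]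
        have h2 : (A * B + B * A) ^ (2 * ((n + 1) / 2)) =
            (A * B + B * A) ^ (2 * ((n + 1) / 2) - n) * (A * B + B * A) ^ n := by
          rw [← pow_add]
          congr 1
          omega
        rw [h2, mul_assoc, hn, mul_zero, mul_zero]
      have h3 := ih _ hm B' hB'2 famB' hpow
      apply claim_sq A htwo hA famA hmin B hB famB
      rw [hZ', neg_mul, neg_eq_zero, ← pow_two] at h3
      exact h3

/-- If `Z = AB + BA` is nilpotent, then `ABA = 0`. -/
theorem lemmaU (htwo : (2 : k) ≠ 0) (hA : A * A = 0) (famA : Fam G A)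
    (hmin : ∀ T : Module.End k M, T * T = 0 → T ≠ 0 → Fam G T →
      Module.finrank k (LinearMap.range A) ≤ Module.finrank k (LinearMap.range T))
    (B : Module.End k M) (hB : B * B = 0) (famB : Fam G B) (n : ℕ)
    (hn : (A * B + B * A) ^ n = 0) : A * (B * A) = 0 := by
  have h := claimN A htwo hA famA hmin n B hB famB (by rw [hn, zero_mul])
  rwa [Z_mul_A A hA] at h

end claim

end Cfsg.Agent.Helper5.QPair
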