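import Cfsg.Agent.Helper5.QPairH

set_option autoImplicit false

/-! Quadratic pairs: generic flags, the `QP` structure attached to two minimal quadratic elements,
the subspace criterion for non-unipotence and some linear algebra (S5065). -/

namespace Cfsg.Agent.Helper5.QPair

open Polynomial Matrix

variable {k : Type*} [Field k] {M : Type*} [AddCommGroup M] [Module k M]

section flag

variable (F : ℕ → Submodule k M)

/-- An element acts trivially on the successive quotients of the flag `F`. -/
def DF (g : (Module.End k M)ˣ) : Prop :=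
  (∀ j, ∀ v ∈ F j, (g : Module.End k M) v - v ∈ F (j + 1)) ∧
  (∀ j, ∀ v ∈ F j, ((g⁻¹ : (Module.End k M)ˣ) : Module.End k M) v - v ∈ F (j + 1))

theorem DF_one : DF F 1 := by
  constructor <;> intro j v _ <;> simp

theorem DF_inv {g : (Module.End k M)ˣ} (hg : DF F g) : DF F g⁻¹ :=
  ⟨hg.2, by rw [inv_inv]; exact hg.1⟩

theorem DF_mul_aux (hF : ∀ j, F (j + 1) ≤ F j) {g h : (Module.End k M)ˣ}
    (hg : ∀ j, ∀ v ∈ F j, (g : Module.End k M) v - v ∈ F (j + 1))
    (hh : ∀ j, ∀ v ∈ F j, (h : Module.End k M) v - v ∈ F (j + 1)) (j : ℕ) (v : M) (hv : v ∈ F j) :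
    ((g * h : (Module.End k M)ˣ) : Module.End k M) v - v ∈ F (j + 1) := by
  have h2 := hh j v hv
  have hstab : (h : Module.End k M) v ∈ F j := by
    have := add_mem (hF j h2) hv
    rwa [sub_add_cancel] at this
  have h1 := hg j _ hstab
  have h3 := add_mem h1 h2
  rw [sub_add_sub_cancel] at h3
  exact h3

theorem DF_mul (hF : ∀ j, F (j + 1) ≤ F j) {g h : (Module.End k M)ˣ} (hg : DF F g)
    (hh : DF F h) : DF F (g * h) := by
  refine ⟨DF_mul_aux F hF hg.1 hh.1, ?_⟩
  rw [_root_.mul_inv_rev]
  exact DF_mul_aux F hF hh.2 hg.2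

theorem DF_prod (l : List (Module.End k M)ˣ) (hl : ∀ g ∈ l, DF F g) (j : ℕ) (v : M)
    (hv : v ∈ F j) :
    (l.map fun g => ((g : (Module.End k M)ˣ) : Module.End k M) - 1).prod v ∈ F (j + l.length) := by
  induction l with
  | nil => simpa using hv
  | cons g l ih =>
    have h1 := ih (fun x hx => hl x (List.mem_cons_of_mem _ hx))
    have h2 := (hl g List.mem_cons_self).1 _ _ h1
    rw [List.map_cons, List.prod_cons, List.length_cons]
    exact h2

theorem unipotent_of_flag (hF : ∀ j, F (j + 1) ≤ F j) (H : Subgroup (LinearMap.GeneralLinearGroup k M))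
    (S : Set (LinearMap.GeneralLinearGroup k M)) (hS : H = Subgroup.closure S)
    (hgen : ∀ g ∈ S, DF F g) (hF0 : F 0 = ⊤) (n : ℕ) (hFn : F n = ⊥) : Cfsg.IsUnipotentOn H := by
  have hH : ∀ g ∈ H, DF F g := by
    intro g hg
    rw [hS] at hg
    induction hg using Subgroup.closure_induction with
    | mem x hx => exact hgen x hx
    | one => exact DF_one F
    | mul x y _ _ hx hy => exact DF_mul F hF hx hy
    | inv x _ hx => exact DF_inv F hx
  refine ⟨n, ?_⟩
  intro l hl hlen
  have key : (l.map fun g => ((g : (Module.End k M)ˣ) : Module.End k M) - 1).prod = 0 := by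
    apply LinearMap.ext
    intro v
    have hv : v ∈ F 0 := by
      rw [hF0]
      exact Submodule.mem_top
    have h1 := DF_prod F l (fun g hg => hH g (hl g hg)) 0 v hv
    rw [hlen, zero_add, hFn, Submodule.mem_bot] at h1
    exact h1
  have hconv : (List.map (fun g : M →ₗ[k] M => g - 1)
      (do let a ← l; pure ((a : LinearMap.GeneralLinearGroup k M) : M →ₗ[k] M))) =
      l.map (fun g => ((g : (Module.End k M)ˣ) : Module.End k M) - 1) := by
    have h0 : (do let a ← l; pure ((a : LinearMap.GeneralLinearGroup k M) : M →ₗ[k] M)) =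
        l.map (fun a => ((a : LinearMap.GeneralLinearGroup k M) : M →ₗ[k] M)) := by
      simp only [List.bind_eq_flatMap, List.pure_def]
      exact List.map_eq_flatMap.symm
    rw [h0, List.map_map]
    rfl
  rw [hconv]
  exact key

end flag

section linalg

theorem mul_eq_zero_of_range_le_ker (S T : Module.End k M)
    (h : LinearMap.range T ≤ LinearMap.ker S) : S * T = 0 := by
  apply LinearMap.ext
  intro v
  exact LinearMap.mem_ker.mp (h ⟨v, rfl⟩)

theorem id_left_of_range (a q T : Module.End k M) (h : a * q * a = a)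
    (hr : LinearMap.range T ≤ LinearMap.range a) : a * q * T = T := by
  apply LinearMap.ext
  intro v
  obtain ⟨y, hy⟩ := hr ⟨v, rfl⟩
  show (a * q) (T v) = T v
  rw [← hy]
  exact congrArg (fun f : Module.End k M => f y) h

theorem id_right_of_ker (a q T : Module.End k M) (h : a * q * a = a)
    (hk : LinearMap.ker a ≤ LinearMap.ker T) : T * (q * a) = T := by
  apply LinearMap.ext
  intro v
  have h1 : v - (q * a) v ∈ LinearMap.ker a := by
    rw [LinearMap.mem_ker, map_sub, sub_eq_zero]
    exact (congrArg (fun f : Module.End k M => f v) h).symm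
  have h2 := LinearMap.mem_ker.mp (hk h1)
  rw [map_sub, sub_eq_zero] at h2
  exact h2.symm

/-- The conjugation formula in a ring. -/
theorem conj_formula {S : Type*} [Ring S] (x y t : S) (hxx : x * x = 0) (hyy : y * y = 0)
    (hxt : x * t = 0) (htx : t * x = 0) (h1 : x * y * t = t) (h2 : t * (y * x) = t) :
    (1 + x) * (1 - y) * (1 + t) * (1 + y) * (1 - x) = 1 - y * t * y := by
  have e1 : (1 + x) * (1 - y) * (1 + t) * (1 + y) * (1 - x) =
      (1 + x) * ((1 - y) * (1 + y)) * (1 - x) + (1 + x) * ((1 - y) * t * (1 + y)) * (1 - x) := by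
    noncomm_ring
  have e2 : (1 - y) * (1 + y) = 1 := by
    rw [sub_mul, one_mul, mul_add, mul_one, hyy]
    abel
  have e3 : (1 + x) * 1 * (1 - x) = 1 := by
    rw [mul_one, add_mul, one_mul, mul_sub, mul_one, hxx]
    abel
  have e4 : (1 - y) * t * (1 + y) = t + t * y - y * t - y * t * y := by noncomm_ring
  have h2' : t * y * x = t := by rw [mul_assoc]; exact h2
  have e5 : (1 + x) * (t + t * y - y * t - y * t * y) * (1 - x) = -(y * t * y) := by
    have s1 : x * (t + t * y - y * t - y * t * y) = -t - t * y := by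
      rw [mul_sub, mul_sub, mul_add, hxt, ← mul_assoc x t y, hxt, zero_mul, ← mul_assoc x y t, h1,
        ← mul_assoc x (y * t) y, ← mul_assoc x y t, h1]
      abel
    have s2 : (t + t * y - y * t - y * t * y) * x = t - y * t := by
      rw [sub_mul, sub_mul, add_mul, htx, h2', mul_assoc y t x, htx, mul_zero,
        mul_assoc (y * t) y x, mul_assoc y t (y * x), h2]
      abel
    have s3 : (-t - t * y) * x = -t := by
      rw [sub_mul, neg_mul, htx, h2']
      abel
    calc (1 + x) * (t + t * y - y * t - y * t * y) * (1 - x)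
        = (t + t * y - y * t - y * t * y) + x * (t + t * y - y * t - y * t * y)
          - (t + t * y - y * t - y * t * y) * x - x * (t + t * y - y * t - y * t * y) * x := by
          noncomm_ring
      _ = -(y * t * y) := by
          rw [s1, s2, s3]
          abel
  rw [e1, e2, e3, e4, e5]
  abel

end linalg

end Cfsg.Agent.Helper5.QPair
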