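import Cfsg.Agent.Helper5.QPairI
import Cfsg.Agent.Helper5.QPairF

set_option autoImplicit false
set_option linter.unusedSimpArgs false

/-! Quadratic pairs: the structure attached to two minimal quadratic elements, the dichotomy
between the unipotent and the opposite case, and the membership criterion for `E(σ)` (S5065). -/

namespace Cfsg.Agent.Helper5.QPair

open Polynomial Matrix

variable {k : Type*} [Field k] {M : Type*} [AddCommGroup M] [Module k M]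

/-- The unit `1 + T` for a square-zero `T`. -/
def unitOf {S : Type*} [Ring S] (T : S) (hT : T * T = 0) : Sˣ where
  val := 1 + T
  inv := 1 - T
  val_inv := by rw [add_mul, one_mul, mul_sub, mul_one, hT]; abel
  inv_val := by rw [sub_mul, one_mul, mul_add, mul_one, hT]; abel

theorem unitOf_val {S : Type*} [Ring S] (T : S) (hT : T * T = 0) :
    ((unitOf T hT : Sˣ) : S) = 1 + T := rfl

theorem fam_of_mem {G : Subgroup (LinearMap.GeneralLinearGroup k M)}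
    {x : LinearMap.GeneralLinearGroup k M} (hx : x ∈ Cfsg.quadraticElements G) :
    Fam G ((x : M →ₗ[k] M) - 1) := by
  intro c
  have h2 : (c • ((x : M →ₗ[k] M) - 1)) * (c • ((x : M →ₗ[k] M) - 1)) = 0 := by
    rw [smul_mul_smul_comm, hx.2.1.1, smul_zero]
  exact ⟨unitOf _ h2, hx.2.2 ⟨c, rfl⟩, rfl⟩

theorem fam_smul {G : Subgroup (LinearMap.GeneralLinearGroup k M)} {T : Module.End k M}
    (h : Fam G T) (c : k) : Fam G (c • T) := by
  intro c'
  obtain ⟨y, hy, hv⟩ := h (c' * c)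
  exact ⟨y, hy, by rw [hv, mul_smul]⟩

theorem fam_neg {G : Subgroup (LinearMap.GeneralLinearGroup k M)} {T : Module.End k M}
    (h : Fam G T) : Fam G (-T) := by
  have := fam_smul h (-1)
  rwa [neg_one_smul] at this

theorem fam_zero (G : Subgroup (LinearMap.GeneralLinearGroup k M)) : Fam G (0 : Module.End k M) := by
  intro c
  exact ⟨1, G.one_mem, by rw [smul_zero, add_zero]; rfl⟩

namespace QP

variable (Q : QP k (Module.End k M))

theorem e_mul_A_eq : Q.e * Q.A = Q.A * Q.Y * (Q.B * Q.A) := by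
  calc Q.e * Q.A = Q.Z * (Q.Y * Q.A) := by rw [← Q.Z_mul_Y, mul_assoc]
    _ = (Q.A * Q.B + Q.B * Q.A) * (Q.A * Q.Y) := by rw [Q.YA]; rfl
    _ = Q.A * Q.B * (Q.A * Q.Y) + Q.B * (Q.A * Q.A) * Q.Y := by
        rw [add_mul]; simp only [mul_assoc]
    _ = Q.A * Q.B * (Q.Y * Q.A) := by rw [Q.hA, mul_zero, zero_mul, add_zero, Q.YA]
    _ = Q.A * (Q.B * Q.Y) * Q.A := by simp only [mul_assoc]
    _ = Q.A * (Q.Y * Q.B) * Q.A := by rw [Q.YB]
    _ = Q.A * Q.Y * (Q.B * Q.A) := by simp only [mul_assoc]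

theorem e_mul_B_eq : Q.e * Q.B = Q.B * Q.Y * (Q.A * Q.B) := by
  calc Q.e * Q.B = Q.Z * (Q.Y * Q.B) := by rw [← Q.Z_mul_Y, mul_assoc]
    _ = (Q.A * Q.B + Q.B * Q.A) * (Q.B * Q.Y) := by rw [Q.YB]; rfl
    _ = Q.A * (Q.B * Q.B) * Q.Y + Q.B * Q.A * (Q.B * Q.Y) := by
        rw [add_mul]; simp only [mul_assoc]
    _ = Q.B * Q.A * (Q.Y * Q.B) := by rw [Q.hB, mul_zero, zero_mul, zero_add, Q.YB]
    _ = Q.B * (Q.A * Q.Y) * Q.B := by simp only [mul_assoc]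
    _ = Q.B * (Q.Y * Q.A) * Q.B := by rw [Q.YA]
    _ = Q.B * Q.Y * (Q.A * Q.B) := by simp only [mul_assoc]

/-- In the non-unipotent case the two commutator spaces meet the opposite fixed spaces
trivially. -/
theorem opp_of_e (hA : Q.A * Q.e = Q.A) (hB : Q.B * Q.e = Q.B) :
    LinearMap.range Q.A ⊓ LinearMap.ker Q.B = ⊥ ∧ LinearMap.range Q.B ⊓ LinearMap.ker Q.A = ⊥ := by
  have h1 : Q.A = Q.A * Q.Y * (Q.B * Q.A) := by
    rw [← Q.e_mul_A_eq, Q.eA, hA]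
  have h2 : Q.B = Q.B * Q.Y * (Q.A * Q.B) := by
    rw [← Q.e_mul_B_eq, Q.eB, hB]
  constructor
  · rw [eq_bot_iff]
    rintro v ⟨⟨w, rfl⟩, hv⟩
    rw [SetLike.mem_coe, LinearMap.mem_ker] at hv
    rw [Submodule.mem_bot]
    have := congrArg (fun f : Module.End k M => f w) h1
    simp only [Module.End.mul_apply] at this
    rw [this, hv, map_zero, map_zero]
  · rw [eq_bot_iff]
    rintro v ⟨⟨w, rfl⟩, hv⟩
    rw [SetLike.mem_coe, LinearMap.mem_ker] at hv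
    rw [Submodule.mem_bot]
    have := congrArg (fun f : Module.End k M => f w) h2
    simp only [Module.End.mul_apply] at this
    rw [this, hv, map_zero, map_zero]

theorem Y_mul_Z : Q.Y * Q.Z = Q.e := by
  have h : Commute Q.Z Q.Y := Q.comm_aeval Q.Z (Commute.refl Q.Z) _
  rw [← h.eq, Q.Z_mul_Y]

/-- The structure of the non-unipotent case. -/
theorem struct [FiniteDimensional k M] (htwo : (2 : k) ≠ 0) (ha : ∃ a : k, a ≠ 0 ∧ a ^ 2 ≠ 1)
    (he : Q.e ≠ 0) {G : Subgroup (LinearMap.GeneralLinearGroup k M)} (hHG : Q.HH ≤ G)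
    (hAmin : ∀ x ∈ Cfsg.quadraticElements G, Module.finrank k (LinearMap.range Q.A) ≤
      Module.finrank k (LinearMap.range ((x : M →ₗ[k] M) - 1)))
    (hBmin : ∀ x ∈ Cfsg.quadraticElements G, Module.finrank k (LinearMap.range Q.B) ≤
      Module.finrank k (LinearMap.range ((x : M →ₗ[k] M) - 1))) :
    Q.A * Q.e = Q.A ∧ Q.B * Q.e = Q.B ∧ ∀ g, Q.rhoHat g ∈ Q.HH := by
  have hfin : Module.Finite k (AdjoinRoot Q.g) := Q.hmonic.finite_adjoinRoot
  have hnt : Nontrivial (AdjoinRoot Q.g) := Q.nontrivial_alg he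
  have hA := Q.A_mul_e htwo ha he hHG hAmin
  have hB := Q.B_mul_e htwo ha he hHG hBmin
  have hstar := Q.star hHG hAmin hA hB
  obtain ⟨hunit, hXtop⟩ := SLRing.ring_main k htwo ha Q.lam_mul AdjoinRoot.adjoinRoot_eq_top hstar
  refine ⟨hA, hB, fun g => ?_⟩
  rw [Q.HH_eq_map hA hB, hXtop]
  exact Subgroup.mem_map_of_mem _ (Subgroup.mem_top g)

/-- The central element `-1` of `SL₂`. -/
def negOne (𝒜 : Type*) [CommRing 𝒜] : SpecialLinearGroup (Fin 2) 𝒜 :=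
  ⟨!![-1, 0; 0, -1], by simp [Matrix.det_fin_two]⟩

theorem rho_negOne : Q.rho (negOne (AdjoinRoot Q.g)) = 1 - (Q.e + Q.e) := by
  unfold rho PsiM MUnits.val
  have h00 : ((negOne (AdjoinRoot Q.g) : SpecialLinearGroup (Fin 2) (AdjoinRoot Q.g)) :
      Matrix (Fin 2) (Fin 2) (AdjoinRoot Q.g)) 0 0 = -1 := rfl
  have h01 : ((negOne (AdjoinRoot Q.g) : SpecialLinearGroup (Fin 2) (AdjoinRoot Q.g)) :
      Matrix (Fin 2) (Fin 2) (AdjoinRoot Q.g)) 0 1 = 0 := rfl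
  have h10 : ((negOne (AdjoinRoot Q.g) : SpecialLinearGroup (Fin 2) (AdjoinRoot Q.g)) :
      Matrix (Fin 2) (Fin 2) (AdjoinRoot Q.g)) 1 0 = 0 := rfl
  have h11 : ((negOne (AdjoinRoot Q.g) : SpecialLinearGroup (Fin 2) (AdjoinRoot Q.g)) :
      Matrix (Fin 2) (Fin 2) (AdjoinRoot Q.g)) 1 1 = -1 := rfl
  rw [h00, h01, h10, h11]
  simp only [map_zero, map_neg, zero_mul, add_zero, Q.phi_one, neg_mul]
  show 1 - Q.e + (-(Q.e * (Q.p * Q.q)) + -(Q.e * (Q.q * Q.p))) = 1 - (Q.e + Q.e)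
  have h : Q.e * (Q.p * Q.q) + Q.e * (Q.q * Q.p) = Q.e := by
    rw [← mul_add, Q.pq_add_qp, Q.e_mul_e]
  calc 1 - Q.e + (-(Q.e * (Q.p * Q.q)) + -(Q.e * (Q.q * Q.p)))
      = 1 - Q.e - (Q.e * (Q.p * Q.q) + Q.e * (Q.q * Q.p)) := by abel
    _ = 1 - (Q.e + Q.e) := by rw [h]; abel

theorem rho_ll_alg' (c : k) :
    Q.rho (SLRing.ll (algebraMap k (AdjoinRoot Q.g) c)) = 1 + c • Q.q := by
  rw [rho_ll, phi_algebraMap, smul_mul_assoc, Q.e_mul_q]


/-- The data of the opposite case, in terms of the structure. -/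
theorem oppData' [FiniteDimensional k M] (htwo : (2 : k) ≠ 0) (ha : ∃ a : k, a ≠ 0 ∧ a ^ 2 ≠ 1)
    (he : Q.e ≠ 0) {G : Subgroup (LinearMap.GeneralLinearGroup k M)} (hHG : Q.HH ≤ G)
    (hAmin : ∀ x ∈ Cfsg.quadraticElements G, Module.finrank k (LinearMap.range Q.A) ≤
      Module.finrank k (LinearMap.range ((x : M →ₗ[k] M) - 1)))
    (hBmin : ∀ x ∈ Cfsg.quadraticElements G, Module.finrank k (LinearMap.range Q.B) ≤
      Module.finrank k (LinearMap.range ((x : M →ₗ[k] M) - 1))) :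
    ∃ (q e : Module.End k M) (i : LinearMap.GeneralLinearGroup k M),
      Q.A * q * Q.A = Q.A ∧ q * Q.A * q = q ∧ q * q = 0 ∧ Q.A * q + q * Q.A = e ∧ e * e = e ∧
      e ≠ 0 ∧ LinearMap.range q = LinearMap.range Q.B ∧ LinearMap.ker q = LinearMap.ker Q.B ∧
      Fam G q ∧ e * Q.A = Q.A ∧ Q.A * e = Q.A ∧ e * Q.B = Q.B ∧ Q.B * e = Q.B ∧
      (i : Module.End k M) = 1 - (e + e) ∧
      ∀ X : Subgroup (LinearMap.GeneralLinearGroup k M),
        (∀ (c : k) (u : LinearMap.GeneralLinearGroup k M),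
          (u : Module.End k M) = 1 + c • Q.A → u ∈ X) →
        (∀ (c : k) (u : LinearMap.GeneralLinearGroup k M),
          (u : Module.End k M) = 1 + c • Q.B → u ∈ X) → i ∈ X := by
  obtain ⟨hA, hB, hrho⟩ := Q.struct htwo ha he hHG hAmin hBmin
  have hp : Q.p = Q.A := hA
  have hZq : Q.Z * Q.q = Q.B := by
    show Q.Z * (Q.B * Q.Y) = Q.B
    rw [← mul_assoc, ← Q.comm_B_Z.eq, mul_assoc, Q.Z_mul_Y, hB]
  have hqZ : Q.q * Q.Z = Q.B := by
    show Q.B * Q.Y * Q.Z = Q.B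
    rw [mul_assoc, Q.Y_mul_Z, hB]
  refine ⟨Q.q, Q.e, Q.rhoHat (negOne _), ?_, ?_, Q.q_mul_q, ?_, Q.e_mul_e, he, ?_, ?_, ?_, ?_, hA,
    ?_, hB, ?_, ?_⟩
  · rw [← hp]
    exact Q.mu.wab
  · rw [← hp]
    exact Q.mu.wdc
  · rw [← hp]
    exact Q.pq_add_qp
  · apply le_antisymm
    · exact LinearMap.range_comp_le_range _ _
    · rw [← hqZ]
      exact LinearMap.range_comp_le_range _ _
  · apply le_antisymm
    · rw [← hZq]
      exact LinearMap.ker_le_ker_comp _ _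
    · have : Q.q = Q.Y * Q.B := by
        show Q.B * Q.Y = _
        rw [Q.YB]
      rw [this]
      exact LinearMap.ker_le_ker_comp _ _
  · intro c
    exact ⟨Q.rhoHat (SLRing.ll (algebraMap k (AdjoinRoot Q.g) c)), hHG (hrho _), by
      rw [Q.rhoHat_val, Q.rho_ll_alg']⟩
  · rw [Q.eA, hA]
  · rw [Q.eB, hB]
  · rw [Q.rhoHat_val, Q.rho_negOne]
  · intro X h1 h2
    have hle : Q.HH ≤ X := by
      apply (Subgroup.closure_le _).mpr
      rintro z (⟨c, rfl⟩ | ⟨c, rfl⟩)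
      · exact h1 c _ (Q.sg_val c)
      · exact h2 c _ (Q.tg_val c)
    exact hle (hrho _)

end QP

section pairs

variable [FiniteDimensional k M] {G : Subgroup (LinearMap.GeneralLinearGroup k M)}

theorem pairQ {x y : LinearMap.GeneralLinearGroup k M}
    (hx : x ∈ Cfsg.minimalQuadraticElements G) (hy : y ∈ Cfsg.minimalQuadraticElements G) :
    ∃ Q : QP k (Module.End k M), Q.A = (x : M →ₗ[k] M) - 1 ∧ Q.B = (y : M →ₗ[k] M) - 1 ∧
      Q.HH ≤ G ∧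
      (∀ z ∈ Cfsg.quadraticElements G, Module.finrank k (LinearMap.range Q.A) ≤
        Module.finrank k (LinearMap.range ((z : M →ₗ[k] M) - 1))) ∧
      (∀ z ∈ Cfsg.quadraticElements G, Module.finrank k (LinearMap.range Q.B) ≤
        Module.finrank k (LinearMap.range ((z : M →ₗ[k] M) - 1))) := by
  obtain ⟨⟨hxG, ⟨hx2, hx0⟩, hxfam⟩, hxmin⟩ := hx
  obtain ⟨⟨hyG, ⟨hy2, hy0⟩, hyfam⟩, hymin⟩ := hy
  have hint : IsIntegral k (((x : M →ₗ[k] M) - 1) * ((y : M →ₗ[k] M) - 1) +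
      ((y : M →ₗ[k] M) - 1) * ((x : M →ₗ[k] M) - 1)) := Algebra.IsIntegral.isIntegral _
  obtain ⟨Q, hQA, hQB⟩ := exists_QP (k := k)
    ((x : M →ₗ[k] M) - 1) ((y : M →ₗ[k] M) - 1) hx2 hy2 hint
  refine ⟨Q, hQA, hQB, ?_, ?_, ?_⟩
  · apply (Subgroup.closure_le _).mpr
    rintro z (⟨c, rfl⟩ | ⟨c, rfl⟩)
    · exact hxfam ⟨c, by rw [Q.sg_val, hQA]⟩
    · exact hyfam ⟨c, by rw [Q.tg_val, hQB]⟩
  · rw [hQA]
    exact hxmin
  · rw [hQB]
    exact hymin

/-- In the unipotent case, `a b a = 0` and `b a b = 0`. -/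
theorem aba_of_not_opp (htwo : (2 : k) ≠ 0) (ha : ∃ a : k, a ≠ 0 ∧ a ^ 2 ≠ 1)
    {x y : LinearMap.GeneralLinearGroup k M}
    (hx : x ∈ Cfsg.minimalQuadraticElements G) (hy : y ∈ Cfsg.minimalQuadraticElements G)
    (hno : ¬ (LinearMap.range ((x : M →ₗ[k] M) - 1) ⊓ LinearMap.ker ((y : M →ₗ[k] M) - 1) = ⊥ ∧
      LinearMap.range ((y : M →ₗ[k] M) - 1) ⊓ LinearMap.ker ((x : M →ₗ[k] M) - 1) = ⊥)) :
    ((x : M →ₗ[k] M) - 1) * (((y : M →ₗ[k] M) - 1) * ((x : M →ₗ[k] M) - 1)) = 0 ∧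
    ((y : M →ₗ[k] M) - 1) * (((x : M →ₗ[k] M) - 1) * ((y : M →ₗ[k] M) - 1)) = 0 := by
  obtain ⟨Q, hQA, hQB, hHG, hAmin, hBmin⟩ := pairQ hx hy
  have he : Q.e = 0 := by
    by_contra he
    obtain ⟨hA, hB, -⟩ := Q.struct htwo ha he hHG hAmin hBmin
    have := Q.opp_of_e hA hB
    rw [hQA, hQB] at this
    exact hno this
  have hZ : Q.Z ^ Q.m = 0 := by
    have := Q.Zpow_mul
    rwa [he, sub_zero, mul_one] at this
  have hZ' : (((x : M →ₗ[k] M) - 1) * ((y : M →ₗ[k] M) - 1) +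
      ((y : M →ₗ[k] M) - 1) * ((x : M →ₗ[k] M) - 1)) ^ Q.m = 0 := by
    rw [← hQA, ← hQB]
    exact hZ
  constructor
  · exact lemmaU _ htwo hx.1.2.1.1 (fam_of_mem hx.1) (fun T h1 h2 h3 => hmin_of_mem hx T h1 h2 h3)
      _ hy.1.2.1.1 (fam_of_mem hy.1) Q.m hZ'
  · refine lemmaU _ htwo hy.1.2.1.1 (fam_of_mem hy.1)
      (fun T h1 h2 h3 => hmin_of_mem hy T h1 h2 h3) _ hx.1.2.1.1 (fam_of_mem hx.1) Q.m ?_
    rw [add_comm]
    exact hZ'

/-- The membership criterion for `E(σ)`. -/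
theorem mem_sameAction {σ : LinearMap.GeneralLinearGroup k M}
    (hσ : σ ∈ Cfsg.minimalQuadraticElements G) (y : LinearMap.GeneralLinearGroup k M)
    (T : Module.End k M) (hy : (y : Module.End k M) = 1 + T) (hT2 : T * T = 0) (hfam : Fam G T)
    (hr : LinearMap.range T ≤ LinearMap.range ((σ : M →ₗ[k] M) - 1))
    (hk : LinearMap.ker ((σ : M →ₗ[k] M) - 1) ≤ LinearMap.ker T) :
    y ∈ Cfsg.sameActionSubgroup G σ := by
  by_cases hT0 : T = 0
  · have : y = 1 := Units.ext (by rw [hy, hT0, add_zero]; rfl)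
    rw [this]
    exact Subgroup.one_mem _
  · apply Subgroup.subset_closure
    have hrank := hmin_of_mem hσ T hT2 hT0 hfam
    have hreq : LinearMap.range T = LinearMap.range ((σ : M →ₗ[k] M) - 1) :=
      Submodule.eq_of_le_of_finrank_le hr hrank
    have hkeq : LinearMap.ker ((σ : M →ₗ[k] M) - 1) = LinearMap.ker T := by
      apply Submodule.eq_of_le_of_finrank_le hk
      have h1 := LinearMap.finrank_range_add_finrank_ker T
      have h2 := LinearMap.finrank_range_add_finrank_ker ((σ : M →ₗ[k] M) - 1)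
      rw [hreq] at h1
      omega
    obtain ⟨z, hz, hz1⟩ := QP.mp (G := G) T hT2 hT0 hfam
    have hzy : z = y := by
      apply Units.ext
      rw [hy, ← hz1]
      abel
    rw [← hzy]
    refine ⟨⟨hz, fun τ' hτ' => ?_⟩, ?_, ?_⟩
    · show Module.finrank k (LinearMap.range ((z : M →ₗ[k] M) - 1)) ≤ _
      rw [hz1, hreq]
      exact hσ.2 τ' hτ'
    · rw [hz1]
      exact hkeq.symm
    · rw [hz1]
      exact hreq

/-- The data of the opposite case. -/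
theorem oppData (htwo : (2 : k) ≠ 0) (ha : ∃ a : k, a ≠ 0 ∧ a ^ 2 ≠ 1)
    {x y : LinearMap.GeneralLinearGroup k M}
    (hx : x ∈ Cfsg.minimalQuadraticElements G) (hy : y ∈ Cfsg.minimalQuadraticElements G)
    (hopp : LinearMap.range ((x : M →ₗ[k] M) - 1) ⊓ LinearMap.ker ((y : M →ₗ[k] M) - 1) = ⊥ ∧
      LinearMap.range ((y : M →ₗ[k] M) - 1) ⊓ LinearMap.ker ((x : M →ₗ[k] M) - 1) = ⊥) :
    ∃ (q e : Module.End k M) (i : LinearMap.GeneralLinearGroup k M),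
      ((x : M →ₗ[k] M) - 1) * q * ((x : M →ₗ[k] M) - 1) = (x : M →ₗ[k] M) - 1 ∧
      q * ((x : M →ₗ[k] M) - 1) * q = q ∧ q * q = 0 ∧
      ((x : M →ₗ[k] M) - 1) * q + q * ((x : M →ₗ[k] M) - 1) = e ∧ e * e = e ∧ e ≠ 0 ∧
      LinearMap.range q = LinearMap.range ((y : M →ₗ[k] M) - 1) ∧
      LinearMap.ker q = LinearMap.ker ((y : M →ₗ[k] M) - 1) ∧ Fam G q ∧
      e * ((x : M →ₗ[k] M) - 1) = (x : M →ₗ[k] M) - 1 ∧
      ((x : M →ₗ[k] M) - 1) * e = (x : M →ₗ[k] M) - 1 ∧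
      e * ((y : M →ₗ[k] M) - 1) = (y : M →ₗ[k] M) - 1 ∧
      ((y : M →ₗ[k] M) - 1) * e = (y : M →ₗ[k] M) - 1 ∧
      (i : Module.End k M) = 1 - (e + e) ∧
      ∀ X : Subgroup (LinearMap.GeneralLinearGroup k M),
        (∀ (c : k) (u : LinearMap.GeneralLinearGroup k M),
          (u : Module.End k M) = 1 + c • ((x : M →ₗ[k] M) - 1) → u ∈ X) →
        (∀ (c : k) (u : LinearMap.GeneralLinearGroup k M),
          (u : Module.End k M) = 1 + c • ((y : M →ₗ[k] M) - 1) → u ∈ X) → i ∈ X := by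
  obtain ⟨Q, hQA, hQB, hHG, hAmin, hBmin⟩ := pairQ hx hy
  have he : Q.e ≠ 0 := by
    intro he
    have hno : ¬ (LinearMap.range ((x : M →ₗ[k] M) - 1) ⊓ LinearMap.ker ((y : M →ₗ[k] M) - 1) = ⊥ ∧
        LinearMap.range ((y : M →ₗ[k] M) - 1) ⊓ LinearMap.ker ((x : M →ₗ[k] M) - 1) = ⊥) → False := by
      intro hno
      exact hno hopp
    have hZ : Q.Z ^ Q.m = 0 := by
      have := Q.Zpow_mul
      rwa [he, sub_zero, mul_one] at this
    have hZ' : (((x : M →ₗ[k] M) - 1) * ((y : M →ₗ[k] M) - 1) +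
        ((y : M →ₗ[k] M) - 1) * ((x : M →ₗ[k] M) - 1)) ^ Q.m = 0 := by
      rw [← hQA, ← hQB]
      exact hZ
    have haba := lemmaU _ htwo hx.1.2.1.1 (fam_of_mem hx.1)
      (fun T h1 h2 h3 => hmin_of_mem hx T h1 h2 h3) _ hy.1.2.1.1 (fam_of_mem hy.1) Q.m hZ'
    apply hx.1.2.1.2
    apply LinearMap.ext
    intro w
    have h1 : ((y : M →ₗ[k] M) - 1) (((x : M →ₗ[k] M) - 1) w) ∈
        LinearMap.range ((y : M →ₗ[k] M) - 1) ⊓ LinearMap.ker ((x : M →ₗ[k] M) - 1) :=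
      ⟨⟨_, rfl⟩, LinearMap.mem_ker.mpr (congrArg (fun f : Module.End k M => f w) haba)⟩
    rw [hopp.2, Submodule.mem_bot] at h1
    have h2 : ((x : M →ₗ[k] M) - 1) w ∈
        LinearMap.range ((x : M →ₗ[k] M) - 1) ⊓ LinearMap.ker ((y : M →ₗ[k] M) - 1) :=
      ⟨⟨_, rfl⟩, LinearMap.mem_ker.mpr h1⟩
    rw [hopp.1, Submodule.mem_bot] at h2
    exact h2
  have := Q.oppData' htwo ha he hHG hAmin hBmin
  rw [hQA, hQB] at this
  exact this

end pairs

end Cfsg.Agent.Helper5.QPair
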