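import Cfsg.Agent.Helper5.QPairJ

set_option autoImplicit false
set_option linter.unusedSimpArgs false
set_option linter.unusedVariables false

/-! Quadratic pairs: the subgroup generated by two root subgroups `E(σ)`, `E(τ)` (S5065):
the unipotent case and the conjugation lemmas for the opposite case. -/

namespace Cfsg.Agent.Helper5.QPair

open Polynomial Matrix

variable {k : Type*} [Field k] {M : Type*} [AddCommGroup M] [Module k M]

section flag3

/-- A flag of length three. -/
def flag3 (R K : Submodule k M) : ℕ → Submodule k M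
  | 0 => ⊤
  | 1 => R
  | 2 => K ⊓ R
  | _ + 3 => ⊥

theorem flag3_anti (R K : Submodule k M) (j : ℕ) : flag3 R K (j + 1) ≤ flag3 R K j := by
  match j with
  | 0 => exact le_top
  | 1 => exact inf_le_right
  | 2 => exact bot_le
  | j + 3 => exact le_rfl

theorem DF_flag3 (R K : Submodule k M) (g : (Module.End k M)ˣ) (T : Module.End k M)
    (hg : (g : Module.End k M) = 1 + T) (hT : T * T = 0)
    (h0 : ∀ v, T v ∈ R) (h1 : ∀ v ∈ R, T v ∈ K ⊓ R) (h2 : ∀ v ∈ K ⊓ R, T v = 0) :
    DF (flag3 R K) g := by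
  have hgi := inv_val_of g T hT hg
  have key : ∀ j, ∀ v ∈ flag3 R K j, T v ∈ flag3 R K (j + 1) := by
    intro j v hv
    match j with
    | 0 => exact h0 v
    | 1 => exact h1 v hv
    | 2 =>
      rw [h2 v hv]
      exact Submodule.zero_mem _
    | j + 3 =>
      have : v = 0 := (Submodule.mem_bot k).mp hv
      rw [this, map_zero]
      exact Submodule.zero_mem _
  constructor
  · intro j v hv
    have : (g : Module.End k M) v - v = T v := by
      rw [hg]
      simp
    rw [this]
    exact key j v hv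
  · intro j v hv
    have : ((g⁻¹ : (Module.End k M)ˣ) : Module.End k M) v - v = -(T v) := by
      rw [hgi]
      simp
    rw [this]
    exact Submodule.neg_mem _ (key j v hv)

end flag3

section linalg2

theorem range_le_ker_of_sq (x : Module.End k M) (h : x * x = 0) :
    LinearMap.range x ≤ LinearMap.ker x := by
  rintro _ ⟨w, rfl⟩
  exact LinearMap.mem_ker.mpr (congrArg (fun f : Module.End k M => f w) h)

theorem left_id_of_range (e s T : Module.End k M) (h : e * s = s)
    (hr : LinearMap.range T ≤ LinearMap.range s) : e * T = T := by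
  apply LinearMap.ext
  intro v
  obtain ⟨y, hy⟩ := hr ⟨v, rfl⟩
  show e (T v) = T v
  rw [← hy]
  exact congrArg (fun f : Module.End k M => f y) h

theorem right_id_of_ker (e s T : Module.End k M) (h : s * e = s)
    (hk : LinearMap.ker s ≤ LinearMap.ker T) : T * e = T := by
  apply LinearMap.ext
  intro v
  have h1 : v - e v ∈ LinearMap.ker s := by
    rw [LinearMap.mem_ker, map_sub, sub_eq_zero]
    exact (congrArg (fun f : Module.End k M => f v) h).symm
  have h2 := LinearMap.mem_ker.mp (hk h1)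
  rw [map_sub, sub_eq_zero] at h2
  exact h2.symm

theorem special_aux {S : Type*} [Ring S] (a q b b₂ : S) (haa : a * a = 0) (hqq : q * q = 0)
    (hqb : q * b = 0) (hqb₂ : q * b₂ = 0) (haqa : a * q * a = a) (hqaq : q * a * q = q)
    (hb : b * (a * q) = b) (hb₂ : b₂ * (a * q) = b₂)
    (h : (1 - b) * (1 + a) * (1 + b) = (1 - a) * (1 + b₂) * (1 + a)) : a * (b + b₂) = 0 := by
  have haa' : ∀ z, a * (a * z) = 0 := fun z => by rw [← mul_assoc, haa, zero_mul]
  have hqq' : ∀ z, q * (q * z) = 0 := fun z => by rw [← mul_assoc, hqq, zero_mul]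
  have hqb' : ∀ z, q * (b * z) = 0 := fun z => by rw [← mul_assoc, hqb, zero_mul]
  have hqb₂' : ∀ z, q * (b₂ * z) = 0 := fun z => by rw [← mul_assoc, hqb₂, zero_mul]
  have haqa0 : a * (q * a) = a := by rw [← mul_assoc]; exact haqa
  have haqa' : ∀ z, a * (q * (a * z)) = a * z := fun z => by
    rw [← mul_assoc, ← mul_assoc, haqa]
  have hqaq0 : q * (a * q) = q := by rw [← mul_assoc]; exact hqaq
  have hqaq' : ∀ z, q * (a * (q * z)) = q * z := fun z => by
    rw [← mul_assoc, ← mul_assoc, hqaq]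
  have hb' : ∀ z, b * (a * (q * z)) = b * z := fun z => by
    rw [← mul_assoc a, ← mul_assoc, hb]
  have hb₂' : ∀ z, b₂ * (a * (q * z)) = b₂ * z := fun z => by
    rw [← mul_assoc a, ← mul_assoc, hb₂]
  have hL : a * q * ((1 - b) * (1 + a) * (1 + b)) * (a * q) = a * q + a * b := by
    simp only [mul_add, add_mul, mul_sub, sub_mul, mul_one, one_mul, mul_assoc, haa, haa', hqq,
      hqq', hqb, hqb', hqb₂, hqb₂', haqa0, haqa', hqaq0, hqaq', hb, hb', hb₂, hb₂', mul_zero,
      zero_mul, add_zero, zero_add, sub_zero, zero_sub]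
  have hR : a * q * ((1 - a) * (1 + b₂) * (1 + a)) * (a * q) = a * q - a * b₂ := by
    simp only [mul_add, add_mul, mul_sub, sub_mul, mul_one, one_mul, mul_assoc, haa, haa', hqq,
      hqq', hqb, hqb', hqb₂, hqb₂', haqa0, haqa', hqaq0, hqaq', hb, hb', hb₂, hb₂', mul_zero,
      zero_mul, add_zero, zero_add, sub_zero, zero_sub, neg_mul, mul_neg, neg_zero]
    abel
  have hmain : a * q + a * b = a * q - a * b₂ := by
    rw [← hL, ← hR, h]
  calc a * (b + b₂) = (a * q + a * b) - (a * q - a * b₂) := by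
        rw [mul_add]
        abel
    _ = 0 := by rw [hmain, sub_self]

end linalg2


section E

variable {G : Subgroup (LinearMap.GeneralLinearGroup k M)}

/-- Membership data for `E(σ)`. -/
def InE (G : Subgroup (LinearMap.GeneralLinearGroup k M)) (σ x : LinearMap.GeneralLinearGroup k M) :
    Prop :=
  ((x : M →ₗ[k] M) - 1) * ((x : M →ₗ[k] M) - 1) = 0 ∧ Fam G ((x : M →ₗ[k] M) - 1) ∧
  LinearMap.range ((x : M →ₗ[k] M) - 1) ≤ LinearMap.range ((σ : M →ₗ[k] M) - 1) ∧
  LinearMap.ker ((σ : M →ₗ[k] M) - 1) ≤ LinearMap.ker ((x : M →ₗ[k] M) - 1)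

theorem inE_of_class {σ x : LinearMap.GeneralLinearGroup k M}
    (hx : x ∈ Cfsg.sameActionClass G σ) : InE G σ x :=
  ⟨hx.1.1.2.1.1, fam_of_mem hx.1.1, hx.2.2.le, hx.2.1.ge⟩

theorem inE_one (σ : LinearMap.GeneralLinearGroup k M) : InE G σ 1 := by
  have h0 : ((1 : LinearMap.GeneralLinearGroup k M) : M →ₗ[k] M) - 1 = 0 := sub_self _
  unfold InE
  rw [h0]
  exact ⟨mul_zero _, fam_zero G, by rw [LinearMap.range_zero]; exact bot_le,
    by rw [LinearMap.ker_zero]; exact le_top⟩

theorem mem_class_of_ne {σ x : LinearMap.GeneralLinearGroup k M}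
    (hE : (Cfsg.sameActionSubgroup G σ : Set (LinearMap.GeneralLinearGroup k M)) =
      Cfsg.sameActionClass G σ ∪ {1}) (hx : x ∈ Cfsg.sameActionSubgroup G σ) (hx1 : x ≠ 1) :
    x ∈ Cfsg.sameActionClass G σ := by
  have : x ∈ (Cfsg.sameActionSubgroup G σ : Set (LinearMap.GeneralLinearGroup k M)) := hx
  rw [hE] at this
  rcases this with h | h
  · exact h
  · exact absurd h hx1

theorem inE_of_mem {σ x : LinearMap.GeneralLinearGroup k M}
    (hE : (Cfsg.sameActionSubgroup G σ : Set (LinearMap.GeneralLinearGroup k M)) =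
      Cfsg.sameActionClass G σ ∪ {1}) (hx : x ∈ Cfsg.sameActionSubgroup G σ) : InE G σ x := by
  by_cases hx1 : x = 1
  · rw [hx1]
    exact inE_one σ
  · exact inE_of_class (mem_class_of_ne hE hx hx1)

theorem mem_of_inE [FiniteDimensional k M] {σ x : LinearMap.GeneralLinearGroup k M}
    (hσ : σ ∈ Cfsg.minimalQuadraticElements G) (hx : InE G σ x) :
    x ∈ Cfsg.sameActionSubgroup G σ :=
  mem_sameAction hσ x ((x : M →ₗ[k] M) - 1) (by abel) hx.1 hx.2.1 hx.2.2.1 hx.2.2.2

theorem self_mem_class {σ : LinearMap.GeneralLinearGroup k M}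
    (hσ : σ ∈ Cfsg.minimalQuadraticElements G) : σ ∈ Cfsg.sameActionClass G σ :=
  ⟨hσ, rfl, rfl⟩

theorem range_smul_le (c : k) (T : Module.End k M) :
    LinearMap.range (c • T) ≤ LinearMap.range T := by
  rintro _ ⟨w, rfl⟩
  exact ⟨c • w, by simp⟩

theorem ker_le_smul (c : k) (T : Module.End k M) :
    LinearMap.ker T ≤ LinearMap.ker (c • T) := by
  intro v hv
  rw [LinearMap.mem_ker] at hv ⊢
  rw [LinearMap.smul_apply, hv, smul_zero]

/-- The elements of the scalar family of `σ` lie in `E(σ)`. -/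
theorem scalar_mem [FiniteDimensional k M] {σ : LinearMap.GeneralLinearGroup k M}
    (hσ : σ ∈ Cfsg.minimalQuadraticElements G) (c : k) (u : LinearMap.GeneralLinearGroup k M)
    (hu : (u : Module.End k M) = 1 + c • ((σ : M →ₗ[k] M) - 1)) :
    u ∈ Cfsg.sameActionSubgroup G σ := by
  refine mem_sameAction hσ u (c • ((σ : M →ₗ[k] M) - 1)) hu ?_ (fam_smul (fam_of_mem hσ.1) c)
    (range_smul_le c _) (ker_le_smul c _)
  rw [smul_mul_smul_comm, hσ.1.2.1.1, smul_zero]

/-- The value of a conjugate. -/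
theorem conj_val (ux uy g : (Module.End k M)ˣ) (x y t : Module.End k M)
    (hux : (ux : Module.End k M) = 1 + x) (huy : (uy : Module.End k M) = 1 + y)
    (hg : (g : Module.End k M) = 1 + t)
    (hxx : x * x = 0) (hyy : y * y = 0) (hxyx : x * y * x = x)
    (hr : LinearMap.range t ≤ LinearMap.range x) (hk : LinearMap.ker x ≤ LinearMap.ker t) :
    ((ux * uy⁻¹ * g * uy * ux⁻¹ : (Module.End k M)ˣ) : Module.End k M) = 1 - y * t * y := by
  have hxt : x * t = 0 := mul_eq_zero_of_range_le_ker x t (hr.trans (range_le_ker_of_sq x hxx))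
  have htx : t * x = 0 := mul_eq_zero_of_range_le_ker t x ((range_le_ker_of_sq x hxx).trans hk)
  have h1 : x * y * t = t := id_left_of_range x y t hxyx hr
  have h2 : t * (y * x) = t := id_right_of_ker x y t hxyx hk
  rw [Units.val_mul, Units.val_mul, Units.val_mul, Units.val_mul, inv_val_of ux x hxx hux,
    inv_val_of uy y hyy huy, hux, huy, hg]
  exact conj_formula x y t hxx hyy hxt htx h1 h2

/-- Conjugating an element of `E(σ)` into `E(τ)`. -/
theorem conj_mem [FiniteDimensional k M] {σ τ : LinearMap.GeneralLinearGroup k M}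
    (hτ : τ ∈ Cfsg.minimalQuadraticElements G)
    (ux uy : LinearMap.GeneralLinearGroup k M) (x y : Module.End k M)
    (hux : (ux : Module.End k M) = 1 + x) (huy : (uy : Module.End k M) = 1 + y)
    (huxG : ux ∈ G) (huyG : uy ∈ G)
    (hxx : x * x = 0) (hyy : y * y = 0) (hxyx : x * y * x = x)
    (hxr : LinearMap.range x = LinearMap.range ((σ : M →ₗ[k] M) - 1))
    (hxk : LinearMap.ker x = LinearMap.ker ((σ : M →ₗ[k] M) - 1))
    (hyr : LinearMap.range y = LinearMap.range ((τ : M →ₗ[k] M) - 1))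
    (hyk : LinearMap.ker y = LinearMap.ker ((τ : M →ₗ[k] M) - 1))
    (g : LinearMap.GeneralLinearGroup k M) (hg : InE G σ g) :
    ux * uy⁻¹ * g * uy * ux⁻¹ ∈ Cfsg.sameActionSubgroup G τ := by
  obtain ⟨t, ht⟩ : ∃ t : Module.End k M, t = (g : M →ₗ[k] M) - 1 := ⟨_, rfl⟩
  have hgt : (g : Module.End k M) = 1 + t := by
    rw [ht]
    abel
  obtain ⟨hg1, hg2, hg3, hg4⟩ := hg
  rw [← ht] at hg1 hg2 hg3 hg4
  have hr : LinearMap.range t ≤ LinearMap.range x := by
    rw [hxr]
    exact hg3
  have hk : LinearMap.ker x ≤ LinearMap.ker t := by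
    rw [hxk]
    exact hg4
  refine mem_sameAction hτ _ (-(y * t * y)) ?_ ?_ ?_ ?_ ?_
  · rw [conj_val ux uy g x y t hux huy hgt hxx hyy hxyx hr hk]
    abel
  · rw [neg_mul_neg]
    have : y * t * y * (y * t * y) = y * t * (y * y) * (t * y) := by simp only [mul_assoc]
    rw [this, hyy, mul_zero, zero_mul]
  · intro c
    obtain ⟨gc, hgcG, hgc⟩ := hg2 c
    refine ⟨ux * uy⁻¹ * gc * uy * ux⁻¹,
      G.mul_mem (G.mul_mem (G.mul_mem (G.mul_mem huxG (G.inv_mem huyG)) hgcG) huyG)
        (G.inv_mem huxG), ?_⟩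
    rw [conj_val ux uy gc x y (c • t) hux huy hgc hxx hyy hxyx
      ((range_smul_le c t).trans hr) (hk.trans (ker_le_smul c t))]
    rw [mul_smul_comm, smul_mul_assoc, smul_neg]
    abel
  · rw [← hyr]
    rintro _ ⟨w, rfl⟩
    exact ⟨-(t (y w)), by simp⟩
  · rw [← hyk]
    intro v hv
    rw [LinearMap.mem_ker] at hv ⊢
    simp [hv]

end E

end Cfsg.Agent.Helper5.QPair
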