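import Cfsg.Agent.Helper5.QPairK

set_option autoImplicit false
set_option linter.unusedSimpArgs false
set_option linter.unusedVariables false

/-! Quadratic pairs: the subgroup generated by two root subgroups `E(σ)`, `E(τ)` (S5065):
the unipotent case and the rank one conditions. -/

namespace Cfsg.Agent.Helper5.QPair

open Polynomial Matrix

variable {k : Type*} [Field k] {M : Type*} [AddCommGroup M] [Module k M] [FiniteDimensional k M]
  {G : Subgroup (LinearMap.GeneralLinearGroup k M)}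

/-- The unipotent case. -/
theorem unipotent_of_not_opp (htwo : (2 : k) ≠ 0) (ha : ∃ a : k, a ≠ 0 ∧ a ^ 2 ≠ 1)
    {σ τ : LinearMap.GeneralLinearGroup k M}
    (hσ : σ ∈ Cfsg.minimalQuadraticElements G) (hτ : τ ∈ Cfsg.minimalQuadraticElements G)
    (hno : ¬ (LinearMap.range ((σ : M →ₗ[k] M) - 1) ⊓ LinearMap.ker ((τ : M →ₗ[k] M) - 1) = ⊥ ∧
      LinearMap.range ((τ : M →ₗ[k] M) - 1) ⊓ LinearMap.ker ((σ : M →ₗ[k] M) - 1) = ⊥)) :
    Cfsg.IsUnipotentOn (Cfsg.sameActionSubgroup G σ ⊔ Cfsg.sameActionSubgroup G τ) := by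
  refine unipotent_of_flag
    (flag3 (LinearMap.range ((σ : M →ₗ[k] M) - 1) ⊔ LinearMap.range ((τ : M →ₗ[k] M) - 1))
      (LinearMap.ker ((σ : M →ₗ[k] M) - 1) ⊓ LinearMap.ker ((τ : M →ₗ[k] M) - 1)))
    (flag3_anti _ _) _ (Cfsg.sameActionClass G σ ∪ Cfsg.sameActionClass G τ)
    (by rw [Subgroup.closure_union]; rfl) ?_ rfl 3 rfl
  rintro g (hg | hg)
  · obtain ⟨hgm, hgk, hgr⟩ := hg
    have hno' : ¬ (LinearMap.range ((g : M →ₗ[k] M) - 1) ⊓ LinearMap.ker ((τ : M →ₗ[k] M) - 1) = ⊥ ∧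
        LinearMap.range ((τ : M →ₗ[k] M) - 1) ⊓ LinearMap.ker ((g : M →ₗ[k] M) - 1) = ⊥) := by
      rw [hgk, hgr]
      exact hno
    obtain ⟨h1, h2⟩ := aba_of_not_opp htwo ha hgm hτ hno'
    have haa := hgm.1.2.1.1
    refine DF_flag3 _ _ g ((g : M →ₗ[k] M) - 1) (by abel) haa ?_ ?_ ?_
    · intro v
      apply Submodule.mem_sup_left
      rw [← hgr]
      exact ⟨v, rfl⟩
    · intro v hv
      obtain ⟨r1, hr1, r2, hr2, rfl⟩ := Submodule.mem_sup.mp hv
      have e1 : ((g : M →ₗ[k] M) - 1) r1 = 0 := by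
        rw [← hgr] at hr1
        obtain ⟨w, rfl⟩ := hr1
        exact congrArg (fun f : Module.End k M => f w) haa
      obtain ⟨w, rfl⟩ := hr2
      rw [map_add, e1, zero_add]
      refine ⟨⟨?_, ?_⟩, ?_⟩
      · rw [← hgk]
        exact LinearMap.mem_ker.mpr (congrArg (fun f : Module.End k M => f _) haa)
      · exact LinearMap.mem_ker.mpr (congrArg (fun f : Module.End k M => f w) h2)
      · apply Submodule.mem_sup_left
        rw [← hgr]
        exact ⟨_, rfl⟩
    · intro v hv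
      have : v ∈ LinearMap.ker ((g : M →ₗ[k] M) - 1) := by
        rw [hgk]
        exact hv.1.1
      exact LinearMap.mem_ker.mp this
  · obtain ⟨hgm, hgk, hgr⟩ := hg
    have hno' : ¬ (LinearMap.range ((σ : M →ₗ[k] M) - 1) ⊓ LinearMap.ker ((g : M →ₗ[k] M) - 1) = ⊥ ∧
        LinearMap.range ((g : M →ₗ[k] M) - 1) ⊓ LinearMap.ker ((σ : M →ₗ[k] M) - 1) = ⊥) := by
      rw [hgk, hgr]
      exact hno
    obtain ⟨h1, h2⟩ := aba_of_not_opp htwo ha hσ hgm hno'
    have hbb := hgm.1.2.1.1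
    refine DF_flag3 _ _ g ((g : M →ₗ[k] M) - 1) (by abel) hbb ?_ ?_ ?_
    · intro v
      apply Submodule.mem_sup_right
      rw [← hgr]
      exact ⟨v, rfl⟩
    · intro v hv
      obtain ⟨r1, hr1, r2, hr2, rfl⟩ := Submodule.mem_sup.mp hv
      have e1 : ((g : M →ₗ[k] M) - 1) r2 = 0 := by
        rw [← hgr] at hr2
        obtain ⟨w, rfl⟩ := hr2
        exact congrArg (fun f : Module.End k M => f w) hbb
      obtain ⟨w, rfl⟩ := hr1
      rw [map_add, e1, add_zero]
      refine ⟨⟨?_, ?_⟩, ?_⟩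
      · exact LinearMap.mem_ker.mpr (congrArg (fun f : Module.End k M => f w) h1)
      · rw [← hgk]
        exact LinearMap.mem_ker.mpr (congrArg (fun f : Module.End k M => f _) hbb)
      · apply Submodule.mem_sup_right
        rw [← hgr]
        exact ⟨_, rfl⟩
    · intro v hv
      have : v ∈ LinearMap.ker ((g : M →ₗ[k] M) - 1) := by
        rw [hgk]
        exact hv.1.2
      exact LinearMap.mem_ker.mp this


/-- The one-sided rank one condition in the opposite case. -/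
theorem rankOneCond (htwo : (2 : k) ≠ 0) (ha : ∃ a : k, a ≠ 0 ∧ a ^ 2 ≠ 1)
    {σ τ : LinearMap.GeneralLinearGroup k M}
    (hσ : σ ∈ Cfsg.minimalQuadraticElements G) (hτ : τ ∈ Cfsg.minimalQuadraticElements G)
    (hopp : LinearMap.range ((σ : M →ₗ[k] M) - 1) ⊓ LinearMap.ker ((τ : M →ₗ[k] M) - 1) = ⊥ ∧
      LinearMap.range ((τ : M →ₗ[k] M) - 1) ⊓ LinearMap.ker ((σ : M →ₗ[k] M) - 1) = ⊥)
    (hEσ : (Cfsg.sameActionSubgroup G σ : Set (LinearMap.GeneralLinearGroup k M)) =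
      Cfsg.sameActionClass G σ ∪ {1})
    (hEτ : (Cfsg.sameActionSubgroup G τ : Set (LinearMap.GeneralLinearGroup k M)) =
      Cfsg.sameActionClass G τ ∪ {1}) :
    Cfsg.RankOneCondition (Cfsg.sameActionSubgroup G σ) (Cfsg.sameActionSubgroup G τ) := by
  intro α hα hα1
  obtain ⟨hαm, hαk, hαr⟩ := mem_class_of_ne hEσ hα hα1
  have hopp' : LinearMap.range ((α : M →ₗ[k] M) - 1) ⊓ LinearMap.ker ((τ : M →ₗ[k] M) - 1) = ⊥ ∧
      LinearMap.range ((τ : M →ₗ[k] M) - 1) ⊓ LinearMap.ker ((α : M →ₗ[k] M) - 1) = ⊥ := by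
    rw [hαk, hαr]
    exact hopp
  obtain ⟨q, e, i, haqa, hqaq, hqq, hsum, hee, he0, hqr, hqk, hqfam, -, -, -, -, -, -⟩ :=
    oppData htwo ha hαm hτ hopp'
  have haa := hαm.1.2.1.1
  have hαv : (α : Module.End k M) = 1 + ((α : M →ₗ[k] M) - 1) := by abel
  have hβG : unitOf q hqq ∈ G := by
    obtain ⟨y, hy, hv⟩ := fam_one hqfam
    have : y = unitOf q hqq := Units.ext hv
    rw [← this]
    exact hy
  have hβτ : unitOf q hqq ∈ Cfsg.sameActionSubgroup G τ :=
    mem_sameAction hτ _ q rfl hqq hqfam hqr.le hqk.ge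
  have hβ1 : unitOf q hqq ≠ 1 := by
    intro h
    have hq0 : q = 0 := by
      have h' := congrArg Units.val h
      rw [unitOf_val, Units.val_one] at h'
      exact add_eq_left.mp h'
    apply he0
    rw [← hsum, hq0, mul_zero, zero_mul, add_zero]
  refine ⟨unitOf q hqq, hβτ, hβ1, ?_⟩
  apply le_antisymm
  · rintro _ ⟨g, hg, rfl⟩
    refine ⟨α * (unitOf q hqq)⁻¹ * g * unitOf q hqq * α⁻¹, ?_, ?_⟩
    · exact conj_mem hτ α (unitOf q hqq) _ q hαv rfl hαm.1.1 hβG haa hqq haqa hαr hαk hqr hqk g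
        (inE_of_mem hEσ hg)
    · simp only [MulEquiv.coe_toMonoidHom, MulAut.conj_apply, inv_inv]
      group
  · rintro _ ⟨g, hg, rfl⟩
    refine ⟨unitOf q hqq * α⁻¹ * g * α * (unitOf q hqq)⁻¹, ?_, ?_⟩
    · exact conj_mem hσ (unitOf q hqq) α q _ rfl hαv hβG hαm.1.1 hqq haa hqaq hqr hqk hαr hαk g
        (inE_of_mem hEτ hg)
    · simp only [MulEquiv.coe_toMonoidHom, MulAut.conj_apply, inv_inv]
      group

/-- The special property in the opposite case. -/
theorem special_of_opp (htwo : (2 : k) ≠ 0) (ha : ∃ a : k, a ≠ 0 ∧ a ^ 2 ≠ 1)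
    {σ τ : LinearMap.GeneralLinearGroup k M}
    (hσ : σ ∈ Cfsg.minimalQuadraticElements G) (hτ : τ ∈ Cfsg.minimalQuadraticElements G)
    (hopp : LinearMap.range ((σ : M →ₗ[k] M) - 1) ⊓ LinearMap.ker ((τ : M →ₗ[k] M) - 1) = ⊥ ∧
      LinearMap.range ((τ : M →ₗ[k] M) - 1) ⊓ LinearMap.ker ((σ : M →ₗ[k] M) - 1) = ⊥)
    (hEσ : (Cfsg.sameActionSubgroup G σ : Set (LinearMap.GeneralLinearGroup k M)) =
      Cfsg.sameActionClass G σ ∪ {1})
    (hEτ : (Cfsg.sameActionSubgroup G τ : Set (LinearMap.GeneralLinearGroup k M)) =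
      Cfsg.sameActionClass G τ ∪ {1}) :
    ∀ a ∈ Cfsg.sameActionSubgroup G σ, a ≠ 1 → ∀ b ∈ Cfsg.sameActionSubgroup G τ, b ≠ 1 →
      Cfsg.conjBy (Cfsg.sameActionSubgroup G σ) b⁻¹ = Cfsg.conjBy (Cfsg.sameActionSubgroup G τ) a⁻¹ →
      b⁻¹ * a * b = a⁻¹ * b⁻¹ * a := by
  intro α hα hα1 β hβ hβ1 hconj
  obtain ⟨hαm, hαk, hαr⟩ := mem_class_of_ne hEσ hα hα1
  obtain ⟨hβm, hβk, hβr⟩ := mem_class_of_ne hEτ hβ hβ1
  have hopp' : LinearMap.range ((α : M →ₗ[k] M) - 1) ⊓ LinearMap.ker ((β : M →ₗ[k] M) - 1) = ⊥ ∧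
      LinearMap.range ((β : M →ₗ[k] M) - 1) ⊓ LinearMap.ker ((α : M →ₗ[k] M) - 1) = ⊥ := by
    rw [hαk, hαr, hβk, hβr]
    exact hopp
  obtain ⟨q, e, i, haqa, hqaq, hqq, hsum, hee, he0, hqr, hqk, hqfam, -, -, -, -, -, -⟩ :=
    oppData htwo ha hαm hβm hopp'
  have hmem : β⁻¹ * α * β ∈ Cfsg.conjBy (Cfsg.sameActionSubgroup G σ) β⁻¹ :=
    ⟨α, hα, by simp only [MulEquiv.coe_toMonoidHom, MulAut.conj_apply, inv_inv]⟩
  rw [hconj] at hmem
  obtain ⟨β₂, hβ₂, hβ₂eq⟩ := hmem
  have hβ₂eq' : α⁻¹ * β₂ * α = β⁻¹ * α * β := by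
    simpa only [MulEquiv.coe_toMonoidHom, MulAut.conj_apply, inv_inv] using hβ₂eq
  obtain ⟨hin1, hin2, hin3, hin4⟩ := inE_of_mem hEτ hβ₂
  have haa := hαm.1.2.1.1
  have hbb := hβm.1.2.1.1
  obtain ⟨a, ha_def⟩ : ∃ a : Module.End k M, a = (α : M →ₗ[k] M) - 1 := ⟨_, rfl⟩
  obtain ⟨b, hb_def⟩ : ∃ b : Module.End k M, b = (β : M →ₗ[k] M) - 1 := ⟨_, rfl⟩
  obtain ⟨b₂, hb₂_def⟩ : ∃ b₂ : Module.End k M, b₂ = (β₂ : M →ₗ[k] M) - 1 := ⟨_, rfl⟩
  rw [← ha_def] at haa haqa hqaq hαk hαr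
  rw [← hb_def] at hbb hqr hqk hβk hβr
  rw [← hb₂_def] at hin1 hin3 hin4
  have hαv : (α : Module.End k M) = 1 + a := by rw [ha_def]; abel
  have hβv : (β : Module.End k M) = 1 + b := by rw [hb_def]; abel
  have hβ₂v : (β₂ : Module.End k M) = 1 + b₂ := by rw [hb₂_def]; abel
  have hval : (1 - b) * (1 + a) * (1 + b) = (1 - a) * (1 + b₂) * (1 + a) := by
    have := congrArg Units.val hβ₂eq'
    rw [Units.val_mul, Units.val_mul, Units.val_mul, Units.val_mul, inv_val_of α a haa hαv,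
      inv_val_of β b hbb hβv, hαv, hβv, hβ₂v] at this
    exact this.symm
  have hqb : q * b = 0 := mul_eq_zero_of_range_le_ker q b (by
    rw [← hqr]
    exact range_le_ker_of_sq q hqq)
  have hqb₂ : q * b₂ = 0 := mul_eq_zero_of_range_le_ker q b₂ (by
    refine hin3.trans ?_
    rw [← hβr, ← hqr]
    exact range_le_ker_of_sq q hqq)
  have hb : b * (a * q) = b := id_right_of_ker q a b hqaq hqk.le
  have hb₂ : b₂ * (a * q) = b₂ := id_right_of_ker q a b₂ hqaq (by
    rw [hqk, hβk]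
    exact hin4)
  have hab := special_aux a q b b₂ haa hqq hqb hqb₂ haqa hqaq hb hb₂ hval
  have hbb₂ : b + b₂ = 0 := by
    apply LinearMap.ext
    intro v
    have h1 : (b + b₂) v ∈ LinearMap.range ((τ : M →ₗ[k] M) - 1) ⊓
        LinearMap.ker ((σ : M →ₗ[k] M) - 1) := by
      refine ⟨?_, ?_⟩
      · rw [LinearMap.add_apply]
        apply Submodule.add_mem
        · rw [← hβr]
          exact ⟨v, rfl⟩
        · exact hin3 ⟨v, rfl⟩
      · rw [← hαk]
        exact LinearMap.mem_ker.mpr (congrArg (fun f : Module.End k M => f v) hab)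
    rw [hopp.2, Submodule.mem_bot] at h1
    exact h1
  have hβ₂inv : β₂ = β⁻¹ := by
    apply Units.ext
    rw [hβ₂v, inv_val_of β b hbb hβv, eq_neg_of_add_eq_zero_right hbb₂]
    abel
  rw [← hβ₂eq', hβ₂inv]


/-- The subgroup of units `x` with `e (x - 1) = x - 1 = (x - 1) e`. -/
def stabE (e : Module.End k M) : Subgroup (Module.End k M)ˣ where
  carrier := {x | e * ((x : Module.End k M) - 1) = (x : Module.End k M) - 1 ∧
    ((x : Module.End k M) - 1) * e = (x : Module.End k M) - 1}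
  one_mem' := by
    have h0 : ((1 : (Module.End k M)ˣ) : Module.End k M) - 1 = 0 := sub_self _
    show e * (((1 : (Module.End k M)ˣ) : Module.End k M) - 1) = _ ∧ _ * e = _
    rw [h0]
    exact ⟨mul_zero _, zero_mul _⟩
  mul_mem' := by
    rintro x y ⟨hx1, hx2⟩ ⟨hy1, hy2⟩
    have h : ((x * y : (Module.End k M)ˣ) : Module.End k M) - 1 =
        ((x : Module.End k M) - 1) * ((y : Module.End k M) - 1) + ((x : Module.End k M) - 1) +
          ((y : Module.End k M) - 1) := by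
      rw [Units.val_mul]
      noncomm_ring
    constructor
    · show e * (((x * y : (Module.End k M)ˣ) : Module.End k M) - 1) = _
      rw [h, mul_add, mul_add, ← mul_assoc, hx1, hy1]
    · show (((x * y : (Module.End k M)ˣ) : Module.End k M) - 1) * e = _
      rw [h, add_mul, add_mul, mul_assoc, hx2, hy2]
  inv_mem' := by
    rintro x ⟨hx1, hx2⟩
    have h1 : ((x⁻¹ : (Module.End k M)ˣ) : Module.End k M) - 1 =
        -(((x⁻¹ : (Module.End k M)ˣ) : Module.End k M) * ((x : Module.End k M) - 1)) := by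
      rw [mul_sub, mul_one, Units.inv_mul]
      abel
    have h2 : ((x⁻¹ : (Module.End k M)ˣ) : Module.End k M) - 1 =
        -(((x : Module.End k M) - 1) * ((x⁻¹ : (Module.End k M)ˣ) : Module.End k M)) := by
      rw [sub_mul, one_mul, Units.mul_inv]
      abel
    constructor
    · show e * (((x⁻¹ : (Module.End k M)ˣ) : Module.End k M) - 1) = _
      rw [h2, mul_neg, ← mul_assoc, hx1]
    · show (((x⁻¹ : (Module.End k M)ˣ) : Module.End k M) - 1) * e = _
      rw [h1, neg_mul, mul_assoc, hx2]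

theorem mem_stabE {e : Module.End k M} {x : (Module.End k M)ˣ} (hx : x ∈ stabE e) :
    e * ((x : Module.End k M) - 1) = (x : Module.End k M) - 1 ∧
      ((x : Module.End k M) - 1) * e = (x : Module.End k M) - 1 := hx

/-- The central involution and the decomposition of `M` in the opposite case. -/
theorem involution_of_opp (htwo : (2 : k) ≠ 0) (ha : ∃ a : k, a ≠ 0 ∧ a ^ 2 ≠ 1)
    {σ τ : LinearMap.GeneralLinearGroup k M}
    (hσ : σ ∈ Cfsg.minimalQuadraticElements G) (hτ : τ ∈ Cfsg.minimalQuadraticElements G)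
    (hopp : LinearMap.range ((σ : M →ₗ[k] M) - 1) ⊓ LinearMap.ker ((τ : M →ₗ[k] M) - 1) = ⊥ ∧
      LinearMap.range ((τ : M →ₗ[k] M) - 1) ⊓ LinearMap.ker ((σ : M →ₗ[k] M) - 1) = ⊥)
    (hEσ : (Cfsg.sameActionSubgroup G σ : Set (LinearMap.GeneralLinearGroup k M)) =
      Cfsg.sameActionClass G σ ∪ {1})
    (hEτ : (Cfsg.sameActionSubgroup G τ : Set (LinearMap.GeneralLinearGroup k M)) =
      Cfsg.sameActionClass G τ ∪ {1}) :
    (∃! i : LinearMap.GeneralLinearGroup k M,
      i ∈ Cfsg.sameActionSubgroup G σ ⊔ Cfsg.sameActionSubgroup G τ ∧ i ≠ 1 ∧ i * i = 1 ∧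
        (∀ x ∈ Cfsg.sameActionSubgroup G σ ⊔ Cfsg.sameActionSubgroup G τ, i * x = x * i) ∧
        (∀ m ∈ Cfsg.commutatorSubmodule
          (Cfsg.sameActionSubgroup G σ ⊔ Cfsg.sameActionSubgroup G τ), (i : M →ₗ[k] M) m = -m) ∧
        (∀ m ∈ Cfsg.fixedSubmodule
          (Cfsg.sameActionSubgroup G σ ⊔ Cfsg.sameActionSubgroup G τ), (i : M →ₗ[k] M) m = m)) ∧
      IsCompl (Cfsg.fixedSubmodule (Cfsg.sameActionSubgroup G σ ⊔ Cfsg.sameActionSubgroup G τ))
        (Cfsg.commutatorSubmodule (Cfsg.sameActionSubgroup G σ ⊔ Cfsg.sameActionSubgroup G τ)) := by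
  obtain ⟨q, e, i, hsqs, hqsq, hqq, hsum, hee, he0, hqr, hqk, hqfam, hes, hse, het, hte, hival,
    hiX⟩ := oppData htwo ha hσ hτ hopp
  have hβτ : unitOf q hqq ∈ Cfsg.sameActionSubgroup G τ :=
    mem_sameAction hτ _ q rfl hqq hqfam hqr.le hqk.ge
  obtain ⟨X, hX⟩ : ∃ X : Subgroup (LinearMap.GeneralLinearGroup k M),
      X = Cfsg.sameActionSubgroup G σ ⊔ Cfsg.sameActionSubgroup G τ := ⟨_, rfl⟩
  rw [← hX]
  have hσX : σ ∈ X := by
    rw [hX]
    exact Subgroup.mem_sup_left (Subgroup.subset_closure (self_mem_class hσ))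
  have hβX : unitOf q hqq ∈ X := by
    rw [hX]
    exact Subgroup.mem_sup_right hβτ
  have hP : ∀ x ∈ X, e * ((x : Module.End k M) - 1) = (x : Module.End k M) - 1 ∧
      ((x : Module.End k M) - 1) * e = (x : Module.End k M) - 1 := by
    have hle : X ≤ stabE e := by
      rw [hX]
      apply sup_le
      · intro x hx
        obtain ⟨-, -, h3, h4⟩ := inE_of_mem hEσ hx
        exact ⟨left_id_of_range e _ _ hes h3, right_id_of_ker e _ _ hse h4⟩
      · intro x hx
        obtain ⟨-, -, h3, h4⟩ := inE_of_mem hEτ hx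
        exact ⟨left_id_of_range e _ _ het h3, right_id_of_ker e _ _ hte h4⟩
    exact fun x hx => mem_stabE (hle hx)
  have hiX' : i ∈ X := by
    apply hiX
    · intro c u hu
      rw [hX]
      exact Subgroup.mem_sup_left (scalar_mem hσ c u hu)
    · intro c u hu
      rw [hX]
      exact Subgroup.mem_sup_right (scalar_mem hτ c u hu)
  have hcomm : Cfsg.commutatorSubmodule X = LinearMap.range e := by
    apply le_antisymm
    · apply iSup₂_le
      intro g hg
      rintro _ ⟨w, rfl⟩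
      exact ⟨((g : M →ₗ[k] M) - 1) w, congrArg (fun f : Module.End k M => f w) (hP g hg).1⟩
    · rintro _ ⟨v, rfl⟩
      have h1 : ((σ : M →ₗ[k] M) - 1) (q v) ∈ Cfsg.commutatorSubmodule X :=
        (le_iSup₂ (f := fun (g : LinearMap.GeneralLinearGroup k M) (_ : g ∈ X) =>
          LinearMap.range ((g : M →ₗ[k] M) - 1)) σ hσX) ⟨_, rfl⟩
      have h2 : q (((σ : M →ₗ[k] M) - 1) v) ∈ Cfsg.commutatorSubmodule X := by
        have hq : ((unitOf q hqq : LinearMap.GeneralLinearGroup k M) : M →ₗ[k] M) - 1 = q := by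
          rw [unitOf_val]
          abel
        have := (le_iSup₂ (f := fun (g : LinearMap.GeneralLinearGroup k M) (_ : g ∈ X) =>
          LinearMap.range ((g : M →ₗ[k] M) - 1)) (unitOf q hqq) hβX)
        rw [hq] at this
        exact this ⟨_, rfl⟩
      have := Submodule.add_mem _ h1 h2
      rw [← hsum]
      exact this
  have hfix : Cfsg.fixedSubmodule X = LinearMap.ker e := by
    apply le_antisymm
    · intro m hm
      simp only [Cfsg.fixedSubmodule, Submodule.mem_iInf] at hm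
      have h1 := LinearMap.mem_ker.mp (hm σ hσX)
      have h2 := LinearMap.mem_ker.mp (hm (unitOf q hqq) hβX)
      have hq : ((unitOf q hqq : LinearMap.GeneralLinearGroup k M) : M →ₗ[k] M) - 1 = q := by
        rw [unitOf_val]
        abel
      rw [hq] at h2
      rw [LinearMap.mem_ker, ← hsum]
      show ((σ : M →ₗ[k] M) - 1) (q m) + q (((σ : M →ₗ[k] M) - 1) m) = 0
      rw [h1, h2, map_zero, map_zero, add_zero]
    · intro m hm
      rw [LinearMap.mem_ker] at hm
      simp only [Cfsg.fixedSubmodule, Submodule.mem_iInf]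
      intro g hg
      rw [LinearMap.mem_ker]
      have := congrArg (fun f : Module.End k M => f m) (hP g hg).2
      simp only [Module.End.mul_apply] at this
      rw [← this, hm, map_zero]
  have hiv : ∀ v : M, (i : M →ₗ[k] M) v = v - (e v + e v) := by
    intro v
    have : (i : M →ₗ[k] M) = 1 - (e + e) := hival
    rw [this]
    rfl
  have hev : ∀ v : M, e (e v) = e v := fun v => congrArg (fun f : Module.End k M => f v) hee
  have hex : ∀ x ∈ X, e * (x : Module.End k M) = (x : Module.End k M) * e := by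
    intro x hx
    obtain ⟨h1, h2⟩ := hP x hx
    have e1 : e * (x : Module.End k M) = ((x : Module.End k M) - 1) + e := by
      rw [← h1]
      noncomm_ring
    have e2 : (x : Module.End k M) * e = ((x : Module.End k M) - 1) + e := by
      rw [← h2]
      noncomm_ring
    rw [e1, e2]
  refine ⟨⟨i, ⟨hiX', ?_, ?_, ?_, ?_, ?_⟩, ?_⟩, ?_⟩
  · intro h
    apply he0
    have h' : (i : Module.End k M) = 1 := by rw [h]; rfl
    rw [hival] at h'
    have h2 : e + e = 0 := by
      have := sub_eq_self.mp h'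
      exact this
    have h3 : (2 : k) • e = 0 := by rw [two_smul]; exact h2
    rcases smul_eq_zero.mp h3 with h4 | h4
    · exact absurd h4 htwo
    · exact h4
  · apply Units.ext
    rw [Units.val_mul, hival, Units.val_one]
    have : (1 - (e + e)) * (1 - (e + e)) = 1 - (e + e) - (e + e) + (e * e + e * e + (e * e + e * e)) := by
      noncomm_ring
    rw [this, hee]
    abel
  · intro x hx
    apply Units.ext
    rw [Units.val_mul, Units.val_mul, hival, sub_mul, mul_sub, add_mul, mul_add, one_mul, mul_one,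
      hex x hx]
  · intro m hm
    rw [hcomm] at hm
    obtain ⟨v, rfl⟩ := hm
    rw [hiv, hev]
    abel
  · intro m hm
    rw [hfix, LinearMap.mem_ker] at hm
    rw [hiv, hm]
    abel
  · rintro j ⟨hjX, hj1, hjj, hjc, hjm, hjf⟩
    apply Units.ext
    apply LinearMap.ext
    intro v
    have h1 : v - e v ∈ Cfsg.fixedSubmodule X := by
      rw [hfix, LinearMap.mem_ker, map_sub, hev, sub_self]
    have h2 : e v ∈ Cfsg.commutatorSubmodule X := by
      rw [hcomm]
      exact ⟨v, rfl⟩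
    have h3 := hjf _ h1
    have h4 := hjm _ h2
    rw [map_sub, h4] at h3
    show (j : M →ₗ[k] M) v = (i : M →ₗ[k] M) v
    rw [hiv]
    have h5 : (j : M →ₗ[k] M) v = v - e v - e v := by
      have := eq_add_of_sub_eq h3
      rw [this]
      abel
    rw [h5]
    abel
  · rw [hfix, hcomm]
    exact (LinearMap.IsIdempotentElem.isCompl hee).symm

end Cfsg.Agent.Helper5.QPair
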