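import Cfsg.Agent.Helper5.QPairL

set_option autoImplicit false
set_option linter.unusedSimpArgs false
set_option linter.unusedVariables false

/-! Quadratic pairs: linear algebra of two square-zero maps `a`, `b` with `a b a = 0 = b a b`
(the class two case, S5066 / S5068 / S5073). -/

namespace Cfsg.Agent.Helper5.QPair

open Polynomial Matrix

variable {k : Type*} [Field k] {M : Type*} [AddCommGroup M] [Module k M]

section ring2

variable {S : Type*} [Ring S]

theorem comm_formula (a b : S) (haa : a * a = 0) (hbb : b * b = 0) (haba : a * (b * a) = 0)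
    (hbab : b * (a * b) = 0) : (1 + a) * (1 + b) * (1 - a) * (1 - b) = 1 + (a * b - b * a) := by
  have haa' : ∀ z, a * (a * z) = 0 := fun z => by rw [← mul_assoc, haa, zero_mul]
  have hbb' : ∀ z, b * (b * z) = 0 := fun z => by rw [← mul_assoc, hbb, zero_mul]
  have haba' : ∀ z, a * (b * (a * z)) = 0 := fun z => by
    rw [← mul_assoc b, ← mul_assoc, haba, zero_mul]
  have hbab' : ∀ z, b * (a * (b * z)) = 0 := fun z => by
    rw [← mul_assoc a, ← mul_assoc, hbab, zero_mul]
  simp only [mul_add, add_mul, mul_sub, sub_mul, mul_one, one_mul, mul_assoc, haa, haa', hbb, hbb',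
    haba, haba', hbab, hbab', mul_zero, zero_mul, add_zero, zero_add, sub_zero, zero_sub, neg_mul,
    mul_neg, neg_zero]
  abel

theorem conj_formula2 (a b : S) (haa : a * a = 0) (hbb : b * b = 0) (haba : a * (b * a) = 0) :
    (1 + a) * (1 + b) * (1 - a) = 1 + (b + (a * b - b * a)) := by
  have haa' : ∀ z, a * (a * z) = 0 := fun z => by rw [← mul_assoc, haa, zero_mul]
  have haba' : ∀ z, a * (b * (a * z)) = 0 := fun z => by
    rw [← mul_assoc b, ← mul_assoc, haba, zero_mul]
  simp only [mul_add, add_mul, mul_sub, sub_mul, mul_one, one_mul, mul_assoc, haa, haa',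
    haba, haba', mul_zero, zero_mul, add_zero, zero_add, sub_zero, zero_sub, neg_mul,
    mul_neg, neg_zero]
  abel

theorem comm_sq (a b : S) (haa : a * a = 0) (hbb : b * b = 0) (haba : a * (b * a) = 0)
    (hbab : b * (a * b) = 0) : (a * b - b * a) * (a * b - b * a) = 0 := by
  have haa' : ∀ z, a * (a * z) = 0 := fun z => by rw [← mul_assoc, haa, zero_mul]
  have hbb' : ∀ z, b * (b * z) = 0 := fun z => by rw [← mul_assoc, hbb, zero_mul]
  have haba' : ∀ z, a * (b * (a * z)) = 0 := fun z => by
    rw [← mul_assoc b, ← mul_assoc, haba, zero_mul]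
  have hbab' : ∀ z, b * (a * (b * z)) = 0 := fun z => by
    rw [← mul_assoc a, ← mul_assoc, hbab, zero_mul]
  simp only [mul_add, add_mul, mul_sub, sub_mul, mul_one, one_mul, mul_assoc, haa, haa', hbb, hbb',
    haba, haba', hbab, hbab', mul_zero, zero_mul, add_zero, zero_add, sub_zero, zero_sub, neg_mul,
    mul_neg, neg_zero]

end ring2

section dims

variable [FiniteDimensional k M]

theorem rank_comp (a b : Module.End k M) :
    Module.finrank k (LinearMap.range (a * b)) +
      Module.finrank k (LinearMap.range b ⊓ LinearMap.ker a : Submodule k M) =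
      Module.finrank k (LinearMap.range b) := by
  have h := LinearMap.finrank_range_add_finrank_ker (a.domRestrict (LinearMap.range b))
  have h1 : LinearMap.range (a.domRestrict (LinearMap.range b)) = LinearMap.range (a * b) := by
    ext v
    constructor
    · rintro ⟨⟨_, ⟨w, rfl⟩⟩, rfl⟩
      exact ⟨w, rfl⟩
    · rintro ⟨w, rfl⟩
      exact ⟨⟨b w, ⟨w, rfl⟩⟩, rfl⟩
  have h2 : Module.finrank k (LinearMap.ker (a.domRestrict (LinearMap.range b))) =
      Module.finrank k (LinearMap.range b ⊓ LinearMap.ker a : Submodule k M) := by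
    rw [← Submodule.map_comap_subtype, Submodule.finrank_map_subtype_eq]
    rfl
  rw [h1, h2] at h
  exact h

theorem range_ab_le (a b : Module.End k M) (hbab : b * (a * b) = 0) :
    LinearMap.range (a * b) ≤ LinearMap.range a ⊓ LinearMap.ker b := by
  rintro _ ⟨w, rfl⟩
  exact ⟨⟨b w, rfl⟩, LinearMap.mem_ker.mpr (congrArg (fun f : Module.End k M => f w) hbab)⟩

theorem range_comm_le (a b : Module.End k M) (haba : a * (b * a) = 0) (hbab : b * (a * b) = 0) :
    LinearMap.range (a * b - b * a) ≤
      (LinearMap.range a ⊓ LinearMap.ker b) ⊔ (LinearMap.range b ⊓ LinearMap.ker a) := by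
  rintro _ ⟨w, rfl⟩
  rw [LinearMap.sub_apply, sub_eq_add_neg]
  exact Submodule.add_mem_sup (range_ab_le a b hbab ⟨w, rfl⟩)
    (Submodule.neg_mem _ (range_ab_le b a haba ⟨w, rfl⟩))

theorem le_ker_comm (a b : Module.End k M) (haba : a * (b * a) = 0) (hbab : b * (a * b) = 0) :
    (LinearMap.range a ⊔ LinearMap.ker b) ⊓ (LinearMap.range b ⊔ LinearMap.ker a) ≤
      LinearMap.ker (a * b - b * a) := by
  rintro v ⟨h1, h2⟩
  obtain ⟨r, ⟨w, rfl⟩, k', hk', rfl⟩ := Submodule.mem_sup.mp h1
  obtain ⟨r', ⟨w', rfl⟩, k'', hk'', hv⟩ := Submodule.mem_sup.mp h2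
  rw [LinearMap.mem_ker] at hk' hk'' ⊢
  rw [LinearMap.sub_apply]
  have e1 : (a * b) (a w + k') = 0 := by
    show a (b (a w + k')) = 0
    rw [map_add, hk', add_zero]
    exact congrArg (fun f : Module.End k M => f w) haba
  have e2 : (b * a) (a w + k') = 0 := by
    rw [← hv]
    show b (a (b w' + k'')) = 0
    rw [map_add, hk'', add_zero]
    exact congrArg (fun f : Module.End k M => f w') hbab
  rw [e1, e2, sub_zero]

/-- The rank count in the class two case. -/
theorem class2_dims (a b : Module.End k M) (haba : a * (b * a) = 0) (hbab : b * (a * b) = 0)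
    (d : ℕ) (hda : Module.finrank k (LinearMap.range a) = d)
    (hdb : Module.finrank k (LinearMap.range b) = d)
    (hc : d ≤ Module.finrank k (LinearMap.range (a * b - b * a))) :
    Module.finrank k (LinearMap.range a ⊓ LinearMap.ker b : Submodule k M) +
      Module.finrank k (LinearMap.range b ⊓ LinearMap.ker a : Submodule k M) = d ∧
    LinearMap.range (a * b - b * a) =
      (LinearMap.range a ⊓ LinearMap.ker b) ⊔ (LinearMap.range b ⊓ LinearMap.ker a) ∧
    LinearMap.ker (a * b - b * a) =
      (LinearMap.range a ⊔ LinearMap.ker b) ⊓ (LinearMap.range b ⊔ LinearMap.ker a) ∧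
    (LinearMap.range a ⊓ LinearMap.ker b) ⊓ (LinearMap.range b ⊓ LinearMap.ker a) = ⊥ ∧
    Module.finrank k (LinearMap.range (a * b - b * a)) = d := by
  have h1 := range_ab_le a b hbab
  have h2 := range_ab_le b a haba
  have h3 := rank_comp a b
  have h4 := rank_comp b a
  have h5 := range_comm_le a b haba hbab
  have h6 := Submodule.finrank_mono h5
  have h7 := Submodule.finrank_add_le_finrank_add_finrank
    (LinearMap.range a ⊓ LinearMap.ker b) (LinearMap.range b ⊓ LinearMap.ker a)
  have h8 := Submodule.finrank_mono h1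
  have h9 := Submodule.finrank_mono h2
  have h5' : LinearMap.range (a * b - b * a) ≤ LinearMap.range (a * b) ⊔ LinearMap.range (b * a) := by
    rintro _ ⟨w, rfl⟩
    rw [LinearMap.sub_apply, sub_eq_add_neg]
    exact Submodule.add_mem_sup ⟨w, rfl⟩ (Submodule.neg_mem _ ⟨w, rfl⟩)
  have h6' := Submodule.finrank_mono h5'
  have h7' := Submodule.finrank_add_le_finrank_add_finrank
    (LinearMap.range (a * b)) (LinearMap.range (b * a))
  have hxy : Module.finrank k (LinearMap.range a ⊓ LinearMap.ker b : Submodule k M) +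
      Module.finrank k (LinearMap.range b ⊓ LinearMap.ker a : Submodule k M) = d := by omega
  have hrc : LinearMap.range (a * b - b * a) =
      (LinearMap.range a ⊓ LinearMap.ker b) ⊔ (LinearMap.range b ⊓ LinearMap.ker a) :=
    Submodule.eq_of_le_of_finrank_le h5 (by omega)
  have hrank : Module.finrank k (LinearMap.range (a * b - b * a)) = d := by omega
  have h10 := Submodule.finrank_sup_add_finrank_inf_eq
    (LinearMap.range a ⊓ LinearMap.ker b) (LinearMap.range b ⊓ LinearMap.ker a)
  have hbot : (LinearMap.range a ⊓ LinearMap.ker b) ⊓ (LinearMap.range b ⊓ LinearMap.ker a) = ⊥ := by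
    apply Submodule.finrank_eq_zero.mp
    rw [← hrc] at h10
    omega
  refine ⟨hxy, hrc, ?_, hbot, hrank⟩
  have h11 := le_ker_comm a b haba hbab
  have h12 := Submodule.finrank_sup_add_finrank_inf_eq (LinearMap.range a) (LinearMap.ker b)
  have h13 := Submodule.finrank_sup_add_finrank_inf_eq (LinearMap.range b) (LinearMap.ker a)
  have h14 := LinearMap.finrank_range_add_finrank_ker a
  have h15 := LinearMap.finrank_range_add_finrank_ker b
  have h16 := LinearMap.finrank_range_add_finrank_ker (a * b - b * a)
  have h17 := Submodule.finrank_sup_add_finrank_inf_eq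
    (LinearMap.range a ⊔ LinearMap.ker b) (LinearMap.range b ⊔ LinearMap.ker a)
  have h18 := Submodule.finrank_le
    ((LinearMap.range a ⊔ LinearMap.ker b) ⊔ (LinearMap.range b ⊔ LinearMap.ker a))
  exact (Submodule.eq_of_le_of_finrank_le h11 (by omega)).symm

/-- Non-vanishing of the commutator in the class two case. -/
theorem comm_ne_zero (a b : Module.End k M) (haba : a * (b * a) = 0) (hbab : b * (a * b) = 0)
    (d : ℕ) (hd : d ≠ 0) (hda : Module.finrank k (LinearMap.range a) = d)
    (hdb : Module.finrank k (LinearMap.range b) = d)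
    (hxy : Module.finrank k (LinearMap.range a ⊓ LinearMap.ker b : Submodule k M) +
      Module.finrank k (LinearMap.range b ⊓ LinearMap.ker a : Submodule k M) = d)
    (hbot : (LinearMap.range a ⊓ LinearMap.ker b) ⊓ (LinearMap.range b ⊓ LinearMap.ker a) = ⊥) :
    a * b - b * a ≠ 0 := by
  intro h
  have hab : a * b = b * a := sub_eq_zero.mp h
  have h1 := range_ab_le a b hbab
  have h2 := range_ab_le b a haba
  have h3 := rank_comp a b
  have h4 := rank_comp b a
  have h5 : LinearMap.range (a * b) = ⊥ := by
    rw [eq_bot_iff, ← hbot]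
    exact le_inf h1 (hab ▸ h2)
  have h6 : LinearMap.range (b * a) = ⊥ := by
    rw [← hab]
    exact h5
  rw [h5, finrank_bot] at h3
  rw [h6, finrank_bot] at h4
  omega

end dims

end Cfsg.Agent.Helper5.QPair
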