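import Cfsg.Agent.Helper5.QPairM

set_option autoImplicit false
set_option linter.unusedSimpArgs false
set_option linter.unusedVariables false
set_option linter.unusedSectionVars false

/-! Quadratic pairs: two root subgroups `E(σ)`, `E(τ)` generating a unipotent group
(S5066 / S5068 / S5073): the commutators. -/

namespace Cfsg.Agent.Helper5.QPair

open Polynomial Matrix
open scoped commutatorElement

variable {k : Type*} [Field k] {M : Type*} [AddCommGroup M] [Module k M] [FiniteDimensional k M]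
  {G : Subgroup (LinearMap.GeneralLinearGroup k M)}

/-- The two elements are opposite. -/
def Opp (x y : LinearMap.GeneralLinearGroup k M) : Prop :=
  LinearMap.range ((x : M →ₗ[k] M) - 1) ⊓ LinearMap.ker ((y : M →ₗ[k] M) - 1) = ⊥ ∧
    LinearMap.range ((y : M →ₗ[k] M) - 1) ⊓ LinearMap.ker ((x : M →ₗ[k] M) - 1) = ⊥

theorem Opp.symm {x y : LinearMap.GeneralLinearGroup k M} (h : Opp x y) : Opp y x := ⟨h.2, h.1⟩

theorem opp_congr {x y x' y' : LinearMap.GeneralLinearGroup k M}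
    (hxr : LinearMap.range ((x' : M →ₗ[k] M) - 1) = LinearMap.range ((x : M →ₗ[k] M) - 1))
    (hxk : LinearMap.ker ((x' : M →ₗ[k] M) - 1) = LinearMap.ker ((x : M →ₗ[k] M) - 1))
    (hyr : LinearMap.range ((y' : M →ₗ[k] M) - 1) = LinearMap.range ((y : M →ₗ[k] M) - 1))
    (hyk : LinearMap.ker ((y' : M →ₗ[k] M) - 1) = LinearMap.ker ((y : M →ₗ[k] M) - 1)) :
    Opp x' y' ↔ Opp x y := by
  unfold Opp
  rw [hxr, hxk, hyr, hyk]

/-- The standing hypotheses of the unipotent case. -/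
structure C2 (G : Subgroup (LinearMap.GeneralLinearGroup k M))
    (σ τ : LinearMap.GeneralLinearGroup k M) : Prop where
  htwo : (2 : k) ≠ 0
  ha : ∃ a : k, a ≠ 0 ∧ a ^ 2 ≠ 1
  hσ : σ ∈ Cfsg.minimalQuadraticElements G
  hτ : τ ∈ Cfsg.minimalQuadraticElements G
  hno : ¬ Opp σ τ

theorem C2.symm {σ τ : LinearMap.GeneralLinearGroup k M} (h : C2 G σ τ) : C2 G τ σ :=
  ⟨h.htwo, h.ha, h.hτ, h.hσ, fun h' => h.hno h'.symm⟩

theorem rank_eq_of_min {σ τ : LinearMap.GeneralLinearGroup k M}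
    (hσ : σ ∈ Cfsg.minimalQuadraticElements G) (hτ : τ ∈ Cfsg.minimalQuadraticElements G) :
    Module.finrank k (LinearMap.range ((τ : M →ₗ[k] M) - 1)) =
      Module.finrank k (LinearMap.range ((σ : M →ₗ[k] M) - 1)) :=
  le_antisymm (hτ.2 σ hσ.1) (hσ.2 τ hτ.1)

theorem rank_ne_zero {σ : LinearMap.GeneralLinearGroup k M}
    (hσ : σ ∈ Cfsg.minimalQuadraticElements G) :
    Module.finrank k (LinearMap.range ((σ : M →ₗ[k] M) - 1)) ≠ 0 := by
  intro h
  apply hσ.1.2.1.2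
  rw [← LinearMap.range_eq_bot]
  exact Submodule.finrank_eq_zero.mp h

namespace C2

variable {σ τ : LinearMap.GeneralLinearGroup k M} (h : C2 G σ τ)

include h

theorem aba {α β : LinearMap.GeneralLinearGroup k M} (hα : α ∈ Cfsg.sameActionClass G σ)
    (hβ : β ∈ Cfsg.sameActionClass G τ) :
    ((α : M →ₗ[k] M) - 1) * (((β : M →ₗ[k] M) - 1) * ((α : M →ₗ[k] M) - 1)) = 0 ∧
    ((β : M →ₗ[k] M) - 1) * (((α : M →ₗ[k] M) - 1) * ((β : M →ₗ[k] M) - 1)) = 0 := by
  apply aba_of_not_opp h.htwo h.ha hα.1 hβ.1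
  intro h'
  exact h.hno ((opp_congr hα.2.2 hα.2.1 hβ.2.2 hβ.2.1).mp h')

theorem comm_val {α β : LinearMap.GeneralLinearGroup k M} (hα : α ∈ Cfsg.sameActionClass G σ)
    (hβ : β ∈ Cfsg.sameActionClass G τ) :
    ((⁅α, β⁆ : LinearMap.GeneralLinearGroup k M) : Module.End k M) =
      1 + (((α : M →ₗ[k] M) - 1) * ((β : M →ₗ[k] M) - 1) -
        ((β : M →ₗ[k] M) - 1) * ((α : M →ₗ[k] M) - 1)) := by
  obtain ⟨h1, h2⟩ := h.aba hα hβ
  have haa := hα.1.1.2.1.1
  have hbb := hβ.1.1.2.1.1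
  have hαv : (α : Module.End k M) = 1 + ((α : M →ₗ[k] M) - 1) := by abel
  have hβv : (β : Module.End k M) = 1 + ((β : M →ₗ[k] M) - 1) := by abel
  rw [commutatorElement_def, Units.val_mul, Units.val_mul, Units.val_mul,
    inv_val_of α _ haa hαv, inv_val_of β _ hbb hβv]
  rw [← comm_formula _ _ haa hbb h1 h2, ← hαv, ← hβv]

theorem comm_sq' {α β : LinearMap.GeneralLinearGroup k M} (hα : α ∈ Cfsg.sameActionClass G σ)
    (hβ : β ∈ Cfsg.sameActionClass G τ) :
    (((α : M →ₗ[k] M) - 1) * ((β : M →ₗ[k] M) - 1) -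
        ((β : M →ₗ[k] M) - 1) * ((α : M →ₗ[k] M) - 1)) *
      (((α : M →ₗ[k] M) - 1) * ((β : M →ₗ[k] M) - 1) -
        ((β : M →ₗ[k] M) - 1) * ((α : M →ₗ[k] M) - 1)) = 0 := by
  obtain ⟨h1, h2⟩ := h.aba hα hβ
  exact comm_sq _ _ hα.1.1.2.1.1 hβ.1.1.2.1.1 h1 h2

/-- The scalar family of a commutator. -/
theorem comm_fam {α β : LinearMap.GeneralLinearGroup k M} (hα : α ∈ Cfsg.sameActionClass G σ)
    (hβ : β ∈ Cfsg.sameActionClass G τ) :
    Fam G (((α : M →ₗ[k] M) - 1) * ((β : M →ₗ[k] M) - 1) -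
        ((β : M →ₗ[k] M) - 1) * ((α : M →ₗ[k] M) - 1)) := by
  intro t
  have hsq : (t • ((α : M →ₗ[k] M) - 1)) * (t • ((α : M →ₗ[k] M) - 1)) = 0 := by
    rw [smul_mul_smul_comm, hα.1.1.2.1.1, smul_zero]
  have hmem : unitOf (t • ((α : M →ₗ[k] M) - 1)) hsq ∈ Cfsg.sameActionSubgroup G σ := by
    refine mem_sameAction h.hσ _ (t • ((α : M →ₗ[k] M) - 1)) rfl hsq
      (fam_smul (fam_of_mem hα.1.1) t) ?_ ?_
    · exact (range_smul_le t _).trans hα.2.2.le
    · exact hα.2.1.ge.trans (ker_le_smul t _)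
  by_cases ht : t = 0
  · subst ht
    exact ⟨1, G.one_mem, by rw [zero_smul, add_zero]; rfl⟩
  · have hne : unitOf (t • ((α : M →ₗ[k] M) - 1)) hsq ≠ 1 := by
      intro h1
      have h2 := congrArg Units.val h1
      rw [unitOf_val, Units.val_one] at h2
      have h3 : t • ((α : M →ₗ[k] M) - 1) = 0 := add_eq_left.mp h2
      rcases smul_eq_zero.mp h3 with h4 | h4
      · exact ht h4
      · exact hα.1.1.2.1.2 h4
    have hcl : unitOf (t • ((α : M →ₗ[k] M) - 1)) hsq ∈ Cfsg.sameActionClass G σ := by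
      have : unitOf (t • ((α : M →ₗ[k] M) - 1)) hsq ∈ Subgroup.closure (Cfsg.sameActionClass G σ) :=
        hmem
      -- a non-identity element with the right kernel and range
      have hrank := hmin_of_mem h.hσ (t • ((α : M →ₗ[k] M) - 1)) hsq (by
        intro h3
        rcases smul_eq_zero.mp h3 with h4 | h4
        · exact ht h4
        · exact hα.1.1.2.1.2 h4) (fam_smul (fam_of_mem hα.1.1) t)
      have hval : ((unitOf (t • ((α : M →ₗ[k] M) - 1)) hsq : LinearMap.GeneralLinearGroup k M) :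
          M →ₗ[k] M) - 1 = t • ((α : M →ₗ[k] M) - 1) := by
        rw [unitOf_val]
        abel
      have hr : LinearMap.range (t • ((α : M →ₗ[k] M) - 1)) =
          LinearMap.range ((σ : M →ₗ[k] M) - 1) :=
        Submodule.eq_of_le_of_finrank_le ((range_smul_le t _).trans hα.2.2.le) hrank
      have hk : LinearMap.ker (t • ((α : M →ₗ[k] M) - 1)) =
          LinearMap.ker ((σ : M →ₗ[k] M) - 1) := by
        apply le_antisymm
        · intro v hv
          rw [LinearMap.mem_ker, LinearMap.smul_apply] at hv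
          rcases smul_eq_zero.mp hv with h4 | h4
          · exact absurd h4 ht
          · rw [← hα.2.1]
            exact LinearMap.mem_ker.mpr h4
        · exact hα.2.1.ge.trans (ker_le_smul t _)
      obtain ⟨z, hz, hz1⟩ := QP.mp (G := G) (t • ((α : M →ₗ[k] M) - 1)) hsq (by
        intro h3
        rcases smul_eq_zero.mp h3 with h4 | h4
        · exact ht h4
        · exact hα.1.1.2.1.2 h4) (fam_smul (fam_of_mem hα.1.1) t)
      have hzy : z = unitOf (t • ((α : M →ₗ[k] M) - 1)) hsq := by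
        apply Units.ext
        rw [unitOf_val, ← hz1]
        abel
      rw [← hzy]
      refine ⟨⟨hz, fun τ' hτ' => ?_⟩, ?_, ?_⟩
      · show Module.finrank k (LinearMap.range ((z : M →ₗ[k] M) - 1)) ≤ _
        rw [hz1, hr]
        exact h.hσ.2 τ' hτ'
      · rw [hz1]
        exact hk
      · rw [hz1]
        exact hr
    refine ⟨⁅unitOf (t • ((α : M →ₗ[k] M) - 1)) hsq, β⁆,
      G.mul_mem (G.mul_mem (G.mul_mem hcl.1.1.1 hβ.1.1.1) (G.inv_mem hcl.1.1.1))
        (G.inv_mem hβ.1.1.1), ?_⟩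
    rw [h.comm_val hcl hβ]
    have hval : ((unitOf (t • ((α : M →ₗ[k] M) - 1)) hsq : LinearMap.GeneralLinearGroup k M) :
        M →ₗ[k] M) - 1 = t • ((α : M →ₗ[k] M) - 1) := by
      rw [unitOf_val]
      abel
    rw [hval, smul_mul_assoc, mul_smul_comm, smul_sub]


end C2

/-- The commutator space of the expected commutator subgroup. -/
def WW (σ τ : LinearMap.GeneralLinearGroup k M) : Submodule k M :=
  (LinearMap.range ((σ : M →ₗ[k] M) - 1) ⊓ LinearMap.ker ((τ : M →ₗ[k] M) - 1)) ⊔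
    (LinearMap.range ((τ : M →ₗ[k] M) - 1) ⊓ LinearMap.ker ((σ : M →ₗ[k] M) - 1))

/-- The fixed space of the expected commutator subgroup. -/
def VV (σ τ : LinearMap.GeneralLinearGroup k M) : Submodule k M :=
  (LinearMap.range ((σ : M →ₗ[k] M) - 1) ⊔ LinearMap.ker ((τ : M →ₗ[k] M) - 1)) ⊓
    (LinearMap.range ((τ : M →ₗ[k] M) - 1) ⊔ LinearMap.ker ((σ : M →ₗ[k] M) - 1))

/-- The numerical condition of the class two case. -/
def Num (σ τ : LinearMap.GeneralLinearGroup k M) : Prop :=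
  Module.finrank k (LinearMap.range ((σ : M →ₗ[k] M) - 1) ⊓
      LinearMap.ker ((τ : M →ₗ[k] M) - 1) : Submodule k M) +
    Module.finrank k (LinearMap.range ((τ : M →ₗ[k] M) - 1) ⊓
      LinearMap.ker ((σ : M →ₗ[k] M) - 1) : Submodule k M) =
    Module.finrank k (LinearMap.range ((σ : M →ₗ[k] M) - 1)) ∧
  (LinearMap.range ((σ : M →ₗ[k] M) - 1) ⊓ LinearMap.ker ((τ : M →ₗ[k] M) - 1)) ⊓
    (LinearMap.range ((τ : M →ₗ[k] M) - 1) ⊓ LinearMap.ker ((σ : M →ₗ[k] M) - 1)) = ⊥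

theorem range_le_ker_of_mem {σ : LinearMap.GeneralLinearGroup k M}
    (hσ : σ ∈ Cfsg.minimalQuadraticElements G) :
    LinearMap.range ((σ : M →ₗ[k] M) - 1) ≤ LinearMap.ker ((σ : M →ₗ[k] M) - 1) :=
  range_le_ker_of_sq _ hσ.1.2.1.1

theorem WW_le_ker_left {σ τ : LinearMap.GeneralLinearGroup k M}
    (hσ : σ ∈ Cfsg.minimalQuadraticElements G) :
    WW σ τ ≤ LinearMap.ker ((σ : M →ₗ[k] M) - 1) :=
  sup_le (inf_le_left.trans (range_le_ker_of_mem hσ)) inf_le_right

theorem WW_le_ker_right {σ τ : LinearMap.GeneralLinearGroup k M}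
    (hτ : τ ∈ Cfsg.minimalQuadraticElements G) :
    WW σ τ ≤ LinearMap.ker ((τ : M →ₗ[k] M) - 1) :=
  sup_le inf_le_right (inf_le_left.trans (range_le_ker_of_mem hτ))

theorem range_le_VV_left {σ τ : LinearMap.GeneralLinearGroup k M}
    (hσ : σ ∈ Cfsg.minimalQuadraticElements G) :
    LinearMap.range ((σ : M →ₗ[k] M) - 1) ≤ VV σ τ :=
  le_inf le_sup_left ((range_le_ker_of_mem hσ).trans le_sup_right)

theorem range_le_VV_right {σ τ : LinearMap.GeneralLinearGroup k M}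
    (hτ : τ ∈ Cfsg.minimalQuadraticElements G) :
    LinearMap.range ((τ : M →ₗ[k] M) - 1) ≤ VV σ τ :=
  le_inf ((range_le_ker_of_mem hτ).trans le_sup_right) le_sup_left

theorem WW_le_VV {σ τ : LinearMap.GeneralLinearGroup k M}
    (hσ : σ ∈ Cfsg.minimalQuadraticElements G) (hτ : τ ∈ Cfsg.minimalQuadraticElements G) :
    WW σ τ ≤ VV σ τ :=
  sup_le (inf_le_left.trans (range_le_VV_left hσ)) (inf_le_left.trans (range_le_VV_right hτ))

namespace C2

variable {σ τ : LinearMap.GeneralLinearGroup k M} (h : C2 G σ τ)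

include h

/-- The rank count for a pair with non-trivial commutator. -/
theorem pair_dims {α β : LinearMap.GeneralLinearGroup k M} (hα : α ∈ Cfsg.sameActionClass G σ)
    (hβ : β ∈ Cfsg.sameActionClass G τ)
    (hc : ((α : M →ₗ[k] M) - 1) * ((β : M →ₗ[k] M) - 1) -
        ((β : M →ₗ[k] M) - 1) * ((α : M →ₗ[k] M) - 1) ≠ 0) :
    Num σ τ ∧
    LinearMap.range (((α : M →ₗ[k] M) - 1) * ((β : M →ₗ[k] M) - 1) -
        ((β : M →ₗ[k] M) - 1) * ((α : M →ₗ[k] M) - 1)) = WW σ τ ∧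
    LinearMap.ker (((α : M →ₗ[k] M) - 1) * ((β : M →ₗ[k] M) - 1) -
        ((β : M →ₗ[k] M) - 1) * ((α : M →ₗ[k] M) - 1)) = VV σ τ ∧
    Module.finrank k (LinearMap.range (((α : M →ₗ[k] M) - 1) * ((β : M →ₗ[k] M) - 1) -
        ((β : M →ₗ[k] M) - 1) * ((α : M →ₗ[k] M) - 1))) =
      Module.finrank k (LinearMap.range ((σ : M →ₗ[k] M) - 1)) := by
  obtain ⟨h1, h2⟩ := h.aba hα hβ
  have hd := hmin_of_mem h.hσ _ (h.comm_sq' hα hβ) hc (h.comm_fam hα hβ)
  have hda : Module.finrank k (LinearMap.range ((α : M →ₗ[k] M) - 1)) =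
      Module.finrank k (LinearMap.range ((σ : M →ₗ[k] M) - 1)) := by rw [hα.2.2]
  have hdb : Module.finrank k (LinearMap.range ((β : M →ₗ[k] M) - 1)) =
      Module.finrank k (LinearMap.range ((σ : M →ₗ[k] M) - 1)) := by
    rw [hβ.2.2]
    exact rank_eq_of_min h.hσ h.hτ
  have := class2_dims _ _ h1 h2 _ hda hdb hd
  rw [hα.2.2, hα.2.1, hβ.2.2, hβ.2.1] at this
  exact ⟨⟨this.1, this.2.2.2.1⟩, this.2.1, this.2.2.1, this.2.2.2.2⟩

/-- Non-vanishing of all commutators. -/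
theorem pair_ne (hnum : Num σ τ) {α β : LinearMap.GeneralLinearGroup k M}
    (hα : α ∈ Cfsg.sameActionClass G σ) (hβ : β ∈ Cfsg.sameActionClass G τ) :
    ((α : M →ₗ[k] M) - 1) * ((β : M →ₗ[k] M) - 1) -
        ((β : M →ₗ[k] M) - 1) * ((α : M →ₗ[k] M) - 1) ≠ 0 := by
  obtain ⟨h1, h2⟩ := h.aba hα hβ
  have hda : Module.finrank k (LinearMap.range ((α : M →ₗ[k] M) - 1)) =
      Module.finrank k (LinearMap.range ((σ : M →ₗ[k] M) - 1)) := by rw [hα.2.2]
  have hdb : Module.finrank k (LinearMap.range ((β : M →ₗ[k] M) - 1)) =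
      Module.finrank k (LinearMap.range ((σ : M →ₗ[k] M) - 1)) := by
    rw [hβ.2.2]
    exact rank_eq_of_min h.hσ h.hτ
  refine comm_ne_zero _ _ h1 h2 _ (rank_ne_zero h.hσ) hda hdb ?_ ?_
  · rw [hα.2.2, hα.2.1, hβ.2.2, hβ.2.1]
    exact hnum.1
  · rw [hα.2.2, hα.2.1, hβ.2.2, hβ.2.1]
    exact hnum.2

/-- A non-trivial commutator is a minimal quadratic element. -/
theorem rho_mem {α β : LinearMap.GeneralLinearGroup k M} (hα : α ∈ Cfsg.sameActionClass G σ)
    (hβ : β ∈ Cfsg.sameActionClass G τ)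
    (hc : ((α : M →ₗ[k] M) - 1) * ((β : M →ₗ[k] M) - 1) -
        ((β : M →ₗ[k] M) - 1) * ((α : M →ₗ[k] M) - 1) ≠ 0) :
    ⁅α, β⁆ ∈ Cfsg.minimalQuadraticElements G := by
  obtain ⟨z, hz, hz1⟩ := QP.mp (G := G) _ (h.comm_sq' hα hβ) hc (h.comm_fam hα hβ)
  have hzy : z = ⁅α, β⁆ := by
    apply Units.ext
    rw [h.comm_val hα hβ, ← hz1]
    abel
  rw [← hzy]
  refine ⟨hz, fun τ' hτ' => ?_⟩
  show Module.finrank k (LinearMap.range ((z : M →ₗ[k] M) - 1)) ≤ _
  rw [hz1, (h.pair_dims hα hβ hc).2.2.2]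
  exact h.hσ.2 τ' hτ'

theorem comm_sub_one {α β : LinearMap.GeneralLinearGroup k M}
    (hα : α ∈ Cfsg.sameActionClass G σ) (hβ : β ∈ Cfsg.sameActionClass G τ) :
    ((⁅α, β⁆ : LinearMap.GeneralLinearGroup k M) : M →ₗ[k] M) - 1 =
      ((α : M →ₗ[k] M) - 1) * ((β : M →ₗ[k] M) - 1) -
        ((β : M →ₗ[k] M) - 1) * ((α : M →ₗ[k] M) - 1) := by
  rw [h.comm_val hα hβ]
  abel

/-- All commutators lie in `E(ρ)`. -/
theorem comm_mem (hnum : Num σ τ) {ρ : LinearMap.GeneralLinearGroup k M}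
    (hρ : ρ ∈ Cfsg.minimalQuadraticElements G)
    (hρr : LinearMap.range ((ρ : M →ₗ[k] M) - 1) = WW σ τ)
    (hρk : LinearMap.ker ((ρ : M →ₗ[k] M) - 1) = VV σ τ)
    (hEσ : (Cfsg.sameActionSubgroup G σ : Set (LinearMap.GeneralLinearGroup k M)) =
      Cfsg.sameActionClass G σ ∪ {1})
    (hEτ : (Cfsg.sameActionSubgroup G τ : Set (LinearMap.GeneralLinearGroup k M)) =
      Cfsg.sameActionClass G τ ∪ {1})
    {α β : LinearMap.GeneralLinearGroup k M} (hα : α ∈ Cfsg.sameActionSubgroup G σ)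
    (hβ : β ∈ Cfsg.sameActionSubgroup G τ) : ⁅α, β⁆ ∈ Cfsg.sameActionSubgroup G ρ := by
  by_cases hα1 : α = 1
  · rw [hα1, commutatorElement_one_left]
    exact Subgroup.one_mem _
  by_cases hβ1 : β = 1
  · rw [hβ1, commutatorElement_one_right]
    exact Subgroup.one_mem _
  have hαc := mem_class_of_ne hEσ hα hα1
  have hβc := mem_class_of_ne hEτ hβ hβ1
  have hc := h.pair_ne hnum hαc hβc
  obtain ⟨-, hr, hk, -⟩ := h.pair_dims hαc hβc hc
  refine mem_sameAction hρ _ _ (h.comm_val hαc hβc) (h.comm_sq' hαc hβc) (h.comm_fam hαc hβc) ?_ ?_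
  · rw [hr, hρr]
  · rw [hk, hρk]

end C2


section oppcase

theorem eq_zero_of_opp_aba (a b : Module.End k M)
    (h1 : LinearMap.range a ⊓ LinearMap.ker b = ⊥) (h2 : LinearMap.range b ⊓ LinearMap.ker a = ⊥)
    (haba : a * (b * a) = 0) : a = 0 := by
  apply LinearMap.ext
  intro w
  have e1 : b (a w) ∈ LinearMap.range b ⊓ LinearMap.ker a :=
    ⟨⟨_, rfl⟩, LinearMap.mem_ker.mpr (congrArg (fun f : Module.End k M => f w) haba)⟩
  rw [h2, Submodule.mem_bot] at e1
  have e2 : a w ∈ LinearMap.range a ⊓ LinearMap.ker b := ⟨⟨_, rfl⟩, LinearMap.mem_ker.mpr e1⟩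
  rw [h1, Submodule.mem_bot] at e2
  exact e2

theorem norm_aux {S : Type*} [Ring S] (a b : S) (haa : a * a = 0) (hbb : b * b = 0)
    (h2 : ((1 + a) * b * (1 - a)) * b = 0) : b * (a * b) = 0 := by
  have hbb' : ∀ z, b * (b * z) = 0 := fun z => by rw [← mul_assoc, hbb, zero_mul]
  have e1 : ((1 + a) * b * (1 - a)) * b = -((1 + a) * (b * (a * b))) := by
    simp only [mul_add, add_mul, mul_sub, sub_mul, mul_one, one_mul, mul_assoc, hbb, hbb',
      mul_zero, zero_mul, add_zero, zero_add, sub_zero, zero_sub, neg_mul, mul_neg, neg_zero]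
  rw [e1, neg_eq_zero] at h2
  calc b * (a * b) = (1 - a) * ((1 + a) * (b * (a * b))) := by
        rw [← mul_assoc (1 - a), sub_mul, one_mul, mul_add, mul_one, haa]
        simp
    _ = 0 := by rw [h2, mul_zero]

theorem sub_one_comm {S : Type*} [Ring S] (x y : S) (h : x * y = y * x) :
    (x - 1) * (y - 1) = (y - 1) * (x - 1) := by
  calc (x - 1) * (y - 1) = x * y - x - y + 1 := by noncomm_ring
    _ = y * x - y - x + 1 := by rw [h]; abel
    _ = (y - 1) * (x - 1) := by noncomm_ring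

/-- In the opposite case no non-identity elements commute. -/
theorem opp_no_comm {σ τ : LinearMap.GeneralLinearGroup k M} (hopp : Opp σ τ)
    {α β : LinearMap.GeneralLinearGroup k M} (hα : α ∈ Cfsg.sameActionClass G σ)
    (hβ : β ∈ Cfsg.sameActionClass G τ) (hcomm : α * β = β * α) : False := by
  have h1 : (α : Module.End k M) * (β : Module.End k M) = (β : Module.End k M) * (α : Module.End k M) := by
    rw [← Units.val_mul, ← Units.val_mul, hcomm]
  have h2 := sub_one_comm _ _ h1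
  have hopp' : Opp α β := (opp_congr hα.2.2 hα.2.1 hβ.2.2 hβ.2.1).mpr hopp
  apply hα.1.1.2.1.2
  apply eq_zero_of_opp_aba _ _ hopp'.1 hopp'.2
  rw [← h2, ← mul_assoc, hα.1.1.2.1.1, zero_mul]

/-- In the opposite case no non-identity element of `E(σ)` normalizes `E(τ)`. -/
theorem opp_no_norm {σ τ : LinearMap.GeneralLinearGroup k M} (hopp : Opp σ τ)
    (hτ : τ ∈ Cfsg.minimalQuadraticElements G)
    (hEτ : (Cfsg.sameActionSubgroup G τ : Set (LinearMap.GeneralLinearGroup k M)) =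
      Cfsg.sameActionClass G τ ∪ {1})
    {α : LinearMap.GeneralLinearGroup k M} (hα : α ∈ Cfsg.sameActionClass G σ)
    (hn : α ∈ Subgroup.normalizer (Cfsg.sameActionSubgroup G τ : Set (LinearMap.GeneralLinearGroup k M))) :
    False := by
  have hτE : τ ∈ Cfsg.sameActionSubgroup G τ := Subgroup.subset_closure (self_mem_class hτ)
  have h1 : α * τ * α⁻¹ ∈ Cfsg.sameActionSubgroup G τ := (Subgroup.mem_normalizer_iff.mp hn τ).mp hτE
  obtain ⟨-, -, h3, h4⟩ := inE_of_mem hEτ h1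
  have haa := hα.1.1.2.1.1
  have hbb := hτ.1.2.1.1
  have hαv : (α : Module.End k M) = 1 + ((α : M →ₗ[k] M) - 1) := by abel
  have hval : ((α * τ * α⁻¹ : LinearMap.GeneralLinearGroup k M) : M →ₗ[k] M) - 1 =
      (1 + ((α : M →ₗ[k] M) - 1)) * ((τ : M →ₗ[k] M) - 1) * (1 - ((α : M →ₗ[k] M) - 1)) := by
    rw [Units.val_mul, Units.val_mul, inv_val_of α _ haa hαv, ← hαv]
    have e1 : (α : Module.End k M) * (1 - ((α : M →ₗ[k] M) - 1)) = 1 := by
      rw [← inv_val_of α _ haa hαv, Units.mul_inv]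
    calc (α : Module.End k M) * (τ : Module.End k M) * (1 - ((α : M →ₗ[k] M) - 1)) - 1
        = (α : Module.End k M) * (τ : Module.End k M) * (1 - ((α : M →ₗ[k] M) - 1)) -
            (α : Module.End k M) * (1 - ((α : M →ₗ[k] M) - 1)) := by rw [e1]
      _ = (α : Module.End k M) * ((τ : M →ₗ[k] M) - 1) * (1 - ((α : M →ₗ[k] M) - 1)) := by
          rw [mul_sub (α : Module.End k M) (τ : Module.End k M) 1, mul_one, sub_mul]
  rw [hval] at h3 h4
  have h5 : ((1 + ((α : M →ₗ[k] M) - 1)) * ((τ : M →ₗ[k] M) - 1) * (1 - ((α : M →ₗ[k] M) - 1))) *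
      ((τ : M →ₗ[k] M) - 1) = 0 :=
    mul_eq_zero_of_range_le_ker _ _ ((range_le_ker_of_mem hτ).trans h4)
  have h6 := norm_aux _ _ haa hbb h5
  have hopp' : Opp α τ := (opp_congr hα.2.2 hα.2.1 rfl rfl).mpr hopp
  exact hτ.1.2.1.2 (eq_zero_of_opp_aba _ _ hopp'.2 hopp'.1 h6)

end oppcase

namespace C2

variable {σ τ : LinearMap.GeneralLinearGroup k M} (h : C2 G σ τ)

include h

/-- If some commutator is non-trivial then the numerical condition holds. -/
theorem num_of_ne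
    (hEσ : (Cfsg.sameActionSubgroup G σ : Set (LinearMap.GeneralLinearGroup k M)) =
      Cfsg.sameActionClass G σ ∪ {1})
    (hEτ : (Cfsg.sameActionSubgroup G τ : Set (LinearMap.GeneralLinearGroup k M)) =
      Cfsg.sameActionClass G τ ∪ {1})
    (hne : ⁅Cfsg.sameActionSubgroup G σ, Cfsg.sameActionSubgroup G τ⁆ ≠ ⊥) :
    ∃ α ∈ Cfsg.sameActionClass G σ, ∃ β ∈ Cfsg.sameActionClass G τ,
      ((α : M →ₗ[k] M) - 1) * ((β : M →ₗ[k] M) - 1) -
        ((β : M →ₗ[k] M) - 1) * ((α : M →ₗ[k] M) - 1) ≠ 0 := by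
  by_contra hall
  push Not at hall
  apply hne
  rw [eq_bot_iff]
  apply Subgroup.commutator_le.mpr
  intro α hα β hβ
  rw [Subgroup.mem_bot]
  by_cases hα1 : α = 1
  · rw [hα1, commutatorElement_one_left]
  by_cases hβ1 : β = 1
  · rw [hβ1, commutatorElement_one_right]
  have hαc := mem_class_of_ne hEσ hα hα1
  have hβc := mem_class_of_ne hEτ hβ hβ1
  apply Units.ext
  rw [h.comm_val hαc hβc, hall α hαc β hβc, add_zero]
  rfl

/-- In the unipotent case with a non-trivial commutator no non-identity element of `E(σ)`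
normalizes `E(τ)`. -/
theorem no_norm (hnum : Num σ τ)
    (hEτ : (Cfsg.sameActionSubgroup G τ : Set (LinearMap.GeneralLinearGroup k M)) =
      Cfsg.sameActionClass G τ ∪ {1})
    {α : LinearMap.GeneralLinearGroup k M} (hα : α ∈ Cfsg.sameActionClass G σ)
    (hn : α ∈ Subgroup.normalizer (Cfsg.sameActionSubgroup G τ : Set (LinearMap.GeneralLinearGroup k M))) :
    False := by
  have hτc := self_mem_class h.hτ
  have hτE : τ ∈ Cfsg.sameActionSubgroup G τ := Subgroup.subset_closure hτc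
  have h1 : α * τ * α⁻¹ ∈ Cfsg.sameActionSubgroup G τ := (Subgroup.mem_normalizer_iff.mp hn τ).mp hτE
  have h2 : ⁅α, τ⁆ ∈ Cfsg.sameActionSubgroup G τ := by
    rw [commutatorElement_def]
    exact Subgroup.mul_mem _ h1 (Subgroup.inv_mem _ hτE)
  have hc := h.pair_ne hnum hα hτc
  obtain ⟨-, hr, hk, -⟩ := h.pair_dims hα hτc hc
  have hne1 : ⁅α, τ⁆ ≠ 1 := by
    intro h3
    apply hc
    rw [← h.comm_sub_one hα hτc, h3]
    exact sub_self _
  obtain ⟨-, hk', hr'⟩ := mem_class_of_ne hEτ h2 hne1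
  rw [h.comm_sub_one hα hτc, hk] at hk'
  rw [h.comm_sub_one hα hτc, hr] at hr'
  -- `R_τ = WW ≤ K_σ` and `R_σ ≤ VV = K_τ`
  have e1 : LinearMap.range ((τ : M →ₗ[k] M) - 1) ⊓ LinearMap.ker ((σ : M →ₗ[k] M) - 1) =
      LinearMap.range ((τ : M →ₗ[k] M) - 1) := by
    apply inf_eq_left.mpr
    rw [← hr']
    exact WW_le_ker_left h.hσ
  have e2 : LinearMap.range ((σ : M →ₗ[k] M) - 1) ⊓ LinearMap.ker ((τ : M →ₗ[k] M) - 1) =
      LinearMap.range ((σ : M →ₗ[k] M) - 1) := by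
    apply inf_eq_left.mpr
    rw [← hk']
    exact range_le_VV_left h.hσ
  have e3 := hnum.1
  rw [e1, e2, rank_eq_of_min h.hσ h.hτ] at e3
  have e4 := rank_ne_zero h.hσ
  omega

end C2

end Cfsg.Agent.Helper5.QPair
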