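import Cfsg.Agent.Helper5.QPairN

set_option autoImplicit false
set_option linter.unusedSimpArgs false
set_option linter.unusedVariables false
set_option linter.unusedSectionVars false

/-! Quadratic pairs: tools for the class two case (S5066 / S5068): a commutator lemma for groups,
conjugation of root subgroups, the spaces `L(σ)` and their dimensions. -/

namespace Cfsg.Agent.Helper5.QPair

open Polynomial Matrix
open scoped commutatorElement

section grp

variable {Γ : Type*} [Group Γ]

/-- If `E`, `F` are abelian and all commutators `⁅e, f⁆` lie in a subgroup `D` centralized by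
`E ⊔ F`, then the commutator subgroup of `E ⊔ F` lies in `D`. -/
theorem comm_le_of_central (E F D : Subgroup Γ)
    (hE : ∀ x ∈ E, ∀ y ∈ E, x * y = y * x) (hF : ∀ x ∈ F, ∀ y ∈ F, x * y = y * x)
    (hEF : ∀ x ∈ E, ∀ y ∈ F, ⁅x, y⁆ ∈ D) (hD : ∀ x ∈ E ⊔ F, ∀ z ∈ D, x * z * x⁻¹ = z) :
    ⁅E ⊔ F, E ⊔ F⁆ ≤ D := by
  have hX : E ⊔ F = Subgroup.closure ((E : Set Γ) ∪ F) := by
    rw [Subgroup.closure_union, Subgroup.closure_eq, Subgroup.closure_eq]
  have hgen : ∀ g ∈ (E : Set Γ) ∪ F, ∀ y ∈ (E : Set Γ) ∪ F, ⁅g, y⁆ ∈ D := by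
    rintro g (hg | hg) y (hy | hy)
    · rw [commutatorElement_eq_one_iff_mul_comm.mpr (hE g hg y hy)]
      exact D.one_mem
    · exact hEF g hg y hy
    · rw [← commutatorElement_inv]
      exact D.inv_mem (hEF y hy g hg)
    · rw [commutatorElement_eq_one_iff_mul_comm.mpr (hF g hg y hy)]
      exact D.one_mem
  have stepA : ∀ g ∈ (E : Set Γ) ∪ F, ∀ y ∈ E ⊔ F, ⁅g, y⁆ ∈ D := by
    intro g hg y hy
    rw [hX] at hy
    induction hy using Subgroup.closure_induction with
    | mem y hy => exact hgen g hg y hy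
    | one =>
      rw [commutatorElement_one_right]
      exact D.one_mem
    | mul y y' hy hy' ih ih' =>
      have hyX : y ∈ E ⊔ F := by rw [hX]; exact hy
      rw [commutatorElement_mul_right_eq_mul_conj, mul_assoc, mul_assoc, ← mul_assoc y,
        hD y hyX _ ih']
      exact D.mul_mem ih ih'
    | inv y hy ih =>
      have hyX : y⁻¹ ∈ E ⊔ F := by rw [hX]; exact inv_mem hy
      have e : ⁅g, y⁻¹⁆ = y⁻¹ * ⁅g, y⁆⁻¹ * y⁻¹⁻¹ := by
        rw [commutatorElement_inv_right, commutatorElement_inv, inv_inv]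
      rw [e, hD y⁻¹ hyX _ (D.inv_mem ih)]
      exact D.inv_mem ih
  apply Subgroup.commutator_le.mpr
  intro x hx y hy
  rw [hX] at hx
  induction hx using Subgroup.closure_induction with
  | mem x hx => exact stepA x hx y hy
  | one =>
    rw [commutatorElement_one_left]
    exact D.one_mem
  | mul x x' hx hx' ih ih' =>
    have hxX : x ∈ E ⊔ F := by rw [hX]; exact hx
    rw [commutatorElement_mul_left_eq_conj_mul, hD x hxX _ ih']
    exact D.mul_mem ih' ih
  | inv x hx ih =>
    have hxX : x⁻¹ ∈ E ⊔ F := by rw [hX]; exact inv_mem hx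
    have e : ⁅x⁻¹, y⁆ = x⁻¹ * ⁅x, y⁆⁻¹ * x⁻¹⁻¹ := by
      rw [commutatorElement_inv_left, commutatorElement_inv, inv_inv]
    rw [e, hD x⁻¹ hxX _ (D.inv_mem ih)]
    exact D.inv_mem ih

theorem conjBy_conjBy (A : Subgroup Γ) (g h : Γ) :
    Cfsg.conjBy (Cfsg.conjBy A g) h = Cfsg.conjBy A (h * g) := by
  ext x
  constructor
  · rintro ⟨_, ⟨y, hy, rfl⟩, rfl⟩
    exact ⟨y, hy, by simp [MulAut.conj_apply, mul_assoc]⟩
  · rintro ⟨y, hy, rfl⟩
    exact ⟨_, ⟨y, hy, rfl⟩, by simp [MulAut.conj_apply, mul_assoc]⟩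

theorem conjBy_one (A : Subgroup Γ) : Cfsg.conjBy A 1 = A := by
  ext x
  constructor
  · rintro ⟨y, hy, rfl⟩
    simpa using hy
  · intro hx
    exact ⟨x, hx, by simp⟩

theorem mem_conjBy {A : Subgroup Γ} {g x : Γ} (hx : x ∈ A) : g * x * g⁻¹ ∈ Cfsg.conjBy A g :=
  ⟨x, hx, by simp [MulAut.conj_apply]⟩

theorem mem_conjBy_iff {A : Subgroup Γ} {g x : Γ} : x ∈ Cfsg.conjBy A g ↔ g⁻¹ * x * g ∈ A := by
  constructor
  · rintro ⟨y, hy, rfl⟩
    have : g⁻¹ * ((MulAut.conj g).toMonoidHom y) * g = y := by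
      simp [MulAut.conj_apply, mul_assoc]
    rw [this]
    exact hy
  · intro hx
    exact ⟨_, hx, by simp [MulAut.conj_apply, mul_assoc]⟩

end grp

variable {k : Type*} [Field k] {M : Type*} [AddCommGroup M] [Module k M] [FiniteDimensional k M]
  {G : Subgroup (LinearMap.GeneralLinearGroup k M)}

theorem DF_of_mem_closure (F : ℕ → Submodule k M) (hF : ∀ j, F (j + 1) ≤ F j)
    (S : Set (LinearMap.GeneralLinearGroup k M)) (hgen : ∀ g ∈ S, DF F g)
    {g : LinearMap.GeneralLinearGroup k M} (hg : g ∈ Subgroup.closure S) : DF F g := by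
  induction hg using Subgroup.closure_induction with
  | mem x hx => exact hgen x hx
  | one => exact DF_one F
  | mul x y _ _ hx hy => exact DF_mul F hF hx hy
  | inv x _ hx => exact DF_inv F hx

theorem fixed_E {ρ : LinearMap.GeneralLinearGroup k M}
    (hρ : ρ ∈ Cfsg.minimalQuadraticElements G)
    (hEρ : (Cfsg.sameActionSubgroup G ρ : Set (LinearMap.GeneralLinearGroup k M)) =
      Cfsg.sameActionClass G ρ ∪ {1}) :
    Cfsg.fixedSubmodule (Cfsg.sameActionSubgroup G ρ) = LinearMap.ker ((ρ : M →ₗ[k] M) - 1) := by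
  apply le_antisymm
  · exact iInf₂_le (f := fun (g : LinearMap.GeneralLinearGroup k M)
      (_ : g ∈ Cfsg.sameActionSubgroup G ρ) => LinearMap.ker ((g : M →ₗ[k] M) - 1)) ρ
      (Subgroup.subset_closure (self_mem_class hρ))
  · apply le_iInf₂
    intro g hg
    exact (inE_of_mem hEρ hg).2.2.2

theorem comm_E {ρ : LinearMap.GeneralLinearGroup k M}
    (hρ : ρ ∈ Cfsg.minimalQuadraticElements G)
    (hEρ : (Cfsg.sameActionSubgroup G ρ : Set (LinearMap.GeneralLinearGroup k M)) =
      Cfsg.sameActionClass G ρ ∪ {1}) :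
    Cfsg.commutatorSubmodule (Cfsg.sameActionSubgroup G ρ) =
      LinearMap.range ((ρ : M →ₗ[k] M) - 1) := by
  apply le_antisymm
  · apply iSup₂_le
    intro g hg
    exact (inE_of_mem hEρ hg).2.2.1
  · exact le_iSup₂ (f := fun (g : LinearMap.GeneralLinearGroup k M)
      (_ : g ∈ Cfsg.sameActionSubgroup G ρ) => LinearMap.range ((g : M →ₗ[k] M) - 1)) ρ
      (Subgroup.subset_closure (self_mem_class hρ))

theorem E_le_G (σ : LinearMap.GeneralLinearGroup k M) : Cfsg.sameActionSubgroup G σ ≤ G :=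
  (Subgroup.closure_le _).mpr fun x hx => hx.1.1.1

theorem E_eq_of_class {σ α : LinearMap.GeneralLinearGroup k M}
    (hα : α ∈ Cfsg.sameActionClass G σ) :
    Cfsg.sameActionSubgroup G α = Cfsg.sameActionSubgroup G σ := by
  have : Cfsg.sameActionClass G α = Cfsg.sameActionClass G σ := by
    ext y
    simp only [Cfsg.sameActionClass, Set.mem_ofPred_eq, hα.2.1, hα.2.2]
  unfold Cfsg.sameActionSubgroup
  rw [this]


section conj

theorem conj_sub_one (g x : LinearMap.GeneralLinearGroup k M) :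
    ((g * x * g⁻¹ : LinearMap.GeneralLinearGroup k M) : Module.End k M) - 1 =
      (g : Module.End k M) * ((x : Module.End k M) - 1) *
        ((g⁻¹ : LinearMap.GeneralLinearGroup k M) : Module.End k M) := by
  rw [Units.val_mul, Units.val_mul, mul_sub, sub_mul, mul_one, Units.mul_inv]

theorem range_conj (g : LinearMap.GeneralLinearGroup k M) (T : Module.End k M) :
    LinearMap.range ((g : Module.End k M) * T *
        ((g⁻¹ : LinearMap.GeneralLinearGroup k M) : Module.End k M)) =
      (LinearMap.range T).map (g : Module.End k M) := by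
  ext v
  constructor
  · rintro ⟨w, rfl⟩
    exact ⟨T (((g⁻¹ : LinearMap.GeneralLinearGroup k M) : Module.End k M) w), ⟨_, rfl⟩, rfl⟩
  · rintro ⟨_, ⟨w, rfl⟩, rfl⟩
    refine ⟨(g : Module.End k M) w, ?_⟩
    show (g : Module.End k M) (T (((g⁻¹ : LinearMap.GeneralLinearGroup k M) : Module.End k M)
      ((g : Module.End k M) w))) = _
    have : ((g⁻¹ : LinearMap.GeneralLinearGroup k M) : Module.End k M) ((g : Module.End k M) w) = w := by
      have := congrArg (fun f : Module.End k M => f w) (Units.inv_mul g)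
      exact this
    rw [this]

theorem ker_conj (g : LinearMap.GeneralLinearGroup k M) (T : Module.End k M) :
    LinearMap.ker ((g : Module.End k M) * T *
        ((g⁻¹ : LinearMap.GeneralLinearGroup k M) : Module.End k M)) =
      (LinearMap.ker T).map (g : Module.End k M) := by
  have hgi : ∀ w, ((g⁻¹ : LinearMap.GeneralLinearGroup k M) : Module.End k M)
      ((g : Module.End k M) w) = w := fun w =>
    congrArg (fun f : Module.End k M => f w) (Units.inv_mul g)
  have hig : ∀ w, (g : Module.End k M)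
      (((g⁻¹ : LinearMap.GeneralLinearGroup k M) : Module.End k M) w) = w := fun w =>
    congrArg (fun f : Module.End k M => f w) (Units.mul_inv g)
  ext v
  constructor
  · intro hv
    rw [LinearMap.mem_ker] at hv
    refine ⟨((g⁻¹ : LinearMap.GeneralLinearGroup k M) : Module.End k M) v, ?_, hig v⟩
    rw [SetLike.mem_coe, LinearMap.mem_ker]
    have h1 : (g : Module.End k M) (T (((g⁻¹ : LinearMap.GeneralLinearGroup k M) :
        Module.End k M) v)) = 0 := hv
    have h2 := congrArg (((g⁻¹ : LinearMap.GeneralLinearGroup k M) : Module.End k M)) h1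
    rw [hgi, map_zero] at h2
    exact h2
  · rintro ⟨w, hw, rfl⟩
    rw [SetLike.mem_coe, LinearMap.mem_ker] at hw
    rw [LinearMap.mem_ker]
    show (g : Module.End k M) (T (((g⁻¹ : LinearMap.GeneralLinearGroup k M) : Module.End k M)
      ((g : Module.End k M) w))) = 0
    rw [hgi, hw, map_zero]

theorem unit_injective (g : LinearMap.GeneralLinearGroup k M) :
    Function.Injective (g : Module.End k M) := by
  intro v w hvw
  have hgi : ∀ w, ((g⁻¹ : LinearMap.GeneralLinearGroup k M) : Module.End k M)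
      ((g : Module.End k M) w) = w := fun w =>
    congrArg (fun f : Module.End k M => f w) (Units.inv_mul g)
  rw [← hgi v, ← hgi w, hvw]

theorem finrank_map_unit (g : LinearMap.GeneralLinearGroup k M) (p : Submodule k M) :
    Module.finrank k (p.map (g : Module.End k M)) = Module.finrank k p :=
  (LinearEquiv.finrank_eq (Submodule.equivMapOfInjective _ (unit_injective g) p)).symm

/-- Conjugates of minimal quadratic elements are minimal quadratic elements. -/
theorem conj_mem_min {x g : LinearMap.GeneralLinearGroup k M}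
    (hx : x ∈ Cfsg.minimalQuadraticElements G) (hg : g ∈ G) :
    g * x * g⁻¹ ∈ Cfsg.minimalQuadraticElements G := by
  have hsq : ((g : Module.End k M) * ((x : Module.End k M) - 1) *
        ((g⁻¹ : LinearMap.GeneralLinearGroup k M) : Module.End k M)) *
      ((g : Module.End k M) * ((x : Module.End k M) - 1) *
        ((g⁻¹ : LinearMap.GeneralLinearGroup k M) : Module.End k M)) = 0 := by
    have : ∀ T : Module.End k M, ((g : Module.End k M) * T *
        ((g⁻¹ : LinearMap.GeneralLinearGroup k M) : Module.End k M)) *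
      ((g : Module.End k M) * T *
        ((g⁻¹ : LinearMap.GeneralLinearGroup k M) : Module.End k M)) =
        (g : Module.End k M) * (T * T) *
          ((g⁻¹ : LinearMap.GeneralLinearGroup k M) : Module.End k M) := by
      intro T
      calc ((g : Module.End k M) * T *
            ((g⁻¹ : LinearMap.GeneralLinearGroup k M) : Module.End k M)) *
          ((g : Module.End k M) * T *
            ((g⁻¹ : LinearMap.GeneralLinearGroup k M) : Module.End k M))
          = (g : Module.End k M) * T *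
            ((((g⁻¹ : LinearMap.GeneralLinearGroup k M) : Module.End k M)) *
              (g : Module.End k M)) * T *
            ((g⁻¹ : LinearMap.GeneralLinearGroup k M) : Module.End k M) := by
            simp only [mul_assoc]
        _ = _ := by
            rw [Units.inv_mul, mul_one]
            simp only [mul_assoc]
    rw [this, hx.1.2.1.1, mul_zero, zero_mul]
  refine ⟨⟨G.mul_mem (G.mul_mem hg hx.1.1) (G.inv_mem hg), ⟨?_, ?_⟩, ?_⟩, ?_⟩
  · rw [conj_sub_one]
    exact hsq
  · rw [conj_sub_one]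
    intro h0
    apply hx.1.2.1.2
    have := congrArg (fun T : Module.End k M =>
      ((g⁻¹ : LinearMap.GeneralLinearGroup k M) : Module.End k M) * T * (g : Module.End k M)) h0
    simp only [mul_zero, zero_mul] at this
    rw [← this]
    calc (x : Module.End k M) - 1
        = (((g⁻¹ : LinearMap.GeneralLinearGroup k M) : Module.End k M) * (g : Module.End k M)) *
            ((x : Module.End k M) - 1) *
          (((g⁻¹ : LinearMap.GeneralLinearGroup k M) : Module.End k M) * (g : Module.End k M)) := by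
          rw [Units.inv_mul, one_mul, mul_one]
      _ = _ := by simp only [mul_assoc]
  · rintro z ⟨c, hz⟩
    obtain ⟨y, hyG, hy⟩ := fam_of_mem hx.1 c
    have : z = g * y * g⁻¹ := by
      apply Units.ext
      rw [hz, conj_sub_one, Units.val_mul, Units.val_mul, hy, mul_add, add_mul, mul_one,
        Units.mul_inv, mul_smul_comm, smul_mul_assoc]
    rw [this]
    exact G.mul_mem (G.mul_mem hg hyG) (G.inv_mem hg)
  · intro τ' hτ'
    show Module.finrank k (LinearMap.range (((g * x * g⁻¹ : LinearMap.GeneralLinearGroup k M) :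
      M →ₗ[k] M) - 1)) ≤ _
    rw [conj_sub_one, range_conj, finrank_map_unit]
    exact hx.2 τ' hτ'

theorem conj_class {x y g : LinearMap.GeneralLinearGroup k M} (hg : g ∈ G)
    (hy : y ∈ Cfsg.sameActionClass G x) :
    g * y * g⁻¹ ∈ Cfsg.sameActionClass G (g * x * g⁻¹) := by
  refine ⟨conj_mem_min hy.1 hg, ?_, ?_⟩
  · rw [conj_sub_one, conj_sub_one, ker_conj, ker_conj, hy.2.1]
  · rw [conj_sub_one, conj_sub_one, range_conj, range_conj, hy.2.2]

theorem conjBy_E_le {x g : LinearMap.GeneralLinearGroup k M} (hg : g ∈ G) :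
    Cfsg.conjBy (Cfsg.sameActionSubgroup G x) g ≤ Cfsg.sameActionSubgroup G (g * x * g⁻¹) := by
  rw [Subgroup.map_le_iff_le_comap]
  apply (Subgroup.closure_le _).mpr
  intro y hy
  show (MulAut.conj g).toMonoidHom y ∈ Cfsg.sameActionSubgroup G (g * x * g⁻¹)
  have : (MulAut.conj g).toMonoidHom y = g * y * g⁻¹ := by simp [MulAut.conj_apply]
  rw [this]
  exact Subgroup.subset_closure (conj_class hg hy)

/-- Conjugation of root subgroups. -/
theorem E_conj {x g : LinearMap.GeneralLinearGroup k M} (hg : g ∈ G) :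
    Cfsg.sameActionSubgroup G (g * x * g⁻¹) = Cfsg.conjBy (Cfsg.sameActionSubgroup G x) g := by
  apply le_antisymm
  · have h1 := conjBy_E_le (G := G) (x := g * x * g⁻¹) (G.inv_mem hg)
    have h2 : g⁻¹ * (g * x * g⁻¹) * g⁻¹⁻¹ = x := by group
    rw [h2] at h1
    intro z hz
    rw [mem_conjBy_iff]
    apply h1
    rw [mem_conjBy_iff, inv_inv]
    have h3 : g * (g⁻¹ * z * g) * g⁻¹ = z := by group
    rw [h3]
    exact hz
  · exact conjBy_E_le hg

end conj


section Lsp

/-- The span of the `x - 1`, `x ∈ A`. -/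
def Lsp (A : Subgroup (LinearMap.GeneralLinearGroup k M)) : Submodule k (Module.End k M) :=
  Submodule.span k ((fun x : LinearMap.GeneralLinearGroup k M => (x : Module.End k M) - 1) ''
    (A : Set (LinearMap.GeneralLinearGroup k M)))

/-- Conjugation as a linear map on endomorphisms. -/
def conjL (g : LinearMap.GeneralLinearGroup k M) : Module.End k M →ₗ[k] Module.End k M :=
  (LinearMap.mulLeft k (g : Module.End k M)) ∘ₗ
    (LinearMap.mulRight k ((g⁻¹ : LinearMap.GeneralLinearGroup k M) : Module.End k M))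

theorem conjL_apply (g : LinearMap.GeneralLinearGroup k M) (T : Module.End k M) :
    conjL g T = (g : Module.End k M) *
      (T * ((g⁻¹ : LinearMap.GeneralLinearGroup k M) : Module.End k M)) := rfl

theorem conjL_injective (g : LinearMap.GeneralLinearGroup k M) :
    Function.Injective (conjL g) := by
  intro T T' h
  rw [conjL_apply, conjL_apply] at h
  have e : ∀ S : Module.End k M,
      ((g⁻¹ : LinearMap.GeneralLinearGroup k M) : Module.End k M) * ((g : Module.End k M) *
        (S * ((g⁻¹ : LinearMap.GeneralLinearGroup k M) : Module.End k M))) *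
          (g : Module.End k M) = S := by
    intro S
    rw [← mul_assoc ((g⁻¹ : LinearMap.GeneralLinearGroup k M) : Module.End k M), Units.inv_mul,
      one_mul, mul_assoc, Units.inv_mul, mul_one]
  rw [← e T, h, e T']

theorem Lsp_conj (A : Subgroup (LinearMap.GeneralLinearGroup k M))
    (g : LinearMap.GeneralLinearGroup k M) :
    Lsp (Cfsg.conjBy A g) = (Lsp A).map (conjL g) := by
  unfold Lsp
  rw [Submodule.map_span]
  congr 1
  ext T
  constructor
  · rintro ⟨_, ⟨x, hx, rfl⟩, rfl⟩
    refine ⟨(x : Module.End k M) - 1, ⟨x, hx, rfl⟩, ?_⟩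
    have : (MulAut.conj g).toMonoidHom x = g * x * g⁻¹ := by simp [MulAut.conj_apply]
    show conjL g ((x : Module.End k M) - 1) =
      (((MulAut.conj g).toMonoidHom x : LinearMap.GeneralLinearGroup k M) : Module.End k M) - 1
    rw [this, conj_sub_one, conjL_apply, mul_assoc]
  · rintro ⟨_, ⟨x, hx, rfl⟩, rfl⟩
    refine ⟨g * x * g⁻¹, mem_conjBy hx, ?_⟩
    show ((g * x * g⁻¹ : LinearMap.GeneralLinearGroup k M) : Module.End k M) - 1 =
      conjL g ((x : Module.End k M) - 1)
    rw [conj_sub_one, conjL_apply, mul_assoc]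

theorem finrank_Lsp_conj (A : Subgroup (LinearMap.GeneralLinearGroup k M))
    (g : LinearMap.GeneralLinearGroup k M) :
    Module.finrank k (Lsp (Cfsg.conjBy A g)) = Module.finrank k (Lsp A) := by
  rw [Lsp_conj]
  exact (LinearEquiv.finrank_eq (Submodule.equivMapOfInjective _ (conjL_injective g) _)).symm

theorem sub_one_mem_Lsp {A : Subgroup (LinearMap.GeneralLinearGroup k M)}
    {x : LinearMap.GeneralLinearGroup k M} (hx : x ∈ A) : (x : Module.End k M) - 1 ∈ Lsp A :=
  Submodule.subset_span ⟨x, hx, rfl⟩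

/-- For a root subgroup the span is the set itself. -/
theorem mem_Lsp_E {σ : LinearMap.GeneralLinearGroup k M}
    (hσ : σ ∈ Cfsg.minimalQuadraticElements G)
    (hEσ : (Cfsg.sameActionSubgroup G σ : Set (LinearMap.GeneralLinearGroup k M)) =
      Cfsg.sameActionClass G σ ∪ {1})
    {T : Module.End k M} (hT : T ∈ Lsp (Cfsg.sameActionSubgroup G σ)) :
    ∃ x ∈ Cfsg.sameActionSubgroup G σ, T = (x : Module.End k M) - 1 := by
  unfold Lsp at hT
  induction hT using Submodule.span_induction with
  | mem T hT =>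
    obtain ⟨x, hx, rfl⟩ := hT
    exact ⟨x, hx, rfl⟩
  | zero => exact ⟨1, Subgroup.one_mem _, (sub_self _).symm⟩
  | add T T' _ _ ih ih' =>
    obtain ⟨x, hx, rfl⟩ := ih
    obtain ⟨y, hy, rfl⟩ := ih'
    refine ⟨x * y, Subgroup.mul_mem _ hx hy, ?_⟩
    have h0 : ((x : Module.End k M) - 1) * ((y : Module.End k M) - 1) = 0 :=
      mul_eq_zero_of_range_le_ker _ _ ((inE_of_mem hEσ hy).2.2.1.trans
        ((range_le_ker_of_mem hσ).trans (inE_of_mem hEσ hx).2.2.2))
    rw [Units.val_mul]
    have : (x : Module.End k M) * (y : Module.End k M) - 1 =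
        ((x : Module.End k M) - 1) * ((y : Module.End k M) - 1) + ((x : Module.End k M) - 1) +
          ((y : Module.End k M) - 1) := by noncomm_ring
    rw [this, h0, zero_add]
  | smul c T _ ih =>
    obtain ⟨x, hx, rfl⟩ := ih
    obtain ⟨h1, h2, h3, h4⟩ := inE_of_mem hEσ hx
    have hsq : (c • ((x : Module.End k M) - 1)) * (c • ((x : Module.End k M) - 1)) = 0 := by
      rw [smul_mul_smul_comm, h1, smul_zero]
    refine ⟨unitOf _ hsq, mem_sameAction hσ _ _ rfl hsq (fam_smul h2 c)
      ((range_smul_le c _).trans h3) (h4.trans (ker_le_smul c _)), ?_⟩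
    rw [unitOf_val]
    abel

/-- A linear map which is injective on `p` and maps `p` into `q` of the same dimension maps `p`
onto `q`. -/
theorem surj_of_finrank {V : Type*} [AddCommGroup V] [Module k V] [FiniteDimensional k V]
    (p q : Submodule k V) (f : V →ₗ[k] V) (hmap : ∀ T ∈ p, f T ∈ q)
    (hinj : ∀ T ∈ p, f T = 0 → T = 0) (hfin : Module.finrank k q ≤ Module.finrank k p) :
    ∀ S ∈ q, ∃ T ∈ p, f T = S := by
  have hi : Function.Injective (f.domRestrict p) := by
    rw [← LinearMap.ker_eq_bot, LinearMap.ker_eq_bot']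
    intro T hT
    exact Subtype.ext (hinj T.1 T.2 hT)
  have h1 := LinearMap.finrank_range_of_inj hi
  have hle : LinearMap.range (f.domRestrict p) ≤ q := by
    rintro _ ⟨T, rfl⟩
    exact hmap T.1 T.2
  have heq : LinearMap.range (f.domRestrict p) = q :=
    Submodule.eq_of_le_of_finrank_le hle (by rw [h1]; exact hfin)
  intro S hS
  rw [← heq] at hS
  obtain ⟨T, rfl⟩ := hS
  exact ⟨T.1, T.2, rfl⟩

end Lsp

section opp

theorem ne_one_of_min {σ : LinearMap.GeneralLinearGroup k M}
    (hσ : σ ∈ Cfsg.minimalQuadraticElements G) : σ ≠ 1 := by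
  intro h
  apply hσ.1.2.1.2
  rw [h]
  exact sub_self _

/-- Opposite root subgroups are conjugate. -/
theorem conj_of_opp (htwo : (2 : k) ≠ 0) (ha : ∃ a : k, a ≠ 0 ∧ a ^ 2 ≠ 1)
    {σ φ : LinearMap.GeneralLinearGroup k M}
    (hσ : σ ∈ Cfsg.minimalQuadraticElements G) (hφ : φ ∈ Cfsg.minimalQuadraticElements G)
    (hopp : Opp σ φ)
    (hEσ : (Cfsg.sameActionSubgroup G σ : Set (LinearMap.GeneralLinearGroup k M)) =
      Cfsg.sameActionClass G σ ∪ {1})
    (hEφ : (Cfsg.sameActionSubgroup G φ : Set (LinearMap.GeneralLinearGroup k M)) =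
      Cfsg.sameActionClass G φ ∪ {1}) :
    ∃ g ∈ G, Cfsg.sameActionSubgroup G φ = Cfsg.conjBy (Cfsg.sameActionSubgroup G σ) g := by
  have hσE : σ ∈ Cfsg.sameActionSubgroup G σ := Subgroup.subset_closure (self_mem_class hσ)
  obtain ⟨β, hβ, hβ1, hconj⟩ := rankOneCond htwo ha hσ hφ hopp hEσ hEφ σ hσE (ne_one_of_min hσ)
  refine ⟨σ * β⁻¹, G.mul_mem hσ.1.1 (G.inv_mem (E_le_G φ hβ)), ?_⟩
  rw [← conjBy_conjBy, hconj, conjBy_conjBy, mul_inv_cancel, conjBy_one]

namespace C2

variable {σ τ : LinearMap.GeneralLinearGroup k M} (h : C2 G σ τ)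

include h

/-- An element `φ` which does not "see" the commutator as unipotent is opposite to a conjugate
of `σ`; hence the dimensions agree. -/
theorem finrank_of_ucu
    (hS : ∀ x ∈ Cfsg.minimalQuadraticElements G,
      (Cfsg.sameActionSubgroup G x : Set (LinearMap.GeneralLinearGroup k M)) =
        Cfsg.sameActionClass G x ∪ {1})
    {α β φ : LinearMap.GeneralLinearGroup k M} (hα : α ∈ Cfsg.sameActionClass G σ)
    (hβ : β ∈ Cfsg.sameActionClass G τ) (hφ : φ ∈ Cfsg.minimalQuadraticElements G)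
    (hne : ((φ : M →ₗ[k] M) - 1) * ((((α : M →ₗ[k] M) - 1) * ((β : M →ₗ[k] M) - 1) -
        ((β : M →ₗ[k] M) - 1) * ((α : M →ₗ[k] M) - 1)) * ((φ : M →ₗ[k] M) - 1)) ≠ 0) :
    Module.finrank k (Lsp (Cfsg.sameActionSubgroup G φ)) =
      Module.finrank k (Lsp (Cfsg.sameActionSubgroup G σ)) := by
  by_cases hopp : Opp α φ
  · obtain ⟨g, hg, hgE⟩ := conj_of_opp h.htwo h.ha hα.1 hφ hopp (hS α hα.1) (hS φ hφ)
    rw [hgE, finrank_Lsp_conj, E_eq_of_class hα]
  · obtain ⟨-, h2⟩ := aba_of_not_opp h.htwo h.ha hα.1 hφ hopp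
    have hβG : β ∈ G := hβ.1.1.1
    have hσ' := conj_mem_min hα.1 hβG
    obtain ⟨h3, h4⟩ := h.aba hα hβ
    have haa := hα.1.1.2.1.1
    have hbb := hβ.1.1.2.1.1
    have hαv : (α : Module.End k M) = 1 + ((α : M →ₗ[k] M) - 1) := by abel
    have hβv : (β : Module.End k M) = 1 + ((β : M →ₗ[k] M) - 1) := by abel
    have hval : ((β * α * β⁻¹ : LinearMap.GeneralLinearGroup k M) : M →ₗ[k] M) - 1 =
        ((α : M →ₗ[k] M) - 1) - (((α : M →ₗ[k] M) - 1) * ((β : M →ₗ[k] M) - 1) -
          ((β : M →ₗ[k] M) - 1) * ((α : M →ₗ[k] M) - 1)) := by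
      have e1 := conj_formula2 ((β : M →ₗ[k] M) - 1) ((α : M →ₗ[k] M) - 1) hbb haa h4
      rw [← hαv, ← hβv] at e1
      rw [Units.val_mul, Units.val_mul, inv_val_of β _ hbb hβv, e1]
      abel
    have hopp' : Opp (β * α * β⁻¹) φ := by
      by_contra hno
      obtain ⟨-, h5⟩ := aba_of_not_opp h.htwo h.ha hσ' hφ hno
      rw [hval] at h5
      apply hne
      have : ∀ u a c : Module.End k M, u * (c * u) = u * (a * u) - u * ((a - c) * u) := by
        intro u a c
        noncomm_ring
      rw [this _ ((α : M →ₗ[k] M) - 1), h2, h5, sub_zero]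
    obtain ⟨g, hg, hgE⟩ := conj_of_opp h.htwo h.ha hσ' hφ hopp' (hS _ hσ') (hS φ hφ)
    rw [hgE, finrank_Lsp_conj, E_conj hβG, finrank_Lsp_conj, E_eq_of_class hα]

end C2

end opp

end Cfsg.Agent.Helper5.QPair
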