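import Cfsg.Agent.Helper5.QPairO

set_option autoImplicit false
set_option linter.unusedSimpArgs false
set_option linter.unusedVariables false
set_option linter.unusedSectionVars false

/-! Quadratic pairs: the class two theorem for two root subgroups (S5066 / S5068). -/

namespace Cfsg.Agent.Helper5.QPair

open Polynomial Matrix
open scoped commutatorElement

variable {k : Type*} [Field k] {M : Type*} [AddCommGroup M] [Module k M] [FiniteDimensional k M]
  {G : Subgroup (LinearMap.GeneralLinearGroup k M)}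

theorem WW_comm (σ τ : LinearMap.GeneralLinearGroup k M) : WW τ σ = WW σ τ := sup_comm _ _

theorem VV_comm (σ τ : LinearMap.GeneralLinearGroup k M) : VV τ σ = VV σ τ := inf_comm _ _

theorem Num.symm {σ τ : LinearMap.GeneralLinearGroup k M}
    (hσ : σ ∈ Cfsg.minimalQuadraticElements G) (hτ : τ ∈ Cfsg.minimalQuadraticElements G)
    (h : Num σ τ) : Num τ σ := by
  refine ⟨?_, ?_⟩
  · rw [add_comm, rank_eq_of_min hσ hτ]
    exact h.1
  · rw [inf_comm]
    exact h.2

theorem comm_of_zero (x y : LinearMap.GeneralLinearGroup k M)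
    (h1 : ((x : Module.End k M) - 1) * ((y : Module.End k M) - 1) = 0)
    (h2 : ((y : Module.End k M) - 1) * ((x : Module.End k M) - 1) = 0) : x * y = y * x := by
  apply Units.ext
  rw [Units.val_mul, Units.val_mul]
  have e1 : (x : Module.End k M) * (y : Module.End k M) =
      ((x : Module.End k M) - 1) * ((y : Module.End k M) - 1) + (x : Module.End k M) +
        (y : Module.End k M) - 1 := by noncomm_ring
  have e2 : (y : Module.End k M) * (x : Module.End k M) =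
      ((y : Module.End k M) - 1) * ((x : Module.End k M) - 1) + (x : Module.End k M) +
        (y : Module.End k M) - 1 := by noncomm_ring
  rw [e1, e2, h1, h2]

/-- Root subgroups are abelian. -/
theorem E_comm {σ : LinearMap.GeneralLinearGroup k M}
    (hσ : σ ∈ Cfsg.minimalQuadraticElements G)
    (hEσ : (Cfsg.sameActionSubgroup G σ : Set (LinearMap.GeneralLinearGroup k M)) =
      Cfsg.sameActionClass G σ ∪ {1})
    {x y : LinearMap.GeneralLinearGroup k M} (hx : x ∈ Cfsg.sameActionSubgroup G σ)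
    (hy : y ∈ Cfsg.sameActionSubgroup G σ) : x * y = y * x := by
  obtain ⟨-, -, hx3, hx4⟩ := inE_of_mem hEσ hx
  obtain ⟨-, -, hy3, hy4⟩ := inE_of_mem hEσ hy
  exact comm_of_zero x y
    (mul_eq_zero_of_range_le_ker _ _ (hy3.trans ((range_le_ker_of_mem hσ).trans hx4)))
    (mul_eq_zero_of_range_le_ker _ _ (hx3.trans ((range_le_ker_of_mem hσ).trans hy4)))

namespace C2

variable {σ τ : LinearMap.GeneralLinearGroup k M} (h : C2 G σ τ)

include h

/-- Every element of `E(ρ)` is a commutator `⁅e, f⁆` with `e` fixed. -/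
theorem key
    (hS : ∀ x ∈ Cfsg.minimalQuadraticElements G,
      (Cfsg.sameActionSubgroup G x : Set (LinearMap.GeneralLinearGroup k M)) =
        Cfsg.sameActionClass G x ∪ {1})
    (hnum : Num σ τ) {ρ : LinearMap.GeneralLinearGroup k M}
    (hρ : ρ ∈ Cfsg.minimalQuadraticElements G)
    (hρr : LinearMap.range ((ρ : M →ₗ[k] M) - 1) = WW σ τ)
    (hρk : LinearMap.ker ((ρ : M →ₗ[k] M) - 1) = VV σ τ)
    (hdim : Module.finrank k (Lsp (Cfsg.sameActionSubgroup G ρ)) ≤
      Module.finrank k (Lsp (Cfsg.sameActionSubgroup G τ)))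
    {e : LinearMap.GeneralLinearGroup k M} (he : e ∈ Cfsg.sameActionClass G σ)
    {δ : LinearMap.GeneralLinearGroup k M} (hδ : δ ∈ Cfsg.sameActionSubgroup G ρ) :
    ∃ f ∈ Cfsg.sameActionSubgroup G τ, δ = ⁅e, f⁆ := by
  have hEσ := hS σ h.hσ
  have hEτ := hS τ h.hτ
  have heE : e ∈ Cfsg.sameActionSubgroup G σ := Subgroup.subset_closure he
  have hval : ∀ f ∈ Cfsg.sameActionSubgroup G τ,
      (LinearMap.mulLeft k ((e : Module.End k M) - 1) - LinearMap.mulRight k ((e : Module.End k M) - 1))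
        ((f : Module.End k M) - 1) = ((⁅e, f⁆ : LinearMap.GeneralLinearGroup k M) : Module.End k M) - 1 := by
    intro f hf
    rw [LinearMap.sub_apply, LinearMap.mulLeft_apply, LinearMap.mulRight_apply]
    by_cases hf1 : f = 1
    · rw [hf1, commutatorElement_one_right]
      have h0 : ((1 : LinearMap.GeneralLinearGroup k M) : Module.End k M) - 1 = 0 := sub_self _
      rw [h0, mul_zero, zero_mul, sub_zero]
    · exact (h.comm_sub_one he (mem_class_of_ne hEτ hf hf1)).symm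
  obtain ⟨T, hT, hTeq⟩ := surj_of_finrank (Lsp (Cfsg.sameActionSubgroup G τ))
    (Lsp (Cfsg.sameActionSubgroup G ρ))
    (LinearMap.mulLeft k ((e : Module.End k M) - 1) - LinearMap.mulRight k ((e : Module.End k M) - 1))
    (by
      intro T hT
      obtain ⟨f, hf, rfl⟩ := mem_Lsp_E h.hτ hEτ hT
      rw [hval f hf]
      exact sub_one_mem_Lsp (h.comm_mem hnum hρ hρr hρk hEσ hEτ heE hf))
    (by
      intro T hT h0
      obtain ⟨f, hf, rfl⟩ := mem_Lsp_E h.hτ hEτ hT
      by_cases hf1 : f = 1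
      · rw [hf1]
        exact sub_self _
      · exfalso
        have hfc := mem_class_of_ne hEτ hf hf1
        apply h.pair_ne hnum he hfc
        rw [← h.comm_sub_one he hfc, ← hval f hf]
        exact h0)
    hdim ((δ : Module.End k M) - 1) (sub_one_mem_Lsp hδ)
  obtain ⟨f, hf, rfl⟩ := mem_Lsp_E h.hτ hEτ hT
  refine ⟨f, hf, ?_⟩
  rw [hval f hf] at hTeq
  apply Units.ext
  exact (sub_left_inj.mp hTeq).symm


/-- The generators of `E(σ)` respect the flag `M ≥ VV ≥ WW ≥ 0`. -/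
theorem DF_left {g : LinearMap.GeneralLinearGroup k M} (hg : g ∈ Cfsg.sameActionClass G σ) :
    DF (flag3 (VV σ τ) (WW σ τ)) g := by
  obtain ⟨-, h2⟩ := h.aba hg (self_mem_class h.hτ)
  have haa := hg.1.1.2.1.1
  refine DF_flag3 _ _ g ((g : M →ₗ[k] M) - 1) (by abel) haa ?_ ?_ ?_
  · intro v
    apply range_le_VV_left h.hσ
    rw [← hg.2.2]
    exact ⟨v, rfl⟩
  · intro v hv
    obtain ⟨r, ⟨w, rfl⟩, k', hk', rfl⟩ := Submodule.mem_sup.mp hv.2
    rw [← hg.2.1, LinearMap.mem_ker] at hk'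
    rw [map_add, hk', add_zero]
    have hW : ((g : M →ₗ[k] M) - 1) (((τ : M →ₗ[k] M) - 1) w) ∈ WW σ τ := by
      apply Submodule.mem_sup_left
      refine ⟨?_, LinearMap.mem_ker.mpr (congrArg (fun f : Module.End k M => f w) h2)⟩
      rw [← hg.2.2]
      exact ⟨_, rfl⟩
    exact ⟨hW, WW_le_VV h.hσ h.hτ hW⟩
  · intro v hv
    have : v ∈ LinearMap.ker ((g : M →ₗ[k] M) - 1) := by
      rw [hg.2.1]
      exact WW_le_ker_left h.hσ hv.1
    exact LinearMap.mem_ker.mp this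

theorem DF_right {g : LinearMap.GeneralLinearGroup k M} (hg : g ∈ Cfsg.sameActionClass G τ) :
    DF (flag3 (VV σ τ) (WW σ τ)) g := by
  have := h.symm.DF_left hg
  rw [VV_comm, WW_comm] at this
  exact this

/-- The class two theorem. -/
theorem core
    (hS : ∀ x ∈ Cfsg.minimalQuadraticElements G,
      (Cfsg.sameActionSubgroup G x : Set (LinearMap.GeneralLinearGroup k M)) =
        Cfsg.sameActionClass G x ∪ {1})
    (hoppex : ∀ x ∈ Cfsg.minimalQuadraticElements G,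
      ∃ φ ∈ Cfsg.minimalQuadraticElements G, Opp x φ)
    (hne : ⁅Cfsg.sameActionSubgroup G σ, Cfsg.sameActionSubgroup G τ⁆ ≠ ⊥) :
    ⁅Cfsg.sameActionSubgroup G σ, Cfsg.sameActionSubgroup G τ⁆ ∈ Cfsg.quadraticRootSubgroups G ∧
    (∀ e ∈ Cfsg.sameActionSubgroup G σ, e ≠ 1 →
      Subgroup.closure ((fun f : LinearMap.GeneralLinearGroup k M => e * f * e⁻¹ * f⁻¹) ''
        (Cfsg.sameActionSubgroup G τ : Set (LinearMap.GeneralLinearGroup k M))) =
        ⁅Cfsg.sameActionSubgroup G σ, Cfsg.sameActionSubgroup G τ⁆) ∧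
    (∀ f ∈ Cfsg.sameActionSubgroup G τ, f ≠ 1 →
      Subgroup.closure ((fun e : LinearMap.GeneralLinearGroup k M => e * f * e⁻¹ * f⁻¹) ''
        (Cfsg.sameActionSubgroup G σ : Set (LinearMap.GeneralLinearGroup k M))) =
        ⁅Cfsg.sameActionSubgroup G σ, Cfsg.sameActionSubgroup G τ⁆) ∧
    ⁅Cfsg.sameActionSubgroup G σ ⊔ Cfsg.sameActionSubgroup G τ,
      Cfsg.sameActionSubgroup G σ ⊔ Cfsg.sameActionSubgroup G τ⁆ ≠ ⊥ ∧
    ⁅⁅Cfsg.sameActionSubgroup G σ ⊔ Cfsg.sameActionSubgroup G τ,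
      Cfsg.sameActionSubgroup G σ ⊔ Cfsg.sameActionSubgroup G τ⁆,
      Cfsg.sameActionSubgroup G σ ⊔ Cfsg.sameActionSubgroup G τ⁆ = ⊥ ∧
    ((Cfsg.sameActionSubgroup G σ ⊔ Cfsg.sameActionSubgroup G τ :
        Subgroup (LinearMap.GeneralLinearGroup k M)) : Set (LinearMap.GeneralLinearGroup k M)) ⊆
      Cfsg.quadraticUnipotentCore G ⁅Cfsg.sameActionSubgroup G σ, Cfsg.sameActionSubgroup G τ⁆ := by
  have hEσ := hS σ h.hσ
  have hEτ := hS τ h.hτ
  obtain ⟨α₀, hα₀, β₀, hβ₀, hc₀⟩ := h.num_of_ne hEσ hEτ hne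
  obtain ⟨hnum, hr₀, hk₀, -⟩ := h.pair_dims hα₀ hβ₀ hc₀
  have hρ' := h.rho_mem hα₀ hβ₀ hc₀
  obtain ⟨ρ, hρdef⟩ : ∃ ρ : LinearMap.GeneralLinearGroup k M, ρ = ⁅α₀, β₀⁆ := ⟨_, rfl⟩
  have hρ : ρ ∈ Cfsg.minimalQuadraticElements G := by rw [hρdef]; exact hρ'
  have hρr : LinearMap.range ((ρ : M →ₗ[k] M) - 1) = WW σ τ := by
    rw [hρdef, h.comm_sub_one hα₀ hβ₀]
    exact hr₀
  have hρk : LinearMap.ker ((ρ : M →ₗ[k] M) - 1) = VV σ τ := by
    rw [hρdef, h.comm_sub_one hα₀ hβ₀]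
    exact hk₀
  have hEρ := hS ρ hρ
  have hle : ⁅Cfsg.sameActionSubgroup G σ, Cfsg.sameActionSubgroup G τ⁆ ≤
      Cfsg.sameActionSubgroup G ρ :=
    Subgroup.commutator_le.mpr fun α hα β hβ => h.comm_mem hnum hρ hρr hρk hEσ hEτ hα hβ
  -- dimensions
  obtain ⟨φ, hφ, hopp⟩ := hoppex ρ hρ
  have hucu : ((φ : M →ₗ[k] M) - 1) * ((((α₀ : M →ₗ[k] M) - 1) * ((β₀ : M →ₗ[k] M) - 1) -
      ((β₀ : M →ₗ[k] M) - 1) * ((α₀ : M →ₗ[k] M) - 1)) * ((φ : M →ₗ[k] M) - 1)) ≠ 0 := by
    intro h0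
    apply hφ.1.2.1.2
    refine eq_zero_of_opp_aba _ _ hopp.2 hopp.1 ?_
    rw [hρdef, h.comm_sub_one hα₀ hβ₀]
    exact h0
  have hdimρ : Module.finrank k (Lsp (Cfsg.sameActionSubgroup G φ)) =
      Module.finrank k (Lsp (Cfsg.sameActionSubgroup G ρ)) := by
    obtain ⟨g, hg, hgE⟩ := conj_of_opp h.htwo h.ha hρ hφ hopp hEρ (hS φ hφ)
    rw [hgE, finrank_Lsp_conj]
  have hdimσ := h.finrank_of_ucu hS hα₀ hβ₀ hφ hucu
  have hdimτ : Module.finrank k (Lsp (Cfsg.sameActionSubgroup G φ)) =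
      Module.finrank k (Lsp (Cfsg.sameActionSubgroup G τ)) := by
    refine h.symm.finrank_of_ucu hS hβ₀ hα₀ hφ ?_
    intro h0
    apply hucu
    have : ∀ u a b : Module.End k M, u * ((a * b - b * a) * u) = -(u * ((b * a - a * b) * u)) := by
      intro u a b
      noncomm_ring
    rw [this, h0, neg_zero]
  have key1 : ∀ e ∈ Cfsg.sameActionClass G σ, ∀ δ ∈ Cfsg.sameActionSubgroup G ρ,
      ∃ f ∈ Cfsg.sameActionSubgroup G τ, δ = ⁅e, f⁆ := fun e he δ hδ =>
    h.key hS hnum hρ hρr hρk (by rw [← hdimρ, hdimτ]) he hδ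
  have key2 : ∀ f ∈ Cfsg.sameActionClass G τ, ∀ δ ∈ Cfsg.sameActionSubgroup G ρ,
      ∃ e ∈ Cfsg.sameActionSubgroup G σ, δ = ⁅e, f⁆ := by
    intro f hf δ hδ
    obtain ⟨e, he, heq⟩ := h.symm.key hS (Num.symm h.hσ h.hτ hnum) hρ
      (by rw [WW_comm]; exact hρr) (by rw [VV_comm]; exact hρk) (by rw [← hdimρ, hdimσ]) hf
      (Subgroup.inv_mem _ hδ)
    refine ⟨e, he, ?_⟩
    rw [← commutatorElement_inv, ← heq, inv_inv]
  have heq : ⁅Cfsg.sameActionSubgroup G σ, Cfsg.sameActionSubgroup G τ⁆ =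
      Cfsg.sameActionSubgroup G ρ := by
    apply le_antisymm hle
    intro δ hδ
    obtain ⟨f, hf, rfl⟩ := key1 α₀ hα₀ δ hδ
    exact Subgroup.commutator_mem_commutator (Subgroup.subset_closure hα₀) hf
  -- centralizing
  have hcentσ : ∀ x ∈ Cfsg.sameActionSubgroup G σ, ∀ z ∈ Cfsg.sameActionSubgroup G ρ,
      x * z = z * x := by
    intro x hx z hz
    obtain ⟨-, -, hx3, hx4⟩ := inE_of_mem hEσ hx
    obtain ⟨-, -, hz3, hz4⟩ := inE_of_mem hEρ hz
    rw [hρr] at hz3
    rw [hρk] at hz4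
    exact comm_of_zero x z
      (mul_eq_zero_of_range_le_ker _ _ (hz3.trans ((WW_le_ker_left h.hσ).trans hx4)))
      (mul_eq_zero_of_range_le_ker _ _ (hx3.trans ((range_le_VV_left h.hσ).trans hz4)))
  have hcentτ : ∀ x ∈ Cfsg.sameActionSubgroup G τ, ∀ z ∈ Cfsg.sameActionSubgroup G ρ,
      x * z = z * x := by
    intro x hx z hz
    obtain ⟨-, -, hx3, hx4⟩ := inE_of_mem hEτ hx
    obtain ⟨-, -, hz3, hz4⟩ := inE_of_mem hEρ hz
    rw [hρr] at hz3
    rw [hρk] at hz4
    exact comm_of_zero x z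
      (mul_eq_zero_of_range_le_ker _ _ (hz3.trans ((WW_le_ker_right h.hτ).trans hx4)))
      (mul_eq_zero_of_range_le_ker _ _ (hx3.trans ((range_le_VV_right h.hτ).trans hz4)))
  have hcent : ∀ x ∈ Cfsg.sameActionSubgroup G σ ⊔ Cfsg.sameActionSubgroup G τ,
      ∀ z ∈ Cfsg.sameActionSubgroup G ρ, x * z = z * x := by
    have hle2 : Cfsg.sameActionSubgroup G σ ⊔ Cfsg.sameActionSubgroup G τ ≤
        Subgroup.centralizer (Cfsg.sameActionSubgroup G ρ : Set (LinearMap.GeneralLinearGroup k M)) := by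
      apply sup_le
      · intro x hx
        rw [Subgroup.mem_centralizer_iff]
        intro z hz
        exact (hcentσ x hx z hz).symm
      · intro x hx
        rw [Subgroup.mem_centralizer_iff]
        intro z hz
        exact (hcentτ x hx z hz).symm
    intro x hx z hz
    exact (Subgroup.mem_centralizer_iff.mp (hle2 hx) z hz).symm
  have hconj : ∀ x ∈ Cfsg.sameActionSubgroup G σ ⊔ Cfsg.sameActionSubgroup G τ,
      ∀ z ∈ Cfsg.sameActionSubgroup G ρ, x * z * x⁻¹ = z := by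
    intro x hx z hz
    rw [hcent x hx z hz, mul_assoc, mul_inv_cancel, mul_one]
  have hXX : ⁅Cfsg.sameActionSubgroup G σ ⊔ Cfsg.sameActionSubgroup G τ,
      Cfsg.sameActionSubgroup G σ ⊔ Cfsg.sameActionSubgroup G τ⁆ ≤ Cfsg.sameActionSubgroup G ρ :=
    comm_le_of_central _ _ _ (fun x hx y hy => E_comm h.hσ hEσ hx hy)
      (fun x hx y hy => E_comm h.hτ hEτ hx hy)
      (fun x hx y hy => h.comm_mem hnum hρ hρr hρk hEσ hEτ hx hy) hconj
  have hDF : ∀ g ∈ Cfsg.sameActionSubgroup G σ ⊔ Cfsg.sameActionSubgroup G τ,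
      DF (flag3 (VV σ τ) (WW σ τ)) g := by
    intro g hg
    have hX : Cfsg.sameActionSubgroup G σ ⊔ Cfsg.sameActionSubgroup G τ =
        Subgroup.closure (Cfsg.sameActionClass G σ ∪ Cfsg.sameActionClass G τ) := by
      rw [Subgroup.closure_union]
      rfl
    rw [hX] at hg
    refine DF_of_mem_closure _ (flag3_anti _ _) _ ?_ hg
    rintro x (hx | hx)
    · exact h.DF_left hx
    · exact h.DF_right hx
  refine ⟨⟨ρ, hρ, heq⟩, ?_, ?_, ?_, ?_, ?_⟩
  · intro e he he1
    apply le_antisymm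
    · apply (Subgroup.closure_le _).mpr
      rintro _ ⟨f, hf, rfl⟩
      exact Subgroup.commutator_mem_commutator he hf
    · rw [heq]
      intro δ hδ
      obtain ⟨f, hf, rfl⟩ := key1 e (mem_class_of_ne hEσ he he1) δ hδ
      exact Subgroup.subset_closure ⟨f, hf, rfl⟩
  · intro f hf hf1
    apply le_antisymm
    · apply (Subgroup.closure_le _).mpr
      rintro _ ⟨e, he, rfl⟩
      exact Subgroup.commutator_mem_commutator he hf
    · rw [heq]
      intro δ hδ
      obtain ⟨e, he, rfl⟩ := key2 f (mem_class_of_ne hEτ hf hf1) δ hδ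
      exact Subgroup.subset_closure ⟨e, he, rfl⟩
  · intro h0
    apply hne
    rw [eq_bot_iff, ← h0]
    exact Subgroup.commutator_mono le_sup_left le_sup_right
  · rw [Subgroup.commutator_eq_bot_iff_le_centralizer]
    intro z hz
    rw [Subgroup.mem_centralizer_iff]
    intro x hx
    exact hcent x hx z (hXX hz)
  · intro g hg
    rw [heq]
    have hgX : g ∈ Cfsg.sameActionSubgroup G σ ⊔ Cfsg.sameActionSubgroup G τ := hg
    obtain ⟨hd1, -⟩ := hDF g hgX
    refine ⟨sup_le (E_le_G σ) (E_le_G τ) hgX, ?_, ?_, ?_, ?_⟩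
    · rw [Subgroup.mem_normalizer_iff]
      intro z
      constructor
      · intro hz
        rw [hconj g hgX z hz]
        exact hz
      · intro hz
        have := hconj g⁻¹ (Subgroup.inv_mem _ hgX) _ hz
        rw [inv_inv] at this
        have e : g⁻¹ * (g * z * g⁻¹) * g = z := by group
        rw [e] at this
        rw [this]
        exact hz
    · intro m
      rw [fixed_E hρ hEρ, hρk]
      exact hd1 0 m Submodule.mem_top
    · intro m hm
      rw [fixed_E hρ hEρ, hρk] at hm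
      rw [comm_E hρ hEρ, hρr]
      exact (hd1 1 m hm).1
    · intro m hm
      rw [comm_E hρ hEρ, hρr] at hm
      have := hd1 2 m ⟨hm, WW_le_VV h.hσ h.hτ hm⟩
      exact sub_eq_zero.mp ((Submodule.mem_bot k).mp this)

end C2

end Cfsg.Agent.Helper5.QPair
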