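import Cfsg.Agent.Helper5.QPairP
import Cfsg.Agent.S5061

set_option autoImplicit false
set_option linter.unusedSimpArgs false
set_option linter.unusedVariables false
set_option linter.unusedSectionVars false

/-! Quadratic pairs: existence of opposite elements (from irreducibility), and the opposite
case is neither unipotent nor of class two (S5066 / S5068). -/

namespace Cfsg.Agent.Helper5.QPair

open Polynomial Matrix
open scoped commutatorElement

variable {k : Type*} [Field k] {M : Type*} [AddCommGroup M] [Module k M] [FiniteDimensional k M]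
  {G : Subgroup (LinearMap.GeneralLinearGroup k M)}

theorem unipotent_iff (H : Subgroup (LinearMap.GeneralLinearGroup k M)) :
    Cfsg.IsUnipotentOn H ↔ ∃ n : ℕ, ∀ l : List (LinearMap.GeneralLinearGroup k M),
      (∀ g ∈ l, g ∈ H) → l.length = n →
        (l.map fun g => ((g : (Module.End k M)ˣ) : Module.End k M) - 1).prod = 0 := by
  have hconv : ∀ l : List (LinearMap.GeneralLinearGroup k M),
      (List.map (fun g : M →ₗ[k] M => g - 1)
        (do let a ← l; pure ((a : LinearMap.GeneralLinearGroup k M) : M →ₗ[k] M))) =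
      l.map (fun g => ((g : (Module.End k M)ˣ) : Module.End k M) - 1) := by
    intro l
    have h0 : (do let a ← l; pure ((a : LinearMap.GeneralLinearGroup k M) : M →ₗ[k] M)) =
        l.map (fun a => ((a : LinearMap.GeneralLinearGroup k M) : M →ₗ[k] M)) := by
      simp only [List.bind_eq_flatMap, List.pure_def]
      exact List.map_eq_flatMap.symm
    rw [h0, List.map_map]
    rfl
  constructor
  · rintro ⟨n, hn⟩
    refine ⟨n, fun l hl hlen => ?_⟩
    have h1 := hn l hl hlen
    rw [hconv] at h1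
    exact h1
  · rintro ⟨n, hn⟩
    refine ⟨n, ?_⟩
    intro l hl hlen
    rw [hconv]
    exact hn l hl hlen

/-- A unipotent group has non-zero fixed vectors. -/
theorem fixed_ne_bot_of_unipotent (N : Subgroup (LinearMap.GeneralLinearGroup k M))
    (hN : Cfsg.IsUnipotentOn N) (hM : ∃ m : M, m ≠ 0) : Cfsg.fixedSubmodule N ≠ ⊥ := by
  obtain ⟨n, hn⟩ := (unipotent_iff N).mp hN
  obtain ⟨m, hm⟩ := hM
  have h0 : ¬ (∀ l : List (LinearMap.GeneralLinearGroup k M), (∀ g ∈ l, g ∈ N) → l.length = 0 →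
      (l.map fun g => ((g : (Module.End k M)ˣ) : Module.End k M) - 1).prod = 0) := by
    intro h
    have h1 := h [] (by simp) rfl
    rw [List.map_nil, List.prod_nil] at h1
    apply hm
    have := congrArg (fun f : Module.End k M => f m) h1
    exact this
  have hfind : ∀ n : ℕ, (∀ l : List (LinearMap.GeneralLinearGroup k M), (∀ g ∈ l, g ∈ N) →
      l.length = n → (l.map fun g => ((g : (Module.End k M)ˣ) : Module.End k M) - 1).prod = 0) →
      ∃ j : ℕ, (¬ (∀ l : List (LinearMap.GeneralLinearGroup k M), (∀ g ∈ l, g ∈ N) →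
        l.length = j → (l.map fun g => ((g : (Module.End k M)ˣ) : Module.End k M) - 1).prod = 0)) ∧
        (∀ l : List (LinearMap.GeneralLinearGroup k M), (∀ g ∈ l, g ∈ N) → l.length = j + 1 →
          (l.map fun g => ((g : (Module.End k M)ˣ) : Module.End k M) - 1).prod = 0) := by
    intro n
    induction n with
    | zero => intro h; exact absurd h h0
    | succ n ih =>
      intro h
      by_cases hP : ∀ l : List (LinearMap.GeneralLinearGroup k M), (∀ g ∈ l, g ∈ N) →
          l.length = n → (l.map fun g => ((g : (Module.End k M)ˣ) : Module.End k M) - 1).prod = 0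
      · exact ih hP
      · exact ⟨n, hP, h⟩
  obtain ⟨j, hj1, hj2⟩ := hfind n hn
  push Not at hj1
  obtain ⟨l, hl, hlen, hprod⟩ := hj1
  have hv : ∃ v : M, (l.map fun g => ((g : (Module.End k M)ˣ) : Module.End k M) - 1).prod v ≠ 0 := by
    by_contra hcon
    push Not at hcon
    apply hprod
    apply LinearMap.ext
    intro v
    exact hcon v
  obtain ⟨v, hv⟩ := hv
  intro hbot
  apply hv
  rw [← Submodule.mem_bot k, ← hbot]
  simp only [Cfsg.fixedSubmodule, Submodule.mem_iInf, LinearMap.mem_ker]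
  intro g hg
  have h1 := hj2 (g :: l) (by
    intro x hx
    rcases List.mem_cons.mp hx with rfl | hx
    · exact hg
    · exact hl x hx) (by rw [List.length_cons, hlen])
  rw [List.map_cons, List.prod_cons] at h1
  exact congrArg (fun f : Module.End k M => f v) h1

theorem opp_conj {x y : LinearMap.GeneralLinearGroup k M} (h : Opp x y)
    (g : LinearMap.GeneralLinearGroup k M) : Opp (g * x * g⁻¹) (g * y * g⁻¹) := by
  unfold Opp
  rw [conj_sub_one, conj_sub_one, range_conj, range_conj, ker_conj, ker_conj,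
    ← Submodule.map_inf _ (unit_injective g), ← Submodule.map_inf _ (unit_injective g), h.1, h.2,
    Submodule.map_bot]
  exact ⟨rfl, rfl⟩

/-- Every minimal quadratic element has an opposite one. -/
theorem exists_opp (hG : Cfsg.IsQuadraticPair G) (htwo : (2 : k) ≠ 0)
    (ha : ∃ a : k, a ≠ 0 ∧ a ^ 2 ≠ 1) {ρ : LinearMap.GeneralLinearGroup k M}
    (hρ : ρ ∈ Cfsg.minimalQuadraticElements G) :
    ∃ φ ∈ Cfsg.minimalQuadraticElements G, Opp ρ φ := by
  by_contra hno
  push Not at hno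
  have hWG : ∀ A ∈ {A : Subgroup (LinearMap.GeneralLinearGroup k M) |
      ∃ g ∈ G, A = Cfsg.conjBy (Cfsg.sameActionSubgroup G ρ) g}, A ≤ G := by
    rintro _ ⟨g, hg, rfl⟩ x hx
    rw [mem_conjBy_iff] at hx
    have h1 := E_le_G ρ hx
    have h2 : x = g * (g⁻¹ * x * g) * g⁻¹ := by group
    rw [h2]
    exact G.mul_mem (G.mul_mem hg h1) (G.inv_mem hg)
  have hWW : ∀ A ∈ {A : Subgroup (LinearMap.GeneralLinearGroup k M) |
      ∃ g ∈ G, A = Cfsg.conjBy (Cfsg.sameActionSubgroup G ρ) g},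
      ∀ B ∈ {A : Subgroup (LinearMap.GeneralLinearGroup k M) |
      ∃ g ∈ G, A = Cfsg.conjBy (Cfsg.sameActionSubgroup G ρ) g}, Cfsg.IsUnipotentOn (A ⊔ B) := by
    rintro _ ⟨g, hg, rfl⟩ _ ⟨g', hg', rfl⟩
    rw [← E_conj hg, ← E_conj hg']
    apply unipotent_of_not_opp htwo ha (conj_mem_min hρ hg) (conj_mem_min hρ hg')
    intro hopp
    have h1 := opp_conj hopp g⁻¹
    have e1 : g⁻¹ * (g * ρ * g⁻¹) * g⁻¹⁻¹ = ρ := by group
    have e2 : g⁻¹ * (g' * ρ * g'⁻¹) * g⁻¹⁻¹ = (g⁻¹ * g') * ρ * (g⁻¹ * g')⁻¹ := by group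
    rw [e1, e2] at h1
    exact hno _ (conj_mem_min hρ (G.mul_mem (G.inv_mem hg) hg')) h1
  have hWconj : ∀ A ∈ {A : Subgroup (LinearMap.GeneralLinearGroup k M) |
      ∃ g ∈ G, A = Cfsg.conjBy (Cfsg.sameActionSubgroup G ρ) g},
      ∀ g ∈ G, Cfsg.conjBy A g ∈ {A : Subgroup (LinearMap.GeneralLinearGroup k M) |
      ∃ g ∈ G, A = Cfsg.conjBy (Cfsg.sameActionSubgroup G ρ) g} := by
    rintro _ ⟨g, hg, rfl⟩ g' hg'
    exact ⟨g' * g, G.mul_mem hg' hg, conjBy_conjBy _ _ _⟩
  obtain ⟨hU, hnorm⟩ := Cfsg.Agent.S5061.result hWG hWW hWconj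
  have hρN : ρ ∈ ⨆ A ∈ {A : Subgroup (LinearMap.GeneralLinearGroup k M) |
      ∃ g ∈ G, A = Cfsg.conjBy (Cfsg.sameActionSubgroup G ρ) g}, A := by
    have h1 : Cfsg.sameActionSubgroup G ρ ≤ ⨆ A ∈ {A : Subgroup (LinearMap.GeneralLinearGroup k M) |
        ∃ g ∈ G, A = Cfsg.conjBy (Cfsg.sameActionSubgroup G ρ) g}, A :=
      le_iSup₂ (f := fun (A : Subgroup (LinearMap.GeneralLinearGroup k M))
        (_ : A ∈ {A : Subgroup (LinearMap.GeneralLinearGroup k M) |
          ∃ g ∈ G, A = Cfsg.conjBy (Cfsg.sameActionSubgroup G ρ) g}) => A)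
        (Cfsg.sameActionSubgroup G ρ) ⟨1, G.one_mem, (conjBy_one _).symm⟩
    exact h1 (Subgroup.subset_closure (self_mem_class hρ))
  obtain ⟨N, hNdef⟩ : ∃ N : Subgroup (LinearMap.GeneralLinearGroup k M),
      N = ⨆ A ∈ {A : Subgroup (LinearMap.GeneralLinearGroup k M) |
        ∃ g ∈ G, A = Cfsg.conjBy (Cfsg.sameActionSubgroup G ρ) g}, A := ⟨_, rfl⟩
  rw [← hNdef] at hU hnorm hρN
  have hfix := fixed_ne_bot_of_unipotent N hU hG.1.1
  have hinv : ∀ g ∈ G, ∀ w ∈ Cfsg.fixedSubmodule N, (g : M →ₗ[k] M) w ∈ Cfsg.fixedSubmodule N := by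
    intro g hg w hw
    simp only [Cfsg.fixedSubmodule, Submodule.mem_iInf, LinearMap.mem_ker] at hw ⊢
    intro x hx
    have hx' : g⁻¹ * x * g ∈ N := by
      have := hnorm g hg
      rw [← this] at hx
      exact mem_conjBy_iff.mp hx
    have h1 := hw _ hx'
    rw [LinearMap.sub_apply, sub_eq_zero] at h1 ⊢
    have h2 : ((g⁻¹ * x * g : LinearMap.GeneralLinearGroup k M) : M →ₗ[k] M) w =
        ((g⁻¹ : LinearMap.GeneralLinearGroup k M) : M →ₗ[k] M) ((x : M →ₗ[k] M)
          ((g : M →ₗ[k] M) w)) := rfl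
    rw [h2] at h1
    have h3 := congrArg (g : M →ₗ[k] M) h1
    have hig : ∀ w, (g : Module.End k M)
        (((g⁻¹ : LinearMap.GeneralLinearGroup k M) : Module.End k M) w) = w := fun w =>
      congrArg (fun f : Module.End k M => f w) (Units.mul_inv g)
    rw [hig] at h3
    exact h3
  rcases hG.1.2 _ hinv with h1 | h1
  · exact hfix h1
  · apply hρ.1.2.1.2
    apply LinearMap.ext
    intro v
    have hv : v ∈ Cfsg.fixedSubmodule N := by
      rw [h1]
      exact Submodule.mem_top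
    simp only [Cfsg.fixedSubmodule, Submodule.mem_iInf, LinearMap.mem_ker] at hv
    exact hv ρ hρN


/-- The opposite case is not unipotent. -/
theorem not_unipotent_of_opp (htwo : (2 : k) ≠ 0) (ha : ∃ a : k, a ≠ 0 ∧ a ^ 2 ≠ 1)
    {σ τ : LinearMap.GeneralLinearGroup k M}
    (hσ : σ ∈ Cfsg.minimalQuadraticElements G) (hτ : τ ∈ Cfsg.minimalQuadraticElements G)
    (hopp : Opp σ τ)
    (hEσ : (Cfsg.sameActionSubgroup G σ : Set (LinearMap.GeneralLinearGroup k M)) =
      Cfsg.sameActionClass G σ ∪ {1})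
    (hEτ : (Cfsg.sameActionSubgroup G τ : Set (LinearMap.GeneralLinearGroup k M)) =
      Cfsg.sameActionClass G τ ∪ {1}) :
    ¬ Cfsg.IsUnipotentOn (Cfsg.sameActionSubgroup G σ ⊔ Cfsg.sameActionSubgroup G τ) := by
  intro hU
  obtain ⟨⟨i, ⟨hiX, hi1, hii, -, -, -⟩, -⟩, -⟩ := involution_of_opp htwo ha hσ hτ hopp hEσ hEτ
  obtain ⟨n, hn⟩ := (unipotent_iff _).mp hU
  have h1 := hn (List.replicate n i) (by
    intro g hg
    rw [List.eq_of_mem_replicate hg]
    exact hiX) List.length_replicate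
  rw [List.map_replicate, List.prod_replicate] at h1
  have hT0 : (i : Module.End k M) - 1 ≠ 0 := by
    intro h0
    apply hi1
    apply Units.ext
    rw [sub_eq_zero.mp h0]
    rfl
  have hsq : ((i : Module.End k M) - 1) * ((i : Module.End k M) - 1) =
      (-2 : k) • ((i : Module.End k M) - 1) := by
    have h2 : (i : Module.End k M) * (i : Module.End k M) = 1 := by
      rw [← Units.val_mul, hii]
      rfl
    have h3 : ((i : Module.End k M) - 1) * ((i : Module.End k M) - 1) =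
        (i : Module.End k M) * (i : Module.End k M) - (i : Module.End k M) - (i : Module.End k M) + 1 := by
      noncomm_ring
    rw [h3, h2]
    module
  have hpow : ∀ m : ℕ, ((i : Module.End k M) - 1) ^ (m + 1) =
      ((-2 : k) ^ m) • ((i : Module.End k M) - 1) := by
    intro m
    induction m with
    | zero => rw [pow_zero, one_smul, zero_add, pow_one]
    | succ m ih => rw [pow_succ, ih, smul_mul_assoc, hsq, smul_smul, ← pow_succ]
  cases n with
  | zero =>
    rw [pow_zero] at h1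
    apply hT0
    rw [← mul_one ((i : Module.End k M) - 1), h1, mul_zero]
  | succ m =>
    rw [hpow m] at h1
    rcases smul_eq_zero.mp h1 with h2 | h2
    · exact pow_ne_zero m (neg_ne_zero.mpr htwo) h2
    · exact hT0 h2

theorem class_aux {S : Type*} [Ring S] (a q : S) (haa : a * a = 0) (hqq : q * q = 0)
    (haqa : a * q * a = a) (hqaq : q * a * q = q)
    (hcomm : ((1 + a) * (1 + q) * (1 - a) * (1 - q)) * (1 + a) =
      (1 + a) * ((1 + a) * (1 + q) * (1 - a) * (1 - q))) : a = 0 := by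
  have haa' : ∀ z, a * (a * z) = 0 := fun z => by rw [← mul_assoc, haa, zero_mul]
  have hqq' : ∀ z, q * (q * z) = 0 := fun z => by rw [← mul_assoc, hqq, zero_mul]
  have haqa0 : a * (q * a) = a := by rw [← mul_assoc]; exact haqa
  have haqa' : ∀ z, a * (q * (a * z)) = a * z := fun z => by
    rw [← mul_assoc, ← mul_assoc, haqa]
  have hqaq0 : q * (a * q) = q := by rw [← mul_assoc]; exact hqaq
  have hqaq' : ∀ z, q * (a * (q * z)) = q * z := fun z => by
    rw [← mul_assoc, ← mul_assoc, hqaq]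
  have key : a * (((1 + a) * (1 + q) * (1 - a) * (1 - q)) * (1 + a)) -
      a * ((1 + a) * ((1 + a) * (1 + q) * (1 - a) * (1 - q))) = a := by
    simp only [mul_add, add_mul, mul_sub, sub_mul, mul_one, one_mul, mul_assoc, haa, haa', hqq,
      hqq', haqa0, haqa', hqaq0, hqaq', mul_zero, zero_mul, add_zero, zero_add, sub_zero, zero_sub,
      neg_mul, mul_neg, neg_zero]
    abel
  rw [hcomm, sub_self] at key
  exact key.symm

/-- The opposite case is not nilpotent of class two. -/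
theorem not_class2_of_opp (htwo : (2 : k) ≠ 0) (ha : ∃ a : k, a ≠ 0 ∧ a ^ 2 ≠ 1)
    {σ τ : LinearMap.GeneralLinearGroup k M}
    (hσ : σ ∈ Cfsg.minimalQuadraticElements G) (hτ : τ ∈ Cfsg.minimalQuadraticElements G)
    (hopp : Opp σ τ) :
    ⁅⁅Cfsg.sameActionSubgroup G σ ⊔ Cfsg.sameActionSubgroup G τ,
      Cfsg.sameActionSubgroup G σ ⊔ Cfsg.sameActionSubgroup G τ⁆,
      Cfsg.sameActionSubgroup G σ ⊔ Cfsg.sameActionSubgroup G τ⁆ ≠ ⊥ := by
  intro hbot
  obtain ⟨q, e, i, haqa, hqaq, hqq, hsum, hee, he0, hqr, hqk, hqfam, -, -, -, -, -, -⟩ :=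
    oppData htwo ha hσ hτ hopp
  have hβτ : unitOf q hqq ∈ Cfsg.sameActionSubgroup G τ :=
    mem_sameAction hτ _ q rfl hqq hqfam hqr.le hqk.ge
  have hσX : σ ∈ Cfsg.sameActionSubgroup G σ ⊔ Cfsg.sameActionSubgroup G τ :=
    Subgroup.mem_sup_left (Subgroup.subset_closure (self_mem_class hσ))
  have hβX : unitOf q hqq ∈ Cfsg.sameActionSubgroup G σ ⊔ Cfsg.sameActionSubgroup G τ :=
    Subgroup.mem_sup_right hβτ
  have h1 : ⁅⁅σ, unitOf q hqq⁆, σ⁆ ∈ ⁅⁅Cfsg.sameActionSubgroup G σ ⊔ Cfsg.sameActionSubgroup G τ,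
      Cfsg.sameActionSubgroup G σ ⊔ Cfsg.sameActionSubgroup G τ⁆,
      Cfsg.sameActionSubgroup G σ ⊔ Cfsg.sameActionSubgroup G τ⁆ :=
    Subgroup.commutator_mem_commutator (Subgroup.commutator_mem_commutator hσX hβX) hσX
  rw [hbot, Subgroup.mem_bot, commutatorElement_eq_one_iff_mul_comm] at h1
  have haa := hσ.1.2.1.1
  have hσv : (σ : Module.End k M) = 1 + ((σ : M →ₗ[k] M) - 1) := by abel
  have h2 := congrArg Units.val h1
  rw [Units.val_mul, Units.val_mul, commutatorElement_def, Units.val_mul, Units.val_mul,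
    Units.val_mul, inv_val_of σ _ haa hσv, inv_val_of (unitOf q hqq) q hqq rfl, unitOf_val] at h2
  apply hσ.1.2.1.2
  apply class_aux _ q haa hqq haqa hqaq
  rw [← hσv]
  exact h2

end Cfsg.Agent.Helper5.QPair
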