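import Cfsg.Agent.Helper5.QPairQ

set_option autoImplicit false
set_option linter.unusedSimpArgs false
set_option linter.unusedVariables false
set_option linter.unusedSectionVars false

/-! Quadratic pairs: transfer of the root subgroup axioms to a subgroup containing the root
subgroups (S5062), generic part. -/

namespace Cfsg.Agent.Helper5.QPair

open scoped commutatorElement

section grp

variable {Γ : Type*} [Group Γ]

theorem conjBy_subgroupOf (K A : Subgroup Γ) (g : K) :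
    Cfsg.conjBy (A.subgroupOf K) g = (Cfsg.conjBy A (g : Γ)).subgroupOf K := by
  ext x
  rw [mem_conjBy_iff, Subgroup.mem_subgroupOf, Subgroup.mem_subgroupOf, mem_conjBy_iff]
  rfl

theorem map_subgroupOf_of_le {K A : Subgroup Γ} (h : A ≤ K) :
    (A.subgroupOf K).map K.subtype = A := Subgroup.map_subgroupOf_eq_of_le h

theorem subgroupOf_injOn {K A B : Subgroup Γ} (hA : A ≤ K) (hB : B ≤ K)
    (h : A.subgroupOf K = B.subgroupOf K) : A = B := by
  rw [← map_subgroupOf_of_le hA, ← map_subgroupOf_of_le hB, h]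

theorem comm_le_of_le {K A B : Subgroup Γ} (hA : A ≤ K) (hB : B ≤ K) :
    (⁅A, B⁆ : Subgroup Γ) ≤ K := by
  rw [Subgroup.commutator_le]
  intro a ha b hb
  rw [commutatorElement_def]
  exact K.mul_mem (K.mul_mem (K.mul_mem (hA ha) (hB hb)) (K.inv_mem (hA ha))) (K.inv_mem (hB hb))

theorem comm_subgroupOf {K A B : Subgroup Γ} (hA : A ≤ K) (hB : B ≤ K) :
    ⁅A.subgroupOf K, B.subgroupOf K⁆ = (⁅A, B⁆ : Subgroup Γ).subgroupOf K := by
  have hAB : (⁅A, B⁆ : Subgroup Γ) ≤ K := comm_le_of_le hA hB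
  apply Subgroup.map_injective K.subtype_injective
  rw [Subgroup.map_commutator, map_subgroupOf_of_le hA, map_subgroupOf_of_le hB,
    map_subgroupOf_of_le hAB]

theorem rankOneCond_subgroupOf {K A B : Subgroup Γ} (hB : B ≤ K)
    (h : Cfsg.RankOneCondition A B) :
    Cfsg.RankOneCondition (A.subgroupOf K) (B.subgroupOf K) := by
  intro a ha ha1
  obtain ⟨b, hb, hb1, hconj⟩ := h (a : Γ) (Subgroup.mem_subgroupOf.mp ha) (by
    intro h1
    exact ha1 (Subtype.ext h1))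
  refine ⟨⟨b, hB hb⟩, Subgroup.mem_subgroupOf.mpr hb, ?_, ?_⟩
  · intro h1
    exact hb1 (congrArg Subtype.val h1)
  · rw [conjBy_subgroupOf, conjBy_subgroupOf]
    have e1 : (((⟨b, hB hb⟩ : K)⁻¹ : K) : Γ) = b⁻¹ := rfl
    have e2 : ((a⁻¹ : K) : Γ) = (a : Γ)⁻¹ := rfl
    rw [e1, e2, hconj]

theorem isMulCommutative_subgroupOf {K A : Subgroup Γ}
    (h : ∀ x ∈ A, ∀ y ∈ A, x * y = y * x) : IsMulCommutative (A.subgroupOf K) :=
  ⟨⟨fun a b => Subtype.ext (Subtype.ext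
    (h _ (Subgroup.mem_subgroupOf.mp a.2) _ (Subgroup.mem_subgroupOf.mp b.2)))⟩⟩

theorem isMulCommutative_of_comm {A : Subgroup Γ}
    (h : ∀ x ∈ A, ∀ y ∈ A, x * y = y * x) : IsMulCommutative A :=
  ⟨⟨fun a b => Subtype.ext (h _ a.2 _ b.2)⟩⟩

theorem nilpotent_of_comm {A : Subgroup Γ} (h : IsMulCommutative A) : Group.IsNilpotent A :=
  ⟨⟨1, Subgroup.upperCentralSeries_one_eq_top_iff.mpr h⟩⟩

theorem rankOnePair_subgroupOf {K A B : Subgroup Γ} (hA : A ≤ K) (hB : B ≤ K)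
    (hAc : ∀ x ∈ A, ∀ y ∈ A, x * y = y * x) (hBc : ∀ x ∈ B, ∀ y ∈ B, x * y = y * x)
    (h : Cfsg.IsRankOnePair A B) :
    Cfsg.IsRankOnePair (A.subgroupOf K) (B.subgroupOf K) :=
  ⟨fun h' => h.ne (subgroupOf_injOn hA hB h'),
    nilpotent_of_comm (isMulCommutative_subgroupOf hAc),
    nilpotent_of_comm (isMulCommutative_subgroupOf hBc),
    rankOneCond_subgroupOf hB h.cond_left, rankOneCond_subgroupOf hA h.cond_right⟩

theorem closure_comm_subgroupOf {K A B : Subgroup Γ} (hA : A ≤ K) (hB : B ≤ K)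
    (a : K) (h : Subgroup.closure ((fun b : Γ => (a : Γ) * b * (a : Γ)⁻¹ * b⁻¹) '' (B : Set Γ)) =
      ⁅A, B⁆) :
    Subgroup.closure ((fun b : K => a * b * a⁻¹ * b⁻¹) '' ((B.subgroupOf K : Subgroup K) : Set K)) =
      ⁅A.subgroupOf K, B.subgroupOf K⁆ := by
  have hAB : (⁅A, B⁆ : Subgroup Γ) ≤ K := comm_le_of_le hA hB
  apply Subgroup.map_injective K.subtype_injective
  rw [comm_subgroupOf hA hB, map_subgroupOf_of_le hAB, MonoidHom.map_closure, ← h]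
  congr 1
  ext x
  constructor
  · rintro ⟨y, ⟨b, hb, rfl⟩, rfl⟩
    exact ⟨(b : Γ), Subgroup.mem_subgroupOf.mp hb, rfl⟩
  · rintro ⟨b, hb, rfl⟩
    exact ⟨_, ⟨⟨b, hB hb⟩, Subgroup.mem_subgroupOf.mpr hb, rfl⟩, rfl⟩

theorem closure_comm_subgroupOf' {K A B : Subgroup Γ} (hA : A ≤ K) (hB : B ≤ K)
    (b : K) (h : Subgroup.closure ((fun a : Γ => a * (b : Γ) * a⁻¹ * (b : Γ)⁻¹) '' (A : Set Γ)) =
      ⁅A, B⁆) :
    Subgroup.closure ((fun a : K => a * b * a⁻¹ * b⁻¹) '' ((A.subgroupOf K : Subgroup K) : Set K)) =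
      ⁅A.subgroupOf K, B.subgroupOf K⁆ := by
  have hAB : (⁅A, B⁆ : Subgroup Γ) ≤ K := comm_le_of_le hA hB
  apply Subgroup.map_injective K.subtype_injective
  rw [comm_subgroupOf hA hB, map_subgroupOf_of_le hAB, MonoidHom.map_closure, ← h]
  congr 1
  ext x
  constructor
  · rintro ⟨y, ⟨a, ha, rfl⟩, rfl⟩
    exact ⟨(a : Γ), Subgroup.mem_subgroupOf.mp ha, rfl⟩
  · rintro ⟨a, ha, rfl⟩
    exact ⟨_, ⟨⟨a, hA ha⟩, Subgroup.mem_subgroupOf.mpr ha, rfl⟩, rfl⟩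

theorem mem_sup_of_subgroupOf {K A B : Subgroup Γ} (hA : A ≤ K) (hB : B ≤ K) {x : K}
    (hx : x ∈ A.subgroupOf K ⊔ B.subgroupOf K) : (x : Γ) ∈ A ⊔ B := by
  have h1 : (x : Γ) ∈ (A.subgroupOf K ⊔ B.subgroupOf K).map K.subtype := ⟨x, hx, rfl⟩
  rwa [Subgroup.map_sup, map_subgroupOf_of_le hA, map_subgroupOf_of_le hB] at h1

theorem rootComm_subgroupOf {K A B : Subgroup Γ} (S : Set (Subgroup Γ)) (hA : A ≤ K) (hB : B ≤ K)
    (h : Cfsg.RootCommutatorCase S A B) :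
    Cfsg.RootCommutatorCase ((fun X : Subgroup Γ => X.subgroupOf K) '' S)
      (A.subgroupOf K) (B.subgroupOf K) := by
  obtain ⟨h1, h2, h3, h4⟩ := h
  refine ⟨?_, ?_, ?_, ?_⟩
  · rw [comm_subgroupOf hA hB]
    exact ⟨_, h1, rfl⟩
  · intro c hc x hx
    rw [comm_subgroupOf hA hB] at hc
    exact Subtype.ext (h2 _ (Subgroup.mem_subgroupOf.mp hc) _ (mem_sup_of_subgroupOf hA hB hx))
  · intro a ha ha1
    apply closure_comm_subgroupOf hA hB
    exact h3 _ (Subgroup.mem_subgroupOf.mp ha) (fun h' => ha1 (Subtype.ext h'))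
  · intro b hb hb1
    apply closure_comm_subgroupOf' hA hB
    exact h4 _ (Subgroup.mem_subgroupOf.mp hb) (fun h' => hb1 (Subtype.ext h'))

theorem iSup_subgroupOf_eq_top (S : Set (Subgroup Γ)) :
    (⨆ A ∈ (fun X : Subgroup Γ => X.subgroupOf (⨆ B ∈ S, B)) '' S, A) = ⊤ := by
  rw [iSup_image]
  apply Subgroup.map_injective (⨆ B ∈ S, B).subtype_injective
  rw [← MonoidHom.range_eq_map, Subgroup.range_subtype]
  simp_rw [Subgroup.map_iSup]
  apply le_antisymm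
  · apply iSup₂_le
    intro A hA
    rw [map_subgroupOf_of_le (le_iSup₂ (f := fun (B : Subgroup Γ) (_ : B ∈ S) => B) A hA)]
    exact le_iSup₂ (f := fun (B : Subgroup Γ) (_ : B ∈ S) => B) A hA
  · apply iSup₂_le
    intro A hA
    have := map_subgroupOf_of_le (le_iSup₂ (f := fun (B : Subgroup Γ) (_ : B ∈ S) => B) A hA)
    calc A = (A.subgroupOf (⨆ B ∈ S, B)).map (⨆ B ∈ S, B).subtype := this.symm
      _ ≤ _ := le_iSup₂ (f := fun (B : Subgroup Γ) (_ : B ∈ S) =>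
          (B.subgroupOf (⨆ B ∈ S, B)).map (⨆ B ∈ S, B).subtype) A hA

theorem central_of_class2 {E F : Subgroup Γ}
    (h : ⁅⁅E ⊔ F, E ⊔ F⁆, E ⊔ F⁆ = ⊥) :
    ∀ c ∈ ⁅E, F⁆, ∀ x ∈ E ⊔ F, c * x = x * c := by
  intro c hc x hx
  have hc' : c ∈ ⁅E ⊔ F, E ⊔ F⁆ := Subgroup.commutator_mono le_sup_left le_sup_right hc
  have h1 : ⁅c, x⁆ ∈ ⁅⁅E ⊔ F, E ⊔ F⁆, E ⊔ F⁆ := Subgroup.commutator_mem_commutator hc' hx
  rw [h, Subgroup.mem_bot] at h1
  exact commutatorElement_eq_one_iff_mul_comm.mp h1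

end grp

end Cfsg.Agent.Helper5.QPair
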