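import Cfsg.Agent.Helper5.QPairR

set_option autoImplicit false
set_option linter.unusedSimpArgs false
set_option linter.unusedVariables false
set_option linter.unusedSectionVars false

/-! Quadratic pairs: the copy of `SL₂(k)` generated by two opposite root elements, and the
characterisation of rank one pairs of root subgroups (S5062). -/

namespace Cfsg.Agent.Helper5.QPair

open Matrix
open scoped commutatorElement

namespace MUnits

variable {k : Type*} [Field k] {S : Type*} [Ring S] [Algebra k S] (U : MUnits S)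

theorem p_smul_e (c : k) : U.p * (c • U.e) = (c • U.e) * U.p := by
  rw [mul_smul_comm, U.pe, smul_mul_assoc, U.ep]

theorem q_smul_e (c : k) : U.q * (c • U.e) = (c • U.e) * U.q := by
  rw [mul_smul_comm, U.qe, smul_mul_assoc, U.eq']

theorem smul_e_mul_e (c : k) : (c • U.e) * U.e = c • U.e := by
  rw [smul_mul_assoc, U.ee]

/-- The (non-unital) ring homomorphism from `2 × 2` matrices over the ground field. -/
def PsiK (m : Matrix (Fin 2) (Fin 2) k) : S :=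
  U.val (m 0 0 • U.e) (m 0 1 • U.e) (m 1 0 • U.e) (m 1 1 • U.e)

theorem PsiK_mul (m n : Matrix (Fin 2) (Fin 2) k) : U.PsiK (m * n) = U.PsiK m * U.PsiK n := by
  unfold PsiK
  rw [U.val_mul _ _ _ _ _ _ _ _ (U.p_smul_e _) (U.q_smul_e _) (U.p_smul_e _) (U.q_smul_e _)
    (U.p_smul_e _) (U.q_smul_e _) (U.p_smul_e _) (U.q_smul_e _)]
  simp only [Matrix.mul_apply, Fin.sum_univ_two, add_smul, smul_mul_smul_comm, U.ee]

theorem PsiK_one : U.PsiK (1 : Matrix (Fin 2) (Fin 2) k) = U.e := by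
  unfold PsiK MUnits.val
  simp only [Matrix.one_apply_eq, Matrix.one_apply_ne, ne_eq, zero_ne_one, one_ne_zero,
    not_false_eq_true, zero_smul, one_smul, zero_mul, add_zero]
  rw [← mul_add, U.pq_qp, U.ee]

theorem e_mul_PsiK (m : Matrix (Fin 2) (Fin 2) k) : U.e * U.PsiK m = U.PsiK m := by
  rw [← U.PsiK_one (k := k), ← PsiK_mul, one_mul]

theorem PsiK_mul_e (m : Matrix (Fin 2) (Fin 2) k) : U.PsiK m * U.e = U.PsiK m := by
  rw [← U.PsiK_one (k := k), ← PsiK_mul, mul_one]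

/-- The representation of `SL₂(k)`, as a function. -/
def rhoK (g : SpecialLinearGroup (Fin 2) k) : S :=
  (1 - U.e) + U.PsiK (g : Matrix (Fin 2) (Fin 2) k)

theorem rhoK_one : U.rhoK (1 : SpecialLinearGroup (Fin 2) k) = 1 := by
  unfold rhoK
  rw [Matrix.SpecialLinearGroup.coe_one, PsiK_one]
  abel

theorem rhoK_mul (g h : SpecialLinearGroup (Fin 2) k) :
    U.rhoK (g * h) = U.rhoK g * U.rhoK h := by
  unfold rhoK
  rw [Matrix.SpecialLinearGroup.coe_mul, PsiK_mul]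
  obtain ⟨P1, hP1⟩ : ∃ P1, P1 = U.PsiK (g : Matrix (Fin 2) (Fin 2) k) := ⟨_, rfl⟩
  obtain ⟨P2, hP2⟩ : ∃ P2, P2 = U.PsiK (h : Matrix (Fin 2) (Fin 2) k) := ⟨_, rfl⟩
  have e1 : U.e * P2 = P2 := by rw [hP2]; exact U.e_mul_PsiK _
  have e2 : P1 * U.e = P1 := by rw [hP1]; exact U.PsiK_mul_e _
  rw [← hP1, ← hP2]
  have e3 : (1 - U.e) * (1 - U.e) = 1 - U.e := by
    rw [mul_sub, mul_one, sub_mul, one_mul, U.ee, sub_self, sub_zero]
  have e4 : (1 - U.e) * P2 = 0 := by rw [sub_mul, one_mul, e1, sub_self]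
  have e5 : P1 * (1 - U.e) = 0 := by rw [mul_sub, mul_one, e2, sub_self]
  rw [add_mul, mul_add, mul_add, e3, e4, e5, add_zero, zero_add]

/-- The representation as a monoid homomorphism. -/
def rhoKHom : SpecialLinearGroup (Fin 2) k →* S where
  toFun := U.rhoK
  map_one' := U.rhoK_one
  map_mul' := U.rhoK_mul

/-- The representation into the unit group. -/
def rhoKHat : SpecialLinearGroup (Fin 2) k →* Sˣ :=
  U.rhoKHom.toHomUnits

theorem rhoKHat_val (g : SpecialLinearGroup (Fin 2) k) :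
    ((U.rhoKHat g : Sˣ) : S) = U.rhoK g := rfl

theorem rhoK_uu (t : k) : U.rhoK (SLRing.uu t) = 1 + t • U.p := by
  unfold rhoK PsiK MUnits.val
  simp only [SLRing.uu_00, SLRing.uu_01, SLRing.uu_10, SLRing.uu_11, zero_smul, one_smul, zero_mul,
    add_zero]
  rw [smul_mul_assoc, U.ep]
  have h : U.e * (U.p * U.q) + U.e * (U.q * U.p) = U.e := by
    rw [← mul_add, U.pq_qp, U.ee]
  calc 1 - U.e + (U.e * (U.p * U.q) + t • U.p + U.e * (U.q * U.p)) =
        1 - U.e + (U.e * (U.p * U.q) + U.e * (U.q * U.p)) + t • U.p := by abel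
    _ = 1 + t • U.p := by rw [h]; abel

theorem rhoK_ll (t : k) : U.rhoK (SLRing.ll t) = 1 + t • U.q := by
  unfold rhoK PsiK MUnits.val
  simp only [SLRing.ll_00, SLRing.ll_01, SLRing.ll_10, SLRing.ll_11, zero_smul, one_smul, zero_mul,
    add_zero]
  rw [smul_mul_assoc, U.eq']
  have h : U.e * (U.p * U.q) + U.e * (U.q * U.p) = U.e := by
    rw [← mul_add, U.pq_qp, U.ee]
  calc 1 - U.e + (U.e * (U.p * U.q) + t • U.q + U.e * (U.q * U.p)) =
        1 - U.e + (U.e * (U.p * U.q) + U.e * (U.q * U.p)) + t • U.q := by abel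
    _ = 1 + t • U.q := by rw [h]; abel

theorem rhoK_injective (he : U.e ≠ 0) :
    Function.Injective (U.rhoK : SpecialLinearGroup (Fin 2) k → S) := by
  intro g h hgh
  unfold rhoK at hgh
  have h1 : U.PsiK (g : Matrix (Fin 2) (Fin 2) k) = U.PsiK (h : Matrix (Fin 2) (Fin 2) k) :=
    add_left_cancel hgh
  unfold PsiK at h1
  have h2 := sub_eq_zero.mpr h1
  rw [QP.val_sub] at h2
  simp only [← sub_smul] at h2
  obtain ⟨e1, e2, e3, e4⟩ := U.val_eq_zero _ _ _ _ (U.p_smul_e _) (U.q_smul_e _) (U.p_smul_e _)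
    (U.q_smul_e _) (U.p_smul_e _) (U.q_smul_e _) (U.p_smul_e _) (U.q_smul_e _) (U.smul_e_mul_e _)
    (U.smul_e_mul_e _) (U.smul_e_mul_e _) (U.smul_e_mul_e _) h2
  have hz : ∀ x y : k, (x - y) • U.e = 0 → x = y := by
    intro x y hxy
    rcases smul_eq_zero.mp hxy with h | h
    · exact sub_eq_zero.mp h
    · exact absurd h he
  exact SLRing.sl_ext g h (hz _ _ e1) (hz _ _ e2) (hz _ _ e3) (hz _ _ e4)

theorem rhoKHat_injective (he : U.e ≠ 0) :
    Function.Injective (U.rhoKHat : SpecialLinearGroup (Fin 2) k → Sˣ) := by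
  intro g h hgh
  apply U.rhoK_injective he
  have := congrArg (fun x : Sˣ => (x : S)) hgh
  exact this

end MUnits

section sl2

variable {k : Type*} [Field k]

theorem uu_mem_upper (t : k) : SLRing.uu t ∈ Cfsg.upperUnipotentSL2 k :=
  Subgroup.subset_closure ⟨rfl, rfl, rfl⟩

theorem ll_mem_lower (t : k) : SLRing.ll t ∈ Cfsg.lowerUnipotentSL2 k :=
  Subgroup.subset_closure ⟨rfl, rfl, rfl⟩

theorem upper_eq_uu {g : SpecialLinearGroup (Fin 2) k}
    (h : (g : Matrix (Fin 2) (Fin 2) k) 1 0 = 0 ∧ (g : Matrix (Fin 2) (Fin 2) k) 0 0 = 1 ∧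
      (g : Matrix (Fin 2) (Fin 2) k) 1 1 = 1) :
    g = SLRing.uu ((g : Matrix (Fin 2) (Fin 2) k) 0 1) :=
  SLRing.sl_ext _ _ h.2.1 rfl h.1 h.2.2

theorem lower_eq_ll {g : SpecialLinearGroup (Fin 2) k}
    (h : (g : Matrix (Fin 2) (Fin 2) k) 0 1 = 0 ∧ (g : Matrix (Fin 2) (Fin 2) k) 0 0 = 1 ∧
      (g : Matrix (Fin 2) (Fin 2) k) 1 1 = 1) :
    g = SLRing.ll ((g : Matrix (Fin 2) (Fin 2) k) 1 0) :=
  SLRing.sl_ext _ _ h.2.1 h.1 rfl h.2.2

theorem sl2_sup_eq_top (k : Type*) [Field k] :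
    Cfsg.upperUnipotentSL2 k ⊔ Cfsg.lowerUnipotentSL2 k = ⊤ := by
  have key : ∀ g : SpecialLinearGroup (Fin 2) k, (g : Matrix (Fin 2) (Fin 2) k) 1 0 ≠ 0 →
      g ∈ Cfsg.upperUnipotentSL2 k ⊔ Cfsg.lowerUnipotentSL2 k := by
    intro g hg
    have hd := SLRing.decomp g ((g : Matrix (Fin 2) (Fin 2) k) 1 0)⁻¹ (mul_inv_cancel₀ hg)
    rw [hd]
    exact Subgroup.mul_mem _ (Subgroup.mul_mem _ (Subgroup.mem_sup_left (uu_mem_upper _))
      (Subgroup.mem_sup_right (ll_mem_lower _))) (Subgroup.mem_sup_left (uu_mem_upper _))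
  rw [eq_top_iff]
  intro g _
  by_cases hg : (g : Matrix (Fin 2) (Fin 2) k) 1 0 = 0
  · have hdet := SLRing.det_eq g
    rw [hg, mul_zero, sub_zero] at hdet
    have h00 : (g : Matrix (Fin 2) (Fin 2) k) 0 0 ≠ 0 := by
      intro h
      rw [h, zero_mul] at hdet
      exact zero_ne_one hdet
    have h1 : SLRing.ll 1 * g ∈ Cfsg.upperUnipotentSL2 k ⊔ Cfsg.lowerUnipotentSL2 k := by
      apply key
      rw [SLRing.mul_entry, SLRing.ll_10, SLRing.ll_11, hg, one_mul, one_mul, add_zero]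
      exact h00
    have h2 : g = (SLRing.ll (1 : k))⁻¹ * (SLRing.ll 1 * g) := by group
    rw [h2]
    exact Subgroup.mul_mem _ (Subgroup.inv_mem _ (Subgroup.mem_sup_right (ll_mem_lower _))) h1
  · exact key g hg

theorem three_lt_card (htwo : (2 : k) ≠ 0) (ha : ∃ a : k, a ≠ 0 ∧ a ^ 2 ≠ 1) :
    3 < ENat.card k := by
  obtain ⟨a, ha0, ha2⟩ := ha
  have h1 : a ≠ 1 := by
    rintro rfl
    exact ha2 (one_pow 2)
  have h2 : a ≠ -1 := by
    rintro rfl
    exact ha2 (by ring)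
  have h01 : (0 : k) ≠ 1 := zero_ne_one
  have h0m : (0 : k) ≠ -1 := fun h => h01 (by linear_combination -h)
  have h1m : (1 : k) ≠ -1 := fun h => htwo (by linear_combination h)
  classical
  have hs : ({0, 1, -1, a} : Finset k).card = 4 := by
    rw [Finset.card_insert_of_notMem, Finset.card_insert_of_notMem,
      Finset.card_insert_of_notMem, Finset.card_singleton]
    · simp [Ne.symm h2]
    · simp [h1m, Ne.symm h1]
    · simp [h01, h0m, Ne.symm ha0]
  have h4 : (4 : ℕ∞) ≤ ENat.card k := by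
    have h5 : (({0, 1, -1, a} : Finset k) : Set k).encard = 4 := by
      rw [Set.encard_coe_eq_coe_finsetCard, hs]
      rfl
    rw [← Set.encard_univ, ← h5]
    exact Set.encard_le_encard (Set.subset_univ _)
  exact lt_of_lt_of_le (by norm_num) h4

end sl2

section pairs

variable {k : Type*} [Field k] {M : Type*} [AddCommGroup M] [Module k M] [FiniteDimensional k M]
  {G : Subgroup (LinearMap.GeneralLinearGroup k M)}

/-- Two opposite root subgroups contain the unitriangular subgroups of a copy of `SL₂(k)`. -/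
theorem psl2_of_opp (htwo : (2 : k) ≠ 0) (ha : ∃ a : k, a ≠ 0 ∧ a ^ 2 ≠ 1)
    {σ τ : LinearMap.GeneralLinearGroup k M}
    (hσ : σ ∈ Cfsg.minimalQuadraticElements G) (hτ : τ ∈ Cfsg.minimalQuadraticElements G)
    (hopp : Opp σ τ) :
    ∃ A₀ B₀ : Subgroup (LinearMap.GeneralLinearGroup k M),
      A₀ ≤ Cfsg.sameActionSubgroup G σ ∧ B₀ ≤ Cfsg.sameActionSubgroup G τ ∧
      Cfsg.IsPSL2PairOver k A₀ B₀ := by
  obtain ⟨q, e, i, h1, h2, h3, h4, h5, h6, h7, h8, h9, h10, h11, h12, h13, h14, h15⟩ :=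
    oppData htwo ha hσ hτ hopp
  have heq : e * q = q := by
    rw [← h4, add_mul, mul_assoc, h3, mul_zero, zero_add, h2]
  have hqe : q * e = q := by
    rw [← h4, mul_add, ← mul_assoc, h2, ← mul_assoc, h3, zero_mul, add_zero]
  obtain ⟨U, hUp, hUq, hUe⟩ : ∃ U : MUnits (Module.End k M),
      U.p = (σ : M →ₗ[k] M) - 1 ∧ U.q = q ∧ U.e = e :=
    ⟨{ p := (σ : M →ₗ[k] M) - 1, q := q, e := e, pp := hσ.1.2.1.1, qq := h3, pq_qp := h4,
       ep := h10, pe := h11, eq' := heq, qe := hqe }, rfl, rfl, rfl⟩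
  have hinj : Function.Injective
      (U.rhoKHat : SpecialLinearGroup (Fin 2) k → (Module.End k M)ˣ) :=
    U.rhoKHat_injective (by rw [hUe]; exact h6)
  refine ⟨(Cfsg.upperUnipotentSL2 k).map U.rhoKHat, (Cfsg.lowerUnipotentSL2 k).map U.rhoKHat,
    ?_, ?_, U.rhoKHat, ?_, ?_, rfl, rfl⟩
  · rw [Subgroup.map_le_iff_le_comap]
    apply (Subgroup.closure_le _).mpr
    intro g hg
    rw [upper_eq_uu hg]
    show U.rhoKHat _ ∈ Cfsg.sameActionSubgroup G σ
    apply scalar_mem hσ ((g : Matrix (Fin 2) (Fin 2) k) 0 1)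
    rw [MUnits.rhoKHat_val, MUnits.rhoK_uu, hUp]
  · rw [Subgroup.map_le_iff_le_comap]
    apply (Subgroup.closure_le _).mpr
    intro g hg
    rw [lower_eq_ll hg]
    show U.rhoKHat _ ∈ Cfsg.sameActionSubgroup G τ
    have hsq : (((g : Matrix (Fin 2) (Fin 2) k) 1 0) • q) * (((g : Matrix (Fin 2) (Fin 2) k) 1 0) • q)
        = 0 := by
      rw [smul_mul_smul_comm, h3, smul_zero]
    refine mem_sameAction hτ _ (((g : Matrix (Fin 2) (Fin 2) k) 1 0) • q) ?_ hsq (fam_smul h9 _)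
      ((range_smul_le _ q).trans h7.le) (h8.ge.trans (ker_le_smul _ q))
    rw [MUnits.rhoKHat_val, MUnits.rhoK_ll, hUq]
  · rw [MonoidHom.range_eq_map, ← Subgroup.map_sup, sl2_sup_eq_top]
  · rw [(MonoidHom.ker_eq_bot_iff _).mpr hinj]
    exact bot_le

/-- Opposite root subgroups form a rank one pair. -/
theorem rankOnePair_of_opp (htwo : (2 : k) ≠ 0) (ha : ∃ a : k, a ≠ 0 ∧ a ^ 2 ≠ 1)
    {σ τ : LinearMap.GeneralLinearGroup k M}
    (hσ : σ ∈ Cfsg.minimalQuadraticElements G) (hτ : τ ∈ Cfsg.minimalQuadraticElements G)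
    (hopp : Opp σ τ)
    (hEσ : (Cfsg.sameActionSubgroup G σ : Set (LinearMap.GeneralLinearGroup k M)) =
      Cfsg.sameActionClass G σ ∪ {1})
    (hEτ : (Cfsg.sameActionSubgroup G τ : Set (LinearMap.GeneralLinearGroup k M)) =
      Cfsg.sameActionClass G τ ∪ {1}) :
    Cfsg.IsRankOnePair (Cfsg.sameActionSubgroup G σ) (Cfsg.sameActionSubgroup G τ) := by
  have hcσ : ∀ x ∈ Cfsg.sameActionSubgroup G σ, ∀ y ∈ Cfsg.sameActionSubgroup G σ, x * y = y * x :=
    fun x hx y hy => E_comm hσ hEσ hx hy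
  have hcτ : ∀ x ∈ Cfsg.sameActionSubgroup G τ, ∀ y ∈ Cfsg.sameActionSubgroup G τ, x * y = y * x :=
    fun x hx y hy => E_comm hτ hEτ hx hy
  refine ⟨?_, nilpotent_of_comm (isMulCommutative_of_comm hcσ),
    nilpotent_of_comm (isMulCommutative_of_comm hcτ),
    rankOneCond htwo ha hσ hτ hopp hEσ hEτ, rankOneCond htwo ha hτ hσ ⟨hopp.2, hopp.1⟩ hEτ hEσ⟩
  intro hEq
  have hσ1 : σ ≠ 1 := ne_one_of_min hσ
  have hσE : σ ∈ Cfsg.sameActionSubgroup G τ := by
    rw [← hEq]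
    exact Subgroup.subset_closure (self_mem_class hσ)
  obtain ⟨-, hk', hr'⟩ := mem_class_of_ne hEτ hσE hσ1
  apply hσ.1.2.1.2
  rw [← LinearMap.range_eq_bot, ← hopp.1, ← hk']
  exact (inf_eq_left.mpr (range_le_ker_of_sq _ hσ.1.2.1.1)).symm

theorem rk_aux {S : Type*} [Ring S] (a b : S) (haa : a * a = 0) (hbb : b * b = 0)
    (haba : a * (b * a) = 0) (hbab : b * (a * b) = 0) :
    (1 + a) * ((1 - b) * (1 + a) * (1 + b)) * (1 - a) = 1 + (a + (a * b - b * a)) := by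
  have haba' : ∀ z : S, a * (b * (a * z)) = 0 := fun z => by
    rw [← mul_assoc b, ← mul_assoc a, haba, zero_mul]
  have hbab' : ∀ z : S, b * (a * (b * z)) = 0 := fun z => by
    rw [← mul_assoc a, ← mul_assoc b, hbab, zero_mul]
  have haa' : ∀ z : S, a * (a * z) = 0 := fun z => by rw [← mul_assoc, haa, zero_mul]
  have hbb' : ∀ z : S, b * (b * z) = 0 := fun z => by rw [← mul_assoc, hbb, zero_mul]
  simp only [mul_add, add_mul, mul_sub, sub_mul, mul_one, one_mul, mul_assoc, haa, hbb, haba, hbab,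
    haa', hbb', haba', hbab', mul_zero, zero_mul, add_zero, zero_add, sub_zero, zero_sub, neg_mul,
    mul_neg, neg_zero]
  abel

theorem rk_aux2 {S : Type*} [Ring S] (a b : S) (hbb : b * b = 0) (hbab : b * (a * b) = 0)
    (h3 : a + (a * b - b * a) = 0) : a * b = 0 ∧ b * a = 0 := by
  have e : a = b * a - a * b := by
    have := eq_neg_of_add_eq_zero_left h3
    rwa [neg_sub] at this
  constructor
  · calc a * b = (b * a - a * b) * b := by rw [← e]
      _ = 0 := by rw [sub_mul, mul_assoc, hbab, mul_assoc, hbb, mul_zero, sub_zero]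
  · calc b * a = b * (b * a - a * b) := by rw [← e]
      _ = 0 := by rw [mul_sub, ← mul_assoc, hbb, zero_mul, hbab, sub_zero]

theorem rk_aux3 {S : Type*} [Ring S] (a b : S) (haa : a * a = 0) (haba : a * (b * a) = 0) :
    a * (a + (a * b - b * a)) = 0 ∧ (a + (a * b - b * a)) * a = 0 := by
  constructor
  · rw [mul_add, mul_sub, haa, ← mul_assoc, haa, zero_mul, haba, sub_zero, add_zero]
  · rw [add_mul, sub_mul, haa, mul_assoc, haba, mul_assoc, haa, mul_zero, sub_zero, add_zero]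

/-- A rank one pair of root subgroups is a pair of opposite root subgroups. -/
theorem opp_of_rankOnePair (htwo : (2 : k) ≠ 0) (ha : ∃ a : k, a ≠ 0 ∧ a ^ 2 ≠ 1)
    {σ τ : LinearMap.GeneralLinearGroup k M}
    (hσ : σ ∈ Cfsg.minimalQuadraticElements G) (hτ : τ ∈ Cfsg.minimalQuadraticElements G)
    (hEσ : (Cfsg.sameActionSubgroup G σ : Set (LinearMap.GeneralLinearGroup k M)) =
      Cfsg.sameActionClass G σ ∪ {1})
    (hEτ : (Cfsg.sameActionSubgroup G τ : Set (LinearMap.GeneralLinearGroup k M)) =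
      Cfsg.sameActionClass G τ ∪ {1})
    (h : Cfsg.IsRankOnePair (Cfsg.sameActionSubgroup G σ) (Cfsg.sameActionSubgroup G τ)) :
    Opp σ τ := by
  by_contra hno
  have hC : C2 G σ τ := ⟨htwo, ha, hσ, hτ, hno⟩
  have hσcl := self_mem_class hσ
  have hσE : σ ∈ Cfsg.sameActionSubgroup G σ := Subgroup.subset_closure hσcl
  have hσ1 : σ ≠ 1 := ne_one_of_min hσ
  obtain ⟨b, hb, hb1, hconj⟩ := h.cond_left σ hσE hσ1
  have hbcl := mem_class_of_ne hEτ hb hb1
  have hm : b⁻¹ * σ * b⁻¹⁻¹ ∈ Cfsg.conjBy (Cfsg.sameActionSubgroup G σ) b⁻¹ := mem_conjBy hσE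
  rw [hconj, mem_conjBy_iff] at hm
  obtain ⟨h1, h2⟩ := hC.aba hσcl hbcl
  have haa := hσ.1.2.1.1
  have hbb := hbcl.1.1.2.1.1
  have hσv : (σ : Module.End k M) = 1 + ((σ : M →ₗ[k] M) - 1) := by abel
  have hbv : (b : Module.End k M) = 1 + ((b : M →ₗ[k] M) - 1) := by abel
  have hval : ((σ⁻¹⁻¹ * (b⁻¹ * σ * b⁻¹⁻¹) * σ⁻¹ : LinearMap.GeneralLinearGroup k M) :
      Module.End k M) = 1 + (((σ : M →ₗ[k] M) - 1) +
        (((σ : M →ₗ[k] M) - 1) * ((b : M →ₗ[k] M) - 1) -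
          ((b : M →ₗ[k] M) - 1) * ((σ : M →ₗ[k] M) - 1))) := by
    rw [inv_inv, inv_inv, Units.val_mul, Units.val_mul, Units.val_mul, Units.val_mul,
      inv_val_of σ _ haa hσv, inv_val_of b _ hbb hbv]
    rw [← rk_aux _ _ haa hbb h1 h2, ← hσv, ← hbv]
  by_cases hβ1 : σ⁻¹⁻¹ * (b⁻¹ * σ * b⁻¹⁻¹) * σ⁻¹ = 1
  · rw [hβ1, Units.val_one] at hval
    have h3 : ((σ : M →ₗ[k] M) - 1) +
        (((σ : M →ₗ[k] M) - 1) * ((b : M →ₗ[k] M) - 1) -
          ((b : M →ₗ[k] M) - 1) * ((σ : M →ₗ[k] M) - 1)) = 0 := by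
      have := hval.symm
      rwa [add_eq_left] at this
    obtain ⟨h4, h5⟩ := rk_aux2 _ _ hbb h2 h3
    apply hσ.1.2.1.2
    rw [h4, h5, sub_zero, add_zero] at h3
    exact h3
  · obtain ⟨-, hk', hr'⟩ := mem_class_of_ne hEτ hm hβ1
    have hsub : ((σ⁻¹⁻¹ * (b⁻¹ * σ * b⁻¹⁻¹) * σ⁻¹ : LinearMap.GeneralLinearGroup k M) :
        M →ₗ[k] M) - 1 = ((σ : M →ₗ[k] M) - 1) +
        (((σ : M →ₗ[k] M) - 1) * ((b : M →ₗ[k] M) - 1) -
          ((b : M →ₗ[k] M) - 1) * ((σ : M →ₗ[k] M) - 1)) := by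
      rw [hval]
      abel
    rw [hsub] at hk' hr'
    -- `a * b₂ = 0` and `b₂ * a = 0`
    obtain ⟨h6, h7⟩ := rk_aux3 ((σ : M →ₗ[k] M) - 1) ((b : M →ₗ[k] M) - 1) haa h1
    -- the range of `τ - 1` lies in the kernel of `σ - 1`
    have h8 : LinearMap.range ((τ : M →ₗ[k] M) - 1) ≤ LinearMap.ker ((σ : M →ₗ[k] M) - 1) := by
      rw [← hr']
      rintro _ ⟨v, rfl⟩
      exact LinearMap.mem_ker.mpr (congrArg (fun T : Module.End k M => T v) h6)
    have h9 : LinearMap.range ((σ : M →ₗ[k] M) - 1) ≤ LinearMap.ker ((τ : M →ₗ[k] M) - 1) := by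
      rw [← hk']
      rintro _ ⟨v, rfl⟩
      exact LinearMap.mem_ker.mpr (congrArg (fun T : Module.End k M => T v) h7)
    have h10 : ((σ : M →ₗ[k] M) - 1) * ((b : M →ₗ[k] M) - 1) = 0 :=
      mul_eq_zero_of_range_le_ker _ _ (hbcl.2.2.le.trans h8)
    have h11 : ((b : M →ₗ[k] M) - 1) * ((σ : M →ₗ[k] M) - 1) = 0 :=
      mul_eq_zero_of_range_le_ker _ _ (h9.trans hbcl.2.1.ge)
    have h12 : σ⁻¹⁻¹ * (b⁻¹ * σ * b⁻¹⁻¹) * σ⁻¹ = σ := by
      apply Units.ext
      rw [hval, h10, h11, sub_zero, add_zero]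
      abel
    rw [h12] at hm
    have h13 := mem_class_of_ne hEτ hm hσ1
    have h14 := E_eq_of_class h13
    exact h.ne h14

end pairs

end Cfsg.Agent.Helper5.QPair
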