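import Cfsg.Agent.Helper5.QPairS

set_option autoImplicit false
set_option linter.unusedSimpArgs false
set_option linter.unusedVariables false
set_option linter.unusedSectionVars false

/-! Quadratic pairs: quadratic elements `1 + T` with `b T b = 0` for every root element `1 + b`
commute with the root elements (towards S5074): ring identities. -/

namespace Cfsg.Agent.Helper5.QPair

section ring

variable {k : Type*} [Field k] {S : Type*} [Ring S] [Algebra k S]

theorem tb_sq (T B : S) (hT : T * T = 0) (hB : B * B = 0) (hBTB : B * (T * B) = 0) :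
    (T * B - B * T) * (T * B - B * T) = 0 := by
  have hT' : ∀ z : S, T * (T * z) = 0 := fun z => by rw [← mul_assoc, hT, zero_mul]
  have hB' : ∀ z : S, B * (B * z) = 0 := fun z => by rw [← mul_assoc, hB, zero_mul]
  have hBTB' : ∀ z : S, B * (T * (B * z)) = 0 := fun z => by
    rw [← mul_assoc T, ← mul_assoc B, hBTB, zero_mul]
  simp only [mul_add, add_mul, mul_sub, sub_mul, mul_one, one_mul, mul_assoc, hT, hB, hBTB, hT',
    hB', hBTB', mul_zero, zero_mul, add_zero, zero_add, sub_zero, zero_sub, neg_mul, mul_neg,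
    neg_zero]

theorem tb_fam (T B : S) (hT : T * T = 0) (hB : B * B = 0) (hBTB : B * (T * B) = 0) :
    (1 + T) * (1 + B) * (1 - T) * (1 - B) * ((1 - T) * (1 - B) * (1 + T) * (1 + B)) =
      1 + ((T * B - B * T) + (T * B - B * T)) := by
  have hT' : ∀ z : S, T * (T * z) = 0 := fun z => by rw [← mul_assoc, hT, zero_mul]
  have hB' : ∀ z : S, B * (B * z) = 0 := fun z => by rw [← mul_assoc, hB, zero_mul]
  have hBTB' : ∀ z : S, B * (T * (B * z)) = 0 := fun z => by
    rw [← mul_assoc T, ← mul_assoc B, hBTB, zero_mul]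
  simp only [mul_add, add_mul, mul_sub, sub_mul, mul_one, one_mul, mul_assoc, hT, hB, hBTB, hT',
    hB', hBTB', mul_zero, zero_mul, add_zero, zero_add, sub_zero, zero_sub, neg_mul, mul_neg,
    neg_zero]
  abel

theorem tb_conj (B b : S) (s : k) :
    (1 + s • B) * b * (1 - s • B) = b + s • (B * b - b * B) - (s * s) • (B * b * B) := by
  simp only [mul_add, add_mul, mul_sub, sub_mul, mul_one, one_mul, smul_mul_assoc, mul_smul_comm,
    smul_smul, smul_sub]
  module

theorem tb_expand (b D E T : S) (s : k) (h0 : b * (T * b) = 0) (h4 : E * (T * E) = 0) :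
    (b + s • D - (s * s) • E) * (T * (b + s • D - (s * s) • E)) =
      s • (b * (T * D) + D * (T * b)) + (s * s) • (D * (T * D) - b * (T * E) - E * (T * b)) +
        (s * s * s) • (-(D * (T * E)) - E * (T * D)) := by
  simp only [mul_add, add_mul, mul_sub, sub_mul, smul_mul_assoc, mul_smul_comm, smul_smul,
    smul_sub, smul_add, h0, h4, smul_zero, smul_neg]
  module

theorem tb_c1 (b B T : S) (h0 : b * (T * b) = 0) :
    b * (T * (B * b - b * B)) + (B * b - b * B) * (T * b) = b * ((T * B - B * T) * b) := by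
  have h0' : ∀ z : S, b * (T * (b * z)) = 0 := fun z => by
    rw [← mul_assoc T, ← mul_assoc b, h0, zero_mul]
  simp only [mul_add, add_mul, mul_sub, sub_mul, mul_one, one_mul, mul_assoc, h0, h0', mul_zero,
    zero_mul, add_zero, zero_add, sub_zero, zero_sub, neg_mul, mul_neg, neg_zero]
  abel

theorem tb_c4 (b B T : S) (hBTB : B * (T * B) = 0) :
    (B * b * B) * (T * (B * b * B)) = 0 := by
  have hBTB' : ∀ z : S, B * (T * (B * z)) = 0 := fun z => by
    rw [← mul_assoc T, ← mul_assoc B, hBTB, zero_mul]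
  simp only [mul_assoc, hBTB', mul_zero]

theorem three_pt {V : Type*} [AddCommGroup V] [Module k V] (c₁ c₂ c₃ : V) (t : k) (ht0 : t ≠ 0)
    (ht : t ^ 2 ≠ 1) (htwo : (2 : k) ≠ 0)
    (h1 : (1 : k) • c₁ + ((1 : k) * 1) • c₂ + ((1 : k) * 1 * 1) • c₃ = 0)
    (hm : (-1 : k) • c₁ + ((-1 : k) * (-1)) • c₂ + ((-1 : k) * (-1) * (-1)) • c₃ = 0)
    (h3 : t • c₁ + (t * t) • c₂ + (t * t * t) • c₃ = 0) : c₁ = 0 := by
  have e2 : (2 : k) • c₂ = 0 := by
    have : (2 : k) • c₂ = ((1 : k) • c₁ + ((1 : k) * 1) • c₂ + ((1 : k) * 1 * 1) • c₃) +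
        ((-1 : k) • c₁ + ((-1 : k) * (-1)) • c₂ + ((-1 : k) * (-1) * (-1)) • c₃) := by module
    rw [this, h1, hm, add_zero]
  have hc2 : c₂ = 0 := by
    rcases smul_eq_zero.mp e2 with h | h
    · exact absurd h htwo
    · exact h
  have hc3 : c₃ = -c₁ := by
    have : c₃ = ((1 : k) • c₁ + ((1 : k) * 1) • c₂ + ((1 : k) * 1 * 1) • c₃) - c₁ - c₂ := by module
    rw [this, h1, hc2]
    abel
  rw [hc2, hc3] at h3
  have e3 : (t * (1 - t ^ 2)) • c₁ = 0 := by
    have : (t * (1 - t ^ 2)) • c₁ = t • c₁ + (t * t) • (0 : V) + (t * t * t) • (-c₁) := by module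
    rw [this, h3]
  rcases smul_eq_zero.mp e3 with h | h
  · exfalso
    rcases mul_eq_zero.mp h with h' | h'
    · exact ht0 h'
    · exact ht (by linear_combination -h')
  · exact h

/-- Block computations for an element commuting with the matrix units modulo the corner. -/
theorem tb_blk (a q e f T : S) (hef : e + f = 1) (hff : f * f = f) (hfa : f * a = 0)
    (haf : a * f = 0)
    (hfq : f * q = 0) (hqf : q * f = 0) (hea : e * a = a) (hae : a * e = a)
    (haqa : a * q * a = a) (hTT : T * T = 0) (haTa : a * (T * a) = 0)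
    (hcomm : e * (T * a) = a * (T * e)) :
    T * a - a * T = f * (T * a) - a * (T * f) ∧
    (T * a - a * T) * ((T * a - a * T) * q - q * (T * a - a * T)) = f * (T * (a * (T * f))) ∧
    ((T * a - a * T) * q - q * (T * a - a * T)) * (T * a - a * T) = -(f * (T * (a * (T * f)))) ∧
    ((T * a - a * T) * q - q * (T * a - a * T)) *
      ((T * a - a * T) * ((T * a - a * T) * q - q * (T * a - a * T))) = 0 := by
  have hT1 : T * a - a * T = f * (T * a) - a * (T * f) := by
    have h1 : T * a = e * (T * a) + f * (T * a) := by rw [← add_mul, hef, one_mul]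
    have h2 : a * T = a * (T * e) + a * (T * f) := by rw [← mul_add, ← mul_add, hef, mul_one]
    conv_lhs => rw [h1, h2, hcomm]
    abel
  -- `a T f T a = 0`
  have hX : a * (T * (f * (T * a))) = 0 := by
    have hf : f = 1 - e := by rw [← hef]; abel
    rw [hf, sub_mul, one_mul, mul_sub, mul_sub, ← mul_assoc T T, hTT, zero_mul, mul_zero,
      zero_sub, neg_eq_zero]
    calc a * (T * (e * (T * a))) = a * (T * e) * (T * a) := by simp only [mul_assoc]
      _ = e * (T * a) * (T * a) := by rw [hcomm]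
      _ = e * (T * (a * (T * a))) := by simp only [mul_assoc]
      _ = 0 := by rw [haTa, mul_zero, mul_zero]
  have hff' : ∀ z : S, f * (f * z) = f * z := fun z => by rw [← mul_assoc, hff]
  have hfa' : ∀ z : S, f * (a * z) = 0 := fun z => by rw [← mul_assoc, hfa, zero_mul]
  have haf' : ∀ z : S, a * (f * z) = 0 := fun z => by rw [← mul_assoc, haf, zero_mul]
  have hfq' : ∀ z : S, f * (q * z) = 0 := fun z => by rw [← mul_assoc, hfq, zero_mul]
  have hqf' : ∀ z : S, q * (f * z) = 0 := fun z => by rw [← mul_assoc, hqf, zero_mul]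
  have haqa1 : a * (q * a) = a := by rw [← mul_assoc, haqa]
  have haqa' : ∀ z : S, a * (q * (a * z)) = a * z := fun z => by
    rw [← mul_assoc q, ← mul_assoc a, haqa1]
  have hX' : ∀ z : S, a * (T * (f * (T * (a * z)))) = 0 := fun z => by
    rw [← mul_assoc T a, ← mul_assoc f, ← mul_assoc T, ← mul_assoc a, hX, zero_mul]
  refine ⟨hT1, ?_, ?_, ?_⟩
  · rw [hT1]
    simp only [mul_add, add_mul, mul_sub, sub_mul, mul_one, one_mul, mul_assoc, hfa, haf, hfq, hqf,
      hff, hff', hfa', haf', hfq', hqf', haqa1, haqa', hX, hX', mul_zero, zero_mul, add_zero, zero_add,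
      sub_zero, zero_sub, neg_mul, mul_neg, neg_zero, neg_neg, sub_neg_eq_add]
  · rw [hT1]
    simp only [mul_add, add_mul, mul_sub, sub_mul, mul_one, one_mul, mul_assoc, hfa, haf, hfq, hqf,
      hff, hff', hfa', haf', hfq', hqf', haqa1, haqa', hX, hX', mul_zero, zero_mul, add_zero, zero_add,
      sub_zero, zero_sub, neg_mul, mul_neg, neg_zero, neg_neg, sub_neg_eq_add]
  · rw [hT1]
    simp only [mul_add, add_mul, mul_sub, sub_mul, mul_one, one_mul, mul_assoc, hfa, haf, hfq, hqf,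
      hff, hff', hfa', haf', hfq', hqf', haqa1, haqa', hX, hX', mul_zero, zero_mul, add_zero, zero_add,
      sub_zero, zero_sub, neg_mul, mul_neg, neg_zero, neg_neg, sub_neg_eq_add]

theorem tb_comm_e (a q e T : S) (h4 : a * q + q * a = e) (haTa : a * (T * a) = 0)
    (hsp : a * ((T * q - q * T) * a) = 0) : e * (T * a) = a * (T * e) := by
  have haTa' : ∀ z : S, a * (T * (a * z)) = 0 := fun z => by
    rw [← mul_assoc T, ← mul_assoc a, haTa, zero_mul]
  have h : a * (T * (q * a)) - a * (q * (T * a)) = 0 := by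
    rw [← hsp]
    simp only [mul_sub, sub_mul, mul_assoc]
  rw [← h4]
  simp only [add_mul, mul_add, mul_assoc, haTa, haTa', mul_zero, add_zero, zero_add]
  exact (sub_eq_zero.mp h).symm

end ring

section tb

variable {k : Type*} [Field k] {M : Type*} [AddCommGroup M] [Module k M] [FiniteDimensional k M]
  {G : Subgroup (LinearMap.GeneralLinearGroup k M)}

theorem rank_mul_le_right (x y : Module.End k M) :
    Module.finrank k (LinearMap.range (x * y)) ≤ Module.finrank k (LinearMap.range y) := by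
  have := rank_comp x y
  omega

theorem rank_mul_le_left (x y : Module.End k M) :
    Module.finrank k (LinearMap.range (x * y)) ≤ Module.finrank k (LinearMap.range x) :=
  Submodule.finrank_mono (LinearMap.range_comp_le_range y x)

theorem rank_sub_le (x y : Module.End k M) :
    Module.finrank k (LinearMap.range (x - y)) ≤
      Module.finrank k (LinearMap.range x) + Module.finrank k (LinearMap.range y) := by
  have h1 : LinearMap.range (x - y) ≤ LinearMap.range x ⊔ LinearMap.range y := by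
    rintro _ ⟨v, rfl⟩
    rw [LinearMap.sub_apply]
    exact Submodule.sub_mem _ (Submodule.mem_sup_left ⟨v, rfl⟩) (Submodule.mem_sup_right ⟨v, rfl⟩)
  exact (Submodule.finrank_mono h1).trans (Submodule.finrank_add_le_finrank_add_finrank _ _)

theorem rank_frob (x y z : Module.End k M) (h : x * (y * z) = 0) :
    Module.finrank k (LinearMap.range (x * y)) + Module.finrank k (LinearMap.range (y * z)) ≤
      Module.finrank k (LinearMap.range y) := by
  have h1 := rank_comp x y
  have h2 : LinearMap.range (y * z) ≤ LinearMap.range y ⊓ LinearMap.ker x := by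
    rintro _ ⟨v, rfl⟩
    exact ⟨⟨z v, rfl⟩, LinearMap.mem_ker.mpr (congrArg (fun f : Module.End k M => f v) h)⟩
  have h3 := Submodule.finrank_mono h2
  omega

/-- `1 + T` is a quadratic element (or `1`) whose scalar family lies in `G`, with `b T b = 0`
for all root elements `1 + b`. -/
def TB (G : Subgroup (LinearMap.GeneralLinearGroup k M)) (T : Module.End k M) : Prop :=
  T * T = 0 ∧ Fam G T ∧ ∀ β ∈ Cfsg.minimalQuadraticElements G,
    ((β : M →ₗ[k] M) - 1) * (T * ((β : M →ₗ[k] M) - 1)) = 0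

/-- The rank gap: an element of `TB` of rank at most `d` vanishes. -/
theorem TB.eq_zero_of_rank (hG : Cfsg.IsQuadraticPair G) (htwo : (2 : k) ≠ 0)
    (ha : ∃ a : k, a ≠ 0 ∧ a ^ 2 ≠ 1) {T : Module.End k M} (h : TB G T)
    {σ : LinearMap.GeneralLinearGroup k M} (hσ : σ ∈ Cfsg.minimalQuadraticElements G)
    (hr : Module.finrank k (LinearMap.range T) ≤
      Module.finrank k (LinearMap.range ((σ : M →ₗ[k] M) - 1))) : T = 0 := by
  by_contra hT0
  obtain ⟨y, hy, hy1⟩ := QP.mp (G := G) T h.1 hT0 h.2.1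
  have hyd : y ∈ Cfsg.minimalQuadraticElements G := by
    refine ⟨hy, fun z hz => ?_⟩
    show Module.finrank k (LinearMap.range ((y : M →ₗ[k] M) - 1)) ≤ _
    rw [hy1]
    exact hr.trans (hσ.2 z hz)
  obtain ⟨φ, hφ, hopp⟩ := exists_opp hG htwo ha hyd
  have h0 := h.2.2 φ hφ
  apply hφ.1.2.1.2
  apply LinearMap.ext
  intro w
  have h1 : T (((φ : M →ₗ[k] M) - 1) w) ∈
      LinearMap.range ((y : M →ₗ[k] M) - 1) ⊓ LinearMap.ker ((φ : M →ₗ[k] M) - 1) := by
    refine ⟨?_, LinearMap.mem_ker.mpr (congrArg (fun f : Module.End k M => f w) h0)⟩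
    rw [hy1]
    exact ⟨_, rfl⟩
  rw [hopp.1, Submodule.mem_bot] at h1
  have h2 : ((φ : M →ₗ[k] M) - 1) w ∈
      LinearMap.range ((φ : M →ₗ[k] M) - 1) ⊓ LinearMap.ker ((y : M →ₗ[k] M) - 1) := by
    refine ⟨⟨_, rfl⟩, ?_⟩
    rw [hy1]
    exact LinearMap.mem_ker.mpr h1
  rw [hopp.2, Submodule.mem_bot] at h2
  exact h2

/-- Closure of `TB` under commutators with square-zero elements `B` with `B T B = 0`. -/
theorem TB.comm (htwo : (2 : k) ≠ 0) (ha : ∃ a : k, a ≠ 0 ∧ a ^ 2 ≠ 1) {T B : Module.End k M}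
    (h : TB G T) (hB2 : B * B = 0) (hBfam : Fam G B) (hBTB : B * (T * B) = 0) :
    TB G (T * B - B * T) := by
  refine ⟨tb_sq T B h.1 hB2 hBTB, ?_, ?_⟩
  · intro c
    obtain ⟨y₁, hy₁G, hy₁⟩ := h.2.1 1
    obtain ⟨y₂, hy₂G, hy₂⟩ := h.2.1 (-1)
    obtain ⟨β₁, hβ₁G, hβ₁⟩ := hBfam (c / 2)
    obtain ⟨β₂, hβ₂G, hβ₂⟩ := hBfam (-(c / 2))
    refine ⟨y₁ * β₁ * y₂ * β₂ * (y₂ * β₂ * y₁ * β₁),
      G.mul_mem (G.mul_mem (G.mul_mem (G.mul_mem hy₁G hβ₁G) hy₂G) hβ₂G)
        (G.mul_mem (G.mul_mem (G.mul_mem hy₂G hβ₂G) hy₁G) hβ₁G), ?_⟩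
    simp only [Units.val_mul]
    rw [hy₁, hy₂, hβ₁, hβ₂]
    have e1 : (1 : Module.End k M) + (1 : k) • T = 1 + T := by rw [one_smul]
    have e2 : (1 : Module.End k M) + (-1 : k) • T = 1 - T := by
      rw [neg_smul, one_smul, sub_eq_add_neg]
    have e3 : (1 : Module.End k M) + (-(c / 2)) • B = 1 - (c / 2) • B := by
      rw [neg_smul, sub_eq_add_neg]
    rw [e1, e2, e3]
    have hB2' : ((c / 2) • B) * ((c / 2) • B) = 0 := by rw [smul_mul_smul_comm, hB2, smul_zero]
    have hBTB' : ((c / 2) • B) * (T * ((c / 2) • B)) = 0 := by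
      simp only [mul_smul_comm, smul_mul_assoc, hBTB, smul_zero]
    rw [tb_fam T ((c / 2) • B) h.1 hB2' hBTB', mul_smul_comm, smul_mul_assoc, ← smul_sub,
      ← add_smul]
    congr 2
    field_simp
    ring
  · intro β hβ
    obtain ⟨t, ht0, ht2⟩ := ha
    have hP : ∀ s : k,
        s • (((β : M →ₗ[k] M) - 1) * (T * (B * ((β : M →ₗ[k] M) - 1) -
            ((β : M →ₗ[k] M) - 1) * B)) +
          (B * ((β : M →ₗ[k] M) - 1) - ((β : M →ₗ[k] M) - 1) * B) *
            (T * ((β : M →ₗ[k] M) - 1))) +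
        (s * s) • ((B * ((β : M →ₗ[k] M) - 1) - ((β : M →ₗ[k] M) - 1) * B) *
            (T * (B * ((β : M →ₗ[k] M) - 1) - ((β : M →ₗ[k] M) - 1) * B)) -
          ((β : M →ₗ[k] M) - 1) * (T * (B * ((β : M →ₗ[k] M) - 1) * B)) -
          (B * ((β : M →ₗ[k] M) - 1) * B) * (T * ((β : M →ₗ[k] M) - 1))) +
        (s * s * s) • (-((B * ((β : M →ₗ[k] M) - 1) - ((β : M →ₗ[k] M) - 1) * B) *
            (T * (B * ((β : M →ₗ[k] M) - 1) * B))) -
          (B * ((β : M →ₗ[k] M) - 1) * B) *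
            (T * (B * ((β : M →ₗ[k] M) - 1) - ((β : M →ₗ[k] M) - 1) * B))) = 0 := by
      intro s
      obtain ⟨g, hgG, hg⟩ := hBfam s
      have hs2 : (s • B) * (s • B) = 0 := by rw [smul_mul_smul_comm, hB2, smul_zero]
      have hginv := inv_val_of g (s • B) hs2 hg
      have hmem := conj_mem_min hβ hgG
      have h0 := h.2.2 _ hmem
      rw [conj_sub_one, hg, hginv, tb_conj] at h0
      rw [← tb_expand _ _ _ T s (h.2.2 β hβ) (tb_c4 _ B T hBTB)]
      exact h0
    have hc1 := three_pt _ _ _ t ht0 ht2 htwo (hP 1) (hP (-1)) (hP t)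
    rw [tb_c1 _ B T (h.2.2 β hβ)] at hc1
    exact hc1

/-- The main point: an element of `TB` commutes with every root element. -/
theorem TB.comm_root (hG : Cfsg.IsQuadraticPair G) (htwo : (2 : k) ≠ 0)
    (ha : ∃ a : k, a ≠ 0 ∧ a ^ 2 ≠ 1) {T : Module.End k M} (h : TB G T)
    {σ : LinearMap.GeneralLinearGroup k M} (hσ : σ ∈ Cfsg.minimalQuadraticElements G) :
    T * ((σ : M →ₗ[k] M) - 1) = ((σ : M →ₗ[k] M) - 1) * T := by
  obtain ⟨τ, hτ, hopp⟩ := exists_opp hG htwo ha hσ
  obtain ⟨q, e, i, h1, h2, h3, h4, h5, h6, h7, h8, h9, h10, h11, h12, h13, h14, h15⟩ :=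
    oppData htwo ha hσ hτ hopp
  have hq0 : q ≠ 0 := by
    rintro rfl
    apply hσ.1.2.1.2
    rw [← h1, mul_zero, zero_mul]
  obtain ⟨β, hβ, hβ1⟩ := QP.mp (G := G) q h3 hq0 h9
  have hβd : β ∈ Cfsg.minimalQuadraticElements G := by
    refine ⟨hβ, fun z hz => ?_⟩
    show Module.finrank k (LinearMap.range ((β : M →ₗ[k] M) - 1)) ≤ _
    rw [hβ1, h7]
    exact hτ.2 z hz
  have heq : e * q = q := by
    rw [← h4, add_mul, mul_assoc, h3, mul_zero, zero_add, h2]
  have hqe : q * e = q := by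
    rw [← h4, mul_add, ← mul_assoc, h2, ← mul_assoc, h3, zero_mul, add_zero]
  have haa := hσ.1.2.1.1
  have haTa := h.2.2 σ hσ
  have hqTq : q * (T * q) = 0 := by
    have := h.2.2 β hβd
    rwa [hβ1] at this
  have hT1 : TB G (T * ((σ : M →ₗ[k] M) - 1) - ((σ : M →ₗ[k] M) - 1) * T) :=
    h.comm htwo ha haa (fam_of_mem hσ.1) haTa
  have hT2 : TB G (T * q - q * T) := h.comm htwo ha h3 h9 hqTq
  have hsp : ((σ : M →ₗ[k] M) - 1) * ((T * q - q * T) * ((σ : M →ₗ[k] M) - 1)) = 0 :=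
    hT2.2.2 σ hσ
  have hcomm : e * (T * ((σ : M →ₗ[k] M) - 1)) = ((σ : M →ₗ[k] M) - 1) * (T * e) :=
    tb_comm_e _ q e T h4 haTa hsp
  have hqT1q : q * ((T * ((σ : M →ₗ[k] M) - 1) - ((σ : M →ₗ[k] M) - 1) * T) * q) = 0 := by
    have := hT1.2.2 β hβd
    rwa [hβ1] at this
  have hT3 : TB G ((T * ((σ : M →ₗ[k] M) - 1) - ((σ : M →ₗ[k] M) - 1) * T) * q -
      q * (T * ((σ : M →ₗ[k] M) - 1) - ((σ : M →ₗ[k] M) - 1) * T)) :=
    hT1.comm htwo ha h3 h9 hqT1q
  have hff : (1 - e) * (1 - e) = 1 - e := by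
    rw [mul_sub, mul_one, sub_mul, one_mul, h5, sub_self, sub_zero]
  have hfa : (1 - e) * ((σ : M →ₗ[k] M) - 1) = 0 := by rw [sub_mul, one_mul, h10, sub_self]
  have haf : ((σ : M →ₗ[k] M) - 1) * (1 - e) = 0 := by rw [mul_sub, mul_one, h11, sub_self]
  have hfq : (1 - e) * q = 0 := by rw [sub_mul, one_mul, heq, sub_self]
  have hqf : q * (1 - e) = 0 := by rw [mul_sub, mul_one, hqe, sub_self]
  obtain ⟨b1, b2, b3, b4⟩ := tb_blk ((σ : M →ₗ[k] M) - 1) q e (1 - e) T (by abel) hff hfa haf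
    hfq hqf h10 h11 h1 h.1 haTa hcomm
  have hZ := hT1.comm htwo ha hT3.1 hT3.2.1 b4
  rw [b2, b3] at hZ
  have hX : (1 - e) * (T * (((σ : M →ₗ[k] M) - 1) * (T * (1 - e)))) = 0 := by
    have hr : Module.finrank k (LinearMap.range
        ((1 - e) * (T * (((σ : M →ₗ[k] M) - 1) * (T * (1 - e)))) -
          -((1 - e) * (T * (((σ : M →ₗ[k] M) - 1) * (T * (1 - e))))))) ≤
        Module.finrank k (LinearMap.range ((σ : M →ₗ[k] M) - 1)) := by
      have h1' : LinearMap.range ((1 - e) * (T * (((σ : M →ₗ[k] M) - 1) * (T * (1 - e)))) -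
          -((1 - e) * (T * (((σ : M →ₗ[k] M) - 1) * (T * (1 - e)))))) ≤
          LinearMap.range ((1 - e) * (T * (((σ : M →ₗ[k] M) - 1) * (T * (1 - e))))) := by
        rintro _ ⟨v, rfl⟩
        refine ⟨v + v, ?_⟩
        rw [map_add, LinearMap.sub_apply, LinearMap.neg_apply, sub_neg_eq_add]
      have h2' : Module.finrank k (LinearMap.range
          ((1 - e) * (T * (((σ : M →ₗ[k] M) - 1) * (T * (1 - e)))))) ≤
          Module.finrank k (LinearMap.range (((σ : M →ₗ[k] M) - 1) * (T * (1 - e)))) := by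
        rw [← mul_assoc (1 - e) T]
        exact rank_mul_le_right _ _
      exact (Submodule.finrank_mono h1').trans (h2'.trans (rank_mul_le_left _ _))
    have h0 := hZ.eq_zero_of_rank hG htwo ha hσ hr
    rw [sub_neg_eq_add] at h0
    have h2' : (2 : k) • ((1 - e) * (T * (((σ : M →ₗ[k] M) - 1) * (T * (1 - e))))) = 0 := by
      rw [two_smul]
      exact h0
    rcases smul_eq_zero.mp h2' with h' | h'
    · exact absurd h' htwo
    · exact h'
  have hT10 : T * ((σ : M →ₗ[k] M) - 1) - ((σ : M →ₗ[k] M) - 1) * T = 0 := by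
    apply hT1.eq_zero_of_rank hG htwo ha hσ
    rw [b1]
    have hfr := rank_frob ((1 - e) * T) ((σ : M →ₗ[k] M) - 1) (T * (1 - e)) (by
      rw [mul_assoc]
      exact hX)
    have hs := rank_sub_le ((1 - e) * (T * ((σ : M →ₗ[k] M) - 1)))
      (((σ : M →ₗ[k] M) - 1) * (T * (1 - e)))
    rw [mul_assoc] at hfr
    omega
  exact sub_eq_zero.mp hT10

end tb

end Cfsg.Agent.Helper5.QPair
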