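import Cfsg.Agent.Helper5.QPairT

set_option autoImplicit false
set_option linter.unusedSimpArgs false
set_option linter.unusedVariables false
set_option linter.unusedSectionVars false

/-! Quadratic pairs: every quadratic element lies in `G₀ C_G(G₀)` (S5074): splitting off a minimal
quadratic element, and the induction on the commutator rank. -/

namespace Cfsg.Agent.Helper5.QPair

open Polynomial Matrix

variable {k : Type*} [Field k] {M : Type*} [AddCommGroup M] [Module k M] [FiniteDimensional k M]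
  {G : Subgroup (LinearMap.GeneralLinearGroup k M)}

/-- If `a N a ≠ 0` for a root element `1 + a`, a minimal quadratic element splits off `1 + N`. -/
theorem caseA (htwo : (2 : k) ≠ 0) (ha : ∃ a : k, a ≠ 0 ∧ a ^ 2 ≠ 1) {N : Module.End k M}
    (hN2 : N * N = 0) (hNfam : Fam G N) {σ : LinearMap.GeneralLinearGroup k M}
    (hσ : σ ∈ Cfsg.minimalQuadraticElements G)
    (hne : ((σ : M →ₗ[k] M) - 1) * (N * ((σ : M →ₗ[k] M) - 1)) ≠ 0) :
    ∃ p : Module.End k M, p * p = 0 ∧ p ≠ 0 ∧ Fam G p ∧
      Module.finrank k (LinearMap.range p) ≤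
        Module.finrank k (LinearMap.range ((σ : M →ₗ[k] M) - 1)) ∧
      N * p = 0 ∧ p * N = 0 ∧
      Module.finrank k (LinearMap.range (N - p)) < Module.finrank k (LinearMap.range N) := by
  have hint : IsIntegral k (N * ((σ : M →ₗ[k] M) - 1) + ((σ : M →ₗ[k] M) - 1) * N) :=
    Algebra.IsIntegral.isIntegral _
  obtain ⟨Q, hQA, hQB⟩ := exists_QP (k := k) N ((σ : M →ₗ[k] M) - 1) hN2 hσ.1.2.1.1 hint
  have hHG : Q.HH ≤ G := by
    apply (Subgroup.closure_le _).mpr
    rintro z (⟨c, rfl⟩ | ⟨c, rfl⟩)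
    · obtain ⟨y, hyG, hy⟩ := hNfam c
      have : Q.sg c = y := Units.ext (by rw [Q.sg_val, hQA, hy])
      rw [this]
      exact hyG
    · exact hσ.1.2.2 ⟨c, by rw [Q.tg_val, hQB]⟩
  have hBmin : ∀ z ∈ Cfsg.quadraticElements G, Module.finrank k (LinearMap.range Q.B) ≤
      Module.finrank k (LinearMap.range ((z : M →ₗ[k] M) - 1)) := by
    rw [hQB]
    exact hσ.2
  have he : Q.e ≠ 0 := by
    intro he
    have hZ : Q.Z ^ Q.m = 0 := by
      have := Q.Zpow_mul
      rwa [he, sub_zero, mul_one] at this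
    have hZ' : (((σ : M →ₗ[k] M) - 1) * N + N * ((σ : M →ₗ[k] M) - 1)) ^ Q.m = 0 := by
      rw [add_comm, ← hQA, ← hQB]
      exact hZ
    exact hne (lemmaU _ htwo hσ.1.2.1.1 (fam_of_mem hσ.1)
      (fun T h1 h2 h3 => hmin_of_mem hσ T h1 h2 h3) N hN2 hNfam Q.m hZ')
  have hpfam : Fam G Q.p := fun c =>
    ⟨_, hHG (Q.rhoHat_gens_mem htwo ha he c).1, Q.rhoHat_uu_alg_val c⟩
  have hpq : Q.p = Q.p * (Q.q * Q.p) := by
    calc Q.p = Q.p * Q.e := Q.p_mul_e.symm
      _ = Q.p * (Q.p * Q.q + Q.q * Q.p) := by rw [Q.pq_add_qp]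
      _ = Q.p * (Q.q * Q.p) := by rw [mul_add, ← mul_assoc, Q.p_mul_p, zero_mul, zero_add]
  have hrank : Module.finrank k (LinearMap.range Q.p) ≤
      Module.finrank k (LinearMap.range ((σ : M →ₗ[k] M) - 1)) := by
    have h1 : Module.finrank k (LinearMap.range Q.p) ≤
        Module.finrank k (LinearMap.range (Q.q * Q.p)) := by
      conv_lhs => rw [hpq]
      exact rank_mul_le_right _ _
    have h2 : Module.finrank k (LinearMap.range (Q.q * Q.p)) ≤
        Module.finrank k (LinearMap.range Q.q) := rank_mul_le_left _ _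
    have h3 : Module.finrank k (LinearMap.range Q.q) ≤
        Module.finrank k (LinearMap.range Q.B) := rank_mul_le_left Q.B Q.Y
    rw [hQB] at h3
    omega
  have hpN : Q.p = N * Q.e := by
    show Q.A * Q.e = N * Q.e
    rw [hQA]
  have heN : Q.e * N = N * Q.e := by
    rw [← hQA]
    exact Q.eA
  refine ⟨Q.p, Q.p_mul_p, Q.p_ne_zero he, hpfam, hrank, ?_, ?_, ?_⟩
  · rw [hpN, ← mul_assoc, hN2, zero_mul]
  · rw [hpN, mul_assoc, heN, ← mul_assoc, hN2, zero_mul]
  · have h1 : LinearMap.range Q.p ≤ LinearMap.range N := by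
      rw [hpN]
      exact LinearMap.range_comp_le_range Q.e N
    have h2 : LinearMap.range (N - Q.p) ≤ LinearMap.range N := by
      have : N - Q.p = N * (1 - Q.e) := by rw [hpN, mul_sub, mul_one]
      rw [this]
      exact LinearMap.range_comp_le_range (1 - Q.e) N
    have h3 : LinearMap.range Q.p ⊓ LinearMap.range (N - Q.p) = ⊥ := by
      rw [eq_bot_iff]
      rintro v ⟨⟨u, rfl⟩, ⟨w, hw⟩⟩
      rw [Submodule.mem_bot]
      have e1 : Q.e (Q.p u) = Q.p u := congrArg (fun f : Module.End k M => f u) Q.e_mul_p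
      have e2 : Q.e ((N - Q.p) w) = 0 := by
        have : Q.e * (N - Q.p) = 0 := by
          rw [mul_sub, Q.e_mul_p, heN, hpN, sub_self]
        exact congrArg (fun f : Module.End k M => f w) this
      rw [← e1, ← hw, e2]
    have h4 := Submodule.finrank_sup_add_finrank_inf_eq (LinearMap.range Q.p)
      (LinearMap.range (N - Q.p))
    rw [h3, finrank_bot, add_zero] at h4
    have h5 : Module.finrank k (LinearMap.range Q.p ⊔ LinearMap.range (N - Q.p) : Submodule k M) ≤
        Module.finrank k (LinearMap.range N) := Submodule.finrank_mono (sup_le h1 h2)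
    have h6 : Module.finrank k (LinearMap.range Q.p) ≠ 0 := by
      intro h
      apply Q.p_ne_zero he
      rw [← LinearMap.range_eq_bot]
      exact Submodule.finrank_eq_zero.mp h
    omega

/-- Every (possibly trivial) quadratic element of `G` lies in `G₀ C_G(G₀)`. -/
theorem mem_sup_of_quad (hG : Cfsg.IsQuadraticPair G) (htwo : (2 : k) ≠ 0)
    (ha : ∃ a : k, a ≠ 0 ∧ a ^ 2 ≠ 1) :
    ∀ r : ℕ, ∀ (x : LinearMap.GeneralLinearGroup k M) (N : Module.End k M), x ∈ G →
      (x : Module.End k M) = 1 + N → N * N = 0 → Fam G N →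
      Module.finrank k (LinearMap.range N) ≤ r →
      x ∈ (⨆ A ∈ Cfsg.quadraticRootSubgroups G, A) ⊔
        (G ⊓ Subgroup.centralizer ((⨆ A ∈ Cfsg.quadraticRootSubgroups G, A :
          Subgroup (LinearMap.GeneralLinearGroup k M)) :
            Set (LinearMap.GeneralLinearGroup k M))) := by
  have hcaseB : ∀ (x : LinearMap.GeneralLinearGroup k M) (N : Module.End k M), x ∈ G →
      (x : Module.End k M) = 1 + N → N * N = 0 → Fam G N →
      (∀ σ ∈ Cfsg.minimalQuadraticElements G,
        ((σ : M →ₗ[k] M) - 1) * (N * ((σ : M →ₗ[k] M) - 1)) = 0) →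
      x ∈ (⨆ A ∈ Cfsg.quadraticRootSubgroups G, A) ⊔
        (G ⊓ Subgroup.centralizer ((⨆ A ∈ Cfsg.quadraticRootSubgroups G, A :
          Subgroup (LinearMap.GeneralLinearGroup k M)) :
            Set (LinearMap.GeneralLinearGroup k M))) := by
    intro x N hxG hx hN2 hfam hB
    apply Subgroup.mem_sup_right
    refine ⟨hxG, ?_⟩
    have hTB : TB G N := ⟨hN2, hfam, hB⟩
    have hcomm : ∀ σ ∈ Cfsg.minimalQuadraticElements G, σ * x = x * σ := by
      intro σ hσ
      have h1 := hTB.comm_root hG htwo ha hσ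
      apply Units.ext
      have hσv : (σ : Module.End k M) = 1 + ((σ : M →ₗ[k] M) - 1) := by abel
      rw [Units.val_mul, Units.val_mul, hx, hσv]
      simp only [mul_add, add_mul, one_mul, mul_one, h1]
      abel
    have hle : (⨆ A ∈ Cfsg.quadraticRootSubgroups G, A) ≤ Subgroup.centralizer {x} := by
      apply iSup₂_le
      rintro A ⟨σ, hσ, rfl⟩
      apply (Subgroup.closure_le _).mpr
      intro y hy
      rw [SetLike.mem_coe, Subgroup.mem_centralizer_iff]
      intro z hz
      rw [Set.mem_singleton_iff] at hz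
      subst hz
      exact (hcomm y hy.1).symm
    show x ∈ Subgroup.centralizer ((⨆ A ∈ Cfsg.quadraticRootSubgroups G, A :
      Subgroup (LinearMap.GeneralLinearGroup k M)) : Set (LinearMap.GeneralLinearGroup k M))
    rw [Subgroup.mem_centralizer_iff]
    intro g hg
    have := hle hg
    rw [Subgroup.mem_centralizer_iff] at this
    exact (this x rfl).symm
  intro r
  induction r with
  | zero =>
    intro x N hxG hx hN2 hfam hr
    have hN0 : N = 0 := by
      have h0 := Nat.le_zero.mp hr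
      rw [← LinearMap.range_eq_bot]
      exact Submodule.finrank_eq_zero.mp h0
    have : x = 1 := Units.ext (by rw [hx, hN0, add_zero]; rfl)
    rw [this]
    exact Subgroup.one_mem _
  | succ r ih =>
    intro x N hxG hx hN2 hfam hr
    by_cases hB : ∀ σ ∈ Cfsg.minimalQuadraticElements G,
        ((σ : M →ₗ[k] M) - 1) * (N * ((σ : M →ₗ[k] M) - 1)) = 0
    · exact hcaseB x N hxG hx hN2 hfam hB
    · push Not at hB
      obtain ⟨σ, hσ, hne⟩ := hB
      obtain ⟨p, hp2, hp0, hpfam, hprank, hNp, hpN, hlt⟩ := caseA htwo ha hN2 hfam hσ hne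
      obtain ⟨y, hy, hy1⟩ := QP.mp (G := G) p hp2 hp0 hpfam
      have hyd : y ∈ Cfsg.minimalQuadraticElements G := by
        refine ⟨hy, fun z hz => ?_⟩
        show Module.finrank k (LinearMap.range ((y : M →ₗ[k] M) - 1)) ≤ _
        rw [hy1]
        exact hprank.trans (hσ.2 z hz)
      have hyG₀ : y ∈ ⨆ A ∈ Cfsg.quadraticRootSubgroups G, A :=
        (le_iSup₂ (f := fun (A : Subgroup (LinearMap.GeneralLinearGroup k M))
          (_ : A ∈ Cfsg.quadraticRootSubgroups G) => A) (Cfsg.sameActionSubgroup G y)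
          ⟨y, hyd, rfl⟩) (Subgroup.subset_closure (self_mem_class hyd))
      have hyv : (y : Module.End k M) = 1 + p := by
        rw [← hy1]
        abel
      have hx' : ((x * y⁻¹ : LinearMap.GeneralLinearGroup k M) : Module.End k M) =
          1 + (N - p) := by
        rw [Units.val_mul, inv_val_of y p hp2 hyv, hx, add_mul, one_mul, mul_sub, mul_one, hNp,
          sub_zero]
        abel
      have hN'2 : (N - p) * (N - p) = 0 := by
        rw [sub_mul, mul_sub, mul_sub, hN2, hNp, hpN, hp2]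
        abel
      have hN'fam : Fam G (N - p) := by
        intro c
        obtain ⟨u, huG, hu⟩ := hfam c
        obtain ⟨v, hvG, hv⟩ := hpfam c
        have hv2 : (c • p) * (c • p) = 0 := by rw [smul_mul_smul_comm, hp2, smul_zero]
        refine ⟨u * v⁻¹, G.mul_mem huG (G.inv_mem hvG), ?_⟩
        rw [Units.val_mul, inv_val_of v (c • p) hv2 hv, hu, add_mul, one_mul, mul_sub, mul_one,
          smul_mul_smul_comm, hNp, smul_zero, sub_zero, smul_sub]
        abel
      have hxy : x = (x * y⁻¹) * y := by group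
      rw [hxy]
      exact Subgroup.mul_mem _ (ih (x * y⁻¹) (N - p) (G.mul_mem hxG (G.inv_mem hy.1)) hx' hN'2
        hN'fam (by omega)) (Subgroup.mem_sup_left hyG₀)

end Cfsg.Agent.Helper5.QPair
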