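import Cfsg.Agent.Helper5.QPairV

set_option autoImplicit false
set_option linter.unusedSimpArgs false
set_option linter.unusedVariables false
set_option linter.unusedSectionVars false

/-! Quadratic pairs: non-commuting root subgroups are conjugate; root elements are commutators
(S5069). -/

namespace Cfsg.Agent.Helper5.QPair

open Polynomial Matrix
open scoped commutatorElement

variable {k : Type*} [Field k] {M : Type*} [AddCommGroup M] [Module k M] [FiniteDimensional k M]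
  {G : Subgroup (LinearMap.GeneralLinearGroup k M)}

namespace C2

variable {σ τ : LinearMap.GeneralLinearGroup k M} (h : C2 G σ τ)

include h

/-- An element `φ` which does not "see" the commutator as unipotent has `E(φ)` conjugate to
`E(σ)`. -/
theorem conj_of_ucu
    (hS : ∀ x ∈ Cfsg.minimalQuadraticElements G,
      (Cfsg.sameActionSubgroup G x : Set (LinearMap.GeneralLinearGroup k M)) =
        Cfsg.sameActionClass G x ∪ {1})
    {α β φ : LinearMap.GeneralLinearGroup k M} (hα : α ∈ Cfsg.sameActionClass G σ)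
    (hβ : β ∈ Cfsg.sameActionClass G τ) (hφ : φ ∈ Cfsg.minimalQuadraticElements G)
    (hne : ((φ : M →ₗ[k] M) - 1) * ((((α : M →ₗ[k] M) - 1) * ((β : M →ₗ[k] M) - 1) -
        ((β : M →ₗ[k] M) - 1) * ((α : M →ₗ[k] M) - 1)) * ((φ : M →ₗ[k] M) - 1)) ≠ 0) :
    ∃ g ∈ G, Cfsg.sameActionSubgroup G φ = Cfsg.conjBy (Cfsg.sameActionSubgroup G σ) g := by
  by_cases hopp : Opp α φ
  · obtain ⟨g, hg, hgE⟩ := conj_of_opp h.htwo h.ha hα.1 hφ hopp (hS α hα.1) (hS φ hφ)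
    exact ⟨g, hg, by rw [hgE, E_eq_of_class hα]⟩
  · obtain ⟨-, h2⟩ := aba_of_not_opp h.htwo h.ha hα.1 hφ hopp
    have hβG : β ∈ G := hβ.1.1.1
    have hσ' := conj_mem_min hα.1 hβG
    obtain ⟨h3, h4⟩ := h.aba hα hβ
    have haa := hα.1.1.2.1.1
    have hbb := hβ.1.1.2.1.1
    have hαv : (α : Module.End k M) = 1 + ((α : M →ₗ[k] M) - 1) := by abel
    have hβv : (β : Module.End k M) = 1 + ((β : M →ₗ[k] M) - 1) := by abel
    have hval : ((β * α * β⁻¹ : LinearMap.GeneralLinearGroup k M) : M →ₗ[k] M) - 1 =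
        ((α : M →ₗ[k] M) - 1) - (((α : M →ₗ[k] M) - 1) * ((β : M →ₗ[k] M) - 1) -
          ((β : M →ₗ[k] M) - 1) * ((α : M →ₗ[k] M) - 1)) := by
      have e1 := conj_formula2 ((β : M →ₗ[k] M) - 1) ((α : M →ₗ[k] M) - 1) hbb haa h4
      rw [← hαv, ← hβv] at e1
      rw [Units.val_mul, Units.val_mul, inv_val_of β _ hbb hβv, e1]
      abel
    have hopp' : Opp (β * α * β⁻¹) φ := by
      by_contra hno
      obtain ⟨-, h5⟩ := aba_of_not_opp h.htwo h.ha hσ' hφ hno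
      rw [hval] at h5
      apply hne
      have : ∀ u a c : Module.End k M, u * (c * u) = u * (a * u) - u * ((a - c) * u) := by
        intro u a c
        noncomm_ring
      rw [this _ ((α : M →ₗ[k] M) - 1), h2, h5, sub_zero]
    obtain ⟨g, hg, hgE⟩ := conj_of_opp h.htwo h.ha hσ' hφ hopp' (hS _ hσ') (hS φ hφ)
    refine ⟨g * β, G.mul_mem hg hβG, ?_⟩
    rw [hgE, E_conj hβG, conjBy_conjBy, E_eq_of_class hα]

/-- Non-commuting, non-opposite root subgroups and their commutator are all conjugate to one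
root subgroup `E(φ)`. -/
theorem conj_of_noncomm
    (hS : ∀ x ∈ Cfsg.minimalQuadraticElements G,
      (Cfsg.sameActionSubgroup G x : Set (LinearMap.GeneralLinearGroup k M)) =
        Cfsg.sameActionClass G x ∪ {1})
    (hoppex : ∀ x ∈ Cfsg.minimalQuadraticElements G,
      ∃ φ ∈ Cfsg.minimalQuadraticElements G, Opp x φ)
    (hne : ⁅Cfsg.sameActionSubgroup G σ, Cfsg.sameActionSubgroup G τ⁆ ≠ ⊥) :
    ∃ φ ∈ Cfsg.minimalQuadraticElements G,
      (∃ g ∈ G, Cfsg.sameActionSubgroup G φ = Cfsg.conjBy (Cfsg.sameActionSubgroup G σ) g) ∧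
      (∃ g ∈ G, Cfsg.sameActionSubgroup G φ = Cfsg.conjBy (Cfsg.sameActionSubgroup G τ) g) ∧
      (∃ g ∈ G, Cfsg.sameActionSubgroup G φ =
        Cfsg.conjBy ⁅Cfsg.sameActionSubgroup G σ, Cfsg.sameActionSubgroup G τ⁆ g) := by
  obtain ⟨α, hα, β, hβ, hc⟩ := h.num_of_ne (hS σ h.hσ) (hS τ h.hτ) hne
  have hρ : ⁅α, β⁆ ∈ Cfsg.minimalQuadraticElements G := h.rho_mem hα hβ hc
  have hρv := h.comm_sub_one hα hβ
  obtain ⟨φ, hφ, hopp⟩ := hoppex _ hρ
  have hne1 : ((φ : M →ₗ[k] M) - 1) * ((((α : M →ₗ[k] M) - 1) * ((β : M →ₗ[k] M) - 1) -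
        ((β : M →ₗ[k] M) - 1) * ((α : M →ₗ[k] M) - 1)) * ((φ : M →ₗ[k] M) - 1)) ≠ 0 := by
    intro h0
    rw [← hρv] at h0
    exact hφ.1.2.1.2 (eq_zero_of_opp_aba _ _ hopp.2 hopp.1 h0)
  have hne2 : ((φ : M →ₗ[k] M) - 1) * ((((β : M →ₗ[k] M) - 1) * ((α : M →ₗ[k] M) - 1) -
        ((α : M →ₗ[k] M) - 1) * ((β : M →ₗ[k] M) - 1)) * ((φ : M →ₗ[k] M) - 1)) ≠ 0 := by
    intro h0
    apply hne1
    have : ∀ u a b : Module.End k M, u * ((a * b - b * a) * u) = -(u * ((b * a - a * b) * u)) := by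
      intro u a b
      noncomm_ring
    rw [this, h0, neg_zero]
  refine ⟨φ, hφ, h.conj_of_ucu hS hα hβ hφ hne1, h.symm.conj_of_ucu hS hβ hα hφ hne2, ?_⟩
  obtain ⟨c1, -⟩ := h.core hS hoppex hne
  obtain ⟨ρ', hρ', hEρ'⟩ := c1
  have hmem : ⁅α, β⁆ ∈ Cfsg.sameActionSubgroup G ρ' := by
    rw [← hEρ']
    exact Subgroup.commutator_mem_commutator (Subgroup.subset_closure hα)
      (Subgroup.subset_closure hβ)
  have hcl := mem_class_of_ne (hS ρ' hρ') hmem (ne_one_of_min hρ)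
  obtain ⟨g, hg, hgE⟩ := conj_of_opp h.htwo h.ha hρ hφ hopp (hS _ hρ) (hS φ hφ)
  exact ⟨g, hg, by rw [hgE, E_eq_of_class hcl, hEρ']⟩

end C2

/-- The representation of `SL₂(k)` attached to a pair of opposite root elements. -/
theorem opp_rep (htwo : (2 : k) ≠ 0) (ha : ∃ a : k, a ≠ 0 ∧ a ^ 2 ≠ 1)
    {σ τ : LinearMap.GeneralLinearGroup k M}
    (hσ : σ ∈ Cfsg.minimalQuadraticElements G) (hτ : τ ∈ Cfsg.minimalQuadraticElements G)
    (hopp : Opp σ τ) :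
    ∃ f : SpecialLinearGroup (Fin 2) k →* LinearMap.GeneralLinearGroup k M,
      (∀ t : k, ((f (SLRing.uu t) : LinearMap.GeneralLinearGroup k M) : Module.End k M) =
        1 + t • ((σ : M →ₗ[k] M) - 1)) ∧
      (∀ t : k, f (SLRing.uu t) ∈ Cfsg.sameActionSubgroup G σ) ∧
      (∀ g, f g ∈ Cfsg.sameActionSubgroup G σ ⊔ Cfsg.sameActionSubgroup G τ) := by
  obtain ⟨q, e, i, h1, h2, h3, h4, h5, h6, h7, h8, h9, h10, h11, h12, h13, h14, h15⟩ :=
    oppData htwo ha hσ hτ hopp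
  have heq : e * q = q := by
    rw [← h4, add_mul, mul_assoc, h3, mul_zero, zero_add, h2]
  have hqe : q * e = q := by
    rw [← h4, mul_add, ← mul_assoc, h2, ← mul_assoc, h3, zero_mul, add_zero]
  obtain ⟨U, hUp, hUq, hUe⟩ : ∃ U : MUnits (Module.End k M),
      U.p = (σ : M →ₗ[k] M) - 1 ∧ U.q = q ∧ U.e = e :=
    ⟨{ p := (σ : M →ₗ[k] M) - 1, q := q, e := e, pp := hσ.1.2.1.1, qq := h3, pq_qp := h4,
       ep := h10, pe := h11, eq' := heq, qe := hqe }, rfl, rfl, rfl⟩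
  have hA : (Cfsg.upperUnipotentSL2 k).map U.rhoKHat ≤ Cfsg.sameActionSubgroup G σ := by
    rw [Subgroup.map_le_iff_le_comap]
    apply (Subgroup.closure_le _).mpr
    intro g hg
    rw [upper_eq_uu hg]
    show U.rhoKHat _ ∈ Cfsg.sameActionSubgroup G σ
    apply scalar_mem hσ ((g : Matrix (Fin 2) (Fin 2) k) 0 1)
    rw [MUnits.rhoKHat_val, MUnits.rhoK_uu, hUp]
  have hB : (Cfsg.lowerUnipotentSL2 k).map U.rhoKHat ≤ Cfsg.sameActionSubgroup G τ := by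
    rw [Subgroup.map_le_iff_le_comap]
    apply (Subgroup.closure_le _).mpr
    intro g hg
    rw [lower_eq_ll hg]
    show U.rhoKHat _ ∈ Cfsg.sameActionSubgroup G τ
    have hsq : (((g : Matrix (Fin 2) (Fin 2) k) 1 0) • q) * (((g : Matrix (Fin 2) (Fin 2) k) 1 0) • q)
        = 0 := by
      rw [smul_mul_smul_comm, h3, smul_zero]
    refine mem_sameAction hτ _ (((g : Matrix (Fin 2) (Fin 2) k) 1 0) • q) ?_ hsq (fam_smul h9 _)
      ((range_smul_le _ q).trans h7.le) (h8.ge.trans (ker_le_smul _ q))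
    rw [MUnits.rhoKHat_val, MUnits.rhoK_ll, hUq]
  refine ⟨U.rhoKHat, ?_, ?_, ?_⟩
  · intro t
    rw [MUnits.rhoKHat_val, MUnits.rhoK_uu, hUp]
  · intro t
    exact hA (Subgroup.mem_map_of_mem _ (uu_mem_upper t))
  · intro g
    have hg : g ∈ Cfsg.upperUnipotentSL2 k ⊔ Cfsg.lowerUnipotentSL2 k := by
      rw [sl2_sup_eq_top]
      exact Subgroup.mem_top g
    have h2 : (Cfsg.upperUnipotentSL2 k ⊔ Cfsg.lowerUnipotentSL2 k).map U.rhoKHat ≤
        Cfsg.sameActionSubgroup G σ ⊔ Cfsg.sameActionSubgroup G τ := by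
      rw [Subgroup.map_sup]
      exact sup_le_sup hA hB
    exact h2 (Subgroup.mem_map_of_mem _ hg)

/-- A diagonal element of `SL₂(k)`. -/
def diagSL (a : k) (ha : a ≠ 0) : SpecialLinearGroup (Fin 2) k :=
  ⟨!![a, 0; 0, a⁻¹], by simp [Matrix.det_fin_two, ha]⟩

theorem diagSL_comm (a : k) (ha0 : a ≠ 0) (ha2 : a ^ 2 ≠ 1) :
    diagSL a ha0 * SLRing.uu ((a ^ 2 - 1)⁻¹) * (diagSL a ha0)⁻¹ * (SLRing.uu ((a ^ 2 - 1)⁻¹))⁻¹ =
      SLRing.uu 1 := by
  have hne : a ^ 2 - 1 ≠ 0 := sub_ne_zero.mpr ha2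
  rw [SLRing.conj_uu_of_upper (diagSL a ha0) rfl, SLRing.uu_inv, SLRing.uu_add]
  congr 1
  show a ^ 2 * (a ^ 2 - 1)⁻¹ + -(a ^ 2 - 1)⁻¹ = 1
  field_simp
  ring

/-- A root element is a commutator inside the group generated by its root subgroup and an
opposite one. -/
theorem root_is_comm (htwo : (2 : k) ≠ 0) (ha : ∃ a : k, a ≠ 0 ∧ a ^ 2 ≠ 1)
    {σ τ : LinearMap.GeneralLinearGroup k M}
    (hσ : σ ∈ Cfsg.minimalQuadraticElements G) (hτ : τ ∈ Cfsg.minimalQuadraticElements G)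
    (hopp : Opp σ τ) :
    ∃ x ∈ Cfsg.sameActionSubgroup G σ ⊔ Cfsg.sameActionSubgroup G τ,
      ∃ y ∈ Cfsg.sameActionSubgroup G σ, σ = x * y * x⁻¹ * y⁻¹ := by
  obtain ⟨f, hf1, hf2, hf3⟩ := opp_rep htwo ha hσ hτ hopp
  obtain ⟨a, ha0, ha2⟩ := ha
  refine ⟨f (diagSL a ha0), hf3 _, f (SLRing.uu ((a ^ 2 - 1)⁻¹)), hf2 _, ?_⟩
  rw [← map_inv, ← map_inv, ← map_mul, ← map_mul, ← map_mul, diagSL_comm a ha0 ha2]
  apply Units.ext
  rw [hf1, one_smul]
  abel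

end Cfsg.Agent.Helper5.QPair
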