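import Cfsg.Agent.Helper5.QPairW

set_option autoImplicit false
set_option linter.unusedSimpArgs false
set_option linter.unusedVariables false
set_option linter.unusedSectionVars false

/-! Generic group theory for S5069: orbits of a conjugation-closed set of subgroups in which
non-commuting members are conjugate. -/

namespace Cfsg.Agent.Helper5.QPair

open scoped commutatorElement

section grpX

variable {Γ : Type*} [Group Γ]

/-- The orbit of a subgroup under conjugation by `G`. -/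
def orb (G : Subgroup Γ) (A : Subgroup Γ) : Set (Subgroup Γ) :=
  {B | ∃ g ∈ G, B = Cfsg.conjBy A g}

theorem mem_orb_self (G : Subgroup Γ) (A : Subgroup Γ) : A ∈ orb G A :=
  ⟨1, G.one_mem, (conjBy_one A).symm⟩

theorem orb_eq_of_mem {G : Subgroup Γ} {A B : Subgroup Γ} (h : B ∈ orb G A) :
    orb G B = orb G A := by
  obtain ⟨g, hg, rfl⟩ := h
  ext C
  constructor
  · rintro ⟨g', hg', rfl⟩
    exact ⟨g' * g, G.mul_mem hg' hg, conjBy_conjBy A g g'⟩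
  · rintro ⟨g', hg', rfl⟩
    refine ⟨g' * g⁻¹, G.mul_mem hg' (G.inv_mem hg), ?_⟩
    rw [conjBy_conjBy, mul_assoc, inv_mul_cancel, mul_one]

theorem exists_mul_of_mem_sup_centralizer (K : Subgroup Γ) {g : Γ}
    (hg : g ∈ K ⊔ Subgroup.centralizer (K : Set Γ)) :
    ∃ h ∈ K, ∃ z ∈ Subgroup.centralizer (K : Set Γ), g = h * z := by
  rw [Subgroup.sup_eq_closure] at hg
  induction hg using Subgroup.closure_induction with
  | mem x hx =>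
    rcases hx with hx | hx
    · exact ⟨x, hx, 1, one_mem _, (mul_one x).symm⟩
    · exact ⟨1, one_mem _, x, hx, (one_mul x).symm⟩
  | one => exact ⟨1, one_mem _, 1, one_mem _, (mul_one 1).symm⟩
  | mul x y _ _ hx hy =>
    obtain ⟨h₁, hh₁, z₁, hz₁, rfl⟩ := hx
    obtain ⟨h₂, hh₂, z₂, hz₂, rfl⟩ := hy
    refine ⟨h₁ * h₂, K.mul_mem hh₁ hh₂, z₁ * z₂, mul_mem hz₁ hz₂, ?_⟩
    have hc : h₂ * z₁ = z₁ * h₂ := Subgroup.mem_centralizer_iff.mp hz₁ h₂ hh₂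
    calc h₁ * z₁ * (h₂ * z₂) = h₁ * (z₁ * h₂) * z₂ := by group
      _ = h₁ * (h₂ * z₁) * z₂ := by rw [hc]
      _ = h₁ * h₂ * (z₁ * z₂) := by group
  | inv x _ hx =>
    obtain ⟨h₁, hh₁, z₁, hz₁, rfl⟩ := hx
    refine ⟨h₁⁻¹, K.inv_mem hh₁, z₁⁻¹, inv_mem hz₁, ?_⟩
    have hc : h₁ * z₁ = z₁ * h₁ := Subgroup.mem_centralizer_iff.mp hz₁ h₁ hh₁
    rw [hc, mul_inv_rev]

theorem conjBy_of_centralizer {K B : Subgroup Γ} (hB : B ≤ K) {z : Γ}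
    (hz : z ∈ Subgroup.centralizer (K : Set Γ)) : Cfsg.conjBy B z = B := by
  ext x
  rw [mem_conjBy_iff]
  constructor
  · intro hx
    have hc : z⁻¹ * x * z * z = z * (z⁻¹ * x * z) := Subgroup.mem_centralizer_iff.mp hz _ (hB hx)
    have e : z⁻¹ * x * z = x := by
      have h2 : z * (z⁻¹ * x * z) = x * z := by group
      rw [h2] at hc
      exact mul_right_cancel hc
    rw [← e]
    exact hx
  · intro hx
    have hc : x * z = z * x := Subgroup.mem_centralizer_iff.mp hz _ (hB hx)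
    have e : z⁻¹ * x * z = x := by
      rw [mul_assoc, hc, ← mul_assoc, inv_mul_cancel, one_mul]
    rw [e]
    exact hx

/-- The elements of `G` whose commutators with `A` lie in the `G`-invariant subgroup `N`. -/
def commSub (G N A : Subgroup Γ) (hnorm : ∀ g ∈ G, ∀ n ∈ N, g * n * g⁻¹ ∈ N) : Subgroup Γ where
  carrier := {x | x ∈ G ∧ ∀ y ∈ A, x * y * x⁻¹ * y⁻¹ ∈ N}
  one_mem' := ⟨G.one_mem, fun y hy => by simp⟩
  mul_mem' := by
    rintro x₁ x₂ ⟨h₁, h₁'⟩ ⟨h₂, h₂'⟩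
    refine ⟨G.mul_mem h₁ h₂, fun y hy => ?_⟩
    have e : x₁ * x₂ * y * (x₁ * x₂)⁻¹ * y⁻¹ =
        x₁ * (x₂ * y * x₂⁻¹ * y⁻¹) * x₁⁻¹ * (x₁ * y * x₁⁻¹ * y⁻¹) := by group
    rw [e]
    exact N.mul_mem (hnorm x₁ h₁ _ (h₂' y hy)) (h₁' y hy)
  inv_mem' := by
    rintro x ⟨h₁, h₁'⟩
    refine ⟨G.inv_mem h₁, fun y hy => ?_⟩
    have e : x⁻¹ * y * x⁻¹⁻¹ * y⁻¹ = x⁻¹ * (x * y * x⁻¹ * y⁻¹)⁻¹ * x⁻¹⁻¹ := by group
    rw [e]
    exact hnorm x⁻¹ (G.inv_mem h₁) _ (N.inv_mem (h₁' y hy))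

theorem comm_mem_of_normal {G N A : Subgroup Γ} (hnorm : ∀ g ∈ G, ∀ n ∈ N, g * n * g⁻¹ ∈ N)
    (hAG : A ≤ G) (hAc : ∀ x ∈ A, ∀ y ∈ A, x * y = y * x) {n a a' : Γ} (hn : n ∈ N) (ha : a ∈ A)
    (ha' : a' ∈ A) : (n * a' * n⁻¹) * a * (n * a' * n⁻¹)⁻¹ * a⁻¹ ∈ N := by
  have h1 := hAc a' ha' a ha
  have h2 : a⁻¹ * a'⁻¹ * a = a'⁻¹ := by
    rw [← mul_inv_rev, h1, mul_inv_rev, mul_assoc, inv_mul_cancel, mul_one]
  have e : (n * a' * n⁻¹) * a * (n * a' * n⁻¹)⁻¹ * a⁻¹ =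
      n * (a' * n⁻¹ * a'⁻¹) * ((a' * a) * n * (a' * a)⁻¹) * (a * n⁻¹ * a⁻¹) := by
    calc (n * a' * n⁻¹) * a * (n * a' * n⁻¹)⁻¹ * a⁻¹
        = n * a' * n⁻¹ * a * n * a'⁻¹ * n⁻¹ * a⁻¹ := by group
      _ = n * a' * n⁻¹ * a * n * (a⁻¹ * a'⁻¹ * a) * n⁻¹ * a⁻¹ := by rw [h2]
      _ = n * (a' * n⁻¹ * a'⁻¹) * ((a' * a) * n * (a' * a)⁻¹) * (a * n⁻¹ * a⁻¹) := by group
  rw [e]
  exact N.mul_mem (N.mul_mem (N.mul_mem hn (hnorm a' (hAG ha') _ (N.inv_mem hn)))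
    (hnorm _ (G.mul_mem (hAG ha') (hAG ha)) _ hn)) (hnorm a (hAG ha) _ (N.inv_mem hn))

theorem comm_mem_sup {G N A : Subgroup Γ} (hnorm : ∀ g ∈ G, ∀ n ∈ N, g * n * g⁻¹ ∈ N)
    (hAG : A ≤ G) (hAc : ∀ x ∈ A, ∀ y ∈ A, x * y = y * x) (hNG : N ≤ G) {n : Γ} (hn : n ∈ N) :
    ∀ x ∈ A ⊔ Cfsg.conjBy A n, ∀ y ∈ A, x * y * x⁻¹ * y⁻¹ ∈ N := by
  have hle : A ⊔ Cfsg.conjBy A n ≤ commSub G N A hnorm := by
    apply sup_le
    · intro x hx
      refine ⟨hAG hx, fun y hy => ?_⟩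
      rw [hAc x hx y hy]
      simp
    · rintro x ⟨a', ha', rfl⟩
      refine ⟨?_, fun y hy => ?_⟩
      · exact G.mul_mem (G.mul_mem (hNG hn) (hAG ha')) (G.inv_mem (hNG hn))
      · exact comm_mem_of_normal hnorm hAG hAc hn hy ha'
  intro x hx
  exact (hle hx).2

/-- Quotient by the centre is simple, given the dichotomy for normal subgroups. -/
theorem simple_quot_center (K : Subgroup Γ) (hnc : ∃ x ∈ K, ∃ y ∈ K, x * y ≠ y * x)
    (h : ∀ N : Subgroup Γ, N ≤ K → (∀ g ∈ K, ∀ n ∈ N, g * n * g⁻¹ ∈ N) →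
      N ≤ Subgroup.centralizer (K : Set Γ) ∨ N = K) :
    IsSimpleGroup (↥K ⧸ Subgroup.center ↥K) := by
  have hnt : Nontrivial (↥K ⧸ Subgroup.center ↥K) := by
    rw [QuotientGroup.nontrivial_iff]
    intro htop
    obtain ⟨x, hx, y, hy, hxy⟩ := hnc
    have hxc : (⟨x, hx⟩ : ↥K) ∈ Subgroup.center ↥K := by rw [htop]; trivial
    have := Subgroup.mem_center_iff.mp hxc ⟨y, hy⟩
    apply hxy
    exact (congrArg Subtype.val this).symm
  refine { toNontrivial := hnt, eq_bot_or_eq_top_of_normal := ?_ }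
  intro H hH
  have hsurj : Function.Surjective (QuotientGroup.mk' (Subgroup.center ↥K)) :=
    QuotientGroup.mk'_surjective _
  have hmc : (H.comap (QuotientGroup.mk' (Subgroup.center ↥K))).map
      (QuotientGroup.mk' (Subgroup.center ↥K)) = H :=
    Subgroup.map_comap_eq_self_of_surjective hsurj H
  have hN'norm : (H.comap (QuotientGroup.mk' (Subgroup.center ↥K))).Normal := hH.comap _
  rcases h ((H.comap (QuotientGroup.mk' (Subgroup.center ↥K))).map K.subtype)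
      (by
        rintro x ⟨y, -, rfl⟩
        exact y.2)
      (by
        rintro g hg n ⟨y, hy, rfl⟩
        refine ⟨⟨g, hg⟩ * y * ⟨g, hg⟩⁻¹, hN'norm.conj_mem y hy ⟨g, hg⟩, rfl⟩) with h1 | h1
  · left
    rw [← hmc, Subgroup.map_eq_bot_iff, QuotientGroup.ker_mk']
    intro y hy
    rw [Subgroup.mem_center_iff]
    intro z
    have hyc : (y : Γ) ∈ Subgroup.centralizer (K : Set Γ) := h1 ⟨y, hy, rfl⟩
    have := Subgroup.mem_centralizer_iff.mp hyc z z.2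
    exact Subtype.ext this
  · right
    rw [← hmc]
    have htop : H.comap (QuotientGroup.mk' (Subgroup.center ↥K)) = ⊤ := by
      rw [eq_top_iff]
      intro y _
      have hy : (y : Γ) ∈ (H.comap (QuotientGroup.mk' (Subgroup.center ↥K))).map K.subtype := by
        rw [h1]
        exact y.2
      obtain ⟨y', hy', hyy⟩ := hy
      have : y' = y := Subtype.ext hyy
      rw [← this]
      exact hy'
    rw [htop]
    exact Subgroup.map_top_of_surjective _ hsurj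

/-- A conjugation-closed set of subgroups in which non-commuting members are conjugate. -/
structure RS (G : Subgroup Γ) (S : Set (Subgroup Γ)) : Prop where
  le : ∀ A ∈ S, A ≤ G
  conj : ∀ A ∈ S, ∀ g ∈ G, Cfsg.conjBy A g ∈ S
  key : ∀ A ∈ S, ∀ B ∈ S, ⁅A, B⁆ ≠ ⊥ → ∃ g ∈ G, B = Cfsg.conjBy A g
  dec : G ≤ (⨆ A ∈ S, A) ⊔ Subgroup.centralizer ((⨆ A ∈ S, A : Subgroup Γ) : Set Γ)

namespace RS

variable {G : Subgroup Γ} {S : Set (Subgroup Γ)} (hR : RS G S)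

include hR

theorem orb_subset {A : Subgroup Γ} (hA : A ∈ S) : orb G A ⊆ S := by
  rintro B ⟨g, hg, rfl⟩
  exact hR.conj A hA g hg

theorem comm_of_not_mem {A₀ : Subgroup Γ} (hA₀ : A₀ ∈ S) {A B : Subgroup Γ}
    (hA : A ∈ orb G A₀) (hB : B ∈ S) (hBc : B ∉ orb G A₀) : ⁅A, B⁆ = ⊥ := by
  by_contra hne
  obtain ⟨g, hg, rfl⟩ := hR.key A (hR.orb_subset hA₀ hA) B hB hne
  apply hBc
  rw [← orb_eq_of_mem hA]
  exact ⟨g, hg, rfl⟩

theorem le_iSup {A₀ : Subgroup Γ} {B : Subgroup Γ} (hB : B ∈ orb G A₀) :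
    B ≤ ⨆ A ∈ orb G A₀, A :=
  le_iSup₂ (f := fun (A : Subgroup Γ) (_ : A ∈ orb G A₀) => A) B hB

theorem iSup_le_G {A₀ : Subgroup Γ} (hA₀ : A₀ ∈ S) : (⨆ A ∈ orb G A₀, A) ≤ G :=
  iSup₂_le fun A hA => hR.le A (hR.orb_subset hA₀ hA)

theorem le_centralizer {A₀ : Subgroup Γ} (hA₀ : A₀ ∈ S) {B : Subgroup Γ} (hB : B ∈ S)
    (hBc : B ∉ orb G A₀) :
    B ≤ Subgroup.centralizer ((⨆ A ∈ orb G A₀, A : Subgroup Γ) : Set Γ) := by
  rw [Subgroup.le_centralizer_iff]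
  apply iSup₂_le
  intro A hA
  rw [← Subgroup.commutator_eq_bot_iff_le_centralizer]
  exact hR.comm_of_not_mem hA₀ hA hB hBc

theorem G_le {A₀ : Subgroup Γ} (hA₀ : A₀ ∈ S) :
    G ≤ (⨆ A ∈ orb G A₀, A) ⊔
      Subgroup.centralizer ((⨆ A ∈ orb G A₀, A : Subgroup Γ) : Set Γ) := by
  refine hR.dec.trans (sup_le (iSup₂_le fun B hB => ?_) ?_)
  · by_cases hBc : B ∈ orb G A₀
    · exact (hR.le_iSup hBc).trans le_sup_left
    · exact (hR.le_centralizer hA₀ hB hBc).trans le_sup_right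
  · refine le_trans (Subgroup.centralizer_le ?_) le_sup_right
    exact SetLike.coe_subset_coe.mpr (iSup₂_le fun A hA =>
      le_iSup₂ (f := fun (A : Subgroup Γ) (_ : A ∈ S) => A) A (hR.orb_subset hA₀ hA))

theorem conj_in {A₀ : Subgroup Γ} (hA₀ : A₀ ∈ S) {B B' : Subgroup Γ} (hB : B ∈ orb G A₀)
    (hB' : B' ∈ orb G A₀) : ∃ h ∈ (⨆ A ∈ orb G A₀, A), B' = Cfsg.conjBy B h := by
  have hB'' : B' ∈ orb G B := by
    rw [orb_eq_of_mem hB]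
    exact hB'
  obtain ⟨g, hg, rfl⟩ := hB''
  obtain ⟨h, hh, z, hz, rfl⟩ := exists_mul_of_mem_sup_centralizer _ (hR.G_le hA₀ hg)
  refine ⟨h, hh, ?_⟩
  rw [← conjBy_conjBy, conjBy_of_centralizer (hR.le_iSup hB) hz]

theorem normal_of {A₀ : Subgroup Γ} (hA₀ : A₀ ∈ S) {N : Subgroup Γ}
    (hN : N ≤ ⨆ A ∈ orb G A₀, A)
    (hnorm : ∀ h ∈ (⨆ A ∈ orb G A₀, A), ∀ n ∈ N, h * n * h⁻¹ ∈ N) :
    ∀ g ∈ G, ∀ n ∈ N, g * n * g⁻¹ ∈ N := by
  intro g hg n hn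
  obtain ⟨h, hh, z, hz, rfl⟩ := exists_mul_of_mem_sup_centralizer _ (hR.G_le hA₀ hg)
  have hc : n * z = z * n := Subgroup.mem_centralizer_iff.mp hz n (hN hn)
  have e : h * z * n * (h * z)⁻¹ = h * n * h⁻¹ := by
    calc h * z * n * (h * z)⁻¹ = h * (z * n) * z⁻¹ * h⁻¹ := by group
      _ = h * (n * z) * z⁻¹ * h⁻¹ := by rw [hc]
      _ = h * n * h⁻¹ := by group
  rw [e]
  exact hnorm h hh n hn

theorem comm_orb {A₀ B₀ : Subgroup Γ} (hA₀ : A₀ ∈ S) (hB₀ : B₀ ∈ S)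
    (hne : orb G A₀ ≠ orb G B₀) :
    ⁅(⨆ A ∈ orb G A₀, A), (⨆ B ∈ orb G B₀, B)⁆ = ⊥ := by
  rw [Subgroup.commutator_eq_bot_iff_le_centralizer, Subgroup.le_centralizer_iff]
  apply iSup₂_le
  intro B hB
  apply hR.le_centralizer hA₀ (hR.orb_subset hB₀ hB)
  intro hBA
  apply hne
  rw [← orb_eq_of_mem hBA, orb_eq_of_mem hB]

theorem eq_of_le {A₀ : Subgroup Γ} (hA₀ : A₀ ∈ S) {N : Subgroup Γ}
    (hN : N ≤ ⨆ A ∈ orb G A₀, A)
    (hnorm : ∀ h ∈ (⨆ A ∈ orb G A₀, A), ∀ n ∈ N, h * n * h⁻¹ ∈ N) {B : Subgroup Γ}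
    (hB : B ∈ orb G A₀) (hBN : B ≤ N) : N = ⨆ A ∈ orb G A₀, A := by
  apply le_antisymm hN
  apply iSup₂_le
  intro B' hB'
  obtain ⟨h, hh, rfl⟩ := hR.conj_in hA₀ hB hB'
  intro x hx
  rw [mem_conjBy_iff] at hx
  have h2 := hnorm h hh _ (hBN hx)
  have e : h * (h⁻¹ * x * h) * h⁻¹ = x := by group
  rw [e] at h2
  exact h2

end RS

end grpX

end Cfsg.Agent.Helper5.QPair
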