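import Cfsg.Agent.Helper5.QPairX

set_option autoImplicit false
set_option linter.unusedSimpArgs false
set_option linter.unusedVariables false
set_option linter.unusedSectionVars false

/-! Quadratic pairs (S5069): commuting unipotent families, the centralizing case for normal
subgroups, and the bound on the number of orbits of root subgroups. -/

namespace Cfsg.Agent.Helper5.QPair

open scoped commutatorElement

variable {k : Type*} [Field k] {M : Type*} [AddCommGroup M] [Module k M] [FiniteDimensional k M]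
  {G : Subgroup (LinearMap.GeneralLinearGroup k M)}

omit [FiniteDimensional k M] in
theorem unit_mul_apply (g h : LinearMap.GeneralLinearGroup k M) (m : M) :
    ((g * h : LinearMap.GeneralLinearGroup k M) : Module.End k M) m =
      (g : Module.End k M) ((h : Module.End k M) m) := by
  rw [Units.val_mul]
  rfl

omit [FiniteDimensional k M] in
theorem unit_inv_fix (g : LinearMap.GeneralLinearGroup k M) (m : M)
    (h : (g : Module.End k M) m = m) :
    ((g⁻¹ : LinearMap.GeneralLinearGroup k M) : Module.End k M) m = m := by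
  have h2 : ((g⁻¹ * g : LinearMap.GeneralLinearGroup k M) : Module.End k M) m = m := by
    rw [inv_mul_cancel]
    rfl
  rw [unit_mul_apply, h] at h2
  exact h2

/-- A family of commuting nilpotent endomorphisms has a common kernel vector in every nonzero
invariant subspace. -/
theorem exists_common_ker (𝒮 : Set (Module.End k M))
    (hcomm : ∀ x ∈ 𝒮, ∀ y ∈ 𝒮, x * y = y * x) (hnil : ∀ x ∈ 𝒮, x * (x * x) = 0) :
    ∀ (n : ℕ) (W : Submodule k M), Module.finrank k W ≤ n → W ≠ ⊥ →
      (∀ x ∈ 𝒮, ∀ w ∈ W, x w ∈ W) → ∃ w ∈ W, w ≠ 0 ∧ ∀ x ∈ 𝒮, x w = 0 := by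
  intro n
  induction n with
  | zero =>
    intro W hW hne _
    exfalso
    apply hne
    exact Submodule.finrank_eq_zero.mp (Nat.le_zero.mp hW)
  | succ n ih =>
    intro W hW hne hinv
    by_cases hall : ∀ x ∈ 𝒮, ∀ w ∈ W, x w = 0
    · obtain ⟨w, hw, hw0⟩ := Submodule.exists_mem_ne_zero_of_ne_bot hne
      exact ⟨w, hw, hw0, fun x hx => hall x hx w hw⟩
    · push Not at hall
      obtain ⟨x, hx, w, hw, hxw⟩ := hall
      have hlt : W ⊓ LinearMap.ker x < W := by
        refine lt_of_le_of_ne inf_le_left ?_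
        intro heq
        apply hxw
        have : w ∈ W ⊓ LinearMap.ker x := by
          rw [heq]
          exact hw
        exact LinearMap.mem_ker.mp this.2
      have hne' : W ⊓ LinearMap.ker x ≠ ⊥ := by
        by_cases h2 : x (x w) = 0
        · intro hbot
          have : x w ∈ W ⊓ LinearMap.ker x := ⟨hinv x hx w hw, LinearMap.mem_ker.mpr h2⟩
          rw [hbot] at this
          exact hxw ((Submodule.mem_bot k).mp this)
        · intro hbot
          have h3 : x (x (x w)) = 0 := by
            have := congrArg (fun f : Module.End k M => f w) (hnil x hx)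
            exact this
          have : x (x w) ∈ W ⊓ LinearMap.ker x :=
            ⟨hinv x hx _ (hinv x hx w hw), LinearMap.mem_ker.mpr h3⟩
          rw [hbot] at this
          exact h2 ((Submodule.mem_bot k).mp this)
      have hfr : Module.finrank k ↥(W ⊓ LinearMap.ker x) ≤ n := by
        have := Submodule.finrank_lt_finrank_of_lt hlt
        omega
      obtain ⟨w', hw', hw'0, hw'k⟩ := ih (W ⊓ LinearMap.ker x) hfr hne' (by
        intro y hy v hv
        refine ⟨hinv y hy v hv.1, LinearMap.mem_ker.mpr ?_⟩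
        have h4 : x (y v) = y (x v) := by
          have := congrArg (fun f : Module.End k M => f v) (hcomm x hx y hy)
          exact this
        rw [h4, LinearMap.mem_ker.mp hv.2, map_zero])
      exact ⟨w', hw'.1, hw'0, hw'k⟩

theorem cube_aux {S : Type*} [Ring S] (a b : S) (haa : a * a = 0) (hbb : b * b = 0)
    (hab : a * b = b * a) : (a - b - a * b) * ((a - b - a * b) * (a - b - a * b)) = 0 := by
  have hba : b * a = a * b := hab.symm
  have hba' : ∀ z : S, b * (a * z) = a * (b * z) := fun z => by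
    rw [← mul_assoc, hba, mul_assoc]
  have haa' : ∀ z : S, a * (a * z) = 0 := fun z => by rw [← mul_assoc, haa, zero_mul]
  have hbb' : ∀ z : S, b * (b * z) = 0 := fun z => by rw [← mul_assoc, hbb, zero_mul]
  simp only [mul_sub, sub_mul, mul_assoc, haa, hbb, hba, hba', haa', hbb', mul_zero, zero_mul,
    sub_zero, zero_sub, neg_zero, sub_self, mul_neg, neg_mul]

theorem quot_sub_one {S : Type*} [Ring S] (x y : S) :
    x * (1 - (y - 1)) - 1 = (x - 1) - (y - 1) - (x - 1) * (y - 1) := by
  noncomm_ring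

/-- The vectors fixed by all commutators `[σ, n]`, `n ∈ N`. -/
def fixComm1 (N : Subgroup (LinearMap.GeneralLinearGroup k M))
    (σ : LinearMap.GeneralLinearGroup k M) : Submodule k M where
  carrier := {m | ∀ n ∈ N,
    ((σ * n * σ⁻¹ * n⁻¹ : LinearMap.GeneralLinearGroup k M) : Module.End k M) m = m}
  add_mem' := by
    intro x y hx hy n hn
    rw [map_add, hx n hn, hy n hn]
  zero_mem' := by
    intro n hn
    rw [map_zero]
  smul_mem' := by
    intro c x hx n hn
    rw [map_smul, hx n hn]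

omit [FiniteDimensional k M] in
theorem fixComm1_inv (N : Subgroup (LinearMap.GeneralLinearGroup k M))
    (σ : LinearMap.GeneralLinearGroup k M) {n' : LinearMap.GeneralLinearGroup k M} (hn' : n' ∈ N)
    {m : M} (hm : m ∈ fixComm1 N σ) : (n' : Module.End k M) m ∈ fixComm1 N σ := by
  intro n hn
  have e : σ * n * σ⁻¹ * n⁻¹ * n' =
      n' * (σ * n'⁻¹ * σ⁻¹ * n'⁻¹⁻¹)⁻¹ * (σ * (n'⁻¹ * n) * σ⁻¹ * (n'⁻¹ * n)⁻¹) := by group
  rw [← unit_mul_apply, e, unit_mul_apply, unit_mul_apply,
    hm _ (N.mul_mem (N.inv_mem hn') hn), unit_inv_fix _ _ (hm _ (N.inv_mem hn'))]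

/-- A normal subgroup all of whose conjugates of root elements commute with the root element
centralizes all root elements. -/
theorem central_of_commuting (hG : Cfsg.IsQuadraticPair G)
    {N : Subgroup (LinearMap.GeneralLinearGroup k M)} (hNG : N ≤ G)
    (hnorm : ∀ g ∈ G, ∀ n ∈ N, g * n * g⁻¹ ∈ N)
    (hcomm : ∀ σ ∈ Cfsg.minimalQuadraticElements G, ∀ n ∈ N,
      σ * (n * σ * n⁻¹) = (n * σ * n⁻¹) * σ) :
    ∀ σ ∈ Cfsg.minimalQuadraticElements G, ∀ n ∈ N, σ * n = n * σ := by
  have hcN : ∀ σ ∈ Cfsg.minimalQuadraticElements G, ∀ n ∈ N, σ * n * σ⁻¹ * n⁻¹ ∈ N :=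
    fun σ hσ n hn => N.mul_mem (hnorm σ hσ.1.1 n hn) (N.inv_mem hn)
  have step1 : ∀ σ ∈ Cfsg.minimalQuadraticElements G, ∀ W : Submodule k M, W ≠ ⊥ →
      (∀ n ∈ N, ∀ w ∈ W, (n : Module.End k M) w ∈ W) → W ⊓ fixComm1 N σ ≠ ⊥ := by
    intro σ hσ W hW hinv
    have hτc : ∀ n ∈ N, ∀ n' ∈ N, Commute (n * σ * n⁻¹) (n' * σ * n'⁻¹) := by
      intro n hn n' hn'
      have h1 := hcomm σ hσ (n⁻¹ * n') (N.mul_mem (N.inv_mem hn) hn')
      show n * σ * n⁻¹ * (n' * σ * n'⁻¹) = n' * σ * n'⁻¹ * (n * σ * n⁻¹)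
      calc n * σ * n⁻¹ * (n' * σ * n'⁻¹)
          = n * (σ * (n⁻¹ * n' * σ * (n⁻¹ * n')⁻¹)) * n⁻¹ := by group
        _ = n * ((n⁻¹ * n' * σ * (n⁻¹ * n')⁻¹) * σ) * n⁻¹ := by rw [h1]
        _ = n' * σ * n'⁻¹ * (n * σ * n⁻¹) := by group
    have hστ : ∀ n ∈ N, Commute σ (n * σ * n⁻¹) := fun n hn => hcomm σ hσ n hn
    have heq : ∀ n : LinearMap.GeneralLinearGroup k M,
        σ * n * σ⁻¹ * n⁻¹ = σ * (n * σ * n⁻¹)⁻¹ := fun n => by group
    have hsq : ∀ n ∈ N, (((n * σ * n⁻¹ : LinearMap.GeneralLinearGroup k M) : Module.End k M) - 1) *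
        (((n * σ * n⁻¹ : LinearMap.GeneralLinearGroup k M) : Module.End k M) - 1) = 0 :=
      fun n hn => (conj_mem_min hσ (hNG hn)).1.2.1.1
    have hval : ∀ n ∈ N, ((σ * n * σ⁻¹ * n⁻¹ : LinearMap.GeneralLinearGroup k M) :
        Module.End k M) - 1 = ((σ : Module.End k M) - 1) -
          (((n * σ * n⁻¹ : LinearMap.GeneralLinearGroup k M) : Module.End k M) - 1) -
          ((σ : Module.End k M) - 1) *
            (((n * σ * n⁻¹ : LinearMap.GeneralLinearGroup k M) : Module.End k M) - 1) := by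
      intro n hn
      rw [heq, Units.val_mul, inv_val_of (n * σ * n⁻¹) _ (hsq n hn) (by abel), quot_sub_one]
    obtain ⟨w, hw, hw0, hwk⟩ := exists_common_ker
      {T | ∃ n ∈ N, T = ((σ * n * σ⁻¹ * n⁻¹ : LinearMap.GeneralLinearGroup k M) :
        Module.End k M) - 1} (by
        rintro _ ⟨n, hn, rfl⟩ _ ⟨n', hn', rfl⟩
        apply sub_one_comm
        rw [← Units.val_mul, ← Units.val_mul, heq, heq]
        have c1 : Commute σ (σ * (n' * σ * n'⁻¹)⁻¹) :=
          (Commute.refl σ).mul_right (hστ n' hn').inv_right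
        have c2 : Commute (n * σ * n⁻¹)⁻¹ (σ * (n' * σ * n'⁻¹)⁻¹) :=
          ((hστ n hn).symm.inv_left).mul_right (hτc n hn n' hn').inv_inv
        exact congrArg Units.val (c1.mul_left c2).eq) (by
        rintro _ ⟨n, hn, rfl⟩
        rw [hval n hn]
        apply cube_aux _ _ hσ.1.2.1.1 (hsq n hn)
        apply sub_one_comm
        rw [← Units.val_mul, ← Units.val_mul]
        exact congrArg Units.val (hστ n hn).eq) _ W le_rfl hW (by
        rintro _ ⟨n, hn, rfl⟩ w hw
        exact W.sub_mem (hinv _ (hcN σ hσ n hn) w hw) hw)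
    intro hbot
    have hmem : w ∈ W ⊓ fixComm1 N σ := ⟨hw, fun n hn => by
      have h1 := hwk _ ⟨n, hn, rfl⟩
      exact sub_eq_zero.mp h1⟩
    rw [hbot] at hmem
    exact hw0 ((Submodule.mem_bot k).mp hmem)
  have step2 : ∀ (d : ℕ) (W : Submodule k M), W ≠ ⊥ →
      (∀ n ∈ N, ∀ w ∈ W, (n : Module.End k M) w ∈ W) → Module.finrank k W ≤ d →
      ∃ w ∈ W, w ≠ 0 ∧ ∀ σ ∈ Cfsg.minimalQuadraticElements G, w ∈ fixComm1 N σ := by
    intro d
    induction d with
    | zero =>
      intro W hW _ hd
      exfalso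
      apply hW
      exact Submodule.finrank_eq_zero.mp (Nat.le_zero.mp hd)
    | succ d ih =>
      intro W hW hinv hd
      by_cases hall : ∀ σ ∈ Cfsg.minimalQuadraticElements G, W ≤ fixComm1 N σ
      · obtain ⟨w, hw, hw0⟩ := Submodule.exists_mem_ne_zero_of_ne_bot hW
        exact ⟨w, hw, hw0, fun σ hσ => hall σ hσ hw⟩
      · push Not at hall
        obtain ⟨σ, hσ, hnle⟩ := hall
        have hlt : W ⊓ fixComm1 N σ < W := by
          refine lt_of_le_of_ne inf_le_left ?_
          intro heq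
          exact hnle (inf_eq_left.mp heq)
        have hfr : Module.finrank k ↥(W ⊓ fixComm1 N σ) ≤ d := by
          have := Submodule.finrank_lt_finrank_of_lt hlt
          omega
        obtain ⟨w, hw, hw0, hwF⟩ := ih (W ⊓ fixComm1 N σ) (step1 σ hσ W hW hinv)
          (fun n hn w hw => ⟨hinv n hn w hw.1, fixComm1_inv N σ hn hw.2⟩) hfr
        exact ⟨w, hw.1, hw0, hwF⟩
  have hFinv : ∀ g ∈ G, ∀ w ∈ (⨅ σ ∈ Cfsg.minimalQuadraticElements G, fixComm1 N σ),
      (g : M →ₗ[k] M) w ∈ (⨅ σ ∈ Cfsg.minimalQuadraticElements G, fixComm1 N σ) := by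
    intro g hg w hw
    simp only [Submodule.mem_iInf] at hw ⊢
    intro σ hσ n hn
    have e : σ * n * σ⁻¹ * n⁻¹ * g = g * ((g⁻¹ * σ * g⁻¹⁻¹) * (g⁻¹ * n * g⁻¹⁻¹) *
        (g⁻¹ * σ * g⁻¹⁻¹)⁻¹ * (g⁻¹ * n * g⁻¹⁻¹)⁻¹) := by group
    rw [← unit_mul_apply, e, unit_mul_apply,
      hw _ (conj_mem_min hσ (G.inv_mem hg)) _ (hnorm g⁻¹ (G.inv_mem hg) n hn)]
  have hFtop : (⨅ σ ∈ Cfsg.minimalQuadraticElements G, fixComm1 N σ) = ⊤ := by
    rcases hG.1.2 _ hFinv with hF | hF
    · exfalso
      obtain ⟨m, hm⟩ := hG.1.1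
      have htop : (⊤ : Submodule k M) ≠ ⊥ := by
        intro h
        have : m ∈ (⊤ : Submodule k M) := Submodule.mem_top
        rw [h] at this
        exact hm ((Submodule.mem_bot k).mp this)
      obtain ⟨w, -, hw0, hwF⟩ := step2 _ ⊤ htop (fun _ _ _ _ => Submodule.mem_top) le_rfl
      have : w ∈ (⨅ σ ∈ Cfsg.minimalQuadraticElements G, fixComm1 N σ) := by
        simp only [Submodule.mem_iInf]
        exact hwF
      rw [hF] at this
      exact hw0 ((Submodule.mem_bot k).mp this)
    · exact hF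
  intro σ hσ n hn
  have h1 : σ * n * σ⁻¹ * n⁻¹ = 1 := by
    apply Units.ext
    apply LinearMap.ext
    intro m
    have hm : m ∈ (⨅ σ ∈ Cfsg.minimalQuadraticElements G, fixComm1 N σ) := by
      rw [hFtop]
      exact Submodule.mem_top
    simp only [Submodule.mem_iInf] at hm
    exact hm σ hσ n hn
  have h2 : σ * n * σ⁻¹ = n := mul_inv_eq_one.mp h1
  exact mul_inv_eq_iff_eq_mul.mp h2

/-- Products of root elements from distinct orbits: the number of orbits is bounded. -/
theorem orbit_bound (hG : Cfsg.IsQuadraticPair G) (hR : RS G (Cfsg.quadraticRootSubgroups G)) :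
    ∀ t : Finset (Set (Subgroup (LinearMap.GeneralLinearGroup k M))),
      (∀ c ∈ t, ∃ A ∈ Cfsg.quadraticRootSubgroups G, c = orb G A) →
      ∃ P : Module.End k M, P ≠ 0 ∧
        Module.finrank k (LinearMap.range P) + t.card ≤ Module.finrank k M ∧
        ∀ σ ∈ Cfsg.minimalQuadraticElements G, orb G (Cfsg.sameActionSubgroup G σ) ∉ t →
          P * ((σ : M →ₗ[k] M) - 1) = ((σ : M →ₗ[k] M) - 1) * P := by
  classical
  intro t
  induction t using Finset.induction_on with
  | empty =>
    intro _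
    refine ⟨1, ?_, ?_, fun σ _ _ => by rw [one_mul, mul_one]⟩
    · obtain ⟨m, hm⟩ := hG.1.1
      intro h10
      apply hm
      have := congrArg (fun f : Module.End k M => f m) h10
      exact this
    · have : LinearMap.range (1 : Module.End k M) = ⊤ :=
        LinearMap.range_eq_top.mpr (fun x => ⟨x, rfl⟩)
      rw [this, finrank_top, Finset.card_empty, add_zero]
  | insert c t hc ih =>
    intro ht
    obtain ⟨P, hP0, hPr, hPc⟩ := ih (fun c' hc' => ht c' (Finset.mem_insert_of_mem hc'))
    obtain ⟨A₀, hA₀, rfl⟩ := ht c (Finset.mem_insert_self c t)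
    obtain ⟨σ₀, hσ₀, rfl⟩ := hA₀
    have hex : ∃ σ ∈ Cfsg.minimalQuadraticElements G,
        Cfsg.sameActionSubgroup G σ ∈ orb G (Cfsg.sameActionSubgroup G σ₀) ∧
        P * ((σ : M →ₗ[k] M) - 1) ≠ 0 := by
      by_contra hcon
      push Not at hcon
      let K : Submodule k M :=
        { carrier := {m | ∀ g ∈ G, P ((g : Module.End k M) m) = 0}
          add_mem' := by
            intro x y hx hy g hg
            rw [map_add, map_add, hx g hg, hy g hg, add_zero]
          zero_mem' := by
            intro g hg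
            rw [map_zero, map_zero]
          smul_mem' := by
            intro c x hx g hg
            rw [map_smul, map_smul, hx g hg, smul_zero] }
      have hKinv : ∀ g ∈ G, ∀ w ∈ K, (g : M →ₗ[k] M) w ∈ K := by
        intro g hg w hw g' hg'
        have := hw (g' * g) (G.mul_mem hg' hg)
        rwa [unit_mul_apply] at this
      rcases hG.1.2 K hKinv with hK | hK
      · apply hσ₀.1.2.1.2
        apply LinearMap.ext
        intro m
        have hmem : ((σ₀ : M →ₗ[k] M) - 1) m ∈ K := by
          intro g hg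
          have h1 := hcon (g * σ₀ * g⁻¹) (conj_mem_min hσ₀ hg) (by
            rw [E_conj hg]
            exact ⟨g, hg, rfl⟩)
          have h2 : (g : Module.End k M) (((σ₀ : M →ₗ[k] M) - 1) m) =
              (((g * σ₀ * g⁻¹ : LinearMap.GeneralLinearGroup k M) : Module.End k M) - 1)
                ((g : Module.End k M) m) := by
            rw [conj_sub_one]
            show _ = (g : Module.End k M) (((σ₀ : Module.End k M) - 1)
              (((g⁻¹ : LinearMap.GeneralLinearGroup k M) : Module.End k M)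
                ((g : Module.End k M) m)))
            rw [← unit_mul_apply g⁻¹ g, inv_mul_cancel]
            rfl
          rw [h2]
          exact congrArg (fun f : Module.End k M => f ((g : Module.End k M) m)) h1
        rw [hK] at hmem
        exact (Submodule.mem_bot k).mp hmem
      · apply hP0
        apply LinearMap.ext
        intro m
        have hm : m ∈ K := by
          rw [hK]
          exact Submodule.mem_top
        exact hm 1 G.one_mem
    obtain ⟨σ, hσ, hσc, hne⟩ := hex
    have horb : orb G (Cfsg.sameActionSubgroup G σ) = orb G (Cfsg.sameActionSubgroup G σ₀) :=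
      orb_eq_of_mem hσc
    have hcomm1 : P * ((σ : M →ₗ[k] M) - 1) = ((σ : M →ₗ[k] M) - 1) * P :=
      hPc σ hσ (by rw [horb]; exact hc)
    refine ⟨P * ((σ : M →ₗ[k] M) - 1), hne, ?_, ?_⟩
    · have h1 := rank_comp ((σ : M →ₗ[k] M) - 1) P
      have h2 : LinearMap.range P ⊓ LinearMap.ker ((σ : M →ₗ[k] M) - 1) ≠ ⊥ := by
        intro hbot
        apply hne
        apply LinearMap.ext
        intro m
        have hmem : (P * ((σ : M →ₗ[k] M) - 1)) m ∈
            LinearMap.range P ⊓ LinearMap.ker ((σ : M →ₗ[k] M) - 1) := by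
          refine ⟨⟨((σ : M →ₗ[k] M) - 1) m, rfl⟩, LinearMap.mem_ker.mpr ?_⟩
          rw [hcomm1]
          have := congrArg (fun f : Module.End k M => f (P m)) hσ.1.2.1.1
          exact this
        rw [hbot] at hmem
        exact (Submodule.mem_bot k).mp hmem
      have h3 : Module.finrank k ↥(LinearMap.range P ⊓ LinearMap.ker ((σ : M →ₗ[k] M) - 1)) ≠ 0 :=
        fun h0 => h2 (Submodule.finrank_eq_zero.mp h0)
      rw [Finset.card_insert_of_notMem hc, hcomm1]
      omega
    · intro σ' hσ' hnot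
      have hnot1 : orb G (Cfsg.sameActionSubgroup G σ') ≠
          orb G (Cfsg.sameActionSubgroup G σ₀) := fun h => hnot (by
        rw [h]
        exact Finset.mem_insert_self _ _)
      have hnot2 : orb G (Cfsg.sameActionSubgroup G σ') ∉ t := fun h =>
        hnot (Finset.mem_insert_of_mem h)
      have hP' := hPc σ' hσ' hnot2
      have hcb : ⁅Cfsg.sameActionSubgroup G σ, Cfsg.sameActionSubgroup G σ'⁆ = ⊥ :=
        hR.comm_of_not_mem ⟨σ₀, hσ₀, rfl⟩ hσc ⟨σ', hσ', rfl⟩ (fun hmem => hnot1 (orb_eq_of_mem hmem))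
      have hσσ' : σ' * σ = σ * σ' := by
        have h1 := Subgroup.commutator_eq_bot_iff_le_centralizer.mp hcb
          (Subgroup.subset_closure (self_mem_class hσ))
        exact Subgroup.mem_centralizer_iff.mp h1 σ' (Subgroup.subset_closure (self_mem_class hσ'))
      have hc2 : ((σ : M →ₗ[k] M) - 1) * ((σ' : M →ₗ[k] M) - 1) =
          ((σ' : M →ₗ[k] M) - 1) * ((σ : M →ₗ[k] M) - 1) := by
        apply sub_one_comm
        rw [← Units.val_mul, ← Units.val_mul, hσσ']
      rw [mul_assoc, hc2, ← mul_assoc, hP', mul_assoc]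

/-- There are only finitely many orbits of root subgroups. -/
theorem orbits_finite (hG : Cfsg.IsQuadraticPair G)
    (hR : RS G (Cfsg.quadraticRootSubgroups G)) :
    {c : Set (Subgroup (LinearMap.GeneralLinearGroup k M)) |
      ∃ A ∈ Cfsg.quadraticRootSubgroups G, c = orb G A}.Finite := by
  by_contra hinf
  obtain ⟨t, ht, hcard⟩ := (Set.not_finite.mp hinf : Set.Infinite _).exists_subset_card_eq
    (Module.finrank k M + 1)
  obtain ⟨P, hP0, hrk, -⟩ := orbit_bound hG hR t (fun c hc => ht hc)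
  omega

end Cfsg.Agent.Helper5.QPair
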