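import Cfsg.Agent.Helper5.QPairY

set_option autoImplicit false
set_option linter.unusedSimpArgs false
set_option linter.unusedVariables false
set_option linter.unusedSectionVars false

/-! Quadratic pairs (S5069): the orbits of root subgroups generate quasisimple groups in which
they form classes of abstract root subgroups. -/

namespace Cfsg.Agent.Helper5.QPair

open scoped commutatorElement

theorem conjBy_symm {Γ : Type*} [Group Γ] {A B : Subgroup Γ} {g : Γ}
    (h : B = Cfsg.conjBy A g) : A = Cfsg.conjBy B g⁻¹ := by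
  rw [h, conjBy_conjBy, inv_mul_cancel, conjBy_one]

variable {k : Type*} [Field k] {M : Type*} [AddCommGroup M] [Module k M] [FiniteDimensional k M]
  {G : Subgroup (LinearMap.GeneralLinearGroup k M)}

/-- The root subgroups of a quadratic pair satisfy the orbit axioms. -/
theorem rs_of_pair (htwo : (2 : k) ≠ 0) (ha : ∃ a : k, a ≠ 0 ∧ a ^ 2 ≠ 1)
    (hS : ∀ x ∈ Cfsg.minimalQuadraticElements G,
      (Cfsg.sameActionSubgroup G x : Set (LinearMap.GeneralLinearGroup k M)) =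
        Cfsg.sameActionClass G x ∪ {1})
    (hoppex : ∀ x ∈ Cfsg.minimalQuadraticElements G,
      ∃ φ ∈ Cfsg.minimalQuadraticElements G, Opp x φ)
    (hdec : G ≤ (⨆ A ∈ Cfsg.quadraticRootSubgroups G, A) ⊔
      Subgroup.centralizer ((⨆ A ∈ Cfsg.quadraticRootSubgroups G, A :
        Subgroup (LinearMap.GeneralLinearGroup k M)) : Set (LinearMap.GeneralLinearGroup k M))) :
    RS G (Cfsg.quadraticRootSubgroups G) where
  le := by
    rintro A ⟨σ, hσ, rfl⟩
    exact E_le_G σ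
  conj := by
    rintro A ⟨σ, hσ, rfl⟩ g hg
    rw [← E_conj hg]
    exact ⟨_, conj_mem_min hσ hg, rfl⟩
  key := by
    rintro A ⟨σ, hσ, rfl⟩ B ⟨τ, hτ, rfl⟩ hne
    by_cases hopp : Opp σ τ
    · exact conj_of_opp htwo ha hσ hτ hopp (hS σ hσ) (hS τ hτ)
    · have hC : C2 G σ τ := ⟨htwo, ha, hσ, hτ, hopp⟩
      obtain ⟨φ, hφ, ⟨g₁, hg₁, h1⟩, ⟨g₂, hg₂, h2⟩, -⟩ := hC.conj_of_noncomm hS hoppex hne
      refine ⟨g₂⁻¹ * g₁, G.mul_mem (G.inv_mem hg₂) hg₁, ?_⟩
      rw [← conjBy_conjBy, ← h1]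
      exact conjBy_symm h2
  dec := hdec

section main

variable (hG : Cfsg.IsQuadraticPair G) (htwo : (2 : k) ≠ 0) (ha : ∃ a : k, a ≠ 0 ∧ a ^ 2 ≠ 1)
    (hS : ∀ x ∈ Cfsg.minimalQuadraticElements G,
      (Cfsg.sameActionSubgroup G x : Set (LinearMap.GeneralLinearGroup k M)) =
        Cfsg.sameActionClass G x ∪ {1})
    (hoppex : ∀ x ∈ Cfsg.minimalQuadraticElements G,
      ∃ φ ∈ Cfsg.minimalQuadraticElements G, Opp x φ)
    (hR : RS G (Cfsg.quadraticRootSubgroups G))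
    {σ₀ : LinearMap.GeneralLinearGroup k M} (hσ₀ : σ₀ ∈ Cfsg.minimalQuadraticElements G)

include htwo ha hS hoppex hR hσ₀

/-- A normal subgroup of the group generated by an orbit is central or everything. -/
theorem normal_dichotomy (hG : Cfsg.IsQuadraticPair G)
    (N : Subgroup (LinearMap.GeneralLinearGroup k M))
    (hN : N ≤ ⨆ A ∈ orb G (Cfsg.sameActionSubgroup G σ₀), A)
    (hnorm : ∀ h ∈ (⨆ A ∈ orb G (Cfsg.sameActionSubgroup G σ₀), A), ∀ n ∈ N, h * n * h⁻¹ ∈ N) :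
    N ≤ Subgroup.centralizer ((⨆ A ∈ orb G (Cfsg.sameActionSubgroup G σ₀), A :
        Subgroup (LinearMap.GeneralLinearGroup k M)) : Set (LinearMap.GeneralLinearGroup k M)) ∨
      N = ⨆ A ∈ orb G (Cfsg.sameActionSubgroup G σ₀), A := by
  have hA₀ : Cfsg.sameActionSubgroup G σ₀ ∈ Cfsg.quadraticRootSubgroups G := ⟨σ₀, hσ₀, rfl⟩
  have hnormG := hR.normal_of hA₀ hN hnorm
  have hNG : N ≤ G := hN.trans (hR.iSup_le_G hA₀)
  have hcommE : ∀ x ∈ Cfsg.minimalQuadraticElements G, ∀ u ∈ Cfsg.sameActionSubgroup G x,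
      ∀ v ∈ Cfsg.sameActionSubgroup G x, u * v = v * u :=
    fun x hx u hu v hv => E_comm hx (hS x hx) hu hv
  by_cases hex : ∃ B ∈ orb G (Cfsg.sameActionSubgroup G σ₀), B ≤ N
  · obtain ⟨B, hB, hBN⟩ := hex
    exact Or.inr (hR.eq_of_le hA₀ hN hnorm hB hBN)
  · left
    push Not at hex
    have hcomm : ∀ σ ∈ Cfsg.minimalQuadraticElements G, ∀ n ∈ N,
        σ * (n * σ * n⁻¹) = (n * σ * n⁻¹) * σ := by
      intro σ hσ n hn
      by_cases hσc : Cfsg.sameActionSubgroup G σ ∈ orb G (Cfsg.sameActionSubgroup G σ₀)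
      · have hτ : n * σ * n⁻¹ ∈ Cfsg.minimalQuadraticElements G := conj_mem_min hσ (hNG hn)
        have hEτ : Cfsg.sameActionSubgroup G (n * σ * n⁻¹) =
            Cfsg.conjBy (Cfsg.sameActionSubgroup G σ) n := E_conj (hNG hn)
        by_cases hopp : Opp σ (n * σ * n⁻¹)
        · exfalso
          apply hex _ hσc
          intro a haE
          by_cases ha1 : a = 1
          · rw [ha1]
            exact N.one_mem
          · have hcl := mem_class_of_ne (hS σ hσ) haE ha1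
            have hoppa : Opp a (n * σ * n⁻¹) := (opp_congr hcl.2.2 hcl.2.1 rfl rfl).mpr hopp
            obtain ⟨x, hx, y, hy, hxy⟩ := root_is_comm htwo ha hcl.1 hτ hoppa
            rw [E_eq_of_class hcl, hEτ] at hx
            rw [E_eq_of_class hcl] at hy
            rw [hxy]
            exact comm_mem_sup hnormG (E_le_G σ) (hcommE σ hσ) hNG hn x hx y hy
        · by_cases hne : ⁅Cfsg.sameActionSubgroup G σ,
              Cfsg.sameActionSubgroup G (n * σ * n⁻¹)⁆ = ⊥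
          · have h1 := Subgroup.commutator_eq_bot_iff_le_centralizer.mp hne
              (Subgroup.subset_closure (self_mem_class hσ))
            exact (Subgroup.mem_centralizer_iff.mp h1 _
              (Subgroup.subset_closure (self_mem_class hτ))).symm
          · exfalso
            have hC : C2 G σ (n * σ * n⁻¹) := ⟨htwo, ha, hσ, hτ, hopp⟩
            obtain ⟨φ, hφ, ⟨g₁, hg₁, h1⟩, -, ⟨g₃, hg₃, h3⟩⟩ :=
              hC.conj_of_noncomm hS hoppex hne
            apply hex ⁅Cfsg.sameActionSubgroup G σ, Cfsg.sameActionSubgroup G (n * σ * n⁻¹)⁆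
            · rw [← orb_eq_of_mem hσc]
              refine ⟨g₃⁻¹ * g₁, G.mul_mem (G.inv_mem hg₃) hg₁, ?_⟩
              rw [← conjBy_conjBy, ← h1]
              exact conjBy_symm h3
            · rw [Subgroup.commutator_le]
              intro a haE b hbE
              rw [hEτ] at hbE
              obtain ⟨a', ha', rfl⟩ := Subgroup.mem_map.mp hbE
              have h4 := comm_mem_of_normal hnormG (E_le_G σ) (hcommE σ hσ) hn haE ha'
              have e : ⁅a, (MulAut.conj n).toMonoidHom a'⁆ =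
                  ((n * a' * n⁻¹) * a * (n * a' * n⁻¹)⁻¹ * a⁻¹)⁻¹ := by
                show a * (n * a' * n⁻¹) * a⁻¹ * (n * a' * n⁻¹)⁻¹ = _
                group
              rw [e]
              exact N.inv_mem h4
      · have h1 := hR.le_centralizer hA₀ ⟨σ, hσ, rfl⟩ hσc
          (Subgroup.subset_closure (self_mem_class hσ))
        have h2 : n * σ = σ * n := Subgroup.mem_centralizer_iff.mp h1 n (hN hn)
        have h3 : n * σ * n⁻¹ = σ := by rw [h2, mul_assoc, mul_inv_cancel, mul_one]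
        rw [h3]
    have hcen := central_of_commuting hG hNG hnormG hcomm
    rw [Subgroup.le_centralizer_iff]
    apply iSup₂_le
    intro A hA
    obtain ⟨σ, hσ, rfl⟩ := hR.orb_subset hA₀ hA
    intro a haE
    rw [Subgroup.mem_centralizer_iff]
    intro n hn
    by_cases ha1 : a = 1
    · rw [ha1, mul_one, one_mul]
    · have hcl := mem_class_of_ne (hS σ hσ) haE ha1
      exact (hcen a hcl.1 n hn).symm

/-- The partner of a root element lies in the same orbit. -/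
theorem opp_mem_orb {σ φ : LinearMap.GeneralLinearGroup k M}
    (hσ : σ ∈ Cfsg.minimalQuadraticElements G)
    (hσc : Cfsg.sameActionSubgroup G σ ∈ orb G (Cfsg.sameActionSubgroup G σ₀))
    (hφ : φ ∈ Cfsg.minimalQuadraticElements G) (hopp : Opp σ φ) :
    Cfsg.sameActionSubgroup G φ ∈ orb G (Cfsg.sameActionSubgroup G σ₀) := by
  have hA₀ : Cfsg.sameActionSubgroup G σ₀ ∈ Cfsg.quadraticRootSubgroups G := ⟨σ₀, hσ₀, rfl⟩
  by_contra hφc
  have hb := hR.comm_of_not_mem hA₀ hσc ⟨φ, hφ, rfl⟩ hφc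
  have h1 := Subgroup.commutator_eq_bot_iff_le_centralizer.mp hb
    (Subgroup.subset_closure (self_mem_class hσ))
  have h2 := Subgroup.mem_centralizer_iff.mp h1 φ (Subgroup.subset_closure (self_mem_class hφ))
  exact opp_no_comm hopp (self_mem_class hσ) (self_mem_class hφ) h2.symm

/-- The group generated by an orbit is perfect. -/
theorem perfect_orb :
    ⁅(⨆ A ∈ orb G (Cfsg.sameActionSubgroup G σ₀), A),
      (⨆ A ∈ orb G (Cfsg.sameActionSubgroup G σ₀), A)⁆ =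
      ⨆ A ∈ orb G (Cfsg.sameActionSubgroup G σ₀), A := by
  have hA₀ : Cfsg.sameActionSubgroup G σ₀ ∈ Cfsg.quadraticRootSubgroups G := ⟨σ₀, hσ₀, rfl⟩
  apply le_antisymm
  · rw [Subgroup.commutator_le]
    intro x hx y hy
    exact Subgroup.mul_mem _ (Subgroup.mul_mem _ (Subgroup.mul_mem _ hx hy)
      (Subgroup.inv_mem _ hx)) (Subgroup.inv_mem _ hy)
  · apply iSup₂_le
    intro A hA
    obtain ⟨σ, hσ, rfl⟩ := hR.orb_subset hA₀ hA
    intro a haE
    by_cases ha1 : a = 1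
    · rw [ha1]
      exact Subgroup.one_mem _
    · have hcl := mem_class_of_ne (hS σ hσ) haE ha1
      obtain ⟨φ, hφ, hopp⟩ := hoppex a hcl.1
      obtain ⟨x, hx, y, hy, hxy⟩ := root_is_comm htwo ha hcl.1 hφ hopp
      have hAa : Cfsg.sameActionSubgroup G a ∈ orb G (Cfsg.sameActionSubgroup G σ₀) := by
        rw [E_eq_of_class hcl]
        exact hA
      have hφc := opp_mem_orb htwo ha hS hoppex hR hσ₀ hcl.1 hAa hφ hopp
      have hxK : x ∈ ⨆ A ∈ orb G (Cfsg.sameActionSubgroup G σ₀), A :=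
        (sup_le (hR.le_iSup hAa) (hR.le_iSup hφc)) hx
      have hyK : y ∈ ⨆ A ∈ orb G (Cfsg.sameActionSubgroup G σ₀), A := hR.le_iSup hAa hy
      rw [hxy]
      exact Subgroup.commutator_mem_commutator hxK hyK

theorem noncomm_orb :
    ∃ x ∈ (⨆ A ∈ orb G (Cfsg.sameActionSubgroup G σ₀), A),
      ∃ y ∈ (⨆ A ∈ orb G (Cfsg.sameActionSubgroup G σ₀), A), x * y ≠ y * x := by
  obtain ⟨φ, hφ, hopp⟩ := hoppex σ₀ hσ₀
  have hφc := opp_mem_orb htwo ha hS hoppex hR hσ₀ hσ₀ (mem_orb_self G _) hφ hopp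
  exact ⟨σ₀, hR.le_iSup (mem_orb_self G _) (Subgroup.subset_closure (self_mem_class hσ₀)),
    φ, hR.le_iSup hφc (Subgroup.subset_closure (self_mem_class hφ)),
    fun h => opp_no_comm hopp (self_mem_class hσ₀) (self_mem_class hφ) h⟩

/-- An orbit is a class of abstract root subgroups of the group it generates. -/
theorem root_class_orb :
    Cfsg.IsRootSubgroupClass
      ((fun A : Subgroup (LinearMap.GeneralLinearGroup k M) =>
        A.subgroupOf (⨆ B ∈ orb G (Cfsg.sameActionSubgroup G σ₀), B)) ''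
          (orb G (Cfsg.sameActionSubgroup G σ₀))) := by
  have hA₀ : Cfsg.sameActionSubgroup G σ₀ ∈ Cfsg.quadraticRootSubgroups G := ⟨σ₀, hσ₀, rfl⟩
  have hle : ∀ A ∈ orb G (Cfsg.sameActionSubgroup G σ₀),
      A ≤ ⨆ B ∈ orb G (Cfsg.sameActionSubgroup G σ₀), B := fun A hA => hR.le_iSup hA
  have hcommE : ∀ x ∈ Cfsg.minimalQuadraticElements G, ∀ u ∈ Cfsg.sameActionSubgroup G x,
      ∀ v ∈ Cfsg.sameActionSubgroup G x, u * v = v * u :=
    fun x hx u hu v hv => E_comm hx (hS x hx) hu hv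
  refine ⟨⟨?_, ?_, ?_, ?_, ?_⟩, ?_, ?_⟩
  · rintro _ ⟨A, hA, rfl⟩
    obtain ⟨σ, hσ, rfl⟩ := hR.orb_subset hA₀ hA
    exact isMulCommutative_subgroupOf (hcommE σ hσ)
  · rintro _ ⟨A, hA, rfl⟩ hbot
    obtain ⟨σ, hσ, rfl⟩ := hR.orb_subset hA₀ hA
    have hσE : σ ∈ Cfsg.sameActionSubgroup G σ := Subgroup.subset_closure (self_mem_class hσ)
    have hσK : σ ∈ ⨆ B ∈ orb G (Cfsg.sameActionSubgroup G σ₀), B := hle _ hA hσE
    have h1 : (⟨σ, hσK⟩ : ↥(⨆ B ∈ orb G (Cfsg.sameActionSubgroup G σ₀), B)) ∈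
        (Cfsg.sameActionSubgroup G σ).subgroupOf
          (⨆ B ∈ orb G (Cfsg.sameActionSubgroup G σ₀), B) :=
      Subgroup.mem_subgroupOf.mpr hσE
    beta_reduce at hbot
    rw [hbot, Subgroup.mem_bot] at h1
    exact ne_one_of_min hσ (congrArg Subtype.val h1)
  · exact iSup_subgroupOf_eq_top _
  · rintro _ ⟨A, hA, rfl⟩ g
    rw [conjBy_subgroupOf]
    refine ⟨_, ?_, rfl⟩
    have h2 : Cfsg.conjBy A (g : LinearMap.GeneralLinearGroup k M) ∈ orb G A :=
      ⟨g, hR.iSup_le_G hA₀ g.2, rfl⟩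
    rw [orb_eq_of_mem hA] at h2
    exact h2
  · rintro _ ⟨A, hA, rfl⟩ _ ⟨B, hB, rfl⟩
    obtain ⟨σ, hσ, rfl⟩ := hR.orb_subset hA₀ hA
    obtain ⟨τ, hτ, rfl⟩ := hR.orb_subset hA₀ hB
    by_cases hopp : Opp σ τ
    · right
      left
      exact rankOnePair_subgroupOf (hle _ hA) (hle _ hB) (hcommE σ hσ) (hcommE τ hτ)
        (rankOnePair_of_opp htwo ha hσ hτ hopp (hS σ hσ) (hS τ hτ))
    · by_cases hne : ⁅Cfsg.sameActionSubgroup G σ, Cfsg.sameActionSubgroup G τ⁆ = ⊥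
      · left
        rw [comm_subgroupOf (hle _ hA) (hle _ hB), hne, Subgroup.bot_subgroupOf]
      · right
        right
        have hC : C2 G σ τ := ⟨htwo, ha, hσ, hτ, hopp⟩
        obtain ⟨c1, c2, c3, c4, c5, c6⟩ := hC.core hS hoppex hne
        obtain ⟨φ, hφ, ⟨g₁, hg₁, h1⟩, -, ⟨g₃, hg₃, h3⟩⟩ := hC.conj_of_noncomm hS hoppex hne
        have hmem : ⁅Cfsg.sameActionSubgroup G σ, Cfsg.sameActionSubgroup G τ⁆ ∈
            orb G (Cfsg.sameActionSubgroup G σ₀) := by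
          rw [← orb_eq_of_mem hA]
          refine ⟨g₃⁻¹ * g₁, G.mul_mem (G.inv_mem hg₃) hg₁, ?_⟩
          rw [← conjBy_conjBy, ← h1]
          exact conjBy_symm h3
        exact rootComm_subgroupOf _ (hle _ hA) (hle _ hB)
          ⟨hmem, central_of_class2 c5, c2, c3⟩
  · exact ⟨_, _, mem_orb_self G _, rfl⟩
  · rintro _ ⟨A, hA, rfl⟩ _ ⟨B, hB, rfl⟩
    obtain ⟨h, hh, rfl⟩ := hR.conj_in hA₀ hA hB
    exact ⟨⟨h, hh⟩, (conjBy_subgroupOf _ A ⟨h, hh⟩).symm⟩

/-- The main statement for one orbit. -/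
theorem main_orb (hG : Cfsg.IsQuadraticPair G) :
    Cfsg.IsQuasisimple ↥(⨆ A ∈ orb G (Cfsg.sameActionSubgroup G σ₀), A) ∧
    Cfsg.IsRootSubgroupClass
      ((fun A : Subgroup (LinearMap.GeneralLinearGroup k M) =>
        A.subgroupOf (⨆ B ∈ orb G (Cfsg.sameActionSubgroup G σ₀), B)) ''
          (orb G (Cfsg.sameActionSubgroup G σ₀))) ∧
    ∀ A ∈ orb G (Cfsg.sameActionSubgroup G σ₀),
      ∀ B ∈ Cfsg.rankOnePartners (orb G (Cfsg.sameActionSubgroup G σ₀)) A,
        ∃ A₀ B₀ : Subgroup (LinearMap.GeneralLinearGroup k M), A₀ ≤ A ∧ B₀ ≤ B ∧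
          Cfsg.IsPSL2PairOver k A₀ B₀ := by
  have hA₀ : Cfsg.sameActionSubgroup G σ₀ ∈ Cfsg.quadraticRootSubgroups G := ⟨σ₀, hσ₀, rfl⟩
  refine ⟨⟨Subgroup.isPerfect_iff.mpr (perfect_orb htwo ha hS hoppex hR hσ₀),
    simple_quot_center _ (noncomm_orb htwo ha hS hoppex hR hσ₀)
      (fun N hN hnorm => normal_dichotomy htwo ha hS hoppex hR hσ₀ hG N hN hnorm)⟩,
    root_class_orb htwo ha hS hoppex hR hσ₀, ?_⟩
  rintro A hA B ⟨hB, hpair⟩
  obtain ⟨σ, hσ, rfl⟩ := hR.orb_subset hA₀ hA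
  obtain ⟨τ, hτ, rfl⟩ := hR.orb_subset hA₀ hB
  have hopp := opp_of_rankOnePair htwo ha hσ hτ (hS σ hσ) (hS τ hτ) hpair
  exact psl2_of_opp htwo ha hσ hτ hopp

end main

end Cfsg.Agent.Helper5.QPair
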