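import Mathlib
import Cfsg.Prelude.Def_RootSubgroups
import Cfsg.Prelude.Def_QuasithinSetup
import Cfsg.Agent.Helper83.RootInv
import Cfsg.Agent.Helper22.Fitting

/-!
# Root involutions: normal subgroups missing `D` (helper5)

For a set `D` of root involutions with connected odd-order-product graph and a "line"
(two commuting members with product in `D`): the members of `D` in one coset of a normal
subgroup `N` missing `D` commute pairwise, hence `[N, d]` is a subnormal `2`-subgroup and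
`N` lies in the preimage of the centre of `G / O_2(G)`.
-/

set_option autoImplicit false

namespace Cfsg.Agent.Helper5.RInv

open Cfsg

variable {G : Type*} [Group G]

theorem conj_of_odd {a b : G} (ha : a * a = 1) (hb : b * b = 1) (h : Odd (orderOf (a * b))) :
    ∃ g : G, b = g * a * g⁻¹ := by
  obtain ⟨k, hk⟩ := h
  have hai : a⁻¹ = a := inv_eq_of_mul_eq_one_left ha
  have hbi : b⁻¹ = b := inv_eq_of_mul_eq_one_left hb
  refine ⟨(a * b) ^ k, ?_⟩
  have h1 : a * (a * b) ^ k * a = ((a * b) ^ k)⁻¹ := by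
    have h0 : a * (a * b) ^ k * a⁻¹ = (a * (a * b) * a⁻¹) ^ k := (conj_pow).symm
    rw [hai] at h0
    rw [h0, ← inv_pow]
    congr 1
    rw [mul_inv_rev, hai, hbi, ← mul_assoc, ha, one_mul]
  have h2 : (a * b) ^ k * (a * b) ^ k * (a * b) = 1 := by
    rw [← pow_add, ← pow_succ, show k + k + 1 = 2 * k + 1 by ring, ← hk, pow_orderOf_eq_one]
  rw [← h1]
  have h3 : (a * b) ^ k * a * (a * (a * b) ^ k * a) = (a * b) ^ k * (a * b) ^ k * a := by
    rw [show (a * b) ^ k * a * (a * (a * b) ^ k * a) = (a * b) ^ k * (a * a) * (a * b) ^ k * a by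
      group, ha, mul_one]
  rw [h3]
  have h4 : (a * b) ^ k * (a * b) ^ k = b * a := by
    have h5 := eq_inv_of_mul_eq_one_left h2
    rw [h5, mul_inv_rev, hai, hbi]
  rw [h4, mul_assoc, ha, mul_one]

theorem conj_of_path {D : Set G} (hD : IsRootInvolutionSet D) {a b : G}
    (h : Relation.ReflTransGen (OddAdj D) a b) : ∃ g : G, b = g * a * g⁻¹ := by
  induction h with
  | refl => exact ⟨1, by simp⟩
  | tail _ hcb ih =>
    obtain ⟨g, hg⟩ := ih
    obtain ⟨hc, hb, -, hodd⟩ := hcb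
    obtain ⟨g', hg'⟩ := conj_of_odd (Helper83.RI.sq hD hc) (Helper83.RI.sq hD hb) hodd
    exact ⟨g' * g, by rw [hg', hg]; group⟩

theorem exists_oddAdj {D : Set G} (hc : IsConnectedSet (OddAdj D) D) {a b : G} (ha : a ∈ D)
    (hb : b ∈ D) (hne : a ≠ b) : ∃ c e, OddAdj D c e := by
  rcases Relation.ReflTransGen.cases_tail (hc a ha b hb) with h | ⟨c, -, h⟩
  · exact absurd h.symm hne
  · exact ⟨c, b, h⟩

theorem not_oddAdj_of_comm {D : Set G} (hD : IsRootInvolutionSet D) {c e : G}
    (h : OddAdj D c e) (hce : c * e = e * c) : False := by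
  obtain ⟨hc, he, hne, hodd⟩ := h
  have h1 : (c * e) ^ 2 ^ 1 = 1 := by
    rw [pow_one, pow_two]
    calc c * e * (c * e) = c * (e * c) * e := by group
      _ = c * (c * e) * e := by rw [hce]
      _ = (c * c) * (e * e) := by group
      _ = 1 := by rw [Helper83.RI.sq hD hc, Helper83.RI.sq hD he, one_mul]
  have h2 := Helper83.eq_one_of_odd_of_pow_two hodd h1
  exact hne (by rw [← Helper83.RI.inv hD he]; exact eq_inv_of_mul_eq_one_left h2)

theorem exists_line {D : Set G} (hD : IsRootInvolutionSet D)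
    (hconj : ∀ a ∈ D, ∀ b ∈ D, ∃ g : G, b = g * a * g⁻¹)
    (hDD : (D ∩ commutingProducts D).Nonempty) :
    ∀ d ∈ D, ∃ v ∈ D, v * d = d * v ∧ v * d ∈ D := by
  obtain ⟨x, hx, a, ha, b, hb, hab, hne, rfl⟩ := hDD
  intro d hd
  obtain ⟨g, rfl⟩ := hconj a ha d hd
  refine ⟨g * b * g⁻¹, hD.conj_mem b hb g, ?_, ?_⟩
  · calc g * b * g⁻¹ * (g * a * g⁻¹) = g * (b * a) * g⁻¹ := by group
      _ = g * (a * b) * g⁻¹ := by rw [hab]
      _ = g * a * g⁻¹ * (g * b * g⁻¹) := by group
  · have h1 : g * b * g⁻¹ * (g * a * g⁻¹) = g * (a * b) * g⁻¹ := by rw [hab]; group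
    rw [h1]; exact hD.conj_mem _ hx g

/-- Members of `D` congruent modulo a normal subgroup `N` missing `D` commute. -/
theorem fiber_comm {D : Set G} (hD : IsRootInvolutionSet D) (N : Subgroup G) [hNn : N.Normal]
    (hN : ∀ d ∈ D, d ∉ N) {v d d' : G} (hd : d ∈ D) (hv : v ∈ D) (hvd : v * d = d * v)
    (hvdD : v * d ∈ D) (hd' : d' ∈ D) (hdd' : d * d' ∈ N) : d * d' = d' * d := by
  have hdi := Helper83.RI.inv hD hd
  have hd'i := Helper83.RI.inv hD hd'
  have hvi := Helper83.RI.inv hD hv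
  have hdvD : d * v ∈ D := hvd ▸ hvdD
  have hdv2 : (d * v) * (d * v) = 1 := Helper83.RI.sq hD hdvD
  have hcong : (QuotientGroup.mk (d' * v) : G ⧸ N) = QuotientGroup.mk (d * v) := by
    rw [QuotientGroup.eq]
    have h1 : (d' * v)⁻¹ * (d * v) = v * (d * d')⁻¹ * v⁻¹ := by
      rw [mul_inv_rev, mul_inv_rev, hdi, hd'i, hvi]; group
    rw [h1]
    exact hNn.conj_mem _ (N.inv_mem hdd') v
  have hvcomm : d' * v = v * d' := by
    rcases hD.pair d' hd' v hv with h | h | h
    · exact h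
    · exfalso
      have h2 : (QuotientGroup.mk ((d' * v) ^ orderOf (d' * v)) : G ⧸ N)
          = QuotientGroup.mk ((d * v) ^ orderOf (d' * v)) := by
        rw [QuotientGroup.mk_pow, QuotientGroup.mk_pow, hcong]
      rw [pow_orderOf_eq_one, Helper83.pow_odd_of_sq_one hdv2 h] at h2
      have h3 : d * v ∈ N := by
        rw [← QuotientGroup.eq_one_iff]; exact h2.symm
      exact hN _ hdvD h3
    · exfalso
      have h2 : (QuotientGroup.mk ((d' * v) ^ 2) : G ⧸ N) = QuotientGroup.mk ((d * v) ^ 2) := by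
        rw [QuotientGroup.mk_pow, QuotientGroup.mk_pow, hcong]
      rw [pow_two (d * v), hdv2] at h2
      have h3 : (d' * v) ^ 2 ∈ N := by
        rw [← QuotientGroup.eq_one_iff]; exact h2
      exact hN _ h.2 h3
  rcases hD.pair d hd d' hd' with h | h | h
  · exact h
  · have h1 := Helper83.RI.palpha hD hd hv hvd.symm hdvD hd' hvcomm h
    rw [h1]
  · exfalso
    exact hN _ h.2 (N.pow_mem hdd' 2)

/-- For `n` in a normal subgroup `N` missing `D` and `d ∈ D`, the commutator `d (n d n⁻¹)` lies in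
`O_2(G)`. -/
theorem comm_mem_pCore {D : Set G} (hD : IsRootInvolutionSet D)
    (hline : ∀ d ∈ D, ∃ v ∈ D, v * d = d * v ∧ v * d ∈ D)
    (N : Subgroup G) [hNn : N.Normal] (hN : ∀ d ∈ D, d ∉ N) {d : G} (hd : d ∈ D) {n : G}
    (hn : n ∈ N) : d * (n * d * n⁻¹) ∈ pCore 2 G := by
  have hfib : ∀ d ∈ D, ∀ d' ∈ D, d * d' ∈ N → d * d' = d' * d := by
    intro d hd d' hd' h
    obtain ⟨v, hv, hvd, hvdD⟩ := hline d hd
    exact fiber_comm hD N hN hd hv hvd hvdD hd' h
  obtain ⟨W, hW⟩ : ∃ W : Set G, W = {w | ∃ d' ∈ D, d * d' ∈ N ∧ w = d * d'} := ⟨_, rfl⟩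
  have hWN : W ⊆ N := by rw [hW]; rintro w ⟨d', -, h, rfl⟩; exact h
  have hEN : Subgroup.closure W ≤ N := (Subgroup.closure_le N).mpr hWN
  have hdi := Helper83.RI.inv hD hd
  have hdd := Helper83.RI.sq hD hd
  have hWsq : ∀ w ∈ W, w * w = 1 := by
    rw [hW]
    rintro w ⟨d', hd', h, rfl⟩
    have hc := hfib d hd d' hd' h
    calc d * d' * (d * d') = d * (d' * d) * d' := by group
      _ = d * (d * d') * d' := by rw [hc]
      _ = (d * d) * (d' * d') := by group
      _ = 1 := by rw [hdd, Helper83.RI.sq hD hd', one_mul]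
  have hWcomm : ∀ w ∈ W, ∀ w' ∈ W, w * w' = w' * w := by
    rw [hW]
    rintro w ⟨d', hd', h, rfl⟩ w' ⟨d'', hd'', h', rfl⟩
    have hc := hfib d hd d' hd' h
    have hc' := hfib d hd d'' hd'' h'
    have h'' : d' * d'' ∈ N := by
      have h0 : d' * d'' = (d * d')⁻¹ * (d * d'') := by
        rw [mul_inv_rev, Helper83.RI.inv hD hd']; group
      rw [h0]; exact N.mul_mem (N.inv_mem h) h'
    have hc'' := hfib d' hd' d'' hd'' h''
    calc d * d' * (d * d'') = d * (d' * d) * d'' := by group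
      _ = d * (d * d') * d'' := by rw [hc]
      _ = d * d * (d' * d'') := by group
      _ = d * d * (d'' * d') := by rw [hc'']
      _ = d * (d * d'') * d' := by group
      _ = d * (d'' * d) * d' := by rw [hc']
      _ = d * d'' * (d * d') := by group
  have hcomm : ∀ x ∈ Subgroup.closure W, ∀ y ∈ Subgroup.closure W, x * y = y * x := by
    have h1 : Subgroup.closure W ≤ Subgroup.centralizer W := by
      rw [Subgroup.closure_le]
      intro w hw
      exact Subgroup.mem_centralizer_iff.mpr (fun w' hw' => hWcomm w' hw' w hw)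
    have h2 : Subgroup.closure W ≤ Subgroup.centralizer (Subgroup.closure W : Set G) := by
      rw [Subgroup.closure_le]
      intro w hw
      refine Subgroup.mem_centralizer_iff.mpr (fun x hx => ?_)
      exact (Subgroup.mem_centralizer_iff.mp (h1 hx) w hw).symm
    intro x hx y hy
    exact Subgroup.mem_centralizer_iff.mp (h2 hy) x hx
  have hEsq : ∀ x ∈ Subgroup.closure W, x * x = 1 := by
    intro x hx
    induction hx using Subgroup.closure_induction with
    | mem x hx => exact hWsq x hx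
    | one => simp
    | mul x y hx hy ihx ihy =>
      rw [show x * y * (x * y) = x * (y * x) * y by group, ← hcomm x hx y hy,
        show x * (x * y) * y = (x * x) * (y * y) by group, ihx, ihy, one_mul]
    | inv x hx ih => rw [← mul_inv_rev, ih, inv_one]
  have hP : IsPGroup 2 ↥(Subgroup.closure W) := by
    intro x
    refine ⟨1, ?_⟩
    apply Subtype.ext
    rw [pow_one, pow_two]
    exact hEsq x.1 x.2
  have hconjW : ∀ m ∈ N, ∀ h ∈ Subgroup.closure W, m * h * m⁻¹ ∈ Subgroup.closure W := by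
    intro m hm h hh
    induction hh using Subgroup.closure_induction with
    | mem w hw =>
      rw [hW] at hw
      obtain ⟨d', hd', h, rfl⟩ := hw
      have hd'i := Helper83.RI.inv hD hd'
      have hd1 : m * d * m⁻¹ ∈ D := hD.conj_mem d hd m
      have hd1' : m * d' * m⁻¹ ∈ D := hD.conj_mem d' hd' m
      have hN1 : d * (m * d * m⁻¹) ∈ N := by
        have h0 : d * (m * d * m⁻¹) = (d * m * d⁻¹) * m⁻¹ := by rw [hdi]; group
        rw [h0]; exact N.mul_mem (hNn.conj_mem m hm d) (N.inv_mem hm)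
      have hN1' : d * (m * d' * m⁻¹) ∈ N := by
        have h0 : d * (m * d' * m⁻¹) = (d * d') * (d'⁻¹ * m * d'⁻¹⁻¹) * m⁻¹ := by group
        rw [h0]
        exact N.mul_mem (N.mul_mem h (hNn.conj_mem m hm d'⁻¹)) (N.inv_mem hm)
      have hc1 := hfib d hd _ hd1 hN1
      have heq : m * (d * d') * m⁻¹ = (d * (m * d * m⁻¹)) * (d * (m * d' * m⁻¹)) := by
        calc m * (d * d') * m⁻¹ = (m * d * m⁻¹) * (m * d' * m⁻¹) := by group
          _ = (d * d) * (m * d * m⁻¹) * (m * d' * m⁻¹) := by rw [hdd, one_mul]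
          _ = d * (d * (m * d * m⁻¹)) * (m * d' * m⁻¹) := by group
          _ = d * ((m * d * m⁻¹) * d) * (m * d' * m⁻¹) := by rw [hc1]
          _ = (d * (m * d * m⁻¹)) * (d * (m * d' * m⁻¹)) := by group
      rw [heq]
      apply Subgroup.mul_mem
      · apply Subgroup.subset_closure; rw [hW]; exact ⟨_, hd1, hN1, rfl⟩
      · apply Subgroup.subset_closure; rw [hW]; exact ⟨_, hd1', hN1', rfl⟩
    | one => simp
    | mul x y hx hy ihx ihy =>
      have h0 : m * (x * y) * m⁻¹ = (m * x * m⁻¹) * (m * y * m⁻¹) := by group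
      rw [h0]; exact Subgroup.mul_mem _ ihx ihy
    | inv x hx ih =>
      have h0 : m * x⁻¹ * m⁻¹ = (m * x * m⁻¹)⁻¹ := by group
      rw [h0]; exact Subgroup.inv_mem _ ih
  have hnorm : N ≤ Subgroup.normalizer (Subgroup.closure W : Set G) := by
    intro m hm
    rw [Subgroup.mem_normalizer_iff]
    intro h
    constructor
    · exact hconjW m hm h
    · intro hh
      have h1 := hconjW m⁻¹ (N.inv_mem hm) _ hh
      have h0 : m⁻¹ * (m * h * m⁻¹) * m⁻¹⁻¹ = h := by group
      rwa [h0] at h1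
  have hsubn : (Subgroup.closure W).IsSubnormal :=
    Subgroup.IsSubnormal.step _ N hEN hNn.isSubnormal
      ((Subgroup.normal_subgroupOf_iff_le_normalizer hEN).mpr hnorm)
  have hle := Cfsg.Agent.Helper22.le_pCore_of_isSubnormal 2 hsubn hP
  apply hle
  apply Subgroup.subset_closure
  rw [hW]
  refine ⟨_, hD.conj_mem d hd n, ?_, rfl⟩
  have h0 : d * (n * d * n⁻¹) = (d * n * d⁻¹) * n⁻¹ := by rw [hdi]; group
  rw [h0]; exact N.mul_mem (hNn.conj_mem n hn d) (N.inv_mem hn)

/-- A normal subgroup missing `D` lies in `O_{2,Z}(G)`. -/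
theorem le_twoZCore {D : Set G} (hD : IsRootInvolutionSet D)
    (hline : ∀ d ∈ D, ∃ v ∈ D, v * d = d * v ∧ v * d ∈ D)
    (N : Subgroup G) [hNn : N.Normal] (hN : ∀ d ∈ D, d ∉ N) : N ≤ twoZCore G := by
  intro n hn
  show QuotientGroup.mk' (pCore 2 G) n ∈ Subgroup.center (G ⧸ pCore 2 G)
  rw [Subgroup.mem_center_iff]
  intro q
  obtain ⟨g, rfl⟩ := QuotientGroup.mk_surjective q
  have hcl : Subgroup.closure D ≤ (Subgroup.centralizer
      {QuotientGroup.mk' (pCore 2 G) n}).comap (QuotientGroup.mk' (pCore 2 G)) := by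
    rw [Subgroup.closure_le]
    intro d hd
    show QuotientGroup.mk' (pCore 2 G) d ∈ Subgroup.centralizer {QuotientGroup.mk' (pCore 2 G) n}
    rw [Subgroup.mem_centralizer_iff]
    intro h hh
    rw [Set.mem_singleton_iff] at hh
    rw [hh]
    show (QuotientGroup.mk (n * d) : G ⧸ pCore 2 G) = QuotientGroup.mk (d * n)
    rw [QuotientGroup.eq]
    have h0 : (n * d)⁻¹ * (d * n) = d * (n⁻¹ * d * n⁻¹⁻¹) := by
      rw [mul_inv_rev, Helper83.RI.inv hD hd]; group
    rw [h0]
    exact comm_mem_pCore hD hline N hN hd (N.inv_mem hn)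
  have hg : g ∈ (Subgroup.centralizer
      {QuotientGroup.mk' (pCore 2 G) n}).comap (QuotientGroup.mk' (pCore 2 G)) :=
    hcl (by rw [hD.generates]; trivial)
  have h1 := Subgroup.mem_centralizer_iff.mp hg _ (Set.mem_singleton _)
  exact h1.symm

/-- No member of `D` lies in `O_{2,Z}(G)` when the odd graph is connected and `D` has two
members. -/
theorem not_mem_twoZCore {D : Set G} (hD : IsRootInvolutionSet D)
    (hc : IsConnectedSet (OddAdj D) D) {a b : G} (ha : a ∈ D) (hb : b ∈ D) (hne : a ≠ b) :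
    ∀ d ∈ D, d ∉ twoZCore G := by
  intro d hd hdZ
  have hall : ∀ e ∈ D, e ∈ twoZCore G := by
    intro e he
    obtain ⟨g, rfl⟩ := conj_of_path hD (hc d hd e he)
    exact (inferInstance : (twoZCore G).Normal).conj_mem d hdZ g
  obtain ⟨c, e, hc', he', hce, hodd⟩ := exists_oddAdj hc ha hb hne
  have h1 : (c * e) ^ 2 ∈ pCore 2 G := by
    have hcZ : QuotientGroup.mk' (pCore 2 G) c ∈ Subgroup.center (G ⧸ pCore 2 G) := hall c hc'
    have h2 : (QuotientGroup.mk (e * c) : G ⧸ pCore 2 G) = QuotientGroup.mk (c * e) :=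
      (Subgroup.mem_center_iff.mp hcZ) (QuotientGroup.mk e)
    have h3 : (e * c)⁻¹ * (c * e) ∈ pCore 2 G := QuotientGroup.eq.mp h2
    have h4 : (e * c)⁻¹ * (c * e) = (c * e) ^ 2 := by
      rw [mul_inv_rev, Helper83.RI.inv hD hc', Helper83.RI.inv hD he', pow_two]
    rwa [h4] at h3
  have hP := Cfsg.Agent.Helper22.pCore_isPGroup 2 G
  obtain ⟨k, hk⟩ := hP ⟨(c * e) ^ 2, h1⟩
  have hk' : ((c * e) ^ 2) ^ 2 ^ k = 1 := by simpa using congrArg Subtype.val hk
  have h5 : (c * e) ^ 2 ^ (k + 1) = 1 := by rw [pow_succ', pow_mul]; exact hk'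
  have h6 := Helper83.eq_one_of_odd_of_pow_two hodd h5
  exact hce (by rw [← Helper83.RI.inv hD he']; exact eq_inv_of_mul_eq_one_left h6)

/-- A normal subgroup meeting `D` is everything. -/
theorem eq_top_of_mem {D : Set G} (hD : IsRootInvolutionSet D)
    (hc : IsConnectedSet (OddAdj D) D) (N : Subgroup G) [hNn : N.Normal] {d : G} (hd : d ∈ D)
    (hdN : d ∈ N) : N = ⊤ := by
  rw [eq_top_iff, ← hD.generates, Subgroup.closure_le]
  intro e he
  obtain ⟨g, rfl⟩ := conj_of_path hD (hc d hd e he)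
  exact hNn.conj_mem d hdN g

end Cfsg.Agent.Helper5.RInv
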