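import Mathlib
import Cfsg.Prelude.Def_RootSubgroups
import Cfsg.Agent.Helper5.RInvA

/-!
# Root involutions: the chain argument (helper5)

Let `y`, `u`, `y u` be members of a set `D` of root involutions with `y u = u y`, and let
`a ∈ D` have product of odd order with `y` but not with `u`.  Then the elements
`z₀ = u`, `qᵢ = (a zᵢ)²`, `zᵢ₊₁ = (y qᵢ)²` are all members of `D`, they commute pairwise, the
map `zᵢ ↦ zᵢ₊₁` is injective, and hence (in a finite group) some `q ∈ D` conjugates `y` to
`y u`.
-/

set_option autoImplicit false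

namespace Cfsg.Agent.Helper5.RInvB

open Cfsg

variable {G : Type*} [Group G]

/-- Generalised Lemma P: `p, t ∈ D`, `v` an involution commuting with both, `p v ∈ D`; then the
order of `p t` is not odd unless `t = p`. -/
theorem gp {D : Set G} (hD : IsRootInvolutionSet D) {p v t : G} (hp : p ∈ D) (hv2 : v * v = 1)
    (hv1 : v ≠ 1) (hpv : p * v = v * p) (hpvD : p * v ∈ D) (ht : t ∈ D) (htv : t * v = v * t)
    (hodd : Odd (orderOf (p * t))) : t = p := by
  obtain ⟨z, hz⟩ : ∃ z, z = p * t := ⟨_, rfl⟩
  rw [← hz] at hodd
  have hvz : Commute v z := by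
    rw [hz]
    exact (Commute.mul_right (show Commute v p from hpv.symm) (show Commute v t from htv.symm))
  have hw : p * v * t = v * z := by rw [hpv, hz, mul_assoc]
  have hww : (p * v * t) * (p * v * t) = z * z := by
    rw [hw, hvz.symm.mul_mul_mul_comm, hv2, one_mul]
  have hz1 : z = 1 := by
    rcases hD.pair (p * v) hpvD t ht with h | h | h
    · apply Helper83.eq_one_of_odd_of_pow_two (k := 1) hodd
      rw [pow_one, pow_two, ← hww]
      calc p * v * t * (p * v * t) = p * v * (t * (p * v)) * t := by group
        _ = p * v * (p * v * t) * t := by rw [h]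
        _ = (p * v * (p * v)) * (t * t) := by group
        _ = 1 := by rw [Helper83.RI.sq hD hpvD, Helper83.RI.sq hD ht, one_mul]
    · exfalso
      apply hv1
      have h1 : (v * z) ^ orderOf (p * v * t) = 1 := by
        rw [← hw]; exact pow_orderOf_eq_one _
      rw [hvz.mul_pow, Helper83.pow_odd_of_sq_one hv2 h] at h1
      have h2 : v = (z ^ orderOf (p * v * t))⁻¹ := eq_inv_of_mul_eq_one_left h1
      have h3 : v ^ orderOf z = 1 := by
        rw [h2, inv_pow, ← pow_mul, mul_comm, pow_mul, pow_orderOf_eq_one, one_pow, inv_one]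
      rwa [Helper83.pow_odd_of_sq_one hv2 hodd] at h3
    · apply Helper83.eq_one_of_odd_of_pow_two (k := 2) hodd
      have h1 := pow_orderOf_eq_one (p * v * t)
      rw [h.1] at h1
      calc z ^ 2 ^ 2 = (z * z) * (z * z) := by
            rw [show (2 : ℕ) ^ 2 = 4 from rfl, Helper83.pow_four_eq']
        _ = (p * v * t) ^ 4 := by rw [← hww, Helper83.pow_four_eq']
        _ = 1 := h1
  rw [hz] at hz1
  have h1 : t = p⁻¹ := eq_inv_of_mul_eq_one_right hz1
  rw [h1, Helper83.RI.inv hD hp]

theorem comm_of_mem_closure {S : Set G} {x : G} (hx : ∀ s ∈ S, s * x = x * s) {r : G}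
    (hr : r ∈ Subgroup.closure S) : r * x = x * r := by
  have h1 : Subgroup.closure S ≤ Subgroup.centralizer {x} := by
    rw [Subgroup.closure_le]
    intro s hs
    rw [SetLike.mem_coe, Subgroup.mem_centralizer_iff]
    intro h hh
    rw [Set.mem_singleton_iff] at hh
    rw [hh]; exact (hx s hs).symm
  have h2 := h1 hr
  rw [Subgroup.mem_centralizer_iff] at h2
  exact (h2 x rfl).symm

theorem sq_of_mem_closure {S : Set G} (hS2 : ∀ s ∈ S, s * s = 1)
    (hSc : ∀ s ∈ S, ∀ t ∈ S, s * t = t * s) {r : G} (hr : r ∈ Subgroup.closure S) :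
    r * r = 1 := by
  have hcomm : ∀ r' ∈ Subgroup.closure S, ∀ t ∈ S, r' * t = t * r' := fun r' hr' t ht =>
    comm_of_mem_closure (fun s hs => hSc s hs t ht) hr'
  have hcomm2 : ∀ r₁ ∈ Subgroup.closure S, ∀ r₂ ∈ Subgroup.closure S, r₁ * r₂ = r₂ * r₁ :=
    fun r₁ hr₁ r₂ hr₂ => comm_of_mem_closure (fun s hs => (hcomm r₂ hr₂ s hs).symm) hr₁
  induction hr using Subgroup.closure_induction with
  | mem x hx => exact hS2 x hx
  | one => simp
  | mul x y hx hy ihx ihy =>
    calc x * y * (x * y) = x * (y * x) * y := by group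
      _ = x * (x * y) * y := by rw [hcomm2 y hy x hx]
      _ = (x * x) * (y * y) := by group
      _ = 1 := by rw [ihx, ihy, one_mul]
  | inv x hx ihx =>
    rw [← mul_inv_rev, ihx, inv_one]

theorem conj3 {c x y z : G} (hc : c * c = 1) :
    c * (x * y * z) * c = (c * x * c) * (c * y * c) * (c * z * c) := by
  calc c * (x * y * z) * c = c * x * 1 * y * 1 * z * c := by group
    _ = c * x * (c * c) * y * (c * c) * z * c := by rw [hc]
    _ = (c * x * c) * (c * y * c) * (c * z * c) := by group

/-- Abstract commutation lemma for a chain `w` with alternating involutions `c`: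
`c n` conjugates `w n` to `w n * w (n+1)` and `c (n+1)` centralises `w n`. -/
theorem chain_comm (w c : ℕ → G) (hcc : ∀ n, c n * c n = 1) (hc2 : ∀ n, c (n + 2) = c n)
    (hw : ∀ n, w n * w n = 1)
    (h1 : ∀ n, c n * w n * c n = w n * w (n + 1))
    (h2 : ∀ n, c (n + 1) * w n * c (n + 1) = w n) :
    ∀ d n, w n * w (n + d) = w (n + d) * w n := by
  have hc2k : ∀ k n, c (n + 2 * k) = c n := by
    intro k
    induction k with
    | zero => intro n; simp
    | succ k ih => intro n; rw [show n + 2 * (k + 1) = (n + 2 * k) + 2 by ring, hc2, ih]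
  have hconj : ∀ m l, l ≤ m →
      (c m * w l * c m = w l ∨ c m * w l * c m = w l * w (l + 1)) := by
    intro m l hlm
    obtain ⟨t, rfl⟩ := Nat.exists_eq_add_of_le hlm
    rcases Nat.even_or_odd' t with ⟨k, rfl | rfl⟩
    · right; rw [hc2k]; exact h1 l
    · left; rw [show l + (2 * k + 1) = (l + 1) + 2 * k by ring, hc2k]; exact h2 l
  intro d
  induction d using Nat.strong_induction_on with
  | _ d ih =>
    intro n
    rcases Nat.eq_zero_or_pos d with rfl | hd
    · simp
    have key : ∀ j, 1 ≤ j → j ≤ d → ∃ g r : G,
        r ∈ Subgroup.closure {x | ∃ l, n < l ∧ l < n + j ∧ x = w l} ∧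
        g * w n * g⁻¹ = w n * r * w (n + j) := by
      intro j hj
      induction j, hj using Nat.le_induction with
      | base =>
        intro _
        refine ⟨c n, 1, Subgroup.one_mem _, ?_⟩
        rw [inv_eq_of_mul_eq_one_left (hcc n), h1, mul_one]
      | succ j hj ihj =>
        intro hjd
        have hclo : ∀ r ∈ Subgroup.closure {x | ∃ l, n < l ∧ l < n + j ∧ x = w l},
            c (n + j) * r * c (n + j) ∈
            Subgroup.closure {x | ∃ l, n < l ∧ l < n + (j + 1) ∧ x = w l} := by
          intro r hr
          induction hr using Subgroup.closure_induction with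
          | mem x hx =>
            obtain ⟨l, hl1, hl2, rfl⟩ := hx
            rcases hconj (n + j) l (by omega) with h | h
            · rw [h]; exact Subgroup.subset_closure ⟨l, hl1, by omega, rfl⟩
            · rw [h]
              exact Subgroup.mul_mem _ (Subgroup.subset_closure ⟨l, hl1, by omega, rfl⟩)
                (Subgroup.subset_closure ⟨l + 1, by omega, by omega, rfl⟩)
          | one => rw [mul_one, hcc]; exact Subgroup.one_mem _
          | mul x y _ _ hx hy =>
            have e1 : c (n + j) * (x * y) * c (n + j) =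
                (c (n + j) * x * c (n + j)) * (c (n + j) * y * c (n + j)) := by
              calc c (n + j) * (x * y) * c (n + j) = c (n + j) * x * 1 * y * c (n + j) := by group
                _ = c (n + j) * x * (c (n + j) * c (n + j)) * y * c (n + j) := by rw [hcc]
                _ = _ := by group
            rw [e1]; exact Subgroup.mul_mem _ hx hy
          | inv x _ hx =>
            have e1 : c (n + j) * x⁻¹ * c (n + j) = (c (n + j) * x * c (n + j))⁻¹ := by
              rw [mul_inv_rev, mul_inv_rev, inv_eq_of_mul_eq_one_left (hcc _)]; group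
            rw [e1]; exact Subgroup.inv_mem _ hx
        obtain ⟨g, r, hr, hg⟩ := ihj (by omega)
        have hr' := hclo r hr
        have hwj : w (n + j) ∈ Subgroup.closure {x | ∃ l, n < l ∧ l < n + (j + 1) ∧ x = w l} :=
          Subgroup.subset_closure ⟨n + j, by omega, by omega, rfl⟩
        have hwn1 : w (n + 1) ∈ Subgroup.closure {x | ∃ l, n < l ∧ l < n + (j + 1) ∧ x = w l} :=
          Subgroup.subset_closure ⟨n + 1, by omega, by omega, rfl⟩
        have hcinv : (c (n + j))⁻¹ = c (n + j) := inv_eq_of_mul_eq_one_left (hcc _)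
        have e0 : c (n + j) * g * w n * (c (n + j) * g)⁻¹ =
            c (n + j) * (w n * r * w (n + j)) * c (n + j) := by
          rw [← hg, mul_inv_rev, hcinv]; group
        rcases hconj (n + j) n (by omega) with h | h
        · refine ⟨c (n + j) * g, (c (n + j) * r * c (n + j)) * w (n + j),
            Subgroup.mul_mem _ hr' hwj, ?_⟩
          rw [e0, conj3 (hcc _), h, h1 (n + j)]
          rw [show n + (j + 1) = n + j + 1 by ring]
          group
        · refine ⟨c (n + j) * g, w (n + 1) * (c (n + j) * r * c (n + j)) * w (n + j),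
            Subgroup.mul_mem _ (Subgroup.mul_mem _ hwn1 hr') hwj, ?_⟩
          rw [e0, conj3 (hcc _), h, h1 (n + j)]
          rw [show n + (j + 1) = n + j + 1 by ring]
          group
    obtain ⟨g, r, hr, hg⟩ := key d hd le_rfl
    have hrn : r * w n = w n * r := by
      apply comm_of_mem_closure _ hr
      rintro s ⟨l, hl1, hl2, rfl⟩
      obtain ⟨t, rfl⟩ := Nat.exists_eq_add_of_le hl1.le
      exact (ih t (by omega) n).symm
    have hrd : r * w (n + d) = w (n + d) * r := by
      apply comm_of_mem_closure _ hr
      rintro s ⟨l, hl1, hl2, rfl⟩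
      obtain ⟨t, ht⟩ := Nat.exists_eq_add_of_le hl2.le
      have := ih t (by omega) l
      rw [← ht] at this
      exact this
    have hrr : r * r = 1 := by
      apply sq_of_mem_closure _ _ hr
      · rintro s ⟨l, -, -, rfl⟩; exact hw l
      · rintro s ⟨l, hl1, hl2, rfl⟩ t ⟨l', hl1', hl2', rfl⟩
        rcases le_total l l' with h | h
        · obtain ⟨t, rfl⟩ := Nat.exists_eq_add_of_le h
          exact ih t (by omega) l
        · obtain ⟨t, rfl⟩ := Nat.exists_eq_add_of_le h
          exact (ih t (by omega) l').symm
    have hsq : (w n * r * w (n + d)) * (w n * r * w (n + d)) = 1 := by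
      rw [← hg]
      calc g * w n * g⁻¹ * (g * w n * g⁻¹) = g * (w n * w n) * g⁻¹ := by group
        _ = 1 := by rw [hw]; group
    have e : w n * r * w (n + d) * (w n * r * w (n + d)) = w n * w (n + d) * (w n * w (n + d)) := by
      calc w n * r * w (n + d) * (w n * r * w (n + d))
          = w n * (r * w (n + d)) * w n * (r * w (n + d)) := by group
        _ = w n * (w (n + d) * r) * w n * (w (n + d) * r) := by rw [hrd]
        _ = w n * w (n + d) * (r * w n) * w (n + d) * r := by group
        _ = w n * w (n + d) * (w n * r) * w (n + d) * r := by rw [hrn]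
        _ = w n * w (n + d) * w n * (r * w (n + d)) * r := by group
        _ = w n * w (n + d) * w n * (w (n + d) * r) * r := by rw [hrd]
        _ = w n * w (n + d) * w n * w (n + d) * (r * r) := by group
        _ = w n * w (n + d) * (w n * w (n + d)) := by rw [hrr]; group
    have h3 : (w n * w (n + d)) * (w n * w (n + d)) = 1 := by rw [← e]; exact hsq
    calc w n * w (n + d) = w n * w (n + d) * ((w n * w (n + d)) * (w n * w (n + d)))⁻¹ := by
          rw [h3, inv_one, mul_one]
      _ = (w (n + d))⁻¹ * (w n)⁻¹ := by group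
      _ = w (n + d) * w n := by
          rw [inv_eq_of_mul_eq_one_left (hw _), inv_eq_of_mul_eq_one_left (hw _)]

end Cfsg.Agent.Helper5.RInvB
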