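import Mathlib
import Cfsg.Prelude.Def_RootSubgroups
import Cfsg.Agent.Helper5.RInvB

/-!
# Root involutions: the chain argument, part 2 (helper5)

The chain `w₀ = u`, `wₙ₊₁ = (cₙ wₙ)²` with `cₙ` alternating between `a` and `y`, its
invariants, and the existence of a member of `D` conjugating `y` to `y u`.
-/

set_option autoImplicit false

namespace Cfsg.Agent.Helper5.RInvC

open Cfsg

variable {G : Type*} [Group G]

theorem invol_cancel {g : G} (hg : g * g = 1) (x : G) : g * (g * x) = x := by
  rw [← mul_assoc, hg, one_mul]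

/-- One step of the chain. -/
theorem chain_step {D : Set G} (hD : IsRootInvolutionSet D) {c c' w : G} (hc : c ∈ D)
    (hc' : c' ∈ D) (hcc' : c ≠ c') (hodd : Odd (orderOf (c' * c))) (hw : w ∈ D)
    (h2 : c' * w = w * c') (h3 : c' * w ∈ D) (h4 : ¬ Odd (orderOf (c * w))) :
    (c * w) * (c * w) ∈ D ∧ c * ((c * w) * (c * w)) = ((c * w) * (c * w)) * c ∧
      c * ((c * w) * (c * w)) ∈ D ∧ ¬ Odd (orderOf (c' * ((c * w) * (c * w)))) ∧
      c * w * c = w * ((c * w) * (c * w)) := by
  have hcsq := Helper83.RI.sq hD hc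
  have hc'sq := Helper83.RI.sq hD hc'
  have hwsq := Helper83.RI.sq hD hw
  have hcinv := Helper83.RI.inv hD hc
  have hwinv := Helper83.RI.inv hD hw
  have hw1 := Helper83.RI.ne_one hD hw
  have hncomm : ¬ (c * w = w * c) := by
    intro h
    exact hcc' (RInvB.gp hD hc' hwsq hw1 h2 h3 hc h hodd)
  have h4' : orderOf (c * w) = 4 ∧ (c * w) ^ 2 ∈ D := by
    rcases hD.pair c hc w hw with h | h | h
    · exact absurd h hncomm
    · exact absurd h h4
    · exact h
  obtain ⟨w', hw'⟩ : ∃ w', w' = (c * w) * (c * w) := ⟨_, rfl⟩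
  rw [← hw']
  have hw'D : w' ∈ D := by rw [hw', ← pow_two]; exact h4'.2
  have hw'sq := Helper83.RI.sq hD hw'D
  have hw'inv := Helper83.RI.inv hD hw'D
  have e3 : w' * w = c * w * c := by
    rw [hw']; simp only [mul_assoc, hwsq, mul_one]
  have e1 : c * w * c = w * w' := by
    calc c * w * c = (c * w * c)⁻¹ := by
          rw [mul_inv_rev, mul_inv_rev, hcinv, hwinv, mul_assoc]
      _ = (w' * w)⁻¹ := by rw [e3]
      _ = w * w' := by rw [mul_inv_rev, hwinv, hw'inv]
  have e2' : c * w' * c = w' := by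
    calc c * w' * c = w'⁻¹ := by
          rw [hw', mul_inv_rev, mul_inv_rev, hcinv, hwinv]
          simp only [mul_assoc, invol_cancel hcsq]
      _ = w' := hw'inv
  have e2 : c * w' = w' * c := by
    calc c * w' = (c * w' * c) * c := by simp only [mul_assoc, hcsq, mul_one]
      _ = w' * c := by rw [e2']
  have e4 : c * w' ∈ D := by
    have : c * w' = w * c * w⁻¹ := by
      rw [hw', hwinv]; simp only [mul_assoc, invol_cancel hcsq]
    rw [this]; exact hD.conj_mem c hc w
  refine ⟨hw'D, e2, e4, ?_, e1⟩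
  intro hodd'
  have hpvD : w' * w ∈ D := by
    rw [e3]
    have := hD.conj_mem w hw c
    rwa [hcinv] at this
  have h5 : c' = w' := RInvB.gp hD hw'D hwsq hw1 (by rw [e3, e1]) hpvD hc' h2
    (by rw [Helper83.orderOf_mul_swap]; exact hodd')
  exact RInv.not_oddAdj_of_comm hD (⟨hc', hc, hcc'.symm, hodd⟩ : OddAdj D c' c)
    (by rw [h5, e2])

/-- The alternating sequence `a, y, a, y, …`. -/
def alt (a y : G) (n : ℕ) : G := if n % 2 = 0 then a else y

/-- The chain `w₀ = u`, `wₙ₊₁ = (cₙ wₙ)²`. -/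
def chain (a y u : G) : ℕ → G
  | 0 => u
  | n + 1 => (alt a y n * chain a y u n) * (alt a y n * chain a y u n)

theorem alt_add_two (a y : G) (n : ℕ) : alt a y (n + 2) = alt a y n := by
  simp [alt]

theorem alt_even (a y : G) (i : ℕ) : alt a y (2 * i) = a := by
  simp [alt]

theorem alt_odd (a y : G) (i : ℕ) : alt a y (2 * i + 1) = y := by
  simp [alt, Nat.add_mod]

theorem alt_cases (a y : G) (n : ℕ) :
    (alt a y n = a ∧ alt a y (n + 1) = y) ∨ (alt a y n = y ∧ alt a y (n + 1) = a) := by
  rcases Nat.even_or_odd' n with ⟨k, rfl | rfl⟩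
  · left; exact ⟨alt_even a y k, alt_odd a y k⟩
  · right
    refine ⟨alt_odd a y k, ?_⟩
    rw [show 2 * k + 1 + 1 = 2 * (k + 1) by ring]; exact alt_even a y (k + 1)

theorem chain_succ (a y u : G) (n : ℕ) :
    chain a y u (n + 1) = (alt a y n * chain a y u n) * (alt a y n * chain a y u n) := rfl

theorem chain_inv {D : Set G} (hD : IsRootInvolutionSet D) {a y u : G} (ha : a ∈ D)
    (hy : y ∈ D) (hu : u ∈ D) (hyu : y * u = u * y) (hyuD : y * u ∈ D)
    (hodd : Odd (orderOf (a * y))) (hne : a ≠ y) (hnodd : ¬ Odd (orderOf (a * u))) (n : ℕ) :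
    chain a y u n ∈ D ∧ alt a y (n + 1) * chain a y u n = chain a y u n * alt a y (n + 1) ∧
      alt a y (n + 1) * chain a y u n ∈ D ∧ ¬ Odd (orderOf (alt a y n * chain a y u n)) ∧
      alt a y n * chain a y u n * alt a y n = chain a y u n * chain a y u (n + 1) := by
  have hodd' : Odd (orderOf (y * a)) := by rw [Helper83.orderOf_mul_swap]; exact hodd
  have key : ∀ n, chain a y u n ∈ D ∧
      alt a y (n + 1) * chain a y u n = chain a y u n * alt a y (n + 1) ∧
      alt a y (n + 1) * chain a y u n ∈ D ∧ ¬ Odd (orderOf (alt a y n * chain a y u n)) := by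
    intro n
    induction n with
    | zero =>
      refine ⟨hu, ?_, ?_, ?_⟩
      · show alt a y 1 * u = u * alt a y 1
        rw [show alt a y 1 = y from alt_odd a y 0]; exact hyu
      · show alt a y 1 * u ∈ D
        rw [show alt a y 1 = y from alt_odd a y 0]; exact hyuD
      · show ¬ Odd (orderOf (alt a y 0 * u))
        rw [show alt a y 0 = a from alt_even a y 0]; exact hnodd
    | succ n ih =>
      obtain ⟨i1, i2, i3, i4⟩ := ih
      rw [chain_succ, alt_add_two]
      rcases alt_cases a y n with ⟨h, h'⟩ | ⟨h, h'⟩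
      · rw [h'] at i2 i3
        rw [h] at i4 ⊢
        rw [h']
        obtain ⟨s1, s2, s3, s4, -⟩ := chain_step hD ha hy hne hodd' i1 i2 i3 i4
        exact ⟨s1, s2, s3, s4⟩
      · rw [h'] at i2 i3
        rw [h] at i4 ⊢
        rw [h']
        obtain ⟨s1, s2, s3, s4, -⟩ := chain_step hD hy ha hne.symm hodd i1 i2 i3 i4
        exact ⟨s1, s2, s3, s4⟩
  obtain ⟨i1, i2, i3, i4⟩ := key n
  refine ⟨i1, i2, i3, i4, ?_⟩
  rw [chain_succ]
  rcases alt_cases a y n with ⟨h, h'⟩ | ⟨h, h'⟩
  · rw [h'] at i2 i3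
    rw [h] at i4 ⊢
    exact (chain_step hD ha hy hne hodd' i1 i2 i3 i4).2.2.2.2
  · rw [h'] at i2 i3
    rw [h] at i4 ⊢
    exact (chain_step hD hy ha hne.symm hodd i1 i2 i3 i4).2.2.2.2

theorem conj2 {c x y : G} (hc : c * c = 1) : c * (x * y) * c = (c * x * c) * (c * y * c) := by
  simp only [mul_assoc, invol_cancel hc]

theorem comm_of_conj {c x : G} (hc : c * c = 1) (h : c * x * c = x) : c * x = x * c := by
  calc c * x = (c * x * c) * c := by simp only [mul_assoc, hc, mul_one]
    _ = x * c := by rw [h]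

theorem prod_sq {x y : G} (hx : x * x = 1) (hy : y * y = 1) (hxy : x * y = y * x) :
    (x * y) * (x * y) = 1 := by
  calc x * y * (x * y) = x * (y * x) * y := by simp only [mul_assoc]
    _ = x * (x * y) * y := by rw [hxy]
    _ = (x * x) * (y * y) := by simp only [mul_assoc]
    _ = 1 := by rw [hx, hy, one_mul]

theorem eq_of_mul_eq_one_invol {x y : G} (hy : y * y = 1) (h : x * y = 1) : x = y := by
  calc x = x * (y * y) := by rw [hy, mul_one]
    _ = (x * y) * y := by rw [mul_assoc]
    _ = y := by rw [h, one_mul]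

/-- The descent step: `zᵢ₊₁ = zⱼ₊₂` forces `zᵢ = zⱼ₊₁`. -/
theorem chain_descent {D : Set G} (hD : IsRootInvolutionSet D) {a y : G} (ha : a ∈ D)
    (hy : y ∈ D) (hne : a ≠ y) (hodd : Odd (orderOf (a * y))) (z q : ℕ → G)
    (hz2 : ∀ i, z i * z i = 1) (hq2 : ∀ i, q i * q i = 1)
    (hzz : ∀ i j, z i * z j = z j * z i) (hqq : ∀ i j, q i * q j = q j * q i)
    (hzq : ∀ i j, z i * q j = q j * z i)
    (haz : ∀ i, a * z i * a = z i * q i) (hyz : ∀ i, y * z i * y = z i)
    (hyq : ∀ i, y * q i * y = q i * z (i + 1)) (haq : ∀ i, a * q i * a = q i)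
    (hyzD : ∀ i, y * z i ∈ D) {i j : ℕ} (h : z (i + 1) = z (j + 2)) : z i = z (j + 1) := by
  have hasq := Helper83.RI.sq hD ha
  have hysq := Helper83.RI.sq hD hy
  have zinv : ∀ i, (z i)⁻¹ = z i := fun i => inv_eq_of_mul_eq_one_left (hz2 i)
  have qinv : ∀ i, (q i)⁻¹ = q i := fun i => inv_eq_of_mul_eq_one_left (hq2 i)
  have hza : ∀ i, z i * a * z i = a * q i := by
    intro i
    calc z i * a * z i = a * (a * z i * a) * z i := by simp only [mul_assoc, invol_cancel hasq]
      _ = a * (z i * q i) * z i := by rw [haz]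
      _ = a * (q i * z i) * z i := by rw [hzq]
      _ = a * q i := by simp only [mul_assoc, hz2, mul_one]
  have hqy : ∀ i, q i * y * q i = y * z (i + 1) := by
    intro i
    calc q i * y * q i = y * (y * q i * y) * q i := by simp only [mul_assoc, invol_cancel hysq]
      _ = y * (q i * z (i + 1)) * q i := by rw [hyq]
      _ = y * (z (i + 1) * q i) * q i := by rw [hzq]
      _ = y * z (i + 1) := by simp only [mul_assoc, hq2, mul_one]
  -- Step 1
  have hq : q i = q (j + 1) := by
    by_contra hqne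
    have hW1 : q i * q (j + 1) ≠ 1 := fun h1 => hqne (eq_of_mul_eq_one_invol (hq2 _) h1)
    have hW2 : (q i * q (j + 1)) * (q i * q (j + 1)) = 1 := prod_sq (hq2 _) (hq2 _) (hqq _ _)
    have haW : a * (q i * q (j + 1)) = (q i * q (j + 1)) * a := by
      apply comm_of_conj hasq
      rw [conj2 hasq, haq, haq]
    have haWD : a * (q i * q (j + 1)) ∈ D := by
      have e : a * (q i * q (j + 1)) = z i * (z (j + 1) * a * (z (j + 1))⁻¹) * (z i)⁻¹ := by
        rw [zinv, zinv, hza (j + 1)]
        calc a * (q i * q (j + 1)) = (z i * a * z i) * q (j + 1) := by rw [hza i, mul_assoc]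
          _ = z i * a * (z i * q (j + 1)) := by rw [mul_assoc]
          _ = z i * a * (q (j + 1) * z i) := by rw [hzq]
          _ = z i * (a * q (j + 1)) * z i := by simp only [mul_assoc]
      rw [e]
      exact hD.conj_mem _ (hD.conj_mem a ha _) _
    have hyW : y * (q i * q (j + 1)) = (q i * q (j + 1)) * y := by
      apply comm_of_conj hysq
      rw [conj2 hysq, hyq, hyq, h, show j + 1 + 1 = j + 2 from rfl,
        (show Commute (z (j + 2)) (q (j + 1)) from hzq _ _).mul_mul_mul_comm, hz2, mul_one]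
    exact hne (RInvB.gp hD ha hW2 hW1 haW haWD hy hyW hodd).symm
  -- Step 2
  by_contra hzne
  have hW1 : z i * z (j + 1) ≠ 1 := fun h1 => hzne (eq_of_mul_eq_one_invol (hz2 _) h1)
  have hW2 : (z i * z (j + 1)) * (z i * z (j + 1)) = 1 := prod_sq (hz2 _) (hz2 _) (hzz _ _)
  have hyW : y * (z i * z (j + 1)) = (z i * z (j + 1)) * y := by
    apply comm_of_conj hysq
    rw [conj2 hysq, hyz, hyz]
  have hyWD : y * (z i * z (j + 1)) ∈ D := by
    have e : y * (z i * z (j + 1)) = q j * (y * z i) * (q j)⁻¹ := by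
      rw [qinv]
      calc y * (z i * z (j + 1)) = y * (z (j + 1) * z i) := by rw [hzz]
        _ = (q j * y * q j) * z i := by rw [hqy j, mul_assoc]
        _ = q j * y * (q j * z i) := by rw [mul_assoc]
        _ = q j * y * (z i * q j) := by rw [hzq]
        _ = q j * (y * z i) * q j := by simp only [mul_assoc]
    rw [e]
    exact hD.conj_mem _ (hyzD i) _
  have haW : a * (z i * z (j + 1)) = (z i * z (j + 1)) * a := by
    apply comm_of_conj hasq
    rw [conj2 hasq, haz, haz, hq,
      (show Commute (q (j + 1)) (z (j + 1)) from (hzq _ _).symm).mul_mul_mul_comm, hq2, mul_one]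
  have hodd' : Odd (orderOf (y * a)) := by rw [Helper83.orderOf_mul_swap]; exact hodd
  exact hne (RInvB.gp hD hy hW2 hW1 hyW hyWD ha haW hodd')

/-- **The chain lemma.**  If `y`, `u`, `y u` are members of `D` with `y u = u y` and `a ∈ D`
has product of odd order with `y` but not with `u`, then some `q ∈ D` conjugates `y` to
`y u`. -/
theorem exists_swap [Finite G] {D : Set G} (hD : IsRootInvolutionSet D) {a y u : G}
    (ha : a ∈ D) (hy : y ∈ D) (hu : u ∈ D) (hyu : y * u = u * y) (hyuD : y * u ∈ D)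
    (hodd : Odd (orderOf (a * y))) (hne : a ≠ y) (hnodd : ¬ Odd (orderOf (a * u))) :
    ∃ q ∈ D, q * y * q = y * u := by
  have hasq := Helper83.RI.sq hD ha
  have hysq := Helper83.RI.sq hD hy
  have hinv := chain_inv hD ha hy hu hyu hyuD hodd hne hnodd
  have hcc : ∀ n, alt a y n * alt a y n = 1 := by
    intro n
    rcases alt_cases a y n with ⟨h, -⟩ | ⟨h, -⟩
    · rw [h]; exact hasq
    · rw [h]; exact hysq
  have hw2 : ∀ n, chain a y u n * chain a y u n = 1 := fun n => Helper83.RI.sq hD (hinv n).1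
  have h1 : ∀ n, alt a y n * chain a y u n * alt a y n = chain a y u n * chain a y u (n + 1) :=
    fun n => (hinv n).2.2.2.2
  have h2 : ∀ n, alt a y (n + 1) * chain a y u n * alt a y (n + 1) = chain a y u n := by
    intro n
    rw [(hinv n).2.1, mul_assoc, hcc, mul_one]
  have hcomm := RInvB.chain_comm (chain a y u) (alt a y) hcc (alt_add_two a y) hw2 h1 h2
  have hcomm' : ∀ m n, chain a y u m * chain a y u n = chain a y u n * chain a y u m := by
    intro m n
    rcases le_total m n with h | h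
    · obtain ⟨t, rfl⟩ := Nat.exists_eq_add_of_le h
      exact hcomm t m
    · obtain ⟨t, rfl⟩ := Nat.exists_eq_add_of_le h
      exact (hcomm t n).symm
  have hdesc : ∀ i j, chain a y u (2 * (i + 1)) = chain a y u (2 * (j + 2)) →
      chain a y u (2 * i) = chain a y u (2 * (j + 1)) := by
    intro i j h
    refine chain_descent hD ha hy hne hodd (fun i => chain a y u (2 * i))
      (fun i => chain a y u (2 * i + 1)) (fun i => hw2 _) (fun i => hw2 _)
      (fun i j => hcomm' _ _) (fun i j => hcomm' _ _) (fun i j => hcomm' _ _) ?_ ?_ ?_ ?_ ?_ h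
    · intro i
      have := h1 (2 * i)
      rwa [alt_even] at this
    · intro i
      have := h2 (2 * i)
      rwa [alt_odd] at this
    · intro i
      have := h1 (2 * i + 1)
      rwa [alt_odd] at this
    · intro i
      have := h2 (2 * i + 1)
      rwa [show 2 * i + 1 + 1 = 2 * (i + 1) by ring, alt_even] at this
    · intro i
      have := (hinv (2 * i)).2.2.1
      rwa [alt_odd] at this
  have key : ∀ i d, chain a y u (2 * i) = chain a y u (2 * (i + d + 1)) →
      chain a y u (2 * 0) = chain a y u (2 * (d + 1)) := by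
    intro i
    induction i with
    | zero => intro d h; rwa [Nat.zero_add] at h
    | succ i ih =>
      intro d h
      apply ih d
      have := hdesc i (i + d) (by rw [h]; congr 1; ring)
      rw [this]
  obtain ⟨i, m, hne', heq⟩ := Finite.exists_ne_map_eq_of_infinite (fun i => chain a y u (2 * i))
  have hfin : ∃ k, chain a y u (2 * 0) = chain a y u (2 * (k + 1)) := by
    rcases Nat.lt_or_gt_of_ne hne' with hlt | hlt
    · obtain ⟨d, rfl⟩ := Nat.exists_eq_add_of_lt hlt
      exact ⟨d, key i d heq⟩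
    · obtain ⟨d, rfl⟩ := Nat.exists_eq_add_of_lt hlt
      exact ⟨d, key m d heq.symm⟩
  obtain ⟨k, hk⟩ := hfin
  have hu' : u = (y * chain a y u (2 * k + 1)) * (y * chain a y u (2 * k + 1)) := by
    have e1 : chain a y u (2 * (k + 1)) =
        (y * chain a y u (2 * k + 1)) * (y * chain a y u (2 * k + 1)) := by
      rw [show 2 * (k + 1) = (2 * k + 1) + 1 by ring, chain_succ, alt_odd]
    exact hk.trans e1
  have hqD : chain a y u (2 * k + 1) ∈ D := (hinv _).1
  obtain ⟨q, hq⟩ : ∃ q, q = chain a y u (2 * k + 1) := ⟨_, rfl⟩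
  rw [← hq] at hu' hqD
  refine ⟨q, hqD, ?_⟩
  rw [hu']
  simp only [mul_assoc, invol_cancel hysq]

end Cfsg.Agent.Helper5.RInvC
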