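import Mathlib
import Cfsg.Prelude.Def_RootSubgroups
import Cfsg.Agent.Helper53.BaerSuzuki
import Cfsg.Agent.Helper5.RInvC

/-!
# Root involutions: members with the same odd partners commute (helper5)

For a connected set `D` of root involutions in a finite group: the sets of odd partners of
the members of `D` all have the same size; two members with the same odd partners commute
(Baer–Suzuki inside the subgroup generated by the class); and two members with the same odd
partners commute with the same members of `D` (by the chain lemma).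
-/

set_option autoImplicit false

namespace Cfsg.Agent.Helper5.RInvD

open Cfsg
open Cfsg.Agent.Helper5.RInvC
open scoped commutatorElement

variable {G : Type*} [Group G]

theorem oddPartners_conj {D : Set G} (hD : IsRootInvolutionSet D) (g x : G) :
    oddPartners D (g * x * g⁻¹) = (fun e => g * e * g⁻¹) '' oddPartners D x := by
  ext e
  constructor
  · rintro ⟨he, hne, hodd⟩
    refine ⟨g⁻¹ * e * g, ⟨?_, ?_, ?_⟩, by group⟩
    · have := hD.conj_mem e he g⁻¹
      rwa [inv_inv] at this
    · intro h
      apply hne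
      rw [← h]; group
    · have e1 : g * x * g⁻¹ * e = g * (x * (g⁻¹ * e * g)) * g⁻¹ := by group
      rw [e1, Helper83.orderOf_conj_eq] at hodd
      exact hodd
  · rintro ⟨e', ⟨he', hne', hodd'⟩, rfl⟩
    refine ⟨hD.conj_mem e' he' g, ?_, ?_⟩
    · intro h
      apply hne'
      have h' : g * e' * g⁻¹ = g * x * g⁻¹ := h
      have : g⁻¹ * (g * e' * g⁻¹) * g = g⁻¹ * (g * x * g⁻¹) * g := by rw [h']
      simpa [mul_assoc] using this
    · have e1 : g * x * g⁻¹ * (g * e' * g⁻¹) = g * (x * e') * g⁻¹ := by group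
      rw [e1, Helper83.orderOf_conj_eq]
      exact hodd'

theorem oddPartners_eq_of_subset [Finite G] {D : Set G} (hD : IsRootInvolutionSet D)
    (hc : IsConnectedSet (OddAdj D) D) {x x' : G} (hx : x ∈ D) (hx' : x' ∈ D)
    (h : oddPartners D x ⊆ oddPartners D x') : oddPartners D x = oddPartners D x' := by
  obtain ⟨g, hg⟩ := RInv.conj_of_path hD (hc x hx x' hx')
  apply Set.eq_of_subset_of_ncard_le h _ (Set.toFinite _)
  rw [hg, oddPartners_conj hD, Set.ncard_image_of_injective]
  intro a b hab
  have : g⁻¹ * (g * a * g⁻¹) * g = g⁻¹ * (g * b * g⁻¹) * g := by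
    have hab' : g * a * g⁻¹ = g * b * g⁻¹ := hab
    rw [hab']
  simpa [mul_assoc] using this

theorem mem_oddPartners_of_adj {D : Set G} {x a : G} (h : OddAdj D x a) : a ∈ oddPartners D x :=
  ⟨h.2.1, h.2.2.1.symm, h.2.2.2⟩

theorem adj_of_mem_oddPartners {D : Set G} {x a : G} (hx : x ∈ D) (h : a ∈ oddPartners D x) :
    OddAdj D x a :=
  ⟨hx, h.1, h.2.1.symm, h.2.2⟩

/-- For a line `{p, f, p f}`: the odd partners of `f` are odd partners of `p` or of `p f`. -/
theorem oddPartners_line {D : Set G} (hD : IsRootInvolutionSet D) {p f : G} (hp : p ∈ D)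
    (hf : f ∈ D) (hpf : p * f = f * p) (hpfD : p * f ∈ D) :
    oddPartners D f ⊆ oddPartners D p ∪ oddPartners D (p * f) := by
  intro a ha
  rcases Helper83.RI.four_step hD hf hp hpf hpfD (adj_of_mem_oddPartners hf ha) with h | h
  · left; exact mem_oddPartners_of_adj h
  · right; exact mem_oddPartners_of_adj h

/-- Pairwise products of members with the same odd partners have order dividing `4`. -/
theorem pow_four_of_same {D : Set G} (hD : IsRootInvolutionSet D) {s t : G} (hs : s ∈ D)
    (ht : t ∈ D) (h : oddPartners D s = oddPartners D t) : (s * t) ^ 4 = 1 := by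
  rcases hD.pair s hs t ht with h' | h' | h'
  · rw [Helper83.pow_four_eq', prod_sq (Helper83.RI.sq hD hs) (Helper83.RI.sq hD ht) h', one_mul]
  · by_cases hst : t = s
    · rw [hst, Helper83.RI.sq hD hs, one_pow]
    · exfalso
      have : t ∈ oddPartners D s := ⟨ht, hst, h'⟩
      rw [h] at this
      exact this.2.1 rfl
  · rw [← h'.1]; exact pow_orderOf_eq_one _

/-- **Claim (I).**  Two members of `D` with the same odd partners commute. -/
theorem comm_of_oddPartners_eq [Finite G] {D : Set G} (hD : IsRootInvolutionSet D)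
    (hc : IsConnectedSet (OddAdj D) D) {x e : G} (hx : x ∈ D) (he : e ∈ D)
    (h : oddPartners D x = oddPartners D e) : x * e = e * x := by
  by_contra hne
  have hxsq := Helper83.RI.sq hD hx
  have hesq := Helper83.RI.sq hD he
  have hxinv := Helper83.RI.inv hD hx
  have heinv := Helper83.RI.inv hD he
  have h4 : orderOf (x * e) = 4 ∧ (x * e) ^ 2 ∈ D := by
    rcases hD.pair x hx e he with h' | h' | h'
    · exact absurd h' hne
    · exfalso
      have hxe : e ≠ x := fun h'' => hne (by rw [h''])
      have : e ∈ oddPartners D x := ⟨he, hxe, h'⟩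
      rw [h] at this
      exact this.2.1 rfl
    · exact h'
  obtain ⟨f, hf⟩ : ∃ f, f = x * e * (x * e) := ⟨_, rfl⟩
  have hfD : f ∈ D := by rw [hf, ← pow_two]; exact h4.2
  have hfinv := Helper83.RI.inv hD hfD
  -- the class T
  obtain ⟨T, hT⟩ : ∃ T : Set G, T = {t | t ∈ D ∧ oddPartners D t = oddPartners D x} := ⟨_, rfl⟩
  have hTm : ∀ t, t ∈ T ↔ (t ∈ D ∧ oddPartners D t = oddPartners D x) := by
    intro t; rw [hT]; rfl
  clear hT
  have hxT : x ∈ T := (hTm x).mpr ⟨hx, rfl⟩
  have heT : e ∈ T := (hTm e).mpr ⟨he, h.symm⟩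
  have hTconj : ∀ g t, t ∈ T → g * t * g⁻¹ ∈ T → ∀ s ∈ T, g * s * g⁻¹ ∈ T := by
    intro g t ht hgt s hs
    rw [hTm] at ht hgt hs ⊢
    refine ⟨hD.conj_mem s hs.1 g, ?_⟩
    calc oddPartners D (g * s * g⁻¹) = (fun e => g * e * g⁻¹) '' oddPartners D s :=
          oddPartners_conj hD g s
      _ = (fun e => g * e * g⁻¹) '' oddPartners D t := by rw [hs.2, ht.2]
      _ = oddPartners D (g * t * g⁻¹) := (oddPartners_conj hD g t).symm
      _ = oddPartners D x := hgt.2
  have hxx : x * x * x⁻¹ = x := by group
  have he'T : x * e * x⁻¹ ∈ T := hTconj x x hxT (by rw [hxx]; exact hxT) e heT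
  have he'T2 : x * e * x⁻¹ ∈ D ∧ oddPartners D (x * e * x⁻¹) = oddPartners D x :=
    (hTm _).mp he'T
  have hfe : f * e = x * e * x⁻¹ := by
    rw [hf, hxinv]; simp only [mul_assoc, hesq, mul_one]
  have hef : e * f = f * e := by
    calc e * f = f⁻¹ * e := by
          rw [hf, mul_inv_rev, mul_inv_rev, hxinv, heinv]; simp only [mul_assoc]
      _ = f * e := by rw [hfinv]
  have hfT : f ∈ T := by
    rw [hTm]
    refine ⟨hfD, ?_⟩
    apply oddPartners_eq_of_subset hD hc hfD hx
    have hsub := oddPartners_line hD he hfD hef (by rw [hef, hfe]; exact he'T2.1)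
    intro a ha
    rcases hsub ha with h1 | h1
    · rw [h]; exact h1
    · rw [hef, hfe] at h1
      rw [← he'T2.2]; exact h1
  -- W = ⟨T⟩
  have hWnorm : ∀ g ∈ Subgroup.closure T, ∀ s ∈ T, g * s * g⁻¹ ∈ T := by
    intro g hg
    induction hg using Subgroup.closure_induction with
    | mem t ht =>
      have htt : t * t * t⁻¹ = t := by group
      exact hTconj t t ht (by rw [htt]; exact ht)
    | one => intro s hs; simpa using hs
    | mul g₁ g₂ _ _ ih₁ ih₂ =>
      intro s hs
      have e1 : g₁ * g₂ * s * (g₁ * g₂)⁻¹ = g₁ * (g₂ * s * g₂⁻¹) * g₁⁻¹ := by group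
      rw [e1]; exact ih₁ _ (ih₂ s hs)
    | inv g _ ih =>
      have e1 : g⁻¹ * (g * x * g⁻¹) * g⁻¹⁻¹ = x := by group
      exact hTconj g⁻¹ (g * x * g⁻¹) (ih x hxT) (by rw [e1]; exact hxT)
  have hTW' : ∀ t ∈ T, t ∈ ⁅Subgroup.closure T, Subgroup.closure T⁆ := by
    intro t ht
    have htD : t ∈ D := ((hTm t).mp ht).1
    obtain ⟨g, hg⟩ := RInv.conj_of_path hD (hc f hfD t htD)
    have hnorm := hTconj g f hfT (by rw [← hg]; exact ht)
    have e1 : t = (⁅g * x * g⁻¹, g * e * g⁻¹⁆ : G) := by
      rw [hg, hf, commutatorElement_def]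
      have : x * e * (x * e) = x * e * x⁻¹ * e⁻¹ := by rw [hxinv, heinv]; simp only [mul_assoc]
      rw [this]; group
    rw [e1]
    exact Subgroup.commutator_mem_commutator (Subgroup.subset_closure (hnorm x hxT))
      (Subgroup.subset_closure (hnorm e heT))
  have hWle : Subgroup.closure T ≤ ⁅Subgroup.closure T, Subgroup.closure T⁆ := by
    rw [Subgroup.closure_le]; exact hTW'
  have hcomtop : commutator (Subgroup.closure T) = ⊤ := by
    rw [eq_top_iff]
    intro w _
    have h1 : (w : G) ∈ ⁅Subgroup.closure T, Subgroup.closure T⁆ := hWle w.2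
    rw [← Subgroup.map_subtype_commutator] at h1
    obtain ⟨c, hc1, hc2⟩ := h1
    have : c = w := Subtype.ext hc2
    rw [← this]; exact hc1
  -- ⟨T⟩ is a 2-group
  have : Fact (Nat.Prime 2) := ⟨Nat.prime_two⟩
  obtain ⟨P⟩ : Nonempty (Sylow 2 (Subgroup.closure T)) := inferInstance
  have hTP : ∀ t (ht : t ∈ T), (⟨t, Subgroup.subset_closure ht⟩ : Subgroup.closure T) ∈ P := by
    intro t ht
    have htD : t ∈ D := ((hTm t).mp ht).1
    obtain ⟨N, hN, hNp, htN⟩ := Cfsg.Agent.Helper53.baer_suzuki_two
      (⟨t, Subgroup.subset_closure ht⟩ : Subgroup.closure T)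
      (Subtype.ext (Helper83.RI.sq hD htD)) (by
        intro g
        refine ⟨2, ?_⟩
        have hs := hWnorm g g.2 t ht
        have hsD : (g : G) * t * (g : G)⁻¹ ∈ D := ((hTm _).mp hs).1
        apply Subtype.ext
        have h1 : oddPartners D t = oddPartners D ((g : G) * t * (g : G)⁻¹) := by
          rw [((hTm _).mp hs).2, ((hTm _).mp ht).2]
        have := pow_four_of_same hD htD hsD h1
        simpa using this)
    have := hN
    exact hNp.le_sylow_of_normal P htN
  have hPtop : ∀ w : Subgroup.closure T, w ∈ P := by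
    intro w
    have h1 : Subgroup.closure T ≤ (P : Subgroup (Subgroup.closure T)).map
        (Subgroup.closure T).subtype := by
      rw [Subgroup.closure_le]
      intro t ht
      exact ⟨⟨t, Subgroup.subset_closure ht⟩, hTP t ht, rfl⟩
    obtain ⟨p, hp1, hp2⟩ := h1 w.2
    have : p = w := Subtype.ext hp2
    rw [← this]; exact hp1
  have hpg : IsPGroup 2 (Subgroup.closure T) := by
    intro g
    obtain ⟨k, hk⟩ := P.isPGroup' ⟨g, hPtop g⟩
    exact ⟨k, congrArg Subtype.val hk⟩
  have hnil := hpg.isNilpotent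
  have hnt : Nontrivial (Subgroup.closure T) :=
    ⟨⟨⟨x, Subgroup.subset_closure hxT⟩, 1,
      fun h' => Helper83.RI.ne_one hD hx (congrArg Subtype.val h')⟩⟩
  have hlt := Group.IsSolvable.commutator_lt_top_of_nontrivial (Subgroup.closure T)
  rw [hcomtop] at hlt
  exact lt_irrefl _ hlt

/-- **Claim (II).**  If `e`, `d` have the same odd partners and `x ∈ D` commutes with `d`, then
`x` commutes with `e`. -/
theorem comm_transfer [Finite G] {D : Set G} (hD : IsRootInvolutionSet D)
    (hc : IsConnectedSet (OddAdj D) D) {d e x : G} (hd : d ∈ D) (he : e ∈ D) (hx : x ∈ D)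
    (h : oddPartners D e = oddPartners D d) (hxd : x * d = d * x) : x * e = e * x := by
  by_contra hne
  have hxsq := Helper83.RI.sq hD hx
  have hesq := Helper83.RI.sq hD he
  have hxinv := Helper83.RI.inv hD hx
  have heinv := Helper83.RI.inv hD he
  have h4 : orderOf (e * x) = 4 ∧ (e * x) ^ 2 ∈ D := by
    rcases hD.pair e he x hx with h' | h' | h'
    · exact absurd h'.symm hne
    · exfalso
      have hxe : x ≠ e := fun h'' => hne (by rw [h''])
      have h1 : x ∈ oddPartners D e := ⟨hx, hxe, h'⟩
      rw [h] at h1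
      exact RInv.not_oddAdj_of_comm hD (adj_of_mem_oddPartners hd h1) hxd.symm
    · exact h'
  obtain ⟨f, hf⟩ : ∃ f, f = e * x * (e * x) := ⟨_, rfl⟩
  have hfD : f ∈ D := by rw [hf, ← pow_two]; exact h4.2
  have hfinv := Helper83.RI.inv hD hfD
  have hfsq := Helper83.RI.sq hD hfD
  have hfinv' : f⁻¹ = x * e * (x * e) := by
    rw [hf, mul_inv_rev, mul_inv_rev, hxinv, heinv]
  -- `x e x⁻¹` has the same odd partners as `e`
  have he''D : x * e * x⁻¹ ∈ D := hD.conj_mem e he x
  have he'' : oddPartners D (x * e * x⁻¹) = oddPartners D e := by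
    have hxdx : x * d * x⁻¹ = d := by rw [hxd]; group
    calc oddPartners D (x * e * x⁻¹) = (fun t => x * t * x⁻¹) '' oddPartners D e :=
          oddPartners_conj hD x e
      _ = (fun t => x * t * x⁻¹) '' oddPartners D d := by rw [h]
      _ = oddPartners D (x * d * x⁻¹) := (oddPartners_conj hD x d).symm
      _ = oddPartners D d := by rw [hxdx]
      _ = oddPartners D e := h.symm
  have hef : e * f = x * e * x⁻¹ := by
    rw [hf, hxinv]; simp only [mul_assoc, invol_cancel hesq]
  have hfe : e * f = f * e := by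
    calc e * f = e * f⁻¹ := by rw [hfinv]
      _ = f * e := by rw [hfinv', hf]; simp only [mul_assoc]
  have hAf : oddPartners D f = oddPartners D e := by
    apply oddPartners_eq_of_subset hD hc hfD he
    have hsub := oddPartners_line hD he hfD hfe (by rw [hef]; exact he''D)
    intro a ha
    rcases hsub ha with h1 | h1
    · exact h1
    · rw [hef, he''] at h1; exact h1
  -- the line `{x, u, f}` with `u = x f = e x e`
  have hxf : x * f = f * x := by
    calc x * f = x * f⁻¹ := by rw [hfinv]
      _ = f * x := by rw [hfinv', hf]; simp only [mul_assoc, invol_cancel hxsq, hxsq, mul_one]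
  obtain ⟨u, hu⟩ : ∃ u, u = x * f := ⟨_, rfl⟩
  have hu' : u = e * x * e⁻¹ := by
    rw [hu, ← hfinv, hfinv', heinv]; simp only [mul_assoc, invol_cancel hxsq]
  have huD : u ∈ D := by rw [hu']; exact hD.conj_mem x hx e
  have husq := Helper83.RI.sq hD huD
  have hxu : x * u = f := by rw [hu]; simp only [invol_cancel hxsq]
  have hux : x * u = u * x := by
    rw [hxu, hu, mul_assoc, ← hxf, ← mul_assoc, hxsq, one_mul]
  have hfu : f ≠ u := by
    intro hfu
    apply Helper83.RI.ne_one hD hx
    calc x = x * f * f := by rw [mul_assoc, hfsq, mul_one]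
      _ = f * f := by rw [← hu, ← hfu]
      _ = 1 := hfsq
  have hxnf : x ≠ f := by
    intro hxf'
    apply Helper83.RI.ne_one hD huD
    rw [hu, ← hxf', hxsq]
  have hnsub : ¬ (oddPartners D x ⊆ oddPartners D u) := by
    intro hsub
    have heq := oddPartners_eq_of_subset hD hc hx huD hsub
    have hsub2 := oddPartners_line hD hx hfD hxf (by rw [← hu]; exact huD)
    have hAx : oddPartners D f = oddPartners D x := by
      apply oddPartners_eq_of_subset hD hc hfD hx
      intro a ha
      rcases hsub2 ha with h1 | h1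
      · exact h1
      · rw [← hu, ← heq] at h1; exact h1
    exact hne (comm_of_oddPartners_eq hD hc hx he (hAx.symm.trans hAf))
  obtain ⟨a, hax, hau⟩ := Set.not_subset.mp hnsub
  obtain ⟨haD, hane, haodd⟩ := hax
  have hnodd : ¬ Odd (orderOf (a * u)) := by
    intro hodd
    apply hau
    refine ⟨haD, ?_, by rw [Helper83.orderOf_mul_swap]; exact hodd⟩
    intro h'
    rw [h', hxu, hD.orderOf_eq f hfD] at haodd
    exact absurd haodd (by decide)
  obtain ⟨q, hqD, hq⟩ := exists_swap hD haD hx huD hux (by rw [hxu]; exact hfD)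
    (by rw [Helper83.orderOf_mul_swap]; exact haodd) hane hnodd
  rw [hxu] at hq
  have hqsq := Helper83.RI.sq hD hqD
  have hqinv := Helper83.RI.inv hD hqD
  have E1 : e * x * e = u := by rw [hu', heinv]
  have E2 : e * f * e = f := by rw [hfe, mul_assoc, hesq, mul_one]
  have E3 : e * u * e = x := by
    rw [← E1]; simp only [mul_assoc, invol_cancel hesq, hesq, mul_one]
  have Q2 : q * f * q = x := by
    rw [← hq]; simp only [mul_assoc, invol_cancel hqsq, hqsq, mul_one]
  have Q3 : q * u * q = u := by
    rw [hu, conj2 hqsq, hq, Q2, hxf]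
  rcases hD.pair e he q hqD with h' | h' | h'
  · apply hfu
    calc f = e * (q * x * q) * e := by rw [hq, E2]
      _ = (e * q) * x * (q * e) := by simp only [mul_assoc]
      _ = (q * e) * x * (e * q) := by rw [h']
      _ = q * (e * x * e) * q := by simp only [mul_assoc]
      _ = u := by rw [E1, Q3]
  · have hqe : q ≠ e := by
      intro hqe
      apply hfu
      rw [← hq, hqe, E1]
    have hqA : q ∈ oddPartners D e := ⟨hqD, hqe, h'⟩
    rw [← hAf] at hqA
    have e1 : (f * q) * (f * q) = u := by
      calc f * q * (f * q) = f * (q * f * q) := by simp only [mul_assoc]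
        _ = u := by rw [Q2, ← hxf, hu]
    have e2 : (f * q) ^ 2 ^ 2 = 1 := by
      rw [show (2 : ℕ) ^ 2 = 4 from rfl, Helper83.pow_four_eq', e1, husq]
    have e3 := Helper83.eq_one_of_odd_of_pow_two hqA.2.2 e2
    apply Helper83.RI.ne_one hD huD
    rw [← e1, e3, one_mul]
  · apply hxnf
    have hconj : ∀ v, (e * q) * v * (e * q)⁻¹ = e * (q * v * q) * e := by
      intro v; rw [mul_inv_rev, heinv, hqinv]; simp only [mul_assoc]
    have c1 : (e * q) * x * (e * q)⁻¹ = f := by rw [hconj, hq, E2]
    have c2 : (e * q) * f * (e * q)⁻¹ = u := by rw [hconj, Q2, E1]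
    have c3 : (e * q) * u * (e * q)⁻¹ = x := by rw [hconj, Q3, E3]
    have h4' : (e * q) ^ 4 = 1 := by rw [← h'.1]; exact pow_orderOf_eq_one _
    calc x = (e * q) ^ 4 * x * ((e * q) ^ 4)⁻¹ := by rw [h4', one_mul, inv_one, mul_one]
      _ = (e * q) * ((e * q) * ((e * q) * ((e * q) * x * (e * q)⁻¹) * (e * q)⁻¹) * (e * q)⁻¹)
            * (e * q)⁻¹ := by rw [Helper83.pow_four_eq']; group
      _ = f := by rw [c1, c2, c3, c1]

/-- If `d`, `e` commute with the same members of `D`, the order-`4` partners of `d` are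
order-`4` partners of `e`. -/
theorem fourPartners_subset {D : Set G} (hD : IsRootInvolutionSet D) {d e : G} (hd : d ∈ D)
    (he : e ∈ D) (h : commutingMembers D d = commutingMembers D e) :
    fourPartners D d ⊆ fourPartners D e := by
  rintro x ⟨hx, hx4⟩
  have hdsq := Helper83.RI.sq hD hd
  have hesq := Helper83.RI.sq hD he
  have hxsq := Helper83.RI.sq hD hx
  have hxinv := Helper83.RI.inv hD hx
  have hncd : ¬ (x * d = d * x) := by
    intro hcomm
    have h1 : (d * x) ^ 2 = 1 := by rw [pow_two]; exact prod_sq hdsq hxsq hcomm.symm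
    have h2 := orderOf_dvd_of_pow_eq_one h1
    rw [hx4] at h2
    exact absurd h2 (by decide)
  have hnce : ¬ (x * e = e * x) := by
    intro hcomm
    have h1 : x ∈ commutingMembers D e := ⟨hx, hcomm⟩
    rw [← h] at h1
    exact hncd h1.2
  have hde : d * e = e * d := by
    have h1 : d ∈ commutingMembers D d := ⟨hd, rfl⟩
    rw [h] at h1
    exact h1.2
  rcases hD.pair e he x hx with h' | h' | h'
  · exact absurd h'.symm hnce
  · exfalso
    apply hncd
    -- `d` commutes with `x d x`, hence with `x e x`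
    have hpow4 : (d * x) * (d * x) * ((d * x) * (d * x)) = 1 := by
      rw [← Helper83.pow_four_eq', ← hx4]; exact pow_orderOf_eq_one _
    have h1 : d * (x * d * x) = (x * d * x) * d := by
      have e1 : (x * d * x) * d = ((d * x) * (d * x))⁻¹ := by
        rw [mul_inv_rev, mul_inv_rev, hxinv, Helper83.RI.inv hD hd]; simp only [mul_assoc]
      have e2 : ((d * x) * (d * x))⁻¹ = (d * x) * (d * x) := inv_eq_of_mul_eq_one_left hpow4
      rw [e1, e2]; simp only [mul_assoc]
    have h2 : x * d * x ∈ commutingMembers D d := by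
      refine ⟨?_, h1.symm⟩
      have := hD.conj_mem d hd x
      rwa [hxinv] at this
    rw [h] at h2
    -- so `x d x` commutes with `e`, i.e. `d` commutes with `x e x`
    have h3 : d * (x * e * x) = (x * e * x) * d := by
      have h2' : x * d * x * e = e * (x * d * x) := h2.2
      calc d * (x * e * x) = x * ((x * d * x) * e) * x := by
            simp only [mul_assoc, invol_cancel hxsq]
        _ = x * (e * (x * d * x)) * x := by rw [h2']
        _ = (x * e * x) * d := by simp only [mul_assoc, invol_cancel hxsq, hxsq, mul_one]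
    -- `d` commutes with `(e x)²`, hence with `e x`
    have h5 : Commute d ((e * x) * (e * x)) := by
      have e1 : (e * x) * (e * x) = e * (x * e * x) := by simp only [mul_assoc]
      rw [e1]
      exact Commute.mul_right hde h3
    obtain ⟨k, hk⟩ := h'
    have h6 : ((e * x) * (e * x)) ^ (k + 1) = e * x := by
      rw [← pow_two, ← pow_mul, show 2 * (k + 1) = (2 * k + 1) + 1 by ring, pow_succ, ← hk,
        pow_orderOf_eq_one, one_mul]
    have h7 : Commute d (e * x) := by
      rw [← h6]; exact h5.pow_right _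
    have h8 : Commute d (e * (e * x)) := Commute.mul_right hde h7
    rw [invol_cancel hesq] at h8
    exact h8.symm
  · exact ⟨hx, h'.1⟩

/-- If the unions of commuting members and order-`4` partners of `d` and `e` agree, the odd
partners of `d` are odd partners of `e`. -/
theorem oddPartners_subset {D : Set G} (hD : IsRootInvolutionSet D) {d e : G} (hd : d ∈ D)
    (he : e ∈ D)
    (h : commutingMembers D d ∪ fourPartners D d = commutingMembers D e ∪ fourPartners D e) :
    oddPartners D d ⊆ oddPartners D e := by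
  rintro a ⟨haD, hane, haodd⟩
  have hnot : a ∉ commutingMembers D d ∪ fourPartners D d := by
    rintro (⟨-, hcomm⟩ | ⟨-, h4⟩)
    · exact RInv.not_oddAdj_of_comm hD (⟨hd, haD, hane.symm, haodd⟩ : OddAdj D d a) hcomm.symm
    · rw [h4] at haodd
      exact absurd haodd (by decide)
  rw [h] at hnot
  rcases hD.pair e he a haD with h' | h' | h'
  · exact absurd (Or.inl ⟨haD, h'.symm⟩) hnot
  · refine ⟨haD, ?_, h'⟩
    intro hae
    exact hnot (Or.inl ⟨haD, by rw [hae]⟩)
  · exact absurd (Or.inr ⟨haD, h'.1⟩) hnot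

end Cfsg.Agent.Helper5.RInvD
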