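import Mathlib
import Cfsg.Prelude.Def_RootSubgroups
import Cfsg.Agent.Helper5.RInvD

/-!
# Root involutions: an order three partner (helper5)

Pure word identities for four involutions `a`, `b`, `q`, `x` with `a b = b a`,
`q a q = a b` and `x b x = b q`: the product `a x` cannot have order dividing 4, and `b`
commutes with `a x a x a x a`.
-/

set_option autoImplicit false

namespace Cfsg.Agent.Helper5.RInvE

open Cfsg
open Cfsg.Agent.Helper5.RInvC

variable {G : Type*} [Group G]

/-- If the involution `q` conjugates `a` to `a b` (with `a`, `b` commuting, `a` an involution),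
then `q` commutes with `b`. -/
theorem swap_fix {a b q : G} (ha : a * a = 1) (hq : q * q = 1) (hab : a * b = b * a)
    (hqa : q * a * q = a * b) : q * b = b * q := by
  have e1 : q * (a * b) * q = a := by
    rw [← hqa]; simp only [mul_assoc, hq, mul_one, invol_cancel hq]
  have e2 : q * b * q = b := by
    have hb' : b = a * (a * b) := by rw [invol_cancel ha]
    conv_lhs => rw [hb']
    rw [conj2 hq, hqa, e1, hab, mul_assoc, ha, mul_one]
  exact comm_of_conj hq e2

/-- `a q a = q b`. -/
theorem swap_conj {a b q : G} (ha : a * a = 1) (hq : q * q = 1) (hab : a * b = b * a)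
    (hqa : q * a * q = a * b) : a * q * a = q * b := by
  have e1 : a * q = q * (a * b) := by
    rw [← hqa]; simp only [mul_assoc, invol_cancel hq]
  rw [e1, mul_assoc, mul_assoc, ← hab, invol_cancel ha]

/-- Under the hypotheses, if `(a x)⁴ = 1` then `b = 1`. -/
theorem no_four {a b q x : G} (ha : a * a = 1) (hq : q * q = 1)
    (hx : x * x = 1) (hab : a * b = b * a) (hqa : q * a * q = a * b)
    (hxb : x * b * x = b * q) (hb : b * b = 1) (h4 : (a * x) ^ 4 = 1) : b = 1 := by
  have hqb : q * b = b * q := swap_fix ha hq hab hqa
  have hxq : x * q = q * x := swap_fix hb hx hqb.symm hxb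
  obtain ⟨h, hh⟩ : ∃ h : G, h = a * (x * (a * x)) := ⟨_, rfl⟩
  have hh2 : h * h = 1 := by
    rw [← h4, hh]; simp only [pow_succ, pow_zero, one_mul, mul_assoc]
  have hxaxa : x * (a * (x * a)) = h := by
    apply eq_of_mul_eq_one_invol hh2
    rw [hh]; simp only [mul_assoc, invol_cancel ha, invol_cancel hx, ha, hx]
  have e1 : a * h = x * (a * x) := by rw [hh, invol_cancel ha]
  have e2 : h * a = x * (a * x) := by rw [← hxaxa]; simp only [mul_assoc, ha, mul_one]
  have hah : a * h = h * a := e1.trans e2.symm
  have hxax : x * a * x = a * h := by rw [e1, mul_assoc]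
  have hbq' : b = a * (q * a * q) := by rw [hqa, invol_cancel ha]
  have e3 : x * (q * a * q) * x = q * (x * a * x) * q := by
    calc x * (q * a * q) * x = (x * q) * a * (q * x) := by simp only [mul_assoc]
      _ = (q * x) * a * (x * q) := by rw [hxq]
      _ = q * (x * a * x) * q := by simp only [mul_assoc]
  have e4 : x * b * x = h * b * (q * h * q) := by
    conv_lhs => rw [hbq']
    rw [conj2 hx, e3, hxax, conj2 hq, hqa, hah]
    simp only [mul_assoc, invol_cancel ha]
  have e5a : b = h * b * (q * h) := by
    have h1 : b * q = h * b * (q * h * q) := hxb.symm.trans e4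
    have h2 := congrArg (· * q) h1
    simp only [mul_assoc, hq, mul_one] at h2
    simpa only [mul_assoc] using h2
  have e5 : h * b * h = b * q := by
    conv_lhs => rw [e5a]
    simp only [mul_assoc, invol_cancel hh2, hh2, mul_one]
  have e6 : a * (b * q) = (b * q) * a := by
    rw [← e5]
    calc a * (h * b * h) = (a * h) * b * h := by simp only [mul_assoc]
      _ = h * (a * b) * h := by rw [hah]; simp only [mul_assoc]
      _ = h * b * (a * h) := by rw [hab]; simp only [mul_assoc]
      _ = h * b * h * a := by rw [hah]; simp only [mul_assoc]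
  have e7 : a * q = q * a := by
    apply mul_left_cancel (a := b)
    calc b * (a * q) = a * (b * q) := by rw [← mul_assoc, ← hab, mul_assoc]
      _ = b * q * a := e6
      _ = b * (q * a) := mul_assoc _ _ _
  have e8 : q * a * q = a := by rw [← e7, mul_assoc, hq, mul_one]
  have e9 : a * b = a * 1 := by rw [mul_one, ← hqa, e8]
  exact mul_left_cancel e9

/-- Under the hypotheses, `b` commutes with `a x a x a x a`. -/
theorem comm_cube {a b q x : G} (ha : a * a = 1) (hq : q * q = 1)
    (hx : x * x = 1) (hab : a * b = b * a) (hqa : q * a * q = a * b)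
    (hxb : x * b * x = b * q) (hb : b * b = 1) :
    b * (a * (x * (a * (x * (a * (x * a)))))) = a * (x * (a * (x * (a * (x * a))))) * b := by
  have hqb : q * b = b * q := swap_fix ha hq hab hqa
  have hxq : x * q = q * x := swap_fix hb hx hqb.symm hxb
  have haqa : a * q * a = q * b := swap_conj ha hq hab hqa
  obtain ⟨t, ht⟩ : ∃ t : G, t = a * (x * a) := ⟨_, rfl⟩
  have ht2 : t * t = 1 := by
    rw [ht]; simp only [mul_assoc, invol_cancel ha, invol_cancel hx, ha, hx]
  have e1 : a * b * a = b := by rw [hab, mul_assoc, ha, mul_one]
  have e2 : b * q * b = q := by rw [← hqb, mul_assoc, hb, mul_one]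
  have htbt : t * b * t = q := by
    calc t * b * t = a * (x * (a * b * a) * x) * a := by rw [ht]; simp only [mul_assoc]
      _ = a * (x * b * x) * a := by rw [e1]
      _ = a * (b * q) * a := by rw [hxb]
      _ = (a * b) * (q * a) := by simp only [mul_assoc]
      _ = b * (a * q * a) := by rw [hab]; simp only [mul_assoc]
      _ = b * (q * b) := by rw [haqa]
      _ = q := by rw [← mul_assoc, e2]
  have htb : t * b = q * t := by
    rw [← htbt]; simp only [mul_assoc, ht2, mul_one]
  have hbt : b * t = t * q := by
    rw [← htbt]; simp only [mul_assoc, invol_cancel ht2]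
  have key : b * (t * x * t) = t * x * t * b := by
    calc b * (t * x * t) = (b * t) * x * t := by simp only [mul_assoc]
      _ = t * (q * x) * t := by rw [hbt]; simp only [mul_assoc]
      _ = t * x * (q * t) := by rw [← hxq]; simp only [mul_assoc]
      _ = t * x * t * b := by rw [← htb]; simp only [mul_assoc]
  have hY : t * x * t = a * (x * (a * (x * (a * (x * a))))) := by rw [ht]; simp only [mul_assoc]
  rw [← hY]; exact key

/-- Two different commuting involutions do not have a product of odd order. -/
theorem not_odd_of_comm {u v : G} (hu : u * u = 1) (hv : v * v = 1) (huv : u * v = v * u)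
    (hne : u ≠ v) : ¬ Odd (orderOf (u * v)) := by
  intro hodd
  have h2 : (u * v) ^ 2 = 1 := by
    rw [pow_two]
    calc u * v * (u * v) = u * (v * u) * v := by simp only [mul_assoc]
      _ = u * (u * v) * v := by rw [huv]
      _ = 1 := by rw [invol_cancel hu, hv]
  have hd : orderOf (u * v) ∣ 2 := orderOf_dvd_of_pow_eq_one h2
  have h1 : orderOf (u * v) = 1 := by
    rcases (Nat.dvd_prime Nat.prime_two).mp hd with h | h
    · exact h
    · rw [h] at hodd; exact absurd hodd (by decide)
  exact hne (eq_of_mul_eq_one_invol hv (orderOf_eq_one_iff.mp h1))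

end Cfsg.Agent.Helper5.RInvE
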