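import Mathlib
import Cfsg.Prelude.Def_GeometricClasses
import Cfsg.Prelude.Def_Classical
import Cfsg.Agent.Helper65.S74Defs
import Cfsg.Agent.Helper35.ELSUBT
import Cfsg.Agent.Helper86.ELCAU
import Cfsg.Agent.Helper5.S74CNT

set_option autoImplicit false

/-!
# CALL S74 (helper65, row S5974) - hypothesis stage CAU-H (helper5), ALL characteristics.

* `s74_cauchy_gen`: if the prime `r` divides the number of hyperbolic `m`-spaces and there is one,
  the isometry group has an element `x ≠ 1` with `x ^ r = 1`.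
* `s74_cauchy'` (Prelude wording of the set) and `s74_cauchy` (row wording of the set): the
  hyperbolic twin of `s88_cauchy`.
-/

namespace Cfsg.Agent.Helper5.S74

open Module Polynomial Cfsg Cfsg.Geo
open Cfsg.Agent.Helper13.TIu Cfsg.Agent.Helper96.OH
open scoped MatrixGroups

variable {ι : Type} [Fintype ι] [DecidableEq ι] {F : Type*} [Field F]

/-- CAU-H, generic: a nontrivial isometry of order `r`. -/
theorem s74_cauchy_gen [Fintype F] (Q : (ι → F) → F) (hQ : IsNondegenerateQuadraticForm Q)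
    (r : ℕ) [Fact r.Prime] (m : ℕ)
    (hne : ∃ W : Submodule F (ι → F), finrank F W = m ∧ ONd Q W ∧ OPl Q W)
    (hr : r ∣ Nat.card {W : Submodule F (ι → F) // finrank F W = m ∧ ONd Q W ∧ OPl Q W}) :
    ∃ x : GL ι F, x ∈ Cfsg.isometryGroup F Q ∧ x ^ r = 1 ∧ x ≠ 1 := by
  obtain ⟨W₀, hW₀⟩ := hne
  have hcard : Nat.card {W : Submodule F (ι → F) // finrank F W = m ∧ ONd Q W ∧ OPl Q W} =
      Nat.card {W : Submodule F (ι → F) //
        (finrank F W = m ∧ ONd Q W ∧ OPl Q W) ∧ W ≤ ⊤} :=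
    Nat.card_congr (Equiv.subtypeEquivRight (fun W => ⟨fun h => ⟨h, le_top⟩, fun h => h.1⟩))
  rw [hcard] at hr
  obtain ⟨T, hT, hT1, hTr, -, -⟩ :=
    s74_cnt_core Q hQ r m ⊤ (ond_top Q hQ) W₀ ⟨hW₀, le_top⟩ hr
  obtain ⟨x, hx, hxr, hxT⟩ :=
    Cfsg.Agent.Helper86.EL5988.el_gl_of_end Q T r (Nat.Prime.pos Fact.out) hT hTr
  refine ⟨x, hx, hxr, ?_⟩
  intro h1
  apply hT1
  rw [← hxT, h1, Units.val_one, Matrix.toLin'_one]
  rfl

/-- CAU-H, Prelude wording of the set. -/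
theorem s74_cauchy' [Fintype F] (Q : (ι → F) → F) (hQ : IsNondegenerateQuadraticForm Q)
    (d m : ℕ) (hcard : Fintype.card ι = 2 * d) (hplus : IsPlusTypeOn Q ⊤)
    (hm : 2 ≤ m) (hme : Even m) (hmd : m < d) (r : ℕ) [Fact r.Prime]
    (hrΩ : r ∣ Nat.card {W : Submodule F (ι → F) // Module.finrank F ↥W = m ∧
      IsNondegenerateOn (QuadraticMap.polar Q) W ∧ IsPlusTypeOn Q W}) :
    ∃ x : GL ι F, x ∈ Cfsg.isometryGroup F Q ∧ x ^ r = 1 ∧ x ≠ 1 := by
  have htop : finrank F (⊤ : Submodule F (ι → F)) = 2 * d := by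
    rw [finrank_top, Module.finrank_fintype_fun_eq_card, hcard]
  obtain ⟨X, -, hXnd, hXdim, hXty⟩ := Cfsg.Agent.Helper35.EL.el_sub Q hQ ⊤ (ond_top Q hQ) d htop
    m hme (by omega) (by omega) True
  exact s74_cauchy_gen Q hQ r m ⟨X, hXdim, hXnd, hXty.mpr trivial⟩ hrΩ

/-- CAU-H, ROW wording of the set (`Cfsg.Agent.Helper65.S74.HypM` unfolded). -/
theorem s74_cauchy [Fintype F] (Q : (ι → F) → F) (hQ : IsNondegenerateQuadraticForm Q)
    (d m : ℕ) (hcard : Fintype.card ι = 2 * d) (hplus : IsPlusTypeOn Q ⊤)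
    (hm : 2 ≤ m) (hme : Even m) (hmd : m < d) (r : ℕ) [Fact r.Prime]
    (hrΩ : r ∣ Nat.card {W : Submodule F (ι → F) // (Module.finrank F ↥W = m ∧
      (∀ u ∈ W, u ≠ 0 → ∃ v ∈ W, QuadraticMap.polar Q u v ≠ 0) ∧
      ∃ U : Submodule F (ι → F), U ≤ W ∧ 2 * Module.finrank F ↥U = m ∧ ∀ u ∈ U, Q u = 0)}) :
    ∃ x : GL ι F, x ∈ Cfsg.isometryGroup F Q ∧ x ^ r = 1 ∧ x ≠ 1 := by
  have h2 : Nat.card {W : Submodule F (ι → F) // (Module.finrank F ↥W = m ∧
      (∀ u ∈ W, u ≠ 0 → ∃ v ∈ W, QuadraticMap.polar Q u v ≠ 0) ∧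
      ∃ U : Submodule F (ι → F), U ≤ W ∧ 2 * Module.finrank F ↥U = m ∧ ∀ u ∈ U, Q u = 0)} =
      Nat.card {W : Submodule F (ι → F) // Module.finrank F ↥W = m ∧
        IsNondegenerateOn (QuadraticMap.polar Q) W ∧ IsPlusTypeOn Q W} :=
    Nat.card_congr (Equiv.subtypeEquivRight (fun W => Cfsg.Agent.Helper65.S74.hypM_iff Q m W))
  rw [h2] at hrΩ
  exact s74_cauchy' Q hQ d m hcard hplus hm hme hmd r hrΩ

end Cfsg.Agent.Helper5.S74
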