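import Mathlib

set_option autoImplicit false

/-! Generation of `SL₂(k(α))` by `U(k)` and `L(kα)`: elementary matrix identities used
for S5060. -/

namespace Cfsg.Agent.Helper5.SLAlg

open Matrix

variable {K : Type*} [Field K]

local notation:max "⟪" g "⟫" => ((g : SpecialLinearGroup (Fin 2) K) : Matrix (Fin 2) (Fin 2) K)

/-- Upper unitriangular element. -/
def uu (t : K) : SpecialLinearGroup (Fin 2) K :=
  ⟨!![1, t; 0, 1], by simp [Matrix.det_fin_two]⟩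

/-- Lower unitriangular element. -/
def ll (s : K) : SpecialLinearGroup (Fin 2) K :=
  ⟨!![1, 0; s, 1], by simp [Matrix.det_fin_two]⟩

@[simp] theorem uu_00 (t : K) : ⟪uu t⟫ 0 0 = 1 := rfl
@[simp] theorem uu_01 (t : K) : ⟪uu t⟫ 0 1 = t := rfl
@[simp] theorem uu_10 (t : K) : ⟪uu t⟫ 1 0 = 0 := rfl
@[simp] theorem uu_11 (t : K) : ⟪uu t⟫ 1 1 = 1 := rfl
@[simp] theorem ll_00 (t : K) : ⟪ll t⟫ 0 0 = 1 := rfl
@[simp] theorem ll_01 (t : K) : ⟪ll t⟫ 0 1 = 0 := rfl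
@[simp] theorem ll_10 (t : K) : ⟪ll t⟫ 1 0 = t := rfl
@[simp] theorem ll_11 (t : K) : ⟪ll t⟫ 1 1 = 1 := rfl

theorem sl_ext (g h : SpecialLinearGroup (Fin 2) K) (h00 : ⟪g⟫ 0 0 = ⟪h⟫ 0 0)
    (h01 : ⟪g⟫ 0 1 = ⟪h⟫ 0 1) (h10 : ⟪g⟫ 1 0 = ⟪h⟫ 1 0) (h11 : ⟪g⟫ 1 1 = ⟪h⟫ 1 1) : g = h := by
  apply Subtype.ext
  ext i j
  fin_cases i <;> fin_cases j <;> assumption

theorem det_eq (g : SpecialLinearGroup (Fin 2) K) :
    ⟪g⟫ 0 0 * ⟪g⟫ 1 1 - ⟪g⟫ 0 1 * ⟪g⟫ 1 0 = 1 := by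
  have := g.det_coe
  rwa [Matrix.det_fin_two] at this

theorem mul_entry (g h : SpecialLinearGroup (Fin 2) K) (i j : Fin 2) :
    ⟪g * h⟫ i j = ⟪g⟫ i 0 * ⟪h⟫ 0 j + ⟪g⟫ i 1 * ⟪h⟫ 1 j := by
  simp only [Matrix.SpecialLinearGroup.coe_mul, Matrix.mul_apply, Fin.sum_univ_two]

@[simp] theorem inv_00 (g : SpecialLinearGroup (Fin 2) K) : ⟪g⁻¹⟫ 0 0 = ⟪g⟫ 1 1 := by
  simp only [Matrix.SpecialLinearGroup.coe_inv, Matrix.adjugate_fin_two]; rfl
@[simp] theorem inv_01 (g : SpecialLinearGroup (Fin 2) K) : ⟪g⁻¹⟫ 0 1 = - ⟪g⟫ 0 1 := by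
  simp only [Matrix.SpecialLinearGroup.coe_inv, Matrix.adjugate_fin_two]; rfl
@[simp] theorem inv_10 (g : SpecialLinearGroup (Fin 2) K) : ⟪g⁻¹⟫ 1 0 = - ⟪g⟫ 1 0 := by
  simp only [Matrix.SpecialLinearGroup.coe_inv, Matrix.adjugate_fin_two]; rfl
@[simp] theorem inv_11 (g : SpecialLinearGroup (Fin 2) K) : ⟪g⁻¹⟫ 1 1 = ⟪g⟫ 0 0 := by
  simp only [Matrix.SpecialLinearGroup.coe_inv, Matrix.adjugate_fin_two]; rfl

theorem one_00 : ⟪(1 : SpecialLinearGroup (Fin 2) K)⟫ 0 0 = 1 := by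
  simp only [Matrix.SpecialLinearGroup.coe_one]; rfl
theorem one_01 : ⟪(1 : SpecialLinearGroup (Fin 2) K)⟫ 0 1 = 0 := by
  simp only [Matrix.SpecialLinearGroup.coe_one]; rfl
theorem one_10 : ⟪(1 : SpecialLinearGroup (Fin 2) K)⟫ 1 0 = 0 := by
  simp only [Matrix.SpecialLinearGroup.coe_one]; rfl
theorem one_11 : ⟪(1 : SpecialLinearGroup (Fin 2) K)⟫ 1 1 = 1 := by
  simp only [Matrix.SpecialLinearGroup.coe_one]; rfl

theorem uu_zero : uu (0 : K) = 1 := by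
  apply sl_ext <;> simp [one_00, one_01, one_10, one_11]

theorem uu_add (s t : K) : uu s * uu t = uu (s + t) := by
  apply sl_ext <;> simp [mul_entry]
  ring

theorem uu_inv (t : K) : (uu t)⁻¹ = uu (-t) := by
  apply sl_ext <;> simp

theorem ll_zero : ll (0 : K) = 1 := by
  apply sl_ext <;> simp [one_00, one_01, one_10, one_11]

theorem ll_add (s t : K) : ll s * ll t = ll (s + t) := by
  apply sl_ext <;> simp [mul_entry]

theorem ll_inv (t : K) : (ll t)⁻¹ = ll (-t) := by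
  apply sl_ext <;> simp

/-- Conjugate of `uu t`: entries. -/
theorem conj_uu_00 (g : SpecialLinearGroup (Fin 2) K) (t : K) :
    ⟪g * uu t * g⁻¹⟫ 0 0 = 1 - ⟪g⟫ 0 0 * ⟪g⟫ 1 0 * t := by
  simp [mul_entry]; linear_combination det_eq g

theorem conj_uu_10 (g : SpecialLinearGroup (Fin 2) K) (t : K) :
    ⟪g * uu t * g⁻¹⟫ 1 0 = - (⟪g⟫ 1 0) ^ 2 * t := by
  simp [mul_entry]; ring

/-- Conjugating `uu t` by an upper triangular element. -/
theorem conj_uu_of_upper (h : SpecialLinearGroup (Fin 2) K) (h10 : ⟪h⟫ 1 0 = 0) (t : K) :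
    h * uu t * h⁻¹ = uu ((⟪h⟫ 0 0) ^ 2 * t) := by
  have hd := det_eq h
  rw [h10] at hd
  apply sl_ext <;> simp [mul_entry, h10]
  · linear_combination hd
  · ring
  · linear_combination hd

/-- Conjugating `ll s` by an element with vanishing lower right entry. -/
theorem conj_ll_of_d0 (w : SpecialLinearGroup (Fin 2) K) (h11 : ⟪w⟫ 1 1 = 0) (s : K) :
    w * ll s * w⁻¹ = uu (-(⟪w⟫ 0 1) ^ 2 * s) := by
  have hd := det_eq w
  rw [h11] at hd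
  apply sl_ext <;> simp [mul_entry, h11]
  · linear_combination hd
  · ring
  · linear_combination hd

/-- If the first column of `g` is `(τβ, β)` then `g U(t) g⁻¹ = U(τ) L(-β²t) U(-τ)`. -/
theorem conj_uu_eq (g : SpecialLinearGroup (Fin 2) K) (τ β : K) (h10 : ⟪g⟫ 1 0 = β)
    (h00 : ⟪g⟫ 0 0 = τ * β) (t : K) :
    g * uu t * g⁻¹ = uu τ * ll (-β ^ 2 * t) * uu (-τ) := by
  have hd := det_eq g
  rw [h10, h00] at hd
  apply sl_ext <;> simp [mul_entry, h10, h00]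
  · linear_combination (1 : K) * hd
  · ring
  · ring
  · linear_combination (1 : K) * hd

/-- `U(x) L(c) U(y)` decomposition. -/
theorem decomp (g : SpecialLinearGroup (Fin 2) K) (hc : ⟪g⟫ 1 0 ≠ 0) :
    g = uu ((⟪g⟫ 0 0 - 1) / ⟪g⟫ 1 0) * ll (⟪g⟫ 1 0) * uu ((⟪g⟫ 1 1 - 1) / ⟪g⟫ 1 0) := by
  have hd := det_eq g
  apply sl_ext <;> simp [mul_entry]
  · field_simp; ring
  · field_simp; linear_combination -hd
  · field_simp; ring

/-- Scaling map `g ↦ diag(c,1) g diag(c,1)⁻¹`. -/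
def scalFun (c : K) (hc : c ≠ 0) (g : SpecialLinearGroup (Fin 2) K) :
    SpecialLinearGroup (Fin 2) K :=
  ⟨!![⟪g⟫ 0 0, c * ⟪g⟫ 0 1; c⁻¹ * ⟪g⟫ 1 0, ⟪g⟫ 1 1], by
      rw [Matrix.det_fin_two]
      have := det_eq g
      simp only [Matrix.of_apply, Matrix.cons_val', Matrix.cons_val_zero, Matrix.cons_val_one,
        Matrix.cons_val_fin_one]
      field_simp
      linear_combination this⟩

@[simp] theorem scalFun_00 (c : K) (hc : c ≠ 0) (g : SpecialLinearGroup (Fin 2) K) :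
    ⟪scalFun c hc g⟫ 0 0 = ⟪g⟫ 0 0 := rfl
@[simp] theorem scalFun_01 (c : K) (hc : c ≠ 0) (g : SpecialLinearGroup (Fin 2) K) :
    ⟪scalFun c hc g⟫ 0 1 = c * ⟪g⟫ 0 1 := rfl
@[simp] theorem scalFun_10 (c : K) (hc : c ≠ 0) (g : SpecialLinearGroup (Fin 2) K) :
    ⟪scalFun c hc g⟫ 1 0 = c⁻¹ * ⟪g⟫ 1 0 := rfl
@[simp] theorem scalFun_11 (c : K) (hc : c ≠ 0) (g : SpecialLinearGroup (Fin 2) K) :
    ⟪scalFun c hc g⟫ 1 1 = ⟪g⟫ 1 1 := rfl

theorem scalFun_mul (c : K) (hc : c ≠ 0) (g h : SpecialLinearGroup (Fin 2) K) :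
    scalFun c hc (g * h) = scalFun c hc g * scalFun c hc h := by
  apply sl_ext <;> simp [mul_entry] <;> field_simp

/-- Scaling automorphism. -/
def scal (c : K) (hc : c ≠ 0) :
    SpecialLinearGroup (Fin 2) K →* SpecialLinearGroup (Fin 2) K :=
  MonoidHom.mk' (scalFun c hc) (scalFun_mul c hc)

theorem scal_uu (c : K) (hc : c ≠ 0) (t : K) : scal c hc (uu t) = uu (c * t) := by
  show scalFun c hc (uu t) = _
  apply sl_ext <;> simp

theorem scal_ll (c : K) (hc : c ≠ 0) (t : K) : scal c hc (ll t) = ll (c⁻¹ * t) := by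
  show scalFun c hc (ll t) = _
  apply sl_ext <;> simp

/-- The map `g ↦ ν g ν⁻¹`, `ν = [[0,1],[-a,0]]`. -/
def nuFun (a : K) (ha : a ≠ 0) (g : SpecialLinearGroup (Fin 2) K) :
    SpecialLinearGroup (Fin 2) K :=
  ⟨!![⟪g⟫ 1 1, -(⟪g⟫ 1 0) / a; -(a * ⟪g⟫ 0 1), ⟪g⟫ 0 0], by
      rw [Matrix.det_fin_two]
      have := det_eq g
      simp only [Matrix.of_apply, Matrix.cons_val', Matrix.cons_val_zero, Matrix.cons_val_one,
        Matrix.cons_val_fin_one]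
      field_simp
      linear_combination this⟩

@[simp] theorem nuFun_00 (a : K) (ha : a ≠ 0) (g : SpecialLinearGroup (Fin 2) K) :
    ⟪nuFun a ha g⟫ 0 0 = ⟪g⟫ 1 1 := rfl
@[simp] theorem nuFun_01 (a : K) (ha : a ≠ 0) (g : SpecialLinearGroup (Fin 2) K) :
    ⟪nuFun a ha g⟫ 0 1 = -(⟪g⟫ 1 0) / a := rfl
@[simp] theorem nuFun_10 (a : K) (ha : a ≠ 0) (g : SpecialLinearGroup (Fin 2) K) :
    ⟪nuFun a ha g⟫ 1 0 = -(a * ⟪g⟫ 0 1) := rfl
@[simp] theorem nuFun_11 (a : K) (ha : a ≠ 0) (g : SpecialLinearGroup (Fin 2) K) :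
    ⟪nuFun a ha g⟫ 1 1 = ⟪g⟫ 0 0 := rfl

theorem nuFun_mul (a : K) (ha : a ≠ 0) (g h : SpecialLinearGroup (Fin 2) K) :
    nuFun a ha (g * h) = nuFun a ha g * nuFun a ha h := by
  apply sl_ext <;> simp [mul_entry] <;> field_simp <;> ring

/-- The automorphism `g ↦ ν g ν⁻¹`. -/
def nuHom (a : K) (ha : a ≠ 0) :
    SpecialLinearGroup (Fin 2) K →* SpecialLinearGroup (Fin 2) K :=
  MonoidHom.mk' (nuFun a ha) (nuFun_mul a ha)

theorem nuHom_uu (a : K) (ha : a ≠ 0) (t : K) : nuHom a ha (uu t) = ll (-(a * t)) := by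
  show nuFun a ha (uu t) = _
  apply sl_ext <;> simp

theorem nuHom_ll (a : K) (ha : a ≠ 0) (t : K) : nuHom a ha (ll t) = uu (-t / a) := by
  show nuFun a ha (ll t) = _
  apply sl_ext <;> simp

end Cfsg.Agent.Helper5.SLAlg
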