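import Cfsg.Agent.Helper5.SLAlgA

set_option autoImplicit false

/-! Generation of `SL₂(k(α))` by `U(k)` and `L(kα)` (S5060): the group, its stabiliser ring and
the chain elements. -/

namespace Cfsg.Agent.Helper5.SLAlg

open Matrix

variable {K : Type*} [Field K] (k : Type*) [Field k] [Algebra k K] (α : K)

local notation:max "⟪" g "⟫" => ((g : SpecialLinearGroup (Fin 2) K) : Matrix (Fin 2) (Fin 2) K)

/-- The generating set of S5060. -/
def gens : Set (SpecialLinearGroup (Fin 2) K) :=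
  {g : SpecialLinearGroup (Fin 2) K |
      ∃ c : k, (g : Matrix (Fin 2) (Fin 2) K) = !![1, algebraMap k K c; 0, 1]} ∪
    {g : SpecialLinearGroup (Fin 2) K |
      ∃ c : k, (g : Matrix (Fin 2) (Fin 2) K) = !![1, 0; algebraMap k K c * α, 1]}

/-- The subgroup generated by `U(k)` and `L(kα)`. -/
def XX : Subgroup (SpecialLinearGroup (Fin 2) K) := Subgroup.closure (gens k α)

theorem uu_mem (c : k) : uu (algebraMap k K c) ∈ XX k α :=
  Subgroup.subset_closure (Or.inl ⟨c, rfl⟩)

theorem ll_mem (c : k) : ll (algebraMap k K c * α) ∈ XX k α :=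
  Subgroup.subset_closure (Or.inr ⟨c, rfl⟩)

theorem gens_cases {g : SpecialLinearGroup (Fin 2) K} (hg : g ∈ gens k α) :
    (∃ c : k, g = uu (algebraMap k K c)) ∨ (∃ c : k, g = ll (algebraMap k K c * α)) := by
  rcases hg with ⟨c, hc⟩ | ⟨c, hc⟩
  · exact Or.inl ⟨c, Subtype.ext hc⟩
  · exact Or.inr ⟨c, Subtype.ext hc⟩

theorem map_mem (φ : SpecialLinearGroup (Fin 2) K →* SpecialLinearGroup (Fin 2) K)
    (h1 : ∀ c : k, φ (uu (algebraMap k K c)) ∈ XX k α)
    (h2 : ∀ c : k, φ (ll (algebraMap k K c * α)) ∈ XX k α)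
    {g : SpecialLinearGroup (Fin 2) K} (hg : g ∈ XX k α) : φ g ∈ XX k α := by
  have : XX k α ≤ (XX k α).comap φ := by
    apply (Subgroup.closure_le _).mpr
    intro x hx
    rcases gens_cases k α hx with ⟨c, rfl⟩ | ⟨c, rfl⟩
    · exact h1 c
    · exact h2 c
  exact this hg

theorem uu_smul_mem (c : k) {t : K} (ht : uu t ∈ XX k α) :
    uu (algebraMap k K c * t) ∈ XX k α := by
  by_cases hc : c = 0
  · subst hc
    rw [map_zero, zero_mul, uu_zero]
    exact (XX k α).one_mem
  · have hc' : algebraMap k K c ≠ 0 := (map_ne_zero _).mpr hc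
    have := map_mem k α (scal (algebraMap k K c) hc') ?_ ?_ ht
    · rwa [scal_uu] at this
    · intro d
      rw [scal_uu, ← map_mul]
      exact uu_mem k α _
    · intro d
      rw [scal_ll, ← mul_assoc, ← map_inv₀, ← map_mul]
      exact ll_mem k α _

theorem ll_mem_of_uu (hα0 : α ≠ 0) {t : K} (ht : uu t ∈ XX k α) : ll (α * t) ∈ XX k α := by
  have h := map_mem k α (nuHom α hα0) ?_ ?_ ((XX k α).inv_mem ht)
  · rw [uu_inv, nuHom_uu] at h
    simpa using h
  · intro d
    rw [nuHom_uu]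
    have := ll_mem k α (-d)
    rw [map_neg, neg_mul, mul_comm] at this
    exact this
  · intro d
    rw [nuHom_ll]
    have := uu_mem k α (-d)
    rw [map_neg] at this
    convert this using 2
    field_simp

theorem entries_mem {g : SpecialLinearGroup (Fin 2) K} (hg : g ∈ XX k α) :
    ∀ i j : Fin 2, ⟪g⟫ i j ∈ IntermediateField.adjoin k ({α} : Set K) := by
  have hαE : α ∈ IntermediateField.adjoin k ({α} : Set K) :=
    IntermediateField.mem_adjoin_simple_self k α
  induction hg using Subgroup.closure_induction with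
  | mem x hx =>
    rcases gens_cases k α hx with ⟨c, rfl⟩ | ⟨c, rfl⟩
    · simp only [Fin.forall_fin_two, uu_00, uu_01, uu_10, uu_11]
      exact ⟨⟨one_mem _, IntermediateField.algebraMap_mem _ c⟩, zero_mem _, one_mem _⟩
    · simp only [Fin.forall_fin_two, ll_00, ll_01, ll_10, ll_11]
      exact ⟨⟨one_mem _, zero_mem _⟩, mul_mem (IntermediateField.algebraMap_mem _ c) hαE,
        one_mem _⟩
  | one =>
    simp only [Fin.forall_fin_two, one_00, one_01, one_10, one_11]
    exact ⟨⟨one_mem _, zero_mem _⟩, zero_mem _, one_mem _⟩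
  | mul x y _ _ hx hy =>
    intro i j
    rw [mul_entry]
    exact add_mem (mul_mem (hx i 0) (hy 0 j)) (mul_mem (hx i 1) (hy 1 j))
  | inv x _ hx =>
    simp only [Fin.forall_fin_two, inv_00, inv_01, inv_10, inv_11]
    exact ⟨⟨hx 1 1, neg_mem (hx 0 1)⟩, neg_mem (hx 1 0), hx 0 0⟩

/-- The stabiliser ring of `{t | U(t) ∈ X}`. -/
def Lam : Subalgebra k K where
  carrier := {l | ∀ t, uu t ∈ XX k α → uu (l * t) ∈ XX k α}
  mul_mem' := by
    intro a b ha hb t ht
    rw [mul_assoc]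
    exact ha _ (hb _ ht)
  one_mem' := by
    intro t ht
    rwa [one_mul]
  add_mem' := by
    intro a b ha hb t ht
    rw [add_mul, ← uu_add]
    exact (XX k α).mul_mem (ha t ht) (hb t ht)
  zero_mem' := by
    intro t _
    rw [zero_mul, uu_zero]
    exact (XX k α).one_mem
  algebraMap_mem' := by
    intro c t ht
    exact uu_smul_mem k α c ht

theorem mem_Lam {l : K} : l ∈ Lam k α ↔ ∀ t, uu t ∈ XX k α → uu (l * t) ∈ XX k α := Iff.rfl

theorem uu_one_mem : uu (1 : K) ∈ XX k α := by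
  have := uu_mem k α 1
  rwa [map_one] at this

theorem uu_mem_of_Lam {l : K} (hl : l ∈ Lam k α) : uu l ∈ XX k α := by
  have := hl 1 (uu_one_mem k α)
  rwa [mul_one] at this

theorem inv_mem_Lam (hα : IsAlgebraic k α) {l : K} (hl : l ∈ Lam k α) : l⁻¹ ∈ Lam k α := by
  have hlE : l ∈ IntermediateField.adjoin k ({α} : Set K) := by
    have := entries_mem k α (uu_mem_of_Lam k α hl) 0 1
    simpa using this
  have halg : IsAlgebraic k l := by
    have h1 : Algebra.IsAlgebraic k (IntermediateField.adjoin k ({α} : Set K)) :=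
      IntermediateField.isAlgebraic_adjoin_simple hα.isIntegral
    have h2 := h1.isAlgebraic ⟨l, hlE⟩
    exact IntermediateField.isAlgebraic_iff.mp h2
  exact Subalgebra.inv_mem_of_algebraic (A := Lam k α) (x := ⟨l, hl⟩) halg

theorem sq_mem_Lam {h : SpecialLinearGroup (Fin 2) K} (hh : h ∈ XX k α) (h10 : ⟪h⟫ 1 0 = 0) :
    (⟪h⟫ 0 0) ^ 2 ∈ Lam k α := by
  intro t ht
  rw [← conj_uu_of_upper h h10 t]
  exact (XX k α).mul_mem ((XX k α).mul_mem hh ht) ((XX k α).inv_mem hh)

theorem chain_key (A S x p q : K) (hA : A ≠ 0) (hp : p ≠ 0) (hq : q ≠ 0) :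
    1 - ((x + S) * (A / p)) * (A / p) * (-p ^ 2 / q) =
      (x + (S + q * (A⁻¹) ^ 2)) * (A ^ 2 / q) := by
  field_simp
  ring

/-- The chain elements: first column `(z β, β)` with `β = α^(2^n)/c_n` and
`z = c₀ + ∑_{l ≤ n} c_l α^(-2^l)`. -/
theorem chain (hα0 : α ≠ 0) (c0 : k) (c : ℕ → k) (hc : ∀ l, c l ≠ 0) (n : ℕ) :
    ∃ g ∈ XX k α, ⟪g⟫ 1 0 = α ^ (2 ^ n) / algebraMap k K (c n) ∧
      ⟪g⟫ 0 0 = (algebraMap k K c0 +
        ∑ l ∈ Finset.range (n + 1), algebraMap k K (c l) * (α⁻¹) ^ (2 ^ l)) *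
        (α ^ (2 ^ n) / algebraMap k K (c n)) := by
  have hc' : ∀ l, algebraMap k K (c l) ≠ 0 := fun l => (map_ne_zero _).mpr (hc l)
  induction n with
  | zero =>
    refine ⟨uu (algebraMap k K c0) * ll (algebraMap k K (c 0)⁻¹ * α),
      (XX k α).mul_mem (uu_mem k α _) (ll_mem k α _), ?_, ?_⟩
    · have := hc' 0
      simp [mul_entry]
      field_simp
    · have := hc' 0
      simp [mul_entry]
      field_simp
      ring
  | succ n ih =>
    obtain ⟨g, hg, h10, h00⟩ := ih
    refine ⟨g * uu (algebraMap k K (-(c n) ^ 2 / c (n + 1))) * g⁻¹,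
      (XX k α).mul_mem ((XX k α).mul_mem hg (uu_mem k α _)) ((XX k α).inv_mem hg), ?_, ?_⟩
    · rw [conj_uu_10, h10, map_div₀, map_neg, map_pow, pow_succ 2 n, pow_mul]
      have := hc' n
      have := hc' (n + 1)
      field_simp
    · rw [conj_uu_00, h00, h10, Finset.sum_range_succ _ (n + 1), map_div₀, map_neg, map_pow,
        pow_succ 2 n, pow_mul, pow_mul, inv_pow]
      exact chain_key _ _ _ _ _ (pow_ne_zero _ hα0) (hc' n) (hc' (n + 1))

end Cfsg.Agent.Helper5.SLAlg
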