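import Cfsg.Agent.Helper5.SLAlgB

set_option autoImplicit false

/-! Generation of `SL₂(k(α))` by `U(k)` and `L(kα)` (S5060): linear dependence, the coincidence of
chain points and the quadratic descent. -/

namespace Cfsg.Agent.Helper5.SLAlg

open Matrix

variable {K : Type*} [Field K] (k : Type*) [Field k] [Algebra k K] (α : K)

local notation:max "⟪" g "⟫" => ((g : SpecialLinearGroup (Fin 2) K) : Matrix (Fin 2) (Fin 2) K)

/-- A nontrivial linear relation among the `α^(-2^l)`. -/
theorem exists_rel (hα : IsAlgebraic k α) :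
    ∃ (N : ℕ) (b : ℕ → k),
      ∑ l ∈ Finset.range N, algebraMap k K (b l) * (α⁻¹) ^ (2 ^ l) = 0 ∧ ∃ l < N, b l ≠ 0 := by
  classical
  have : FiniteDimensional k (IntermediateField.adjoin k ({α} : Set K)) :=
    IntermediateField.adjoin.finiteDimensional hα.isIntegral
  have hαE : α⁻¹ ∈ IntermediateField.adjoin k ({α} : Set K) :=
    inv_mem (IntermediateField.mem_adjoin_simple_self k α)
  obtain ⟨m, hm⟩ : ∃ m, m = Module.finrank k (IntermediateField.adjoin k ({α} : Set K)) := ⟨_, rfl⟩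
  let v : Fin (m + 1) → IntermediateField.adjoin k ({α} : Set K) :=
    fun i => ⟨(α⁻¹) ^ (2 ^ (i : ℕ)), pow_mem hαE _⟩
  have hdep : ¬ LinearIndependent k v := by
    intro h
    have := h.fintype_card_le_finrank
    rw [Fintype.card_fin, ← hm] at this
    omega
  obtain ⟨g, hg, i, hi⟩ := Fintype.not_linearIndependent_iff.mp hdep
  refine ⟨m + 1, fun l => if h : l < m + 1 then g ⟨l, h⟩ else 0, ?_, i, i.isLt, ?_⟩
  · have h2 := congrArg (fun x : IntermediateField.adjoin k ({α} : Set K) => (x : K)) hg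
    simp only [v, AddSubmonoidClass.coe_finsetSum,
      ZeroMemClass.coe_zero, Algebra.smul_def] at h2
    rw [← Fin.sum_univ_eq_sum_range
      (fun l => algebraMap k K (if h : l < m + 1 then g ⟨l, h⟩ else 0) * α⁻¹ ^ 2 ^ l) (m + 1)]
    rw [← h2]
    apply Finset.sum_congr rfl
    intro j _
    simp [j.isLt]
  · simpa [i.isLt] using hi

/-- Step 1: some `α^(2^i)` lies in the stabiliser ring. -/
theorem exists_pow_mem_Lam (htwo : (2 : k) ≠ 0) (hα : IsAlgebraic k α) (hα0 : α ≠ 0) :
    ∃ i, α ^ (2 ^ i) ∈ Lam k α := by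
  classical
  have hP : ∃ N, ∃ b : ℕ → k,
      ∑ l ∈ Finset.range N, algebraMap k K (b l) * (α⁻¹) ^ (2 ^ l) = 0 ∧ ∃ l < N, b l ≠ 0 :=
    exists_rel k α hα
  obtain ⟨b, hrel, l0, hl0, hbl0⟩ := Nat.find_spec hP
  have hmin : ∀ N' < Nat.find hP, ¬ ∃ b : ℕ → k,
      ∑ l ∈ Finset.range N', algebraMap k K (b l) * (α⁻¹) ^ (2 ^ l) = 0 ∧ ∃ l < N', b l ≠ 0 :=
    fun N' h => Nat.find_min hP h
  obtain ⟨N, hN⟩ : ∃ N, Nat.find hP = N := ⟨_, rfl⟩
  rw [hN] at hrel hl0 hmin
  have hinv0 : α⁻¹ ≠ 0 := inv_ne_zero hα0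
  rcases N with _ | _ | n
  · omega
  · exfalso
    have hl : l0 = 0 := by omega
    subst hl
    rw [Finset.sum_range_one] at hrel
    rcases mul_eq_zero.mp hrel with h | h
    · exact hbl0 ((map_eq_zero _).mp h)
    · exact pow_ne_zero _ hinv0 h
  · -- top coefficient is nonzero
    have htop : b (n + 1) ≠ 0 := by
      intro h0
      apply hmin (n + 1) (by omega)
      refine ⟨b, ?_, l0, ?_, hbl0⟩
      · rw [Finset.sum_range_succ, h0, map_zero, zero_mul, add_zero] at hrel
        exact hrel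
      · have : l0 ≠ n + 1 := fun h => hbl0 (h ▸ h0)
        omega
    have hneg : (-1 : k) ≠ 0 := neg_ne_zero.mpr one_ne_zero
    let cA : ℕ → k := fun l => if l = n + 1 then b (n + 1) else if b l = 1 then -1 else 1
    let cB : ℕ → k := fun l => if l ≤ n then cA l - b l else 1
    have hcA : ∀ l, cA l ≠ 0 := by
      intro l
      simp only [cA]
      split_ifs
      · exact htop
      · exact hneg
      · exact one_ne_zero
    have hcB : ∀ l, cB l ≠ 0 := by
      intro l
      simp only [cB, cA]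
      split_ifs with h1 h2 h3
      · omega
      · rw [h3]
        intro h
        apply htwo
        linear_combination -h
      · exact sub_ne_zero.mpr (Ne.symm h3)
      · exact one_ne_zero
    obtain ⟨gA, hgA, hA10, hA00⟩ := chain k α hα0 0 cA hcA (n + 1)
    obtain ⟨gB, hgB, hB10, hB00⟩ := chain k α hα0 0 cB hcB n
    have hz : ∑ l ∈ Finset.range (n + 1 + 1), algebraMap k K (cA l) * (α⁻¹) ^ (2 ^ l) =
        ∑ l ∈ Finset.range (n + 1), algebraMap k K (cB l) * (α⁻¹) ^ (2 ^ l) := by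
      rw [Finset.sum_range_succ] at hrel ⊢
      have h1 : ∑ l ∈ Finset.range (n + 1), algebraMap k K (cA l) * (α⁻¹) ^ (2 ^ l) =
          ∑ l ∈ Finset.range (n + 1), algebraMap k K (cB l) * (α⁻¹) ^ (2 ^ l) +
          ∑ l ∈ Finset.range (n + 1), algebraMap k K (b l) * (α⁻¹) ^ (2 ^ l) := by
        rw [← Finset.sum_add_distrib]
        apply Finset.sum_congr rfl
        intro l hl
        have hl' : l ≤ n := by
          have := Finset.mem_range.mp hl
          omega
        have : cB l = cA l - b l := by simp only [cB, if_pos hl']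
        rw [this, map_sub]
        ring
      have h3 : cA (n + 1) = b (n + 1) := by simp only [cA, if_pos]
      rw [h1, h3]
      linear_combination hrel
    rw [hz, map_zero, zero_add] at hA00
    rw [map_zero, zero_add] at hB00
    have hcAn : algebraMap k K (cA (n + 1)) ≠ 0 := (map_ne_zero _).mpr (hcA _)
    have hcBn : algebraMap k K (cB n) ≠ 0 := (map_ne_zero _).mpr (hcB _)
    have hAne : α ^ 2 ^ n ≠ 0 := pow_ne_zero _ hα0
    have hh : gB⁻¹ * gA ∈ XX k α := (XX k α).mul_mem ((XX k α).inv_mem hgB) hgA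
    have h10 : ⟪gB⁻¹ * gA⟫ 1 0 = 0 := by
      rw [mul_entry, inv_10, inv_11, hA00, hB00, hA10, hB10]
      ring
    have h00 : ⟪gB⁻¹ * gA⟫ 0 0 * (α ^ 2 ^ n / algebraMap k K (cB n)) =
        α ^ 2 ^ (n + 1) / algebraMap k K (cA (n + 1)) := by
      have hd := det_eq gB
      rw [hB00, hB10] at hd
      rw [mul_entry, inv_00, inv_01, hA00, hA10]
      linear_combination (α ^ 2 ^ (n + 1) / algebraMap k K (cA (n + 1))) * hd
    have hsq := sq_mem_Lam k α hh h10
    refine ⟨n + 1, ?_⟩
    have h5 : α ^ 2 ^ (n + 1) = (⟪gB⁻¹ * gA⟫ 0 0) ^ 2 *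
        (algebraMap k K (cA (n + 1) / cB n)) ^ 2 := by
      have h6 : ⟪gB⁻¹ * gA⟫ 0 0 = α ^ 2 ^ (n + 1) / algebraMap k K (cA (n + 1)) /
          (α ^ 2 ^ n / algebraMap k K (cB n)) := by
        rw [← h00]
        field_simp
      rw [h6, map_div₀, pow_succ 2 n, pow_mul]
      field_simp
    rw [h5]
    exact mul_mem hsq (pow_mem (Subalgebra.algebraMap_mem _ _) 2)

end Cfsg.Agent.Helper5.SLAlg
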