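import Cfsg.Agent.Helper5.SLAlgC

set_option autoImplicit false

/-! Generation of `SL₂(k(α))` by `U(k)` and `L(kα)` (S5060): quadratic descent and the main
theorem. -/

namespace Cfsg.Agent.Helper5.SLAlg

open Matrix

variable {K : Type*} [Field K] (k : Type*) [Field k] [Algebra k K] (α : K)

local notation:max "⟪" g "⟫" => ((g : SpecialLinearGroup (Fin 2) K) : Matrix (Fin 2) (Fin 2) K)

theorem word_conj (τ s1 t1 s2 t2 : K) :
    uu τ * (ll s1 * uu t1 * ll s2 * uu t2) * uu (-τ) =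
      (uu τ * ll s1 * uu (-τ)) * uu t1 * (uu τ * ll s2 * uu (-τ)) * uu t2 := by
  apply sl_ext <;> simp [mul_entry] <;> ring

theorem word_11 (s1 t1 s2 t2 : K) :
    ⟪ll s1 * uu t1 * ll s2 * uu t2⟫ 1 1 = 1 + s1 * t1 + s1 * t2 + s2 * t2 + s1 * t1 * s2 * t2 := by
  simp [mul_entry]; ring

theorem word_01 (s1 t1 s2 t2 : K) :
    ⟪ll s1 * uu t1 * ll s2 * uu t2⟫ 0 1 = t1 + t2 + t1 * s2 * t2 := by
  simp [mul_entry]; ring

/-- Quadratic descent: if `ρ² ∈ Λ` and the root group `U(τ) L(ρ R) U(-τ)` lies in `X`,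
then `ρ ∈ Λ`. -/
theorem descent (ha : ∃ a : k, a ≠ 0 ∧ a ^ 2 ≠ 1) (hα : IsAlgebraic k α) (τ ρ : K) (hρ0 : ρ ≠ 0)
    (hρ2 : ρ ^ 2 ∈ Lam k α)
    (hP : ∀ t, uu t ∈ XX k α → uu τ * ll (ρ * t) * uu (-τ) ∈ XX k α) : ρ ∈ Lam k α := by
  classical
  have hθ0 : ρ ^ 2 ≠ 0 := pow_ne_zero 2 hρ0
  obtain ⟨a, ha0, ha1⟩ : ∃ a : k, a ≠ 0 ∧ (algebraMap k K a) ^ 2 * ρ ^ 2 ≠ -1 := by
    by_cases hθ1 : ρ ^ 2 = -1
    · obtain ⟨a, ha0, ha2⟩ := ha
      refine ⟨a, ha0, ?_⟩
      rw [hθ1]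
      intro h
      have h3 : algebraMap k K (a ^ 2) = algebraMap k K 1 := by
        rw [map_pow, map_one]
        linear_combination -h
      exact ha2 ((algebraMap k K).injective h3)
    · exact ⟨1, one_ne_zero, by simpa using hθ1⟩
  obtain ⟨a', ha'⟩ : ∃ a' : K, a' = algebraMap k K a := ⟨_, rfl⟩
  rw [← ha'] at ha1
  have ha'0 : a' ≠ 0 := by rw [ha']; exact (map_ne_zero _).mpr ha0
  have ha'Λ : a' ∈ Lam k α := by rw [ha']; exact Subalgebra.algebraMap_mem _ a
  have hinv : ∀ {x : K}, x ∈ Lam k α → x⁻¹ ∈ Lam k α := fun hx => inv_mem_Lam k α hα hx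
  by_cases h1 : a' ^ 2 * ρ ^ 2 = 1
  · have h3 : (a' * ρ - 1) * (a' * ρ + 1) = 0 := by linear_combination h1
    rcases mul_eq_zero.mp h3 with h4 | h4
    · have : ρ = a'⁻¹ := by
        field_simp
        linear_combination h4
      rw [this]
      exact hinv ha'Λ
    · have : ρ = -a'⁻¹ := by
        field_simp
        linear_combination h4
      rw [this]
      exact neg_mem (hinv ha'Λ)
  · obtain ⟨b, hb⟩ : ∃ b : K, b = -(a' * ρ ^ 2)⁻¹ := ⟨_, rfl⟩
    obtain ⟨e, he⟩ : ∃ e : K, e = -a' - b := ⟨_, rfl⟩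
    have hbΛ : b ∈ Lam k α := by
      rw [hb]
      exact neg_mem (hinv (mul_mem ha'Λ hρ2))
    have heΛ : e ∈ Lam k α := by
      rw [he]
      exact sub_mem (neg_mem ha'Λ) hbΛ
    have hb0 : b ≠ 0 := by
      rw [hb]
      exact neg_ne_zero.mpr (inv_ne_zero (mul_ne_zero ha'0 hθ0))
    have habθ : a' * b * ρ ^ 2 = -1 := by
      rw [hb]
      field_simp
    have he0 : e ≠ 0 := by
      intro h
      apply h1
      have h5 : a' + b = 0 := by
        rw [he] at h
        linear_combination -h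
      have h6 : b = -a' := by linear_combination h5
      rw [h6] at habθ
      linear_combination -habθ
    obtain ⟨d, hd⟩ : ∃ d : K, d = b * e⁻¹ := ⟨_, rfl⟩
    have hdΛ : d ∈ Lam k α := by
      rw [hd]
      exact mul_mem hbΛ (hinv heΛ)
    have hde : d * e = b := by
      rw [hd]
      field_simp
    have hsum : a' + e + b = 0 := by
      rw [he]
      ring
    obtain ⟨w, hw⟩ : ∃ w : SpecialLinearGroup (Fin 2) K,
        w = ll ρ * uu a' * ll (ρ * d) * uu e := ⟨_, rfl⟩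
    have hw11 : ⟪w⟫ 1 1 = 0 := by
      rw [hw, word_11]
      linear_combination ρ * hsum + (ρ + a' * ρ ^ 2) * hde + habθ
    have hw01 : ⟪w⟫ 0 1 = b * (a' * ρ - 1) := by
      rw [hw, word_01]
      linear_combination hsum + a' * ρ * hde
    have hW : uu τ * w * uu (-τ) ∈ XX k α := by
      rw [hw, word_conj]
      have h7 := hP 1 (uu_one_mem k α)
      rw [mul_one] at h7
      exact (XX k α).mul_mem ((XX k α).mul_mem ((XX k α).mul_mem h7 (uu_mem_of_Lam k α ha'Λ))
        (hP d (uu_mem_of_Lam k α hdΛ))) (uu_mem_of_Lam k α heΛ)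
    have key : -(⟪w⟫ 0 1) ^ 2 * ρ ∈ Lam k α := by
      intro t ht
      have h5 := (XX k α).mul_mem ((XX k α).mul_mem hW (hP t ht)) ((XX k α).inv_mem hW)
      have e2 : uu τ * w * uu (-τ) * (uu τ * ll (ρ * t) * uu (-τ)) * (uu τ * w * uu (-τ))⁻¹ =
          uu (-(⟪w⟫ 0 1) ^ 2 * ρ * t) := by
        have e3 : uu (-τ) = (uu τ)⁻¹ := (uu_inv τ).symm
        rw [e3]
        have e4 : uu τ * w * (uu τ)⁻¹ * (uu τ * ll (ρ * t) * (uu τ)⁻¹) *
            (uu τ * w * (uu τ)⁻¹)⁻¹ = uu τ * (w * ll (ρ * t) * w⁻¹) * (uu τ)⁻¹ := by group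
        rw [e4, conj_ll_of_d0 w hw11, uu_inv, uu_add, uu_add]
        congr 1
        ring
      rw [e2] at h5
      exact h5
    have h6 : (b * (a' * ρ - 1)) ^ 2 * ρ ∈ Lam k α := by
      have := neg_mem key
      rw [hw01] at this
      convert this using 1
      ring
    have hne : a' ^ 2 * ρ ^ 2 + 1 ≠ 0 := fun h => ha1 (by linear_combination h)
    have h7 : ρ = ((b * (a' * ρ - 1)) ^ 2 * ρ * (b⁻¹) ^ 2 + (a' * ρ ^ 2 + a' * ρ ^ 2)) *
        (a' ^ 2 * ρ ^ 2 + 1)⁻¹ := by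
      rw [eq_mul_inv_iff_mul_eq₀ hne]
      field_simp
      ring
    rw [h7]
    exact mul_mem (add_mem (mul_mem h6 (pow_mem (hinv hbΛ) 2))
      (add_mem (mul_mem ha'Λ hρ2) (mul_mem ha'Λ hρ2)))
      (hinv (add_mem (mul_mem (pow_mem ha'Λ 2) hρ2) (one_mem _)))

theorem alpha_mem_Lam (htwo : (2 : k) ≠ 0) (ha : ∃ a : k, a ≠ 0 ∧ a ^ 2 ≠ 1)
    (hα : IsAlgebraic k α) (hα0 : α ≠ 0) : α ∈ Lam k α := by
  obtain ⟨i, hi⟩ := exists_pow_mem_Lam k α htwo hα hα0
  induction i with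
  | zero => simpa using hi
  | succ i ih =>
    apply ih
    have hρ2 : (α ^ (2 ^ i)) ^ 2 ∈ Lam k α := by
      rw [← pow_mul, ← pow_succ]
      exact hi
    cases i with
    | zero =>
      apply descent k α ha hα 0 (α ^ 2 ^ 0) (pow_ne_zero _ hα0) hρ2
      intro t ht
      simp only [pow_zero, pow_one, neg_zero, uu_zero, one_mul, mul_one]
      exact ll_mem_of_uu k α hα0 ht
    | succ n =>
      obtain ⟨g, hg, h10, h00⟩ := chain k α hα0 0 (fun _ => 1) (fun _ => one_ne_zero) n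
      simp only [map_one, div_one, map_zero, zero_add, one_mul] at h10 h00
      apply descent k α ha hα (∑ l ∈ Finset.range (n + 1), (α⁻¹) ^ (2 ^ l)) (α ^ 2 ^ (n + 1))
        (pow_ne_zero _ hα0) hρ2
      intro t ht
      have h5 := (XX k α).mul_mem ((XX k α).mul_mem hg ((XX k α).inv_mem ht)) ((XX k α).inv_mem hg)
      rw [uu_inv, conj_uu_eq g _ _ h10 h00] at h5
      convert h5 using 3
      rw [pow_succ 2 n, pow_mul]
      ring

/-- S5060 in terms of `XX`. -/
theorem main (htwo : (2 : k) ≠ 0) (ha : ∃ a : k, a ≠ 0 ∧ a ^ 2 ≠ 1)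
    (hα : IsAlgebraic k α) (hα0 : α ≠ 0) :
    ((XX k α : Subgroup (SpecialLinearGroup (Fin 2) K)) : Set (SpecialLinearGroup (Fin 2) K)) =
      {g : SpecialLinearGroup (Fin 2) K |
        ∀ i j : Fin 2, ⟪g⟫ i j ∈ IntermediateField.adjoin k ({α} : Set K)} := by
  ext g
  constructor
  · intro hg
    exact entries_mem k α hg
  · intro hg
    have hαΛ := alpha_mem_Lam k α htwo ha hα hα0
    have hαE : α ∈ IntermediateField.adjoin k ({α} : Set K) :=
      IntermediateField.mem_adjoin_simple_self k α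
    have hE : ∀ x ∈ IntermediateField.adjoin k ({α} : Set K), x ∈ Lam k α := by
      intro x hx
      have h1 : (IntermediateField.adjoin k ({α} : Set K)).toSubalgebra = Algebra.adjoin k {α} :=
        IntermediateField.adjoin_simple_toSubalgebra_of_isAlgebraic hα
      have h2 : x ∈ Algebra.adjoin k ({α} : Set K) := by
        rw [← h1]
        exact hx
      have h3 : Algebra.adjoin k ({α} : Set K) ≤ Lam k α := by
        apply Algebra.adjoin_le
        intro y hy
        rw [Set.mem_singleton_iff] at hy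
        rw [hy]
        exact hαΛ
      exact h3 h2
    have hU : ∀ x ∈ IntermediateField.adjoin k ({α} : Set K), uu x ∈ XX k α :=
      fun x hx => uu_mem_of_Lam k α (hE x hx)
    have hL : ∀ x ∈ IntermediateField.adjoin k ({α} : Set K), ll x ∈ XX k α := by
      intro x hx
      have := ll_mem_of_uu k α hα0 (hU (α⁻¹ * x) (mul_mem (inv_mem hαE) hx))
      rwa [mul_inv_cancel_left₀ hα0] at this
    have hdec : ∀ g' : SpecialLinearGroup (Fin 2) K,
        (∀ i j : Fin 2, ⟪g'⟫ i j ∈ IntermediateField.adjoin k ({α} : Set K)) →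
        ⟪g'⟫ 1 0 ≠ 0 → g' ∈ XX k α := by
      intro g' hg' hc
      rw [decomp g' hc]
      exact (XX k α).mul_mem ((XX k α).mul_mem
        (hU _ (div_mem (sub_mem (hg' 0 0) (one_mem _)) (hg' 1 0))) (hL _ (hg' 1 0)))
        (hU _ (div_mem (sub_mem (hg' 1 1) (one_mem _)) (hg' 1 0)))
    by_cases hc : ⟪g⟫ 1 0 = 0
    · have hl1 : ll (1 : K) ∈ XX k α := hL 1 (one_mem _)
      have h1 : ll 1 * g ∈ XX k α := by
        apply hdec
        · intro i j
          rw [mul_entry]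
          exact add_mem (mul_mem (entries_mem k α hl1 i 0) (hg 0 j))
            (mul_mem (entries_mem k α hl1 i 1) (hg 1 j))
        · rw [mul_entry, hc]
          have hd := det_eq g
          rw [hc] at hd
          simp only [ll_10, ll_11, one_mul, mul_zero, add_zero]
          intro h0
          rw [h0] at hd
          simp at hd
      have h2 : g = (ll 1)⁻¹ * (ll 1 * g) := by group
      rw [h2]
      exact (XX k α).mul_mem ((XX k α).inv_mem hl1) h1
    · exact hdec g hg hc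

end Cfsg.Agent.Helper5.SLAlg
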