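import Cfsg.Agent.Helper5.SLRingA

set_option autoImplicit false

/-! The subgroup `⟨U(k), L(kλ)⟩` of `SL₂(𝒜)` for a commutative `k`-algebra `𝒜` and a unit `λ`:
stabiliser ring, chain elements, upper triangular elements (ring version of `SLAlgB/C`). -/

namespace Cfsg.Agent.Helper5.SLRing

open Matrix
open scoped commutatorElement

variable {𝒜 : Type*} [CommRing 𝒜] (k : Type*) [Field k] [Algebra k 𝒜] (lam : 𝒜)

local notation:max "⟪" g "⟫" => ((g : SpecialLinearGroup (Fin 2) 𝒜) : Matrix (Fin 2) (Fin 2) 𝒜)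

/-- The generating set. -/
def gens : Set (SpecialLinearGroup (Fin 2) 𝒜) :=
  {g : SpecialLinearGroup (Fin 2) 𝒜 |
      ∃ c : k, (g : Matrix (Fin 2) (Fin 2) 𝒜) = !![1, algebraMap k 𝒜 c; 0, 1]} ∪
    {g : SpecialLinearGroup (Fin 2) 𝒜 |
      ∃ c : k, (g : Matrix (Fin 2) (Fin 2) 𝒜) = !![1, 0; algebraMap k 𝒜 c * lam, 1]}

/-- The subgroup generated by `U(k)` and `L(kλ)`. -/
def XX : Subgroup (SpecialLinearGroup (Fin 2) 𝒜) := Subgroup.closure (gens k lam)

theorem uu_mem (c : k) : uu (algebraMap k 𝒜 c) ∈ XX k lam :=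
  Subgroup.subset_closure (Or.inl ⟨c, rfl⟩)

theorem ll_mem (c : k) : ll (algebraMap k 𝒜 c * lam) ∈ XX k lam :=
  Subgroup.subset_closure (Or.inr ⟨c, rfl⟩)

theorem gens_cases {g : SpecialLinearGroup (Fin 2) 𝒜} (hg : g ∈ gens k lam) :
    (∃ c : k, g = uu (algebraMap k 𝒜 c)) ∨ (∃ c : k, g = ll (algebraMap k 𝒜 c * lam)) := by
  rcases hg with ⟨c, hc⟩ | ⟨c, hc⟩
  · exact Or.inl ⟨c, Subtype.ext hc⟩
  · exact Or.inr ⟨c, Subtype.ext hc⟩

theorem map_mem (φ : SpecialLinearGroup (Fin 2) 𝒜 →* SpecialLinearGroup (Fin 2) 𝒜)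
    (h1 : ∀ c : k, φ (uu (algebraMap k 𝒜 c)) ∈ XX k lam)
    (h2 : ∀ c : k, φ (ll (algebraMap k 𝒜 c * lam)) ∈ XX k lam)
    {g : SpecialLinearGroup (Fin 2) 𝒜} (hg : g ∈ XX k lam) : φ g ∈ XX k lam := by
  have : XX k lam ≤ (XX k lam).comap φ := by
    apply (Subgroup.closure_le _).mpr
    intro x hx
    rcases gens_cases k lam hx with ⟨c, rfl⟩ | ⟨c, rfl⟩
    · exact h1 c
    · exact h2 c
  exact this hg

theorem uu_smul_mem (c : k) {t : 𝒜} (ht : uu t ∈ XX k lam) :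
    uu (algebraMap k 𝒜 c * t) ∈ XX k lam := by
  by_cases hc : c = 0
  · subst hc
    rw [map_zero, zero_mul, uu_zero]
    exact (XX k lam).one_mem
  · have hc' : algebraMap k 𝒜 c * algebraMap k 𝒜 c⁻¹ = 1 := by
      rw [← map_mul, mul_inv_cancel₀ hc, map_one]
    have := map_mem k lam (scal _ _ hc') ?_ ?_ ht
    · rwa [scal_uu] at this
    · intro d
      rw [scal_uu, ← map_mul]
      exact uu_mem k lam _
    · intro d
      rw [scal_ll, ← mul_assoc, ← map_mul]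
      exact ll_mem k lam _

variable {lam} in
theorem nu_mem {mu : 𝒜} (hlm : lam * mu = 1) {g : SpecialLinearGroup (Fin 2) 𝒜}
    (hg : g ∈ XX k lam) : nuHom lam mu hlm g ∈ XX k lam := by
  apply map_mem k lam (nuHom lam mu hlm) ?_ ?_ hg
  · intro d
    rw [nuHom_uu]
    have := ll_mem k lam (-d)
    rw [map_neg, neg_mul, mul_comm] at this
    exact this
  · intro d
    rw [nuHom_ll]
    have := uu_mem k lam (-d)
    rw [map_neg] at this
    convert this using 2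
    linear_combination (-(algebraMap k 𝒜 d)) * hlm

variable {lam} in
theorem ll_mem_of_uu {mu : 𝒜} (hlm : lam * mu = 1) {t : 𝒜} (ht : uu t ∈ XX k lam) :
    ll (lam * t) ∈ XX k lam := by
  have h := nu_mem k hlm ((XX k lam).inv_mem ht)
  rw [uu_inv, nuHom_uu] at h
  simpa using h

/-- The stabiliser ring of `{t | U(t) ∈ X}`. -/
def Lam : Subalgebra k 𝒜 where
  carrier := {l | ∀ t, uu t ∈ XX k lam → uu (l * t) ∈ XX k lam}
  mul_mem' := by
    intro a b ha hb t ht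
    rw [mul_assoc]
    exact ha _ (hb _ ht)
  one_mem' := by
    intro t ht
    rwa [one_mul]
  add_mem' := by
    intro a b ha hb t ht
    rw [add_mul, ← uu_add]
    exact (XX k lam).mul_mem (ha t ht) (hb t ht)
  zero_mem' := by
    intro t _
    rw [zero_mul, uu_zero]
    exact (XX k lam).one_mem
  algebraMap_mem' := by
    intro c t ht
    exact uu_smul_mem k lam c ht

theorem uu_one_mem : uu (1 : 𝒜) ∈ XX k lam := by
  have := uu_mem k lam 1
  rwa [map_one] at this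

theorem uu_mem_of_Lam {l : 𝒜} (hl : l ∈ Lam k lam) : uu l ∈ XX k lam := by
  have := hl 1 (uu_one_mem k lam)
  rwa [mul_one] at this

theorem sq_mem_Lam {h : SpecialLinearGroup (Fin 2) 𝒜} (hh : h ∈ XX k lam) (h10 : ⟪h⟫ 1 0 = 0) :
    (⟪h⟫ 0 0) ^ 2 ∈ Lam k lam := by
  intro t ht
  rw [← conj_uu_of_upper h h10 t]
  exact (XX k lam).mul_mem ((XX k lam).mul_mem hh ht) ((XX k lam).inv_mem hh)

theorem chain_key (A B S x p p' q q' : 𝒜) (hAB : A * B = 1) (hp : p * p' = 1) (hq : q * q' = 1) :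
    1 - ((x + S) * (p' * A)) * (p' * A) * (-p ^ 2 * q') =
      (x + (S + q * B ^ 2)) * (q' * A ^ 2) := by
  linear_combination ((x + S) * A ^ 2 * q' * (p * p' + 1)) * hp - (A ^ 2 * B ^ 2) * hq -
    (A * B + 1) * hAB

variable {lam} in
/-- The chain elements. -/
theorem chain {mu : 𝒜} (hlm : lam * mu = 1) (c0 : k) (c : ℕ → k) (hc : ∀ l, c l ≠ 0) (n : ℕ) :
    ∃ g ∈ XX k lam, ⟪g⟫ 1 0 = algebraMap k 𝒜 (c n)⁻¹ * lam ^ (2 ^ n) ∧
      ⟪g⟫ 0 0 = (algebraMap k 𝒜 c0 +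
        ∑ l ∈ Finset.range (n + 1), algebraMap k 𝒜 (c l) * mu ^ (2 ^ l)) *
        (algebraMap k 𝒜 (c n)⁻¹ * lam ^ (2 ^ n)) := by
  have hc' : ∀ l, algebraMap k 𝒜 (c l) * algebraMap k 𝒜 (c l)⁻¹ = 1 := fun l => by
    rw [← map_mul, mul_inv_cancel₀ (hc l), map_one]
  induction n with
  | zero =>
    refine ⟨uu (algebraMap k 𝒜 c0) * ll (algebraMap k 𝒜 (c 0)⁻¹ * lam),
      (XX k lam).mul_mem (uu_mem k lam _) (ll_mem k lam _), ?_, ?_⟩
    · simp [mul_entry]
    · simp [mul_entry]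
      linear_combination (-(lam * mu)) * hc' 0 - hlm
  | succ n ih =>
    obtain ⟨g, hg, h10, h00⟩ := ih
    refine ⟨g * uu (algebraMap k 𝒜 (-(c n) ^ 2 * (c (n + 1))⁻¹)) * g⁻¹,
      (XX k lam).mul_mem ((XX k lam).mul_mem hg (uu_mem k lam _)) ((XX k lam).inv_mem hg), ?_, ?_⟩
    · rw [conj_uu_10, h10, map_mul, map_neg, map_pow, pow_succ 2 n, pow_mul]
      linear_combination (algebraMap k 𝒜 (c (n + 1))⁻¹ * (lam ^ 2 ^ n) ^ 2 *
        (algebraMap k 𝒜 (c n) * algebraMap k 𝒜 (c n)⁻¹ + 1)) * hc' n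
    · rw [conj_uu_00, h00, h10, Finset.sum_range_succ _ (n + 1), map_mul, map_neg, map_pow,
        pow_succ 2 n, pow_mul, pow_mul]
      have hAB : lam ^ 2 ^ n * mu ^ 2 ^ n = 1 := by rw [← mul_pow, hlm, one_pow]
      exact chain_key _ _ _ _ _ _ _ _ hAB (hc' n) (hc' (n + 1))

variable {lam} in
/-- A nontrivial linear relation among the `μ^(2^l)`. -/
theorem exists_rel [Module.Finite k 𝒜] (mu : 𝒜) :
    ∃ (N : ℕ) (b : ℕ → k),
      ∑ l ∈ Finset.range N, algebraMap k 𝒜 (b l) * mu ^ (2 ^ l) = 0 ∧ ∃ l < N, b l ≠ 0 := by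
  classical
  obtain ⟨m, hm⟩ : ∃ m, m = Module.finrank k 𝒜 := ⟨_, rfl⟩
  let v : Fin (m + 1) → 𝒜 := fun i => mu ^ (2 ^ (i : ℕ))
  have hdep : ¬ LinearIndependent k v := by
    intro h
    have := h.fintype_card_le_finrank
    rw [Fintype.card_fin, ← hm] at this
    omega
  obtain ⟨g, hg, i, hi⟩ := Fintype.not_linearIndependent_iff.mp hdep
  refine ⟨m + 1, fun l => if h : l < m + 1 then g ⟨l, h⟩ else 0, ?_, i, i.isLt, ?_⟩
  · rw [← Fin.sum_univ_eq_sum_range
      (fun l => algebraMap k 𝒜 (if h : l < m + 1 then g ⟨l, h⟩ else 0) * mu ^ 2 ^ l) (m + 1)]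
    rw [← hg]
    apply Finset.sum_congr rfl
    intro j _
    simp [v, j.isLt, Algebra.smul_def]
  · simpa [i.isLt] using hi

variable {lam} in
/-- Upper triangular elements of `X` with diagonal entry `(y/b₁) λ^(2^n)`. -/
theorem exists_upper (htwo : (2 : k) ≠ 0) [Module.Finite k 𝒜] [Nontrivial 𝒜] {mu : 𝒜}
    (hlm : lam * mu = 1) :
    ∃ (n : ℕ) (b0 b1 : k), b1 ≠ 0 ∧ ∀ y : k, y ≠ 0 → y + b0 ≠ 0 →
      ∃ h ∈ XX k lam, ⟪h⟫ 1 0 = 0 ∧ ⟪h⟫ 0 0 = algebraMap k 𝒜 (y * b1⁻¹) * lam ^ (2 ^ n) := by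
  classical
  have hP : ∃ N, ∃ b : ℕ → k,
      ∑ l ∈ Finset.range N, algebraMap k 𝒜 (b l) * mu ^ (2 ^ l) = 0 ∧ ∃ l < N, b l ≠ 0 :=
    exists_rel k mu
  obtain ⟨b, hrel, l0, hl0, hbl0⟩ := Nat.find_spec hP
  have hmin : ∀ N' < Nat.find hP, ¬ ∃ b : ℕ → k,
      ∑ l ∈ Finset.range N', algebraMap k 𝒜 (b l) * mu ^ (2 ^ l) = 0 ∧ ∃ l < N', b l ≠ 0 :=
    fun N' h => Nat.find_min hP h
  obtain ⟨N, hN⟩ : ∃ N, Nat.find hP = N := ⟨_, rfl⟩
  rw [hN] at hrel hl0 hmin
  have hml : mu * lam = 1 := by rw [mul_comm]; exact hlm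
  have hinj : Function.Injective (algebraMap k 𝒜) := (algebraMap k 𝒜).injective
  rcases N with _ | _ | n
  · omega
  · exfalso
    have hl : l0 = 0 := by omega
    subst hl
    rw [Finset.sum_range_one] at hrel
    have h1 : algebraMap k 𝒜 (b 0) = 0 := by
      have h2 := congrArg (fun x => x * lam) hrel
      simp only [pow_zero, pow_one, zero_mul] at h2
      rw [mul_assoc, hml, mul_one] at h2
      exact h2
    apply hbl0
    apply hinj
    rw [h1, map_zero]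
  · -- top coefficient is nonzero
    have htop : b (n + 1) ≠ 0 := by
      intro h0
      apply hmin (n + 1) (by omega)
      refine ⟨b, ?_, l0, ?_, hbl0⟩
      · rw [Finset.sum_range_succ, h0, map_zero, zero_mul, add_zero] at hrel
        exact hrel
      · have : l0 ≠ n + 1 := fun h => hbl0 (h ▸ h0)
        omega
    refine ⟨n, b n, b (n + 1), htop, ?_⟩
    intro y hy0 hyb
    have hneg : (-1 : k) ≠ 0 := neg_ne_zero.mpr one_ne_zero
    let cB : ℕ → k := fun l => if l = n then y else if b l = -1 then -1 else 1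
    let cA : ℕ → k := fun l => if l = n + 1 then b (n + 1) else cB l + b l
    have hcB : ∀ l, cB l ≠ 0 := by
      intro l
      simp only [cB]
      split_ifs
      · exact hy0
      · exact hneg
      · exact one_ne_zero
    have hcA : ∀ l, cA l ≠ 0 := by
      intro l
      simp only [cA, cB]
      split_ifs with h1 h2 h3
      · exact htop
      · rw [h2]; exact hyb
      · rw [h3]
        intro h
        apply htwo
        linear_combination -h
      · intro h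
        apply h3
        linear_combination h
    obtain ⟨gA, hgA, hA10, hA00⟩ := chain k hlm 0 cA hcA (n + 1)
    obtain ⟨gB, hgB, hB10, hB00⟩ := chain k hlm 0 cB hcB n
    have hz : ∑ l ∈ Finset.range (n + 1 + 1), algebraMap k 𝒜 (cA l) * mu ^ (2 ^ l) =
        ∑ l ∈ Finset.range (n + 1), algebraMap k 𝒜 (cB l) * mu ^ (2 ^ l) := by
      rw [Finset.sum_range_succ] at hrel ⊢
      have h1 : ∑ l ∈ Finset.range (n + 1), algebraMap k 𝒜 (cA l) * mu ^ (2 ^ l) =
          ∑ l ∈ Finset.range (n + 1), algebraMap k 𝒜 (cB l) * mu ^ (2 ^ l) +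
          ∑ l ∈ Finset.range (n + 1), algebraMap k 𝒜 (b l) * mu ^ (2 ^ l) := by
        rw [← Finset.sum_add_distrib]
        apply Finset.sum_congr rfl
        intro l hl
        have hl' : l ≠ n + 1 := by
          have := Finset.mem_range.mp hl
          omega
        have : cA l = cB l + b l := by simp only [cA, if_neg hl']
        rw [this, map_add]
        ring
      have h3 : cA (n + 1) = b (n + 1) := by simp only [cA, if_pos]
      rw [h1, h3]
      linear_combination hrel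
    rw [hz, map_zero, zero_add] at hA00
    rw [map_zero, zero_add] at hB00
    have hcAn : cA (n + 1) = b (n + 1) := by simp only [cA, if_pos]
    have hcBn : cB n = y := by simp only [cB, if_pos]
    rw [hcAn] at hA10 hA00
    rw [hcBn] at hB10 hB00
    have hLM : lam ^ 2 ^ n * mu ^ 2 ^ n = 1 := by rw [← mul_pow, hlm, one_pow]
    have hyy : algebraMap k 𝒜 y * algebraMap k 𝒜 y⁻¹ = 1 := by
      rw [← map_mul, mul_inv_cancel₀ hy0, map_one]
    refine ⟨gB⁻¹ * gA, (XX k lam).mul_mem ((XX k lam).inv_mem hgB) hgA, ?_, ?_⟩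
    · rw [mul_entry, inv_10, inv_11, hA00, hB00, hA10, hB10]
      ring
    · have hd := det_eq gB
      rw [hB00, hB10] at hd
      rw [mul_entry, inv_00, inv_01, hA00, hA10, map_mul, pow_succ 2 n, pow_mul]
      obtain ⟨S, hS⟩ : ∃ S, S = ∑ l ∈ Finset.range (n + 1), algebraMap k 𝒜 (cB l) * mu ^ 2 ^ l :=
        ⟨_, rfl⟩
      rw [← hS] at hd ⊢
      linear_combination (algebraMap k 𝒜 (b (n + 1))⁻¹ * lam ^ 2 ^ n * algebraMap k 𝒜 y) * hd -
        (algebraMap k 𝒜 (b (n + 1))⁻¹ * lam ^ 2 ^ n * lam ^ 2 ^ n *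
          (S * ⟪gB⟫ 1 1 - ⟪gB⟫ 0 1)) * hyy

/-- A value avoiding three given elements. -/
theorem exists_ne3 (htwo : (2 : k) ≠ 0) (ha : ∃ a : k, a ≠ 0 ∧ a ^ 2 ≠ 1) (x1 x2 x3 : k) :
    ∃ y : k, y ≠ x1 ∧ y ≠ x2 ∧ y ≠ x3 := by
  classical
  obtain ⟨a, ha0, ha2⟩ := ha
  have h01 : (0 : k) ≠ 1 := zero_ne_one
  have h0m : (0 : k) ≠ -1 := fun h => h01 (by linear_combination -h)
  have h1m : (1 : k) ≠ -1 := fun h => htwo (by linear_combination h)
  have ha1 : a ≠ 1 := fun h => ha2 (by rw [h]; ring)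
  have ham : a ≠ -1 := fun h => ha2 (by rw [h]; ring)
  have hcard : ({x1, x2, x3} : Finset k).card < ({0, 1, -1, a} : Finset k).card := by
    have h4 : ({0, 1, -1, a} : Finset k).card = 4 := by
      rw [Finset.card_insert_of_notMem, Finset.card_insert_of_notMem,
        Finset.card_insert_of_notMem, Finset.card_singleton]
      · simp only [Finset.mem_singleton]
        exact fun h => ham h.symm
      · simp only [Finset.mem_insert, Finset.mem_singleton, not_or]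
        exact ⟨h1m, fun h => ha1 h.symm⟩
      · simp only [Finset.mem_insert, Finset.mem_singleton, not_or]
        exact ⟨h01, h0m, fun h => ha0 h.symm⟩
    rw [h4]
    exact lt_of_le_of_lt Finset.card_le_three (by norm_num)
  obtain ⟨y, _, hy⟩ := Finset.exists_mem_notMem_of_card_lt_card hcard
  simp only [Finset.mem_insert, Finset.mem_singleton, not_or] at hy
  exact ⟨y, hy.1, hy.2.1, hy.2.2⟩

variable {lam} in
/-- An upper triangular element of `X` with diagonal entry in `k` whose square is not `1`. -/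
theorem exists_diag (htwo : (2 : k) ≠ 0) (ha : ∃ a : k, a ≠ 0 ∧ a ^ 2 ≠ 1) [Module.Finite k 𝒜]
    [Nontrivial 𝒜] {mu : 𝒜} (hlm : lam * mu = 1) :
    ∃ s : k, s ≠ 0 ∧ s ^ 2 ≠ 1 ∧ ∃ h ∈ XX k lam, ⟪h⟫ 1 0 = 0 ∧ ⟪h⟫ 0 0 = algebraMap k 𝒜 s := by
  obtain ⟨n, b0, b1, hb1, H⟩ := exists_upper k htwo hlm
  obtain ⟨a, ha0, ha2⟩ := ha
  obtain ⟨y, hy1, hy2, hy3⟩ := exists_ne3 k htwo ⟨a, ha0, ha2⟩ 0 (-b0) (-b0 * a⁻¹)
  have hyb : y + b0 ≠ 0 := fun h => hy2 (by linear_combination h)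
  have hay : a * y ≠ 0 := mul_ne_zero ha0 hy1
  have hayb : a * y + b0 ≠ 0 := by
    intro h
    apply hy3
    field_simp
    linear_combination h
  obtain ⟨h1, hh1, h110, h100⟩ := H y hy1 hyb
  obtain ⟨h2, hh2, h210, h200⟩ := H (a * y) hay hayb
  refine ⟨a, ha0, ha2, h2 * h1⁻¹, (XX k lam).mul_mem hh2 ((XX k lam).inv_mem hh1), ?_, ?_⟩
  · rw [mul_entry, inv_00, inv_10, h210, h110]
    ring
  · have hd := det_eq h1
    rw [h110, h100] at hd
    rw [mul_entry, inv_00, inv_10, h200, h110, mul_assoc a y, map_mul]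
    linear_combination (algebraMap k 𝒜 a) * hd

variable {lam} in
/-- Iterated commutators producing the two root groups scaled by a nonzero element of `k`. -/
theorem exists_comr (htwo : (2 : k) ≠ 0) (ha : ∃ a : k, a ≠ 0 ∧ a ^ 2 ≠ 1) [Module.Finite k 𝒜]
    [Nontrivial 𝒜] {mu : 𝒜} (hlm : lam * mu = 1) :
    ∃ s : k, s ≠ 0 ∧ ∃ h ∈ XX k lam, ∃ h' ∈ XX k lam, ∀ (r : ℕ) (c : k),
      comr h r (uu (algebraMap k 𝒜 c)) = uu (algebraMap k 𝒜 (s ^ r * c)) ∧
      comr h' r (ll (algebraMap k 𝒜 c * lam)) = ll (algebraMap k 𝒜 (s ^ r * c) * lam) := by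
  obtain ⟨a, ha0, ha2, h, hh, h10, h00⟩ := exists_diag k htwo ha hlm
  refine ⟨a ^ 2 - 1, sub_ne_zero.mpr ha2, h, hh, nuHom lam mu hlm h, nu_mem k hlm hh, ?_⟩
  intro r c
  have key : ∀ c : k, comr h r (uu (algebraMap k 𝒜 c)) =
      uu (algebraMap k 𝒜 ((a ^ 2 - 1) ^ r * c)) := by
    intro c
    rw [comr_uu h h10, h00]
    congr 1
    simp only [map_mul, map_pow, map_sub, map_one]
  refine ⟨key c, ?_⟩
  have h1 : ll (algebraMap k 𝒜 c * lam) = nuHom lam mu hlm (uu (algebraMap k 𝒜 (-c))) := by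
    rw [nuHom_uu, map_neg]
    congr 1
    ring
  rw [h1, ← map_comr, key, nuHom_uu]
  congr 1
  simp only [map_mul, map_neg]
  ring

end Cfsg.Agent.Helper5.SLRing
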