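import Cfsg.Agent.Helper5.SLRingB

set_option autoImplicit false

/-! The subgroup `⟨U(k), L(kλ)⟩` of `SL₂(𝒜)`: quadratic descent when the nonzero elements of the
stabiliser ring are units (ring version of `SLAlgD`), including the corner case `k = F₅`. -/

namespace Cfsg.Agent.Helper5.SLRing

open Matrix

variable {𝒜 : Type*} [CommRing 𝒜] (k : Type*) [Field k] [Algebra k 𝒜] (lam : 𝒜)

local notation:max "⟪" g "⟫" => ((g : SpecialLinearGroup (Fin 2) 𝒜) : Matrix (Fin 2) (Fin 2) 𝒜)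

theorem cj_mul (τ : 𝒜) (g h : SpecialLinearGroup (Fin 2) 𝒜) :
    uu τ * (g * h) * uu (-τ) = (uu τ * g * uu (-τ)) * (uu τ * h * uu (-τ)) := by
  rw [← uu_inv]
  group

theorem cj_uu (τ t : 𝒜) : uu τ * uu t * uu (-τ) = uu t := by
  rw [uu_add, uu_add]
  congr 1
  ring

theorem word_11 (s1 t1 s2 t2 : 𝒜) :
    ⟪ll s1 * uu t1 * ll s2 * uu t2⟫ 1 1 = 1 + s1 * t1 + s1 * t2 + s2 * t2 + s1 * t1 * s2 * t2 := by
  simp [mul_entry]; ring

theorem word_01 (s1 t1 s2 t2 : 𝒜) :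
    ⟪ll s1 * uu t1 * ll s2 * uu t2⟫ 0 1 = t1 + t2 + t1 * s2 * t2 := by
  simp [mul_entry]; ring

/-- The basic consequence of a word with vanishing `(1,1)` entry. -/
theorem key_word (τ ρ : 𝒜) (w : SpecialLinearGroup (Fin 2) 𝒜) (hw11 : ⟪w⟫ 1 1 = 0)
    (hW : uu τ * w * uu (-τ) ∈ XX k lam)
    (hP : ∀ t, uu t ∈ XX k lam → uu τ * ll (ρ * t) * uu (-τ) ∈ XX k lam) :
    -(⟪w⟫ 0 1) ^ 2 * ρ ∈ Lam k lam := by
  intro t ht
  have h5 := (XX k lam).mul_mem ((XX k lam).mul_mem hW (hP t ht)) ((XX k lam).inv_mem hW)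
  have e2 : uu τ * w * uu (-τ) * (uu τ * ll (ρ * t) * uu (-τ)) * (uu τ * w * uu (-τ))⁻¹ =
      uu (-(⟪w⟫ 0 1) ^ 2 * ρ * t) := by
    have e3 : uu (-τ) = (uu τ)⁻¹ := (uu_inv τ).symm
    rw [e3]
    have e4 : uu τ * w * (uu τ)⁻¹ * (uu τ * ll (ρ * t) * (uu τ)⁻¹) *
        (uu τ * w * (uu τ)⁻¹)⁻¹ = uu τ * (w * ll (ρ * t) * w⁻¹) * (uu τ)⁻¹ := by group
    rw [e4, conj_ll_of_d0 w hw11, uu_inv, uu_add, uu_add]
    congr 1
    ring
  rw [e2] at h5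
  exact h5

/-- Generic quadratic descent with a four letter word. -/
theorem descent4 (hU : ∀ l ∈ Lam k lam, l ≠ 0 → ∃ l' ∈ Lam k lam, l * l' = 1)
    (a' a'' : 𝒜) (ha' : a' ∈ Lam k lam) (ha'' : a'' ∈ Lam k lam) (haa : a' * a'' = 1)
    (τ ρ ρ' : 𝒜) (hρ : ρ * ρ' = 1) (hρ2 : ρ ^ 2 ∈ Lam k lam)
    (hne1 : a' ^ 2 * ρ ^ 2 - 1 ≠ 0) (hne2 : a' ^ 2 * ρ ^ 2 + 1 ≠ 0)
    (hP : ∀ t, uu t ∈ XX k lam → uu τ * ll (ρ * t) * uu (-τ) ∈ XX k lam) : ρ ∈ Lam k lam := by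
  have hθ0 : ρ ^ 2 ≠ 0 := by
    intro h
    apply hne1
    have h1 : (1 : 𝒜) = 0 := by linear_combination (ρ' ^ 2) * h - (ρ * ρ' + 1) * hρ
    linear_combination (a' ^ 2 * ρ ^ 2 - 1) * h1
  obtain ⟨θ', hθ'Λ, hθθ'⟩ := hU _ hρ2 hθ0
  obtain ⟨b, hb⟩ : ∃ b : 𝒜, b = -(a'' * θ') := ⟨_, rfl⟩
  obtain ⟨e, he⟩ : ∃ e : 𝒜, e = -a' - b := ⟨_, rfl⟩
  have hbΛ : b ∈ Lam k lam := by
    rw [hb]
    exact neg_mem (mul_mem ha'' hθ'Λ)
  have heΛ : e ∈ Lam k lam := by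
    rw [he]
    exact sub_mem (neg_mem ha') hbΛ
  have habθ : a' * b * ρ ^ 2 = -1 := by
    rw [hb]
    linear_combination (-(ρ ^ 2 * θ')) * haa - hθθ'
  have he0 : e ≠ 0 := by
    intro h
    apply hne1
    have h5 : b = -a' := by
      rw [he] at h
      linear_combination -h
    rw [h5] at habθ
    linear_combination -habθ
  obtain ⟨e', he'Λ, hee'⟩ := hU _ heΛ he0
  obtain ⟨d, hd⟩ : ∃ d : 𝒜, d = b * e' := ⟨_, rfl⟩
  have hdΛ : d ∈ Lam k lam := by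
    rw [hd]
    exact mul_mem hbΛ he'Λ
  have hde : d * e = b := by
    rw [hd]
    linear_combination b * hee'
  have hsum : a' + e + b = 0 := by
    rw [he]
    ring
  obtain ⟨w, hw⟩ : ∃ w : SpecialLinearGroup (Fin 2) 𝒜,
      w = ll ρ * uu a' * ll (ρ * d) * uu e := ⟨_, rfl⟩
  have hw11 : ⟪w⟫ 1 1 = 0 := by
    rw [hw, word_11]
    linear_combination ρ * hsum + (ρ + a' * ρ ^ 2) * hde + habθ
  have hw01 : ⟪w⟫ 0 1 = b * (a' * ρ - 1) := by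
    rw [hw, word_01]
    linear_combination hsum + a' * ρ * hde
  have hW : uu τ * w * uu (-τ) ∈ XX k lam := by
    rw [hw, cj_mul, cj_mul, cj_mul, cj_uu, cj_uu]
    have h7 := hP 1 (uu_one_mem k lam)
    rw [mul_one] at h7
    exact (XX k lam).mul_mem ((XX k lam).mul_mem ((XX k lam).mul_mem h7
      (uu_mem_of_Lam k lam ha')) (hP d (uu_mem_of_Lam k lam hdΛ))) (uu_mem_of_Lam k lam heΛ)
  have key := key_word k lam τ ρ w hw11 hW hP
  have h6 : (b * (a' * ρ - 1)) ^ 2 * ρ ∈ Lam k lam := by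
    have := neg_mem key
    rw [hw01] at this
    convert this using 1
    ring
  have hbinv : b * (-(a' * ρ ^ 2)) = 1 := by linear_combination -habθ
  have hbinvΛ : -(a' * ρ ^ 2) ∈ Lam k lam := neg_mem (mul_mem ha' hρ2)
  have hcΛ : a' ^ 2 * ρ ^ 2 + 1 ∈ Lam k lam := add_mem (mul_mem (pow_mem ha' 2) hρ2) (one_mem _)
  obtain ⟨c', hc'Λ, hcc'⟩ := hU _ hcΛ hne2
  have h7 : (a' ^ 2 * ρ ^ 2 + 1) * ρ = (b * (a' * ρ - 1)) ^ 2 * ρ * (-(a' * ρ ^ 2)) ^ 2 +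
      (a' * ρ ^ 2 + a' * ρ ^ 2) := by
    linear_combination (-((a' * ρ - 1) ^ 2 * ρ * (b * (-(a' * ρ ^ 2)) + 1))) * hbinv
  have h8 : (a' ^ 2 * ρ ^ 2 + 1) * ρ ∈ Lam k lam := by
    rw [h7]
    exact add_mem (mul_mem h6 (pow_mem hbinvΛ 2)) (add_mem (mul_mem ha' hρ2) (mul_mem ha' hρ2))
  have h9 : ρ = c' * ((a' ^ 2 * ρ ^ 2 + 1) * ρ) := by linear_combination (-ρ) * hcc'
  rw [h9]
  exact mul_mem hc'Λ h8

theorem uu_two_mem : uu (2 : 𝒜) ∈ XX k lam := by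
  have := uu_mem k lam 2
  rwa [map_ofNat] at this

theorem uu_four_mem : uu (4 : 𝒜) ∈ XX k lam := by
  have := uu_mem k lam 4
  rwa [map_ofNat] at this

/-- The corner case `5 = 0`, `ρ² = 1`. -/
theorem descent6a (h5 : (5 : 𝒜) = 0) (τ ρ : 𝒜) (hρ : ρ ^ 2 = 1)
    (hP : ∀ t, uu t ∈ XX k lam → uu τ * ll (ρ * t) * uu (-τ) ∈ XX k lam) : ρ ∈ Lam k lam := by
  obtain ⟨w, hw⟩ : ∃ w : SpecialLinearGroup (Fin 2) 𝒜,
      w = ll ρ * uu 1 * ll ρ * uu 2 * ll ρ * uu 2 := ⟨_, rfl⟩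
  have hw11 : ⟪w⟫ 1 1 = 0 := by
    rw [hw]
    simp [mul_entry]
    linear_combination (14 + 4 * ρ) * hρ + (3 + 3 * ρ) * h5
  have hw01 : ⟪w⟫ 0 1 = 4 := by
    rw [hw]
    simp [mul_entry]
    linear_combination (4 : 𝒜) * hρ + (1 + 2 * ρ) * h5
  have h7 := hP 1 (uu_one_mem k lam)
  rw [mul_one] at h7
  have hW : uu τ * w * uu (-τ) ∈ XX k lam := by
    rw [hw]
    simp only [cj_mul, cj_uu]
    exact (XX k lam).mul_mem ((XX k lam).mul_mem ((XX k lam).mul_mem ((XX k lam).mul_mem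
      ((XX k lam).mul_mem h7 (uu_one_mem k lam)) h7) (uu_two_mem k lam)) h7) (uu_two_mem k lam)
  have key := key_word k lam τ ρ w hw11 hW hP
  rw [hw01] at key
  have h9 : ρ = -(-(4 : 𝒜) ^ 2 * ρ) := by linear_combination (-(3 * ρ)) * h5
  rw [h9]
  exact neg_mem key

/-- The corner case `5 = 0`, `ρ² = -1`. -/
theorem descent6b (h5 : (5 : 𝒜) = 0) (τ ρ : 𝒜) (hρ : ρ ^ 2 = -1)
    (hP : ∀ t, uu t ∈ XX k lam → uu τ * ll (ρ * t) * uu (-τ) ∈ XX k lam) : ρ ∈ Lam k lam := by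
  obtain ⟨w, hw⟩ : ∃ w : SpecialLinearGroup (Fin 2) 𝒜,
      w = ll ρ * uu 1 * ll ρ * uu 2 * ll (ρ * 2) * uu 4 := ⟨_, rfl⟩
  have hw11 : ⟪w⟫ 1 1 = 0 := by
    rw [hw]
    simp [mul_entry]
    linear_combination (46 + 16 * ρ) * hρ + (-9 + ρ) * h5
  have hw01 : ⟪w⟫ 0 1 = 1 := by
    rw [hw]
    simp [mul_entry]
    linear_combination (16 : 𝒜) * hρ + (-2 + 6 * ρ) * h5
  have h7 := hP 1 (uu_one_mem k lam)
  rw [mul_one] at h7
  have hW : uu τ * w * uu (-τ) ∈ XX k lam := by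
    rw [hw]
    simp only [cj_mul, cj_uu]
    exact (XX k lam).mul_mem ((XX k lam).mul_mem ((XX k lam).mul_mem ((XX k lam).mul_mem
      ((XX k lam).mul_mem h7 (uu_one_mem k lam)) h7) (uu_two_mem k lam))
      (hP 2 (uu_two_mem k lam))) (uu_four_mem k lam)
  have key := key_word k lam τ ρ w hw11 hW hP
  rw [hw01] at key
  have h9 : ρ = -(-(1 : 𝒜) ^ 2 * ρ) := by ring
  rw [h9]
  exact neg_mem key

/-- If every nonzero fourth power in `k` is `1` (and `k` is neither of characteristic two nor of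
order three), then `5 = 0` in `k`. -/
theorem five_eq_zero (htwo : (2 : k) ≠ 0) (ha : ∃ a : k, a ≠ 0 ∧ a ^ 2 ≠ 1)
    (h4 : ∀ a : k, a ≠ 0 → a ^ 4 = 1) : (5 : k) = 0 := by
  have h2 := h4 2 htwo
  have h15 : (3 : k) * 5 = 0 := by linear_combination h2
  rcases mul_eq_zero.mp h15 with h3 | h5
  · obtain ⟨a, ha0, ha2⟩ := ha
    have h6 := h4 a ha0
    have h7 : (a ^ 2 - 1) * (a ^ 2 + 1) = 0 := by linear_combination h6
    have h8 : a ^ 2 = -1 := by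
      rcases mul_eq_zero.mp h7 with h | h
      · exact absurd (by linear_combination h) ha2
      · linear_combination h
    have h9 : a + 1 ≠ 0 := by
      intro h
      apply ha2
      have : a = -1 := by linear_combination h
      rw [this]
      ring
    have h10 := h4 (a + 1) h9
    linear_combination (-1 : k) * h10 + (a ^ 2 + 4 * a + 5) * h8
  · exact h5

end Cfsg.Agent.Helper5.SLRing
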