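import Mathlib
import Cfsg.Prelude.Def_Classical
import Cfsg.Prelude.Def_ClassicalGeometry
import Cfsg.Agent.Helper5.OrthOdd

/-!
# `SO₃(3) ≅ S₄` (helper5)

The symmetric group `S₄` acts on the sum-zero hyperplane `W` of `F⁴` (`|F| = 3`), on which minus
the dot product is the form `x₀² + x₁ x₂` in a suitable basis `B`.  With `N σ = A P_σ B`
(`A B = 1`, `B A = 1 - J`) the map `σ ↦ det (N σ) • N σ` is an injective homomorphism
`S₄ → SO₃(F)`, and `|SO₃(F)| = 24`.
-/

set_option autoImplicit false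

namespace Cfsg.Agent.Helper5.SO3S4

open Cfsg

variable {F : Type*} [Field F]

/-- The basis matrix `B` (columns in the sum-zero hyperplane). -/
def bMat (F : Type*) [Field F] : Matrix (Fin 4) (Unit ⊕ (Fin 1 ⊕ Fin 1)) F := Matrix.of fun i k =>
  match k with
  | .inl _ => (![0, 1, -1, 0] : Fin 4 → F) i
  | .inr (.inl _) => (![1, 1, 1, 0] : Fin 4 → F) i
  | .inr (.inr _) => (![0, -1, -1, -1] : Fin 4 → F) i

/-- The coordinate matrix `A`. -/
def aMat (F : Type*) [Field F] : Matrix (Unit ⊕ (Fin 1 ⊕ Fin 1)) (Fin 4) F := Matrix.of fun k i =>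
  match k with
  | .inl _ => (![0, -1, 1, 0] : Fin 4 → F) i
  | .inr (.inl _) => (![0, -1, -1, -1] : Fin 4 → F) i
  | .inr (.inr _) => (![1, 1, 1, 0] : Fin 4 → F) i

/-- The all-ones matrix. -/
def jMat (F : Type*) [Field F] : Matrix (Fin 4) (Fin 4) F := Matrix.of fun _ _ => 1

/-- The permutation matrix of `σ`. -/
def pMat (F : Type*) [Field F] (σ : Equiv.Perm (Fin 4)) : Matrix (Fin 4) (Fin 4) F :=
  Matrix.of fun i j => if j = σ⁻¹ i then 1 else 0

theorem aMat_mul_bMat (h3 : (3 : F) = 0) : aMat F * bMat F = 1 := by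
  ext k l
  rcases k with ⟨⟩ | k | k <;> rcases l with ⟨⟩ | l | l <;>
    simp [Matrix.mul_apply, Fin.sum_univ_four, aMat, bMat, Matrix.one_apply,
      eq_iff_true_of_subsingleton] <;>
    first
    | linear_combination (-1 : F) * h3
    | linear_combination h3

theorem bMat_mul_aMat (h3 : (3 : F) = 0) : bMat F * aMat F = 1 - jMat F := by
  ext i j
  fin_cases i <;> fin_cases j <;>
    simp [Matrix.mul_apply, aMat, bMat, jMat] <;>
    linear_combination (-1 : F) * h3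

theorem jMat_mul_bMat (h3 : (3 : F) = 0) : jMat F * bMat F = 0 := by
  ext i k
  rcases k with ⟨⟩ | k | k <;>
    simp [Matrix.mul_apply, Fin.sum_univ_four, jMat, bMat] <;>
    first
    | linear_combination (-1 : F) * h3
    | linear_combination h3

theorem quad_eq (h3 : (3 : F) = 0) (v : Unit ⊕ (Fin 1 ⊕ Fin 1) → F) :
    quadFormOdd 1 F v = -((bMat F).mulVec v ⬝ᵥ (bMat F).mulVec v) := by
  unfold quadFormOdd
  simp [dotProduct, Matrix.mulVec, Fin.sum_univ_four, bMat]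
  linear_combination (v (.inl ()) ^ 2 + v (.inr (.inl 0)) ^ 2 + v (.inr (.inr 0)) ^ 2 -
    v (.inr (.inl 0)) * v (.inr (.inr 0))) * h3

theorem pMat_one : pMat F 1 = 1 := by
  ext i j
  simp [pMat, Matrix.one_apply, eq_comm]

theorem pMat_mul (σ τ : Equiv.Perm (Fin 4)) : pMat F (σ * τ) = pMat F σ * pMat F τ := by
  ext i j
  simp only [pMat, Matrix.mul_apply, Matrix.of_apply, mul_inv_rev, Equiv.Perm.mul_apply]
  rw [Finset.sum_eq_single (σ⁻¹ i)]
  · simp
  · intro b _ hb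
    rw [if_neg hb, zero_mul]
  · intro h; exact absurd (Finset.mem_univ _) h

theorem jMat_mul_pMat (τ : Equiv.Perm (Fin 4)) : jMat F * pMat F τ = jMat F := by
  ext i j
  simp only [jMat, pMat, Matrix.mul_apply, Matrix.of_apply, one_mul]
  rw [Finset.sum_eq_single (τ j)]
  · simp
  · intro b _ hb
    rw [if_neg]
    intro h
    apply hb
    rw [h]; simp
  · intro h; exact absurd (Finset.mem_univ _) h

theorem pMat_mulVec (σ : Equiv.Perm (Fin 4)) (w : Fin 4 → F) (i : Fin 4) :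
    (pMat F σ).mulVec w i = w (σ⁻¹ i) := by
  simp [pMat, Matrix.mulVec, dotProduct]

theorem pMat_dot (σ : Equiv.Perm (Fin 4)) (w : Fin 4 → F) :
    (pMat F σ).mulVec w ⬝ᵥ (pMat F σ).mulVec w = w ⬝ᵥ w := by
  simp only [dotProduct, pMat_mulVec]
  exact Equiv.sum_comp σ⁻¹ (fun i => w i * w i)

/-- `N σ = A P_σ B`. -/
def nMat (F : Type*) [Field F] (σ : Equiv.Perm (Fin 4)) :
    Matrix (Unit ⊕ (Fin 1 ⊕ Fin 1)) (Unit ⊕ (Fin 1 ⊕ Fin 1)) F :=
  aMat F * pMat F σ * bMat F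

theorem nMat_one (h3 : (3 : F) = 0) : nMat F 1 = 1 := by
  rw [nMat, pMat_one, Matrix.mul_one, aMat_mul_bMat h3]

theorem bMat_mul_nMat (h3 : (3 : F) = 0) (σ : Equiv.Perm (Fin 4)) :
    bMat F * nMat F σ = pMat F σ * bMat F := by
  rw [nMat, ← Matrix.mul_assoc, ← Matrix.mul_assoc, bMat_mul_aMat h3, Matrix.sub_mul,
    Matrix.sub_mul, Matrix.one_mul, jMat_mul_pMat, jMat_mul_bMat h3, sub_zero]

theorem nMat_mul (h3 : (3 : F) = 0) (σ τ : Equiv.Perm (Fin 4)) :
    nMat F (σ * τ) = nMat F σ * nMat F τ := by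
  calc nMat F (σ * τ) = aMat F * (pMat F σ * (pMat F τ * bMat F)) := by
        rw [nMat, pMat_mul]; simp only [Matrix.mul_assoc]
    _ = aMat F * (pMat F σ * (bMat F * nMat F τ)) := by rw [bMat_mul_nMat h3]
    _ = (aMat F * pMat F σ * bMat F) * nMat F τ := by simp only [Matrix.mul_assoc]
    _ = nMat F σ * nMat F τ := rfl

theorem quad_nMat (h3 : (3 : F) = 0) (σ : Equiv.Perm (Fin 4))
    (v : Unit ⊕ (Fin 1 ⊕ Fin 1) → F) :
    quadFormOdd 1 F ((nMat F σ).mulVec v) = quadFormOdd 1 F v := by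
  rw [quad_eq h3, quad_eq h3, Matrix.mulVec_mulVec, bMat_mul_nMat h3, ← Matrix.mulVec_mulVec,
    pMat_dot]

theorem quad_smul (c : F) (v : Unit ⊕ (Fin 1 ⊕ Fin 1) → F) :
    quadFormOdd 1 F (c • v) = c * c * quadFormOdd 1 F v := by
  unfold quadFormOdd
  simp
  ring

/-- The twisted matrix `det (N σ) • N σ`. -/
def rhoMat (F : Type*) [Field F] (σ : Equiv.Perm (Fin 4)) :
    Matrix (Unit ⊕ (Fin 1 ⊕ Fin 1)) (Unit ⊕ (Fin 1 ⊕ Fin 1)) F :=
  (nMat F σ).det • nMat F σ

theorem rhoMat_one (h3 : (3 : F) = 0) : rhoMat F 1 = 1 := by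
  rw [rhoMat, nMat_one h3, Matrix.det_one, one_smul]

theorem rhoMat_mul (h3 : (3 : F) = 0) (σ τ : Equiv.Perm (Fin 4)) :
    rhoMat F (σ * τ) = rhoMat F σ * rhoMat F τ := by
  rw [rhoMat, rhoMat, rhoMat, nMat_mul h3, Matrix.det_mul, Matrix.smul_mul, Matrix.mul_smul,
    smul_smul]

theorem det_nMat_ne_zero (h3 : (3 : F) = 0) (σ : Equiv.Perm (Fin 4)) : (nMat F σ).det ≠ 0 := by
  intro h
  have h1 : (nMat F σ).det * (nMat F σ⁻¹).det = 1 := by
    rw [← Matrix.det_mul, ← nMat_mul h3, mul_inv_cancel, nMat_one h3, Matrix.det_one]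
  rw [h, zero_mul] at h1
  exact zero_ne_one h1

theorem row_unique (h3 : (3 : F) = 0) {c : F} (hc : c = 1 ∨ c = -1) {i i' : Fin 4}
    (h : ∀ k, c * bMat F i' k = bMat F i k) : i' = i := by
  have h10 : (1 : F) ≠ 0 := one_ne_zero
  have h11 : (1 : F) ≠ -1 := by
    intro h'
    apply h10
    linear_combination h3 - h'
  have h11' : (-1 : F) ≠ 1 := fun h' => h11 h'.symm
  have h0 := h (.inl ())
  have h1 := h (.inr (.inl 0))
  have h2 := h (.inr (.inr 0))
  rcases hc with rfl | rfl <;> fin_cases i <;> fin_cases i' <;>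
    simp [bMat, h11, h11'] at h0 h1 h2 ⊢

theorem rhoMat_injective (h3 : (3 : F) = 0) (hsq : ∀ x : F, x ≠ 0 → x * x = 1)
    {σ : Equiv.Perm (Fin 4)} (h : rhoMat F σ = 1) : σ = 1 := by
  obtain ⟨c, hc⟩ : ∃ c, c = (nMat F σ).det := ⟨_, rfl⟩
  have hcc : c * c = 1 := by rw [hc]; exact hsq _ (det_nMat_ne_zero h3 σ)
  have hc1 : c = 1 ∨ c = -1 := by
    have : (c - 1) * (c + 1) = 0 := by linear_combination hcc
    rcases mul_eq_zero.mp this with h' | h'
    · left; linear_combination h'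
    · right; linear_combination h'
  have h1 : c • (pMat F σ * bMat F) = bMat F := by
    rw [← bMat_mul_nMat h3, ← Matrix.mul_smul, hc]
    have : (nMat F σ).det • nMat F σ = 1 := h
    rw [this, Matrix.mul_one]
  have h2 : ∀ i k, c * bMat F (σ⁻¹ i) k = bMat F i k := by
    intro i k
    have := congrFun (congrFun h1 i) k
    rw [Matrix.smul_apply, smul_eq_mul, Matrix.mul_apply] at this
    rw [← this]
    congr 1
    simp [pMat]
  have h3' : ∀ i, σ⁻¹ i = i := fun i => row_unique h3 hc1 (h2 i)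
  have h4 : σ⁻¹ = 1 := Equiv.ext h3'
  rw [← inv_inv σ, h4, inv_one]

theorem card_index3 : Fintype.card (Unit ⊕ (Fin 1 ⊕ Fin 1)) = 3 := by
  simp

theorem det_rhoMat (h3 : (3 : F) = 0) (hsq : ∀ x : F, x ≠ 0 → x * x = 1)
    (σ : Equiv.Perm (Fin 4)) : (rhoMat F σ).det = 1 := by
  have hcc := hsq _ (det_nMat_ne_zero h3 σ)
  rw [rhoMat, Matrix.det_smul, card_index3]
  calc (nMat F σ).det ^ 3 * (nMat F σ).det
      = ((nMat F σ).det * (nMat F σ).det) * ((nMat F σ).det * (nMat F σ).det) := by ring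
    _ = 1 := by rw [hcc, one_mul]

theorem quad_rhoMat (h3 : (3 : F) = 0) (hsq : ∀ x : F, x ≠ 0 → x * x = 1)
    (σ : Equiv.Perm (Fin 4)) (v : Unit ⊕ (Fin 1 ⊕ Fin 1) → F) :
    quadFormOdd 1 F ((rhoMat F σ).mulVec v) = quadFormOdd 1 F v := by
  rw [rhoMat, Matrix.smul_mulVec, quad_smul, hsq _ (det_nMat_ne_zero h3 σ), one_mul,
    quad_nMat h3]

section final

variable [Fintype F]

theorem three_eq_zero (hF : Fintype.card F = 3) : (3 : F) = 0 := by
  have := Nat.cast_card_eq_zero F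
  rw [hF] at this
  exact_mod_cast this

theorem sq_eq_one (hF : Fintype.card F = 3) (x : F) (hx : x ≠ 0) : x * x = 1 := by
  have h := FiniteField.pow_card x
  rw [hF] at h
  have h' : x * (x * x - 1) = 0 := by linear_combination h
  rcases mul_eq_zero.mp h' with h'' | h''
  · exact absurd h'' hx
  · linear_combination h''

/-- The matrix homomorphism `S₄ → M₃(F)`. -/
def rhoHom (hF : Fintype.card F = 3) :
    Equiv.Perm (Fin 4) →* Matrix (Unit ⊕ (Fin 1 ⊕ Fin 1)) (Unit ⊕ (Fin 1 ⊕ Fin 1)) F where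
  toFun := rhoMat F
  map_one' := rhoMat_one (three_eq_zero hF)
  map_mul' := rhoMat_mul (three_eq_zero hF)

/-- The homomorphism `S₄ → O₃(F)`. -/
def rhoIso (hF : Fintype.card F = 3) :
    Equiv.Perm (Fin 4) →* isometryGroup F (quadFormOdd 1 F) :=
  (rhoHom hF).toHomUnits.codRestrict _ (fun σ => by
    intro u _
    exact quad_rhoMat (three_eq_zero hF) (sq_eq_one hF) σ u)

theorem rhoIso_coe (hF : Fintype.card F = 3) (σ : Equiv.Perm (Fin 4)) :
    (((rhoIso hF σ : isometryGroup F (quadFormOdd 1 F)) :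
      Matrix.GeneralLinearGroup (Unit ⊕ (Fin 1 ⊕ Fin 1)) F) :
      Matrix (Unit ⊕ (Fin 1 ⊕ Fin 1)) (Unit ⊕ (Fin 1 ⊕ Fin 1)) F) = rhoMat F σ := rfl

/-- The homomorphism `S₄ → SO₃(F)`. -/
def rhoSO (hF : Fintype.card F = 3) :
    Equiv.Perm (Fin 4) →* specialIsometryGroup F (quadFormOdd 1 F) :=
  (rhoIso hF).codRestrict _ (fun σ => by
    show (Matrix.GeneralLinearGroup.det.comp (isometryGroup F (quadFormOdd 1 F)).subtype)
      (rhoIso hF σ) = 1
    apply Units.ext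
    exact det_rhoMat (three_eq_zero hF) (sq_eq_one hF) σ)

theorem rhoSO_injective (hF : Fintype.card F = 3) : Function.Injective (rhoSO hF) := by
  rw [injective_iff_map_eq_one]
  intro σ h
  apply rhoMat_injective (three_eq_zero hF) (sq_eq_one hF)
  have h1 : (((rhoSO hF σ : specialIsometryGroup F (quadFormOdd 1 F)) :
      isometryGroup F (quadFormOdd 1 F)) :
      Matrix.GeneralLinearGroup (Unit ⊕ (Fin 1 ⊕ Fin 1)) F) = 1 := by
    rw [h]; rfl
  have h2 := congrArg (fun g : Matrix.GeneralLinearGroup (Unit ⊕ (Fin 1 ⊕ Fin 1)) F =>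
    (g : Matrix (Unit ⊕ (Fin 1 ⊕ Fin 1)) (Unit ⊕ (Fin 1 ⊕ Fin 1)) F)) h1
  exact h2

/-- Minus the identity as an isometry. -/
def negIso (F : Type*) [Field F] : isometryGroup F (quadFormOdd 1 F) :=
  ⟨-1, by
    intro u _
    show quadFormOdd 1 F (((-1 : (Matrix (Unit ⊕ (Fin 1 ⊕ Fin 1)) (Unit ⊕ (Fin 1 ⊕ Fin 1)) F)ˣ) :
      Matrix (Unit ⊕ (Fin 1 ⊕ Fin 1)) (Unit ⊕ (Fin 1 ⊕ Fin 1)) F).mulVec u) = quadFormOdd 1 F u
    rw [Units.val_neg, Units.val_one, Matrix.neg_mulVec, Matrix.one_mulVec]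
    unfold quadFormOdd
    simp⟩

theorem card_SO3 (hF : Fintype.card F = 3) :
    Nat.card (specialIsometryGroup F (quadFormOdd 1 F)) = 24 := by
  have h3 := three_eq_zero hF
  have h48 : Nat.card (isometryGroup F (quadFormOdd 1 F)) = 48 := by
    have := Cfsg.Agent.Helper5.card_GO_odd (F := F) (by rw [hF]; decide) 1
    rw [this, hF]
    norm_num [Finset.prod_range_one]
  obtain ⟨φ, hφ⟩ : ∃ φ : isometryGroup F (quadFormOdd 1 F) →* Fˣ,
      φ = Matrix.GeneralLinearGroup.det.comp (isometryGroup F (quadFormOdd 1 F)).subtype :=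
    ⟨_, rfl⟩
  have hker : specialIsometryGroup F (quadFormOdd 1 F) = φ.ker := by rw [hφ]; rfl
  have hneg : φ (negIso F) = -1 := by
    rw [hφ]
    apply Units.ext
    show Matrix.det ((-1 : (Matrix (Unit ⊕ (Fin 1 ⊕ Fin 1)) (Unit ⊕ (Fin 1 ⊕ Fin 1)) F)ˣ) :
      Matrix (Unit ⊕ (Fin 1 ⊕ Fin 1)) (Unit ⊕ (Fin 1 ⊕ Fin 1)) F) = ((-1 : Fˣ) : F)
    rw [Units.val_neg, Units.val_one, Matrix.det_neg, card_index3, Matrix.det_one,
      Units.val_neg, Units.val_one]
    ring
  have hne : (-1 : Fˣ) ≠ 1 := by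
    intro h'
    have h'' : (-1 : F) = 1 := by
      have := congrArg Units.val h'
      simpa using this
    have : (1 : F) = 0 := by linear_combination h3 + h''
    exact one_ne_zero this
  have hunits : Nat.card Fˣ = 2 := by
    rw [Nat.card_units, Nat.card_eq_fintype_card, hF]
  have hrange : Nat.card φ.range = 2 := by
    have hdvd : Nat.card φ.range ∣ 2 := by
      rw [← hunits]; exact Subgroup.card_subgroup_dvd_card _
    rcases (Nat.dvd_prime Nat.prime_two).mp hdvd with h1 | h2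
    · exfalso
      have hbot : φ.range = ⊥ := Subgroup.card_eq_one.mp h1
      have hmem : φ (negIso F) ∈ φ.range := ⟨_, rfl⟩
      rw [hbot, Subgroup.mem_bot, hneg] at hmem
      exact hne hmem
    · exact h2
  have hidx : φ.ker.index = 2 := by rw [Subgroup.index_ker, hrange]
  have hmul := Subgroup.card_mul_index φ.ker
  rw [hidx, h48] at hmul
  rw [hker]
  omega

/-- `SO₃(3) ≅ S₄`. -/
theorem so3_iso_s4 (hF : Fintype.card F = 3) :
    Nonempty (↥(specialIsometryGroup F (quadFormOdd 1 F)) ≃* Equiv.Perm (Fin 4)) := by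
  have hcard := card_SO3 hF
  have hfin : Finite (specialIsometryGroup F (quadFormOdd 1 F)) :=
    Nat.finite_of_card_ne_zero (by rw [hcard]; norm_num)
  have hbij := (rhoSO_injective hF).bijective_of_nat_card_le (by
    rw [hcard, Nat.card_eq_fintype_card, Fintype.card_perm, Fintype.card_fin]; decide)
  exact ⟨(MulEquiv.ofBijective (rhoSO hF) hbij).symm⟩

end final

end Cfsg.Agent.Helper5.SO3S4
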