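import Mathlib
import Cfsg.Agent.Helper5.TBBLK
import Cfsg.Agent.Helper43.TBPAR
import Cfsg.Agent.Helper93.TBCYCB

/-!
Sub-CALL TB (helper43) of CALL TS, piece BLKE (double by helper5): the homogeneous block for
`i` even.
-/

set_option autoImplicit false

namespace Cfsg.Agent.Helper5.TB

open Module Polynomial Cfsg Cfsg.Geo Cfsg.Agent.Helper58.TS
open Cfsg.Agent.Helper43 Cfsg.Agent.Helper43.OrthEven Cfsg.Agent.Helper43.CycFactors
  Cfsg.Agent.Helper43.PrimeOrdMat
open scoped MatrixGroups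

universe u

variable {F : Type u} [Field F] [Fintype F]

/-- BLKE [M] (uses BLK, PAR, CYCB): the homogeneous block for `i` even. -/
theorem tb_blk_even (p : ℕ) [Fact p.Prime] [CharP F p] (r : ℕ) [Fact r.Prime] (hr2 : 2 < r)
    (hrp : r ≠ p) (heven : Even (orderOf ((Fintype.card F : ℕ) : ZMod r))) (P : F[X])
    (hP : P ∈ cycJ F r) (n : ℕ) :
    ∃ (V : Type u) (_ : AddCommGroup V) (_ : Module F V) (_ : FiniteDimensional F V)
      (Q : QuadraticForm F V) (T : Module.End F V),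
      PolarNondeg Q ∧ (∀ v, Q (T v) = Q v) ∧ aeval T (cyclotomic r F) = 0 ∧
      T.charpoly = P ^ n ∧
      finrank F V = 2 * (orderOf ((Fintype.card F : ℕ) : ZMod r) / 2 * n) ∧
      (HasTS Q (orderOf ((Fintype.card F : ℕ) : ZMod r) / 2 * n) ↔ Even n) ∧
      ∀ U : Submodule F V, U.map T ≤ U → (∀ u ∈ U, Q u = 0) →
        ∃ s, finrank F U = orderOf ((Fintype.card F : ℕ) : ZMod r) * s ∧ 2 * s + n % 2 ≤ n := by
  classical
  have hr : r.Prime := Fact.out
  have hrF : (r : F) ≠ 0 := natCast_ne_zero_of_ne (p := p) hr hrp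
  have hipos : 0 < orderOf ((Fintype.card F : ℕ) : ZMod r) :=
    orderOf_pos_of_card (p := p) (F := F) rfl hr hrp
  obtain ⟨c, hc⟩ : ∃ c : F[X] → ℕ, ∀ P', c P' = if P' = P then n else 0 :=
    ⟨fun P' => if P' = P then n else 0, fun _ => rfl⟩
  have hsym : ∀ P' ∈ cycJ F r, c (SpReal.star P') = c P' := by
    intro P' hP'
    rw [StarPoly.star_eq_self_of_even (p := p) rfl hr hrp heven hP']
  have hsum : ∑ P' ∈ cycJ F r, c P' = n := by
    rw [Finset.sum_eq_single_of_mem P hP (fun b _ hb => by rw [hc, if_neg hb]), hc, if_pos rfl]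
  have hprod : ∏ P' ∈ cycJ F r, P' ^ c P' = P ^ n := by
    rw [Finset.prod_eq_single_of_mem P hP (fun b _ hb => by rw [hc, if_neg hb, pow_zero]), hc,
      if_pos rfl]
  obtain ⟨V, iA, iM, iF, Q, T, l, hnd, hiso, hcyc, hch, hdim, hdim2, -⟩ :=
    tb_blk p r hr2 hrp c hsym
  have hpar := Cfsg.Agent.Helper43.TB.tb_par p r hr2 hrp heven Q T hnd hiso hcyc c hch l hdim2
  rw [hsum] at hdim hpar
  obtain ⟨j, hj⟩ := heven
  rw [hj] at hdim hipos ⊢
  have hjj : (j + j) / 2 = j := by omega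
  have hl : l = j * n := by
    have h2 : 2 * l = 2 * (j * n) := by
      rw [← hdim2, hdim]
      ring
    omega
  refine ⟨V, iA, iM, iF, Q, T, hnd, hiso, hcyc, by rw [hch, hprod], ?_, ?_, ?_⟩
  · rw [hjj, hdim]
    ring
  · rw [hjj, ← hl]
    exact hpar
  · intro U hUT hU
    obtain ⟨s, hs, hbound⟩ :=
      Cfsg.Agent.Helper93.TB.tb_cyc_bound r hrF Q T hnd hiso hcyc U hUT hU
    rw [hj] at hs
    refine ⟨s, hs, ?_⟩
    rw [hs, hdim] at hbound
    have h2 : 2 * s ≤ n := by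
      by_contra hlt
      push Not at hlt
      have h3 : (j + j) * n < (j + j) * (2 * s) := Nat.mul_lt_mul_of_pos_left hlt hipos
      nlinarith
    omega

end Cfsg.Agent.Helper5.TB
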