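import Mathlib
import Cfsg.Prelude.Def_GeometricClasses
import Cfsg.Prelude.Def_Classical

/-!
# CALL S5981, piece CARDSL (helper5): the order of `SL_n(F)` as the kernel of the determinant
-/

set_option autoImplicit false
open Matrix Polynomial

namespace Cfsg.Agent.Helper5.THCARDSL

variable {F : Type*} [Field F] [Fintype F]

/-- CARDSL -/
theorem card_sl (n : ℕ) (hn : 0 < n) :
    Nat.card (Cfsg.Geo.specialLinear (Fin n) F) * (Fintype.card F - 1) =
      ∏ i : Fin n, (Fintype.card F ^ n - Fintype.card F ^ (i : ℕ)) := by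
  classical
  haveI : Nonempty (Fin n) := ⟨⟨0, hn⟩⟩
  have h2 : (Matrix.GeneralLinearGroup.det : GL (Fin n) F →* Fˣ).ker.index = Fintype.card F - 1 := by
    rw [Subgroup.index_ker, MonoidHom.range_eq_top.2 Matrix.GeneralLinearGroup.det_surjective]
    rw [Subgroup.card_top, Nat.card_eq_fintype_card, Fintype.card_units]
  have h3 : Nat.card (Cfsg.Geo.specialLinear (Fin n) F) * (Fintype.card F - 1) =
      Nat.card (GL (Fin n) F) := by
    rw [← h2]
    exact Subgroup.card_mul_index _
  rw [h3, Matrix.card_GL_field]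

end Cfsg.Agent.Helper5.THCARDSL
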