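import Mathlib
import Cfsg.Prelude.Def_GeometricClasses
import Cfsg.Prelude.Def_Classical

/-!
# CALL S5981, piece CARDT (helper5): transfer of isometry groups and zero sets along a base change
-/

set_option autoImplicit false
open Matrix Polynomial

namespace Cfsg.Agent.Helper5.THCARDT

variable {F : Type*} [Field F] [Fintype F]

omit [Fintype F] in
theorem mem_iso_iff {ι : Type} [Fintype ι] [DecidableEq ι] (Q : (ι → F) → F) (g : GL ι F) :
    g ∈ Cfsg.isometryGroup F Q ↔ ∀ u : ι → F, Q ((g : Matrix ι ι F) *ᵥ u) = Q u :=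
  ⟨fun h u => h u u, fun h u _ => h u⟩

/-- CARDT -/
theorem card_transfer {ι κ : Type} [Fintype ι] [DecidableEq ι] [Fintype κ] [DecidableEq κ]
    (Q : (ι → F) → F) (Q' : (κ → F) → F) (P : GL ι F) (e : ι ≃ κ) (c : F) (hc : c ≠ 0)
    (h : ∀ v : κ → F, Q ((P : Matrix ι ι F) *ᵥ (v ∘ e)) = c * Q' v) :
    Nat.card (Cfsg.isometryGroup F Q) = Nat.card (Cfsg.isometryGroup F Q') ∧
    Nat.card {v : ι → F // Q v = 0} = Nat.card {v : κ → F // Q' v = 0} := by
  -- the base change as an equivalence of vector spaces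
  have hPinvP : ((P⁻¹ : GL ι F) : Matrix ι ι F) * (P : Matrix ι ι F) = 1 := by
    rw [← Units.val_mul, inv_mul_cancel, Units.val_one]
  have hPPinv : (P : Matrix ι ι F) * ((P⁻¹ : GL ι F) : Matrix ι ι F) = 1 := by
    rw [← Units.val_mul, mul_inv_cancel, Units.val_one]
  let T : (κ → F) ≃ (ι → F) :=
    { toFun := fun v => (P : Matrix ι ι F) *ᵥ (v ∘ e)
      invFun := fun u => (((P⁻¹ : GL ι F) : Matrix ι ι F) *ᵥ u) ∘ e.symm
      left_inv := by
        intro v
        show (((P⁻¹ : GL ι F) : Matrix ι ι F) *ᵥ ((P : Matrix ι ι F) *ᵥ (v ∘ e))) ∘ e.symm = v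
        rw [Matrix.mulVec_mulVec, hPinvP, Matrix.one_mulVec]
        funext k
        simp
      right_inv := by
        intro u
        show (P : Matrix ι ι F) *ᵥ (((((P⁻¹ : GL ι F) : Matrix ι ι F) *ᵥ u) ∘ e.symm) ∘ e) = u
        have h1 : ((((P⁻¹ : GL ι F) : Matrix ι ι F) *ᵥ u) ∘ e.symm) ∘ e
            = ((P⁻¹ : GL ι F) : Matrix ι ι F) *ᵥ u := by
          funext k
          simp
        rw [h1, Matrix.mulVec_mulVec, hPPinv, Matrix.one_mulVec] }
  have hT : ∀ v, T v = (P : Matrix ι ι F) *ᵥ (v ∘ e) := fun v => rfl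
  have hQT : ∀ v, Q (T v) = c * Q' v := fun v => h v
  -- the group isomorphism
  let R : GL κ F ≃* GL ι F := Units.mapEquiv (Matrix.reindexAlgEquiv F F e.symm).toMulEquiv
  let φ : GL κ F ≃* GL ι F := R.trans (MulAut.conj P)
  have hRval : ∀ g' : GL κ F, ((R g' : GL ι F) : Matrix ι ι F) = (g' : Matrix κ κ F).submatrix e e := by
    intro g'
    rfl
  have hφval : ∀ g' : GL κ F, ((φ g' : GL ι F) : Matrix ι ι F) =
      (P : Matrix ι ι F) * (g' : Matrix κ κ F).submatrix e e * ((P⁻¹ : GL ι F) : Matrix ι ι F) := by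
    intro g'
    show ((P * R g' * P⁻¹ : GL ι F) : Matrix ι ι F) = _
    rw [Units.val_mul, Units.val_mul, hRval]
  have hφT : ∀ (g' : GL κ F) (v : κ → F),
      ((φ g' : GL ι F) : Matrix ι ι F) *ᵥ (T v) = T ((g' : Matrix κ κ F) *ᵥ v) := by
    intro g' v
    rw [hφval, hT, hT, ← Matrix.mulVec_mulVec, ← Matrix.mulVec_mulVec, Matrix.mulVec_mulVec _
      ((P⁻¹ : GL ι F) : Matrix ι ι F) (P : Matrix ι ι F), hPinvP, Matrix.one_mulVec]
    congr 1
    rw [Matrix.submatrix_mulVec_equiv]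
    congr 1
    congr 1
    funext k
    simp
  have hiff : ∀ g' : GL κ F, g' ∈ Cfsg.isometryGroup F Q' ↔ φ g' ∈ Cfsg.isometryGroup F Q := by
    intro g'
    rw [mem_iso_iff, mem_iso_iff]
    constructor
    · intro hg u
      obtain ⟨v, rfl⟩ := T.surjective u
      rw [hφT, hQT, hQT, hg]
    · intro hg v
      have h1 := hg (T v)
      rw [hφT, hQT, hQT] at h1
      exact mul_left_cancel₀ hc h1
  constructor
  · exact (Nat.card_congr (Equiv.subtypeEquiv φ.toEquiv hiff)).symm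
  · refine (Nat.card_congr (Equiv.subtypeEquiv T ?_)).symm
    intro v
    rw [hQT]
    constructor
    · intro h0; rw [h0, mul_zero]
    · intro h0
      rcases mul_eq_zero.mp h0 with h1 | h1
      · exact absurd h1 hc
      · exact h1

end Cfsg.Agent.Helper5.THCARDT
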