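import Mathlib
import Cfsg.Prelude.Def_GeometricClasses
import Cfsg.Prelude.Def_Classical

/-!
# CALL S5981, piece DIVO (helper5): `r · |O(Q)|` divides `2 · |SL_n|` when `r` divides the
index of the similarity group in `SL_n`
-/

set_option autoImplicit false
open Matrix Polynomial

namespace Cfsg.Agent.Helper5.THDIVO

variable {F : Type*} [Field F] [Fintype F]

omit [Fintype F] in
theorem mem_iso_iff {ι : Type} [Fintype ι] [DecidableEq ι] (Q : (ι → F) → F) (g : GL ι F) :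
    g ∈ Cfsg.isometryGroup F Q ↔ ∀ u : ι → F, Q ((g : Matrix ι ι F) *ᵥ u) = Q u :=
  ⟨fun h u => h u u, fun h u _ => h u⟩

omit [Fintype F] in
/-- The determinant of an isometry of a nondegenerate quadratic form squares to one. -/
theorem det_sq_of_iso {n : ℕ} (Q : (Fin n → F) → F)
    (hQ : Cfsg.Geo.IsNondegenerateQuadraticForm Q) (g : GL (Fin n) F)
    (hg : g ∈ Cfsg.isometryGroup F Q) : (g : Matrix (Fin n) (Fin n) F).det ^ 2 = 1 := by
  rw [mem_iso_iff] at hg
  obtain ⟨Bl, hBl⟩ : ∃ Bl : (Fin n → F) →ₗ[F] (Fin n → F) →ₗ[F] F,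
      ∀ u v, Bl u v = QuadraticMap.polar Q u v :=
    ⟨LinearMap.mk₂ F (QuadraticMap.polar Q) hQ.polar_bilinear.add_left
      hQ.polar_bilinear.smul_left hQ.polar_bilinear.add_right hQ.polar_bilinear.smul_right,
      fun u v => rfl⟩
  obtain ⟨G, hG⟩ : ∃ G : Matrix (Fin n) (Fin n) F, G = LinearMap.toMatrix₂' F Bl := ⟨_, rfl⟩
  have hB : ∀ u v : Fin n → F, QuadraticMap.polar Q u v = u ⬝ᵥ (G *ᵥ v) := by
    intro u v
    rw [← hBl, hG, ← Matrix.toLinearMap₂'_apply', Matrix.toLinearMap₂'_toMatrix']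
  have hdet : G.det ≠ 0 := by
    intro h0
    obtain ⟨v, hv, hGv⟩ := Matrix.exists_mulVec_eq_zero_iff.mpr h0
    obtain ⟨x, hx⟩ := (hQ.nondegenerate v hv).1
    apply hx
    rw [hB, hGv, dotProduct_zero]
  have hpol : ∀ u v : Fin n → F, QuadraticMap.polar Q ((g : Matrix (Fin n) (Fin n) F) *ᵥ u)
      ((g : Matrix (Fin n) (Fin n) F) *ᵥ v) = QuadraticMap.polar Q u v := by
    intro u v
    unfold QuadraticMap.polar
    rw [← Matrix.mulVec_add, hg, hg, hg]
  have hmat : (g : Matrix (Fin n) (Fin n) F)ᵀ * G * (g : Matrix (Fin n) (Fin n) F) = G := by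
    have key : ∀ u v : Fin n → F,
        u ⬝ᵥ (((g : Matrix (Fin n) (Fin n) F)ᵀ * G * (g : Matrix (Fin n) (Fin n) F)) *ᵥ v) =
          u ⬝ᵥ (G *ᵥ v) := by
      intro u v
      rw [← Matrix.mulVec_mulVec, ← Matrix.mulVec_mulVec, Matrix.dotProduct_mulVec,
        Matrix.vecMul_transpose, ← hB, ← hB, hpol]
    ext i j
    have h := key (Pi.single i 1) (Pi.single j 1)
    simpa using h
  have h1 := congrArg Matrix.det hmat
  rw [Matrix.det_mul, Matrix.det_mul, Matrix.det_transpose] at h1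
  have h2 : ((g : Matrix (Fin n) (Fin n) F).det ^ 2 - 1) * G.det = 0 := by
    linear_combination h1
  rcases mul_eq_zero.mp h2 with h3 | h3
  · linear_combination h3
  · exact absurd h3 hdet

/-- DIVO -/
theorem dvd_of_relIndex (h2 : (2 : F) ≠ 0) {n : ℕ} (Q : (Fin n → F) → F)
    (hQ : Cfsg.Geo.IsNondegenerateQuadraticForm Q) (r : ℕ)
    (hr : r ∣ (Cfsg.Geo.quadSimilarityGroup Q).relIndex (Cfsg.Geo.specialLinear (Fin n) F)) :
    r * Nat.card (Cfsg.isometryGroup F Q) ∣ 2 * Nat.card (Cfsg.Geo.specialLinear (Fin n) F) := by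
  obtain ⟨Sim, hSim⟩ : ∃ S : Subgroup (GL (Fin n) F), S = Cfsg.Geo.quadSimilarityGroup Q := ⟨_, rfl⟩
  obtain ⟨Iso, hIso⟩ : ∃ S : Subgroup (GL (Fin n) F), S = Cfsg.isometryGroup F Q := ⟨_, rfl⟩
  obtain ⟨SL, hSL⟩ : ∃ S : Subgroup (GL (Fin n) F),
      S = (Matrix.GeneralLinearGroup.det : GL (Fin n) F →* Fˣ).ker := ⟨_, rfl⟩
  have hSL' : Cfsg.Geo.specialLinear (Fin n) F = SL := by rw [hSL]; rfl
  rw [hSL', ← hSim] at hr
  rw [hSL', ← hIso]
  -- (i) |Sim ⊓ SL| * [SL : Sim ⊓ SL] = |SL|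
  have e1 : Nat.card (Sim ⊓ SL : Subgroup (GL (Fin n) F)) * Sim.relIndex SL = Nat.card SL := by
    have h := Subgroup.relIndex_inf_mul_relIndex (⊥ : Subgroup (GL (Fin n) F)) Sim SL
    rw [Subgroup.relIndex_bot_left, bot_inf_eq, Subgroup.relIndex_bot_left] at h
    exact h
  -- (ii) |SL ⊓ Iso| * [Iso : SL ⊓ Iso] = |Iso|
  have e2 : Nat.card (SL ⊓ Iso : Subgroup (GL (Fin n) F)) * SL.relIndex Iso = Nat.card Iso := by
    have h := Subgroup.relIndex_inf_mul_relIndex (⊥ : Subgroup (GL (Fin n) F)) SL Iso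
    rw [Subgroup.relIndex_bot_left, bot_inf_eq, Subgroup.relIndex_bot_left] at h
    exact h
  -- (iii) [Iso : SL ⊓ Iso] divides 2
  have e3 : SL.relIndex Iso ∣ 2 := by
    rw [hSL, Subgroup.relIndex_ker]
    have hle : Iso.map (Matrix.GeneralLinearGroup.det : GL (Fin n) F →* Fˣ) ≤
        Subgroup.zpowers (-1 : Fˣ) := by
      rintro x ⟨g, hg, rfl⟩
      have hg' : g ∈ Cfsg.isometryGroup F Q := by rw [← hIso]; exact hg
      have hsq := det_sq_of_iso Q hQ g hg'
      have hx : ((Matrix.GeneralLinearGroup.det g : Fˣ) : F) = (g : Matrix (Fin n) (Fin n) F).det :=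
        rfl
      have h3 : ((g : Matrix (Fin n) (Fin n) F).det - 1) * ((g : Matrix (Fin n) (Fin n) F).det + 1)
          = 0 := by linear_combination hsq
      rcases mul_eq_zero.mp h3 with h4 | h4
      · have h5 : Matrix.GeneralLinearGroup.det g = 1 := by
          apply Units.ext; rw [hx, Units.val_one]; linear_combination h4
        rw [h5]; exact Subgroup.one_mem _
      · have h5 : Matrix.GeneralLinearGroup.det g = -1 := by
          apply Units.ext; rw [hx, Units.val_neg, Units.val_one]; linear_combination h4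
        rw [h5]; exact Subgroup.mem_zpowers _
    have h6 : Nat.card (Subgroup.zpowers (-1 : Fˣ)) ∣ 2 := by
      rw [Nat.card_zpowers]
      exact orderOf_dvd_of_pow_eq_one (by simp)
    exact (Subgroup.card_dvd_of_le hle).trans h6
  -- (iv) SL ⊓ Iso ≤ Sim ⊓ SL
  have e4 : Nat.card (SL ⊓ Iso : Subgroup (GL (Fin n) F)) ∣
      Nat.card (Sim ⊓ SL : Subgroup (GL (Fin n) F)) := by
    apply Subgroup.card_dvd_of_le
    rintro g ⟨hg1, hg2⟩
    refine ⟨?_, hg1⟩
    have hg2' : g ∈ Cfsg.isometryGroup F Q := by rw [← hIso]; exact hg2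
    rw [mem_iso_iff] at hg2'
    show g ∈ Sim
    rw [hSim]
    exact ⟨1, fun v => by rw [hg2' v, Units.val_one, one_mul]⟩
  rw [← e1, ← e2]
  have h := Nat.mul_dvd_mul (Nat.mul_dvd_mul e4 hr) e3
  have l1 : r * (Nat.card (SL ⊓ Iso : Subgroup (GL (Fin n) F)) * SL.relIndex Iso) =
      Nat.card (SL ⊓ Iso : Subgroup (GL (Fin n) F)) * r * SL.relIndex Iso := by ring
  have l2 : 2 * (Nat.card (Sim ⊓ SL : Subgroup (GL (Fin n) F)) * Sim.relIndex SL) =
      Nat.card (Sim ⊓ SL : Subgroup (GL (Fin n) F)) * Sim.relIndex SL * 2 := by ring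
  rw [l1, l2]
  exact h

end Cfsg.Agent.Helper5.THDIVO
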