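import Mathlib
import Cfsg.Prelude.Def_GeometricClasses
import Cfsg.Prelude.Def_Classical
import Cfsg.Agent.Helper43.SingCount

/-!
# CALL S5981, piece FINM (helper5): the number of singular vectors of the minus form is not
`1` modulo `r` when `r ∣ q^m - 1`, `r` odd, `r ∤ q - 1`
-/

set_option autoImplicit false
open Matrix Polynomial

namespace Cfsg.Agent.Helper5.THFINM

variable {F : Type*} [Field F] [Fintype F]

/-- FINM -/
theorem fin_minus (m r : ℕ) (hm : 1 ≤ m) (hr : r.Prime) (hr2 : r ≠ 2)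
    (hrq : ¬ r ∣ Fintype.card F - 1) (a b : F)
    (hab : ∀ x y : F, x ^ 2 + a * x * y + b * y ^ 2 = 0 → x = 0 ∧ y = 0)
    (hd : r ∣ Fintype.card F ^ m - 1)
    (hmod : Nat.card {v : (Fin (m - 1) ⊕ Fin (m - 1)) ⊕ Fin 2 → F //
      Cfsg.quadFormMinus (m - 1) F a b v = 0} ≡ 1 [MOD r]) : False := by
  haveI : Fact r.Prime := ⟨hr⟩
  have hq1 : 1 ≤ Fintype.card F := Fintype.card_pos
  have hqm : 1 ≤ Fintype.card F ^ m := Nat.one_le_pow _ _ hq1
  have hqn : 1 ≤ Fintype.card F ^ (m - 1) := Nat.one_le_pow _ _ hq1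
  have hcount := Cfsg.Agent.Helper43.SingCount.card_sing_minus (F := F) (m - 1) a b hab
  rw [Nat.card_eq_fintype_card (α := F)] at hcount
  obtain ⟨n, hn⟩ : ∃ n : ℕ, n = m - 1 := ⟨_, rfl⟩
  have hmn : m = n + 1 := by omega
  rw [← hn] at hcount hmod hqn
  obtain ⟨x, hx⟩ : ∃ x : ZMod r, x = ((Fintype.card F : ℕ) : ZMod r) := ⟨_, rfl⟩
  have hxm : x ^ (n + 1) = 1 := by
    have h1 : ((Fintype.card F ^ m - 1 : ℕ) : ZMod r) = 0 := (ZMod.natCast_eq_zero_iff _ _).mpr hd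
    rw [Nat.cast_sub hqm, Nat.cast_pow, Nat.cast_one, ← hx, hmn] at h1
    linear_combination h1
  have hZ : ((Nat.card {v : (Fin n ⊕ Fin n) ⊕ Fin 2 → F //
      Cfsg.quadFormMinus n F a b v = 0} : ℕ) : ZMod r) = 1 := by
    have h1 := (ZMod.natCast_eq_natCast_iff _ _ r).mpr hmod
    rw [h1, Nat.cast_one]
  have hc := congrArg (fun k : ℕ => (k : ZMod r)) hcount
  beta_reduce at hc
  rw [Nat.cast_mul, hZ, Nat.cast_add, Nat.cast_mul, Nat.cast_mul, Nat.cast_sub hqn, Nat.cast_pow,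
    Nat.cast_pow, Nat.cast_pow, Nat.cast_one, ← hx, hxm] at hc
  -- hc : x * 1 = 1 + x ^ 2 * (x ^ n - 1) * x ^ n
  have h2 : (2 : ZMod r) * (x - 1) = 0 := by
    have e1 : x ^ 2 * (x ^ n - 1) * x ^ n = x * x ^ (n + 1) * x ^ n - x * x ^ (n + 1) := by ring
    rw [e1, hxm] at hc
    have e2 : x * 1 * x ^ n = x ^ (n + 1) := by ring
    rw [e2, hxm] at hc
    linear_combination hc
  have h2ne : (2 : ZMod r) ≠ 0 := by
    intro h
    have h3 : ((2 : ℕ) : ZMod r) = 0 := by rw [Nat.cast_ofNat]; exact h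
    have h4 := (ZMod.natCast_eq_zero_iff _ _).mp h3
    exact hr2 ((Nat.prime_dvd_prime_iff_eq hr Nat.prime_two).mp h4)
  rcases mul_eq_zero.mp h2 with h3 | h3
  · exact h2ne h3
  · apply hrq
    apply (ZMod.natCast_eq_zero_iff _ _).mp
    rw [Nat.cast_sub hq1, Nat.cast_one, ← hx]
    exact h3

end Cfsg.Agent.Helper5.THFINM
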