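import Mathlib
import Cfsg.Prelude.Def_GeometricClasses
import Cfsg.Prelude.Def_Classical
import Cfsg.Agent.Helper43.SingCount

/-!
# CALL S5981, piece FINP (helper5): the number of singular vectors of the plus form is not
`1` modulo `r` when `r ∣ q^m + 1`, `r` odd, `r ∤ q - 1`
-/

set_option autoImplicit false
open Matrix Polynomial

namespace Cfsg.Agent.Helper5.THFINP

variable {F : Type*} [Field F] [Fintype F]

/-- FINP -/
theorem fin_plus (m r : ℕ) (hm : 1 ≤ m) (hr : r.Prime) (hr2 : r ≠ 2)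
    (hrq : ¬ r ∣ Fintype.card F - 1) (hd : r ∣ Fintype.card F ^ m + 1)
    (hmod : Nat.card {v : Fin m ⊕ Fin m → F // Cfsg.quadFormPlus m F v = 0} ≡ 1 [MOD r]) : False := by
  haveI : Fact r.Prime := ⟨hr⟩
  have hq1 : 1 ≤ Fintype.card F := Fintype.card_pos
  have hqm : 1 ≤ Fintype.card F ^ m := Nat.one_le_pow _ _ hq1
  have hcount := Cfsg.Agent.Helper43.SingCount.card_sing_plus (F := F) m
  rw [Nat.card_eq_fintype_card (α := F)] at hcount
  obtain ⟨x, hx⟩ : ∃ x : ZMod r, x = ((Fintype.card F : ℕ) : ZMod r) := ⟨_, rfl⟩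
  have hxm : x ^ m = -1 := by
    have h1 : ((Fintype.card F ^ m + 1 : ℕ) : ZMod r) = 0 := (ZMod.natCast_eq_zero_iff _ _).mpr hd
    push_cast at h1
    rw [← hx] at h1
    linear_combination h1
  have hZ : ((Nat.card {v : Fin m ⊕ Fin m → F // Cfsg.quadFormPlus m F v = 0} : ℕ) : ZMod r) = 1 := by
    have h1 := (ZMod.natCast_eq_natCast_iff _ _ r).mpr hmod
    rw [h1, Nat.cast_one]
  have hc := congrArg (fun k : ℕ => (k : ZMod r)) hcount
  beta_reduce at hc
  rw [Nat.cast_mul, hZ, Nat.cast_add, Nat.cast_mul, Nat.cast_sub hqm, Nat.cast_pow, Nat.cast_pow,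
    Nat.cast_one, ← hx, pow_succ, hxm] at hc
  -- hc : x * 1 = -1 * x + (-1 - 1) * -1
  have h2 : (2 : ZMod r) * (x - 1) = 0 := by linear_combination hc
  have h2ne : (2 : ZMod r) ≠ 0 := by
    intro h
    have h3 : ((2 : ℕ) : ZMod r) = 0 := by rw [Nat.cast_ofNat]; exact h
    have h4 := (ZMod.natCast_eq_zero_iff _ _).mp h3
    exact hr2 ((Nat.prime_dvd_prime_iff_eq hr Nat.prime_two).mp h4)
  rcases mul_eq_zero.mp h2 with h3 | h3
  · exact h2ne h3
  · apply hrq
    apply (ZMod.natCast_eq_zero_iff _ _).mp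
    rw [Nat.cast_sub hq1, Nat.cast_one, ← hx]
    exact h3

end Cfsg.Agent.Helper5.THFINP
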